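import Cfsg.Agent.GeoClasses.UnitParabolic

/-!
Stabilisers of non-degenerate subspaces are maximal in `SU_n(q)`.
-/

set_option autoImplicit false

namespace Cfsg.Agent.GeoClasses

open Matrix Cfsg.Geo Cfsg.Agent.Classical.U Cfsg.Agent.ClassicalMax Module
open scoped MatrixGroups Matrix

universe u

variable {F : Type u} [Field F] {n q : ℕ} (hF : SqField F q)
include hF

/-- Two non-orthogonal centres give the whole of `SU`. -/
lemma SUG_le_of_uniCentre_pair (hn : 4 ≤ n) {M : Subgroup (UG n F q)} {e y : Fin n → F}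
    (he : e ∈ uniCentres hF M) (hy : y ∈ uniCentres hF M) (hey : herm q e y ≠ 0) :
    SUG n F q ≤ M := by
  have hall : ∀ u, herm q u u = 0 → u ∈ uniCentres hF M := by
    intro u hu
    rcases eq_or_ne u 0 with rfl | hu0
    · simpa using smul_mem_uniCentres hF he 0
    by_cases huy : herm q u y = 0
    · have hy0 : y ≠ 0 := fun h => hey (by rw [h, hF.herm_zero_right])
      have hyu : herm q y u = 0 := by rw [← hF.herm_symm, huy, zero_pow hF.q_ne_zero]
      obtain ⟨z, hz, h1, h2⟩ := exists_isotropic_not_orth hF hy0 hy.1 hu0 hyu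
      have hzy : herm q z y ≠ 0 := by rw [← hF.herm_symm]; exact pow_ne_zero _ h1
      have hzX := mem_uniCentres_of_pair hF he hy hey hz hzy
      exact mem_uniCentres_of_pair hF hy hzX h1 hu h2
    · exact mem_uniCentres_of_pair hF he hy hey hu huy
  rw [SUG_eq_TG hF (by omega) (by omega), TG, Subgroup.closure_le]
  rintro g ⟨e, a, hea, hg⟩
  rw [mem_TG_generator hF hea hg, trv]
  exact (hall e hea.1).2 _ _ _

/-- Every subspace of dimension at least two has a non-zero isotropic vector. -/
lemma exists_isotropic_mem {S : Submodule F (Fin n → F)} (hS : 2 ≤ finrank F S) :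
    ∃ e ∈ S, e ≠ 0 ∧ herm q e e = 0 := by
  by_contra hcon
  push Not at hcon
  obtain ⟨v, hv, hv0⟩ := S.exists_mem_ne_zero_of_ne_bot
    (fun h => by rw [h, finrank_bot] at hS; omega)
  obtain ⟨w, hw, hwv⟩ : ∃ w ∈ S, w ∉ F ∙ v := by
    by_contra h
    push Not at h
    have := (Submodule.finrank_mono (show S ≤ F ∙ v from h)).trans (finrank_span_singleton hv0).le
    omega
  have ha := hcon v hv hv0
  set w' := w - (herm q w v / herm q v v) • v with hw'
  have hw'0 : w' ≠ 0 := fun h => hwv (Submodule.mem_span_singleton.2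
    ⟨_, (sub_eq_zero.1 h).symm⟩)
  have hw'S : w' ∈ S := S.sub_mem hw (S.smul_mem _ hv)
  have hb := hcon w' hw'S hw'0
  have hw'v : herm q w' v = 0 := by
    rw [hw', herm_sub_left, herm_smul_left, div_mul_cancel₀ _ ha, sub_self]
  have hvw' : herm q v w' = 0 := by rw [← hF.herm_symm, hw'v, zero_pow hF.q_ne_zero]
  have haq : herm q v v ^ q = herm q v v := hF.herm_symm v v
  have hbq : herm q w' w' ^ q = herm q w' w' := hF.herm_symm w' w'
  obtain ⟨l, hl⟩ := hF.exists_norm (c := -herm q v v / herm q w' w')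
    (by rw [div_pow, hF.neg_pow, haq, hbq])
  rw [pow_succ'] at hl
  have hne : v + l • w' ≠ 0 := by
    intro h
    have := congrArg (fun z => herm q z v) h
    simp only [herm_add_left, herm_smul_left, hw'v, mul_zero, add_zero, herm_zero_left] at this
    exact ha this
  refine hcon _ (S.add_mem hv (S.smul_mem _ hw'S)) hne ?_
  rw [herm_add_left, hF.herm_add_right, hF.herm_add_right, herm_smul_left, herm_smul_left,
    herm_smul_right, herm_smul_right, hvw', hw'v, ← mul_assoc, hl, div_mul_cancel₀ _ hb]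
  ring

/-- An isotropic vector of a non-degenerate subspace has a partner in it. -/
lemma exists_pair_mem {S : Submodule F (Fin n → F)} {e : Fin n → F} (heS : e ∈ S)
    (he : herm q e e = 0) (hnd : ∃ y ∈ S, herm q y e ≠ 0) :
    ∃ f ∈ S, IsUPair q e f := by
  obtain ⟨y, hy, hye⟩ := hnd
  have h1 : herm q e y ≠ 0 := by rw [← hF.herm_symm]; exact pow_ne_zero _ hye
  obtain ⟨y₁, hy₁⟩ : ∃ z, z = (herm q y e)⁻¹ • y := ⟨_, rfl⟩
  have hy1e : herm q y₁ e = 1 := by rw [hy₁, herm_smul_left, inv_mul_cancel₀ hye]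
  have hey1 : herm q e y₁ = 1 := by rw [← hF.herm_symm, hy1e, one_pow]
  obtain ⟨t, ht⟩ := hF.exists_trace (c := -herm q y₁ y₁) (by rw [hF.neg_pow, hF.herm_symm])
  refine ⟨y₁ + t • e, S.add_mem (hy₁ ▸ S.smul_mem _ hy) (S.smul_mem _ heS), he, ?_, ?_⟩
  · rw [herm_add_left, hF.herm_add_right, hF.herm_add_right, herm_smul_left, herm_smul_left,
      herm_smul_right, herm_smul_right, he, hy1e, hey1]
    linear_combination ht
  · rw [hF.herm_add_right, herm_smul_right, he, hey1, mul_zero, add_zero]

/-- The isotropic vectors not orthogonal to a member of a pair span. -/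
lemma le_span_isotropic {S : Submodule F (Fin n → F)} {e f : Fin n → F} (heS : e ∈ S)
    (hfS : f ∈ S) (hp : IsUPair q e f) :
    S ≤ Submodule.span F {z | z ∈ S ∧ herm q z z = 0 ∧ herm q z e ≠ 0} := by
  set N := Submodule.span F {z | z ∈ S ∧ herm q z z = 0 ∧ herm q z e ≠ 0}
  obtain ⟨he, hf, hef⟩ := hp
  have hfe : herm q f e = 1 := by rw [← hF.herm_symm, hef, one_pow]
  have hfN : f ∈ N := Submodule.subset_span ⟨hfS, hf, by rw [hfe]; exact one_ne_zero⟩
  obtain ⟨δ, hδ0, hδ⟩ := hF.exists_skew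
  have heN : e ∈ N := by
    have h1 : f + δ • e ∈ N := Submodule.subset_span ⟨S.add_mem hfS (S.smul_mem _ heS), by
      rw [herm_add_left, hF.herm_add_right, hF.herm_add_right, herm_smul_left, herm_smul_left,
        herm_smul_right, herm_smul_right, he, hf, hef, hfe, hδ]
      ring, by
      rw [herm_add_left, herm_smul_left, he, hfe, mul_zero, add_zero]; exact one_ne_zero⟩
    have := N.smul_mem δ⁻¹ (N.sub_mem h1 hfN)
    rwa [add_sub_cancel_left, inv_smul_smul₀ hδ0] at this
  intro s hs
  set z := s - herm q s f • e - herm q s e • f with hz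
  have hzS : z ∈ S := S.sub_mem (S.sub_mem hs (S.smul_mem _ heS)) (S.smul_mem _ hfS)
  have hze : herm q z e = 0 := by
    rw [hz, herm_sub_left, herm_sub_left, herm_smul_left, herm_smul_left, he, hfe]; ring
  have hzf : herm q z f = 0 := by
    rw [hz, herm_sub_left, herm_sub_left, herm_smul_left, herm_smul_left, hf, hef]; ring
  have hez : herm q e z = 0 := by rw [← hF.herm_symm, hze, zero_pow hF.q_ne_zero]
  have hfz : herm q f z = 0 := by rw [← hF.herm_symm, hzf, zero_pow hF.q_ne_zero]
  obtain ⟨t, ht⟩ := hF.exists_trace (c := -herm q z z) (by rw [hF.neg_pow, hF.herm_symm])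
  have hmem : z + f + t • e ∈ N :=
    Submodule.subset_span ⟨S.add_mem (S.add_mem hzS hfS) (S.smul_mem _ heS), by
      rw [herm_add_left, herm_add_left, hF.herm_add_right, hF.herm_add_right, hF.herm_add_right,
        hF.herm_add_right, hF.herm_add_right, hF.herm_add_right, herm_smul_left, herm_smul_left,
        herm_smul_left, herm_smul_right, herm_smul_right, herm_smul_right, he, hf, hef, hfe, hze,
        hzf, hez, hfz]
      linear_combination ht, by
      rw [herm_add_left, herm_add_left, herm_smul_left, he, hze, hfe, mul_zero, add_zero,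
        zero_add]
      exact one_ne_zero⟩
  have hzN : z ∈ N := by
    have := N.sub_mem (N.sub_mem hmem (N.smul_mem t heN)) hfN
    simpa using this
  have := N.add_mem (N.add_mem hzN (N.smul_mem (herm q s f) heN)) (N.smul_mem (herm q s e) hfN)
  convert this using 1
  rw [hz]; abel

/-- Stabilisers of small non-degenerate subspaces are maximal in the special unitary group;
the lines are allowed from dimension four on. -/
theorem suGL_nondeg_maximal_four (hn : 4 ≤ n) {W : Submodule F (Fin n → F)} (hW0 : W ≠ ⊥)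
    (hW : IsNondegenerateOn (Cfsg.hermForm n F q) W) (hdim : 2 * finrank F W < n) :
    IsMaximalIn (suGL n F q) (subspaceStabilizer W ⊓ suGL n F q) := by
  have hsymm0 : ∀ {a b : Fin n → F}, herm q a b = 0 → herm q b a = 0 := fun {a b} h => by
    rw [← hF.herm_symm, h, zero_pow hF.q_ne_zero]
  have hW1 : W ≠ ⊤ := by
    rintro rfl
    rw [finrank_top, finrank_pi, Fintype.card_fin] at hdim
    omega
  refine ⟨lt_of_le_not_ge inf_le_right fun hle =>
    suGL_not_le_stabilizer hF (by omega) hW0 hW1 (hle.trans inf_le_left), fun M hM hMK => ?_⟩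
  by_cases hMW : M ≤ subspaceStabilizer W
  · exact Or.inl (le_antisymm (le_inf hMW hMK) hM)
  refine Or.inr (le_antisymm hMK ?_)
  set M' := M.comap (ugToGL n F q) with hM'
  suffices hS : SUG n F q ≤ M' by
    intro g hg
    obtain ⟨k, hk, rfl⟩ := exists_ugToGL_eq hg
    exact hS hk
  have hmemP : ∀ {p : UG n F q}, p ∈ SUG n F q → (∀ w ∈ W, p.1 w ∈ W) → p ∈ M' :=
    fun hp hw => hM ⟨mem_subspaceStabilizer_of_le fun w hwW => by
      rw [ugToGL_mulVec]; exact hw w hwW, ugToGL_mem_suGL hp⟩
  -- the orthogonal complement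
  set b := finBasis F W
  let ψ : (Fin n → F) →ₗ[F] (Fin (finrank F W) → F) :=
    LinearMap.pi fun i => hermDual q ((b i : W) : Fin n → F)
  have hψa : ∀ v i, ψ v i = herm q v ((b i : W) : Fin n → F) := fun v i => rfl
  set U := LinearMap.ker ψ with hUdef
  have hU : ∀ v, v ∈ U ↔ ∀ w ∈ W, herm q v w = 0 := by
    intro v
    rw [hUdef, LinearMap.mem_ker]
    constructor
    · intro h w hw
      have hspan := b.sum_repr ⟨w, hw⟩
      have e : w = ∑ i, b.repr ⟨w, hw⟩ i • ((b i : W) : Fin n → F) := by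
        have h2 := congrArg W.subtype hspan
        rw [map_sum] at h2
        simpa only [map_smul, Submodule.subtype_apply] using h2.symm
      rw [e]
      refine Finset.sum_induction _ (fun z => herm q v z = 0)
        (fun a c ha hc => by rw [hF.herm_add_right, ha, hc, add_zero]) (hF.herm_zero_right v)
        fun i _ => ?_
      rw [herm_smul_right, ← hψa, h, Pi.zero_apply, mul_zero]
    · intro h
      funext i
      rw [hψa, Pi.zero_apply]
      exact h _ (b i).2
  have hdisj : ∀ z, z ∈ W → z ∈ U → z = 0 := fun z hz hzU => by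
    by_contra h
    obtain ⟨-, x, hx, hzx⟩ := hW z hz h
    exact hzx ((hU z).1 hzU x hx)
  have hsplit : ∀ z, ∃ x ∈ W, ∃ u ∈ U, x + u = z := by
    intro z
    have hinj : Function.Injective (ψ ∘ₗ W.subtype) := by
      rw [← LinearMap.ker_eq_bot, LinearMap.ker_eq_bot']
      intro w hw
      exact Subtype.ext (hdisj _ w.2 hw)
    have hsurj : Function.Surjective (ψ ∘ₗ W.subtype) :=
      (LinearMap.injective_iff_surjective_of_finrank_eq_finrank (by
        rw [finrank_pi, Fintype.card_fin])).1 hinj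
    obtain ⟨x, hx⟩ := hsurj (ψ z)
    exact ⟨x, x.2, z - x, by
      rw [hUdef, LinearMap.mem_ker, map_sub, ← hx]; simp, add_sub_cancel _ _⟩
  have hWU : ∀ {w v}, w ∈ W → v ∈ U → herm q w v = 0 := fun hw hv =>
    hsymm0 ((hU _).1 hv _ hw)
  have hUW : ∀ {w v}, w ∈ W → v ∈ U → herm q v w = 0 := fun hw hv => (hU _).1 hv _ hw
  have hdimU : n ≤ finrank F U + finrank F W := by
    have := LinearMap.finrank_range_add_finrank_ker ψ
    have h2 := (LinearMap.range ψ).finrank_le
    rw [finrank_pi, Fintype.card_fin] at this h2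
    rw [hUdef]
    omega
  have hUnd : ∀ v ∈ U, v ≠ 0 → ∃ y ∈ U, herm q y v ≠ 0 := by
    intro v hv hv0
    by_contra hcon
    push Not at hcon
    refine hv0 (hF.eq_zero_of_herm v fun z => ?_)
    obtain ⟨x, hx, u, hu, rfl⟩ := hsplit z
    rw [hF.herm_add_right, hUW hx hv, hsymm0 (hcon u hu), add_zero]
  have hWnd : ∀ v ∈ W, v ≠ 0 → ∃ y ∈ W, herm q y v ≠ 0 := fun v hv hv0 => (hW v hv hv0).1
  have hstabU : ∀ {k : UG n F q}, (∀ v ∈ U, k.1 v ∈ U) → ∀ w ∈ W, k.1 w ∈ W := by
    intro k hk w hw
    have hsurjU : ∀ v ∈ U, ∃ v' ∈ U, k.1 v' = v := by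
      intro v hv
      have hmap : U.map k.1.toLinearMap = U := Submodule.eq_of_le_of_finrank_eq
        (by rintro _ ⟨a, ha, rfl⟩; exact hk a ha) (LinearEquiv.finrank_map_eq k.1 U)
      rw [← hmap] at hv
      exact hv
    obtain ⟨x, hx, u, hu, hxu⟩ := hsplit (k.1 w)
    suffices u = 0 by rw [← hxu, this, add_zero]; exact hx
    by_contra hu0
    obtain ⟨y, hy, hyu⟩ := hUnd u hu hu0
    obtain ⟨y', hy', rfl⟩ := hsurjU y hy
    apply hyu
    have := UG_app k y' w
    rw [← hxu, hF.herm_add_right, hUW hx (hk y' hy'), zero_add, hUW hw hy'] at this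
    exact this
  -- an element of `M` moving `W`
  obtain ⟨g0, hg0M, hg0W⟩ := SetLike.not_le_iff_exists.1 hMW
  obtain ⟨g, -, rfl⟩ := exists_ugToGL_eq (hMK hg0M)
  obtain ⟨δ, hδ0, hδ⟩ := hF.exists_skew
  have htrvU : ∀ {e : Fin n → F} (he : TrvCond q e δ), e ∈ U → trv hF he ∈ M' :=
    fun {e} he heU => hmemP (det_uni hF _) fun w hw => by
      rw [trv_apply, hWU hw heU, mul_zero, zero_smul, add_zero]; exact hw
  obtain ⟨e₀, he₀U, he₀0, he₀⟩ := exists_isotropic_mem hF (S := U) (by omega)
  obtain ⟨f₀, hf₀U, hp₀⟩ := exists_pair_mem hF he₀U he₀ (hUnd e₀ he₀U he₀0)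
  obtain ⟨c₀, hc₀U, hc₀0, hc₀, hcW, hcU⟩ : ∃ c ∈ U, c ≠ 0 ∧ herm q c c = 0 ∧
      g.1 c ∉ W ∧ g.1 c ∉ U := by
    by_contra hcon
    push Not at hcon
    have hsub : ∀ c ∈ U, herm q c c = 0 → g.1 c ∈ W ∨ g.1 c ∈ U := by
      intro c hc hcc
      rcases eq_or_ne c 0 with rfl | hc0
      · exact Or.inl (by simp)
      rcases em (g.1 c ∈ W) with h | h
      · exact Or.inl h
      · exact Or.inr (hcon c hc hc0 hcc h)
    have main : ∀ S : Submodule F (Fin n → F), (S = W ∨ S = U) →
        (∀ a b, a ∈ S → (b ∈ W ∨ b ∈ U) → herm q b a ≠ 0 → b ∈ S) →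
        g.1 e₀ ∈ S → ∀ v ∈ U, g.1 v ∈ S := by
      intro S _ hconn hS v hv
      have := le_span_isotropic hF he₀U hf₀U hp₀ hv
      clear hv
      induction this using Submodule.span_induction with
      | mem z hz => exact hconn _ _ hS (hsub z hz.1 hz.2.1) (by rw [UG_app]; exact hz.2.2)
      | zero => simp
      | add a c _ _ ha hc => rw [map_add]; exact S.add_mem ha hc
      | smul c a _ ha => rw [map_smul]; exact S.smul_mem c ha
    rcases hsub e₀ he₀U he₀ with h | h
    · have hall := main W (Or.inl rfl) (fun a b' ha hb hne => hb.resolve_right fun hb' =>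
        hne (hUW ha hb')) h
      have := Submodule.finrank_mono
        (show U.map g.1.toLinearMap ≤ W by rintro _ ⟨a, ha, rfl⟩; exact hall a ha)
      rw [LinearEquiv.finrank_map_eq] at this
      omega
    · have hall := main U (Or.inr rfl) (fun a b' ha hb hne => hb.resolve_left fun hb' =>
        hne (hWU hb' ha)) h
      exact hg0W (mem_subspaceStabilizer_of_le fun w hw => by
        rw [ugToGL_mulVec]; exact hstabU hall w hw)
  -- a transvection in `M` with centre outside both summands
  have hcond : TrvCond q (g.1 c₀) δ := ⟨by rw [UG_app]; exact hc₀, hδ⟩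
  have hgM : trv hF hcond ∈ M' := by
    have := mul_mem (mul_mem (show g ∈ M' from hg0M) (htrvU (show TrvCond q c₀ δ from ⟨hc₀, hδ⟩) hc₀U))
      (inv_mem (show g ∈ M' from hg0M))
    convert this using 1
    refine Subtype.ext (LinearEquiv.ext fun w => ?_)
    have h := UG_app g (g.1.symm w) c₀
    rw [LinearEquiv.apply_symm_apply] at h
    rw [trv_apply, h]
    change _ = g.1 ((trv hF _).1 (g.1.symm w))
    rw [trv_apply, map_add, map_smul, LinearEquiv.apply_symm_apply]
  obtain ⟨x, hx⟩ : ∃ x, x = g.1 c₀ := ⟨_, rfl⟩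
  rw [← hx] at hcW hcU
  obtain ⟨hcondx, hxM⟩ : ∃ h : TrvCond q x δ, trv hF h ∈ M' := by subst hx; exact ⟨hcond, hgM⟩
  clear hgM hx
  obtain ⟨xW, hxW, xU, hxU, hxc⟩ := hsplit x
  have hxW0 : xW ≠ 0 := fun h => hcU (by rw [← hxc, h, zero_add]; exact hxU)
  have hxU0 : xU ≠ 0 := fun h => hcW (by rw [← hxc, h, add_zero]; exact hxW)
  -- in small dimension the component in `U` of the centre may be assumed anisotropic
  obtain ⟨x₁, hcond, hgM, yW, hyW, yU, hyU, hyc, hyW0, hyU0, hbig⟩ : ∃ (x₁ : Fin n → F)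
      (h : TrvCond q x₁ δ), trv hF h ∈ M' ∧ ∃ yW ∈ W, ∃ yU ∈ U, yW + yU = x₁ ∧ yW ≠ 0 ∧ yU ≠ 0 ∧
        (6 ≤ n ∨ herm q yU yU ≠ 0) := by
    by_cases hsmall : 6 ≤ n ∨ herm q xU xU ≠ 0
    · exact ⟨x, hcondx, hxM, xW, hxW, xU, hxU, hxc, hxW0, hxU0, hsmall⟩
    push Not at hsmall
    obtain ⟨hn6, hUU⟩ := hsmall
    have hxx := hcondx.1
    rw [← hxc, herm_add_left, hF.herm_add_right, hF.herm_add_right, hWU hxW hxU,
      hUW hxW hxU, hUU, add_zero, add_zero, add_zero] at hxx
    obtain ⟨w', hw'W, hpW⟩ := exists_pair_mem hF hxW hxx (hWnd xW hxW hxW0)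
    obtain ⟨f', hf'U, hpU⟩ := exists_pair_mem hF hxU hUU (hUnd xU hxU hxU0)
    have hfxU : herm q f' xU = 1 := (hpU.symm hF).2.2
    have hwxW : herm q w' xW = 1 := (hpW.symm hF).2.2
    -- an anisotropic vector of `U` orthogonal to the pair
    obtain ⟨a₃, ha₃U, ha₃e, ha₃f, ha₃⟩ : ∃ a ∈ U, herm q a xU = 0 ∧ herm q a f' = 0 ∧
        herm q a a ≠ 0 := by
      by_contra hcon
      push Not at hcon
      obtain ⟨z, ⟨⟨hzU, hze⟩, hzf⟩, hz0⟩ := Submodule.exists_mem_ne_zero_of_ne_bot
        (p := U ⊓ LinearMap.ker (hermDual q xU) ⊓ LinearMap.ker (hermDual q f')) (fun h => by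
        let χ : U →ₗ[F] F × F := ((hermDual q xU).prod (hermDual q f')) ∘ₗ U.subtype
        have := LinearMap.finrank_range_add_finrank_ker χ
        have h2 := (LinearMap.range χ).finrank_le
        rw [finrank_prod, finrank_self] at h2
        have h3 : finrank F (LinearMap.ker χ) ≤ finrank F
            ↥(U ⊓ LinearMap.ker (hermDual q xU) ⊓ LinearMap.ker (hermDual q f')) := by
          rw [LinearMap.ker_comp, LinearMap.ker_prod,
            (Submodule.equivMapOfInjective U.subtype U.injective_subtype _).finrank_eq,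
            Submodule.map_comap_subtype, inf_assoc]
        rw [h, finrank_bot] at h3
        omega)
      replace hze : herm q z xU = 0 := hze
      replace hzf : herm q z f' = 0 := hzf
      obtain ⟨y₂, hy₂, hy₂z⟩ := hUnd z hzU hz0
      set z' := y₂ - herm q y₂ f' • xU - herm q y₂ xU • f' with hz'
      have hz'U : z' ∈ U :=
        U.sub_mem (U.sub_mem hy₂ (U.smul_mem _ hxU)) (U.smul_mem _ hf'U)
      have hz'z : herm q z' z ≠ 0 := by
        rw [hz', herm_sub_left, herm_sub_left, herm_smul_left, herm_smul_left, hsymm0 hze,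
          hsymm0 hzf]
        simpa using hy₂z
      have hz'e : herm q z' xU = 0 := by
        rw [hz', herm_sub_left, herm_sub_left, herm_smul_left, herm_smul_left, hUU, hfxU]; ring
      have hz'f : herm q z' f' = 0 := by
        rw [hz', herm_sub_left, herm_sub_left, herm_smul_left, herm_smul_left, hpU.2.1, hpU.2.2]
        ring
      obtain ⟨τ, hτ⟩ := hF.exists_trace (c := 1) (one_pow q)
      have h1 := hcon (z + (τ / herm q z' z) • z') (U.add_mem hzU (U.smul_mem _ hz'U))
        (by rw [herm_add_left, herm_smul_left, hze, hz'e, mul_zero, add_zero])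
        (by rw [herm_add_left, herm_smul_left, hzf, hz'f, mul_zero, add_zero])
      rw [herm_add_left, hF.herm_add_right, hF.herm_add_right, herm_smul_left, herm_smul_left,
        herm_smul_right, herm_smul_right, hcon z hzU hze hzf, hcon z' hz'U hz'e hz'f,
        ← hF.herm_symm z' z, ← mul_pow, div_mul_cancel₀ _ hz'z] at h1
      exact one_ne_zero (α := F) (by linear_combination h1 - hτ)
    obtain ⟨α, hα⟩ := hF.exists_trace (c := -herm q a₃ a₃) (by rw [hF.neg_pow, hF.herm_symm])
    have hcU' : UniCond q f' a₃ α := ⟨hpU.2.1, ha₃f, by rw [hα, neg_add_cancel]⟩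
    have hcW' : TrvCond q w' δ := ⟨hpW.2.1, hδ⟩
    have hk : trv hF hcW' * uni hF hcU' ∈ M' := mul_mem
      (hmemP (det_uni hF _) fun w hw => by
        rw [trv_apply]; exact W.add_mem hw (W.smul_mem _ hw'W))
      (hmemP (det_uni hF _) fun w hw => by
        rw [uni_apply, hWU hw hf'U, hWU hw ha₃U]; simpa using hw)
    obtain ⟨vU, hvU⟩ : ∃ v, v = xU + a₃ + α • f' := ⟨_, rfl⟩
    have hvUU : vU ∈ U := hvU ▸ U.add_mem (U.add_mem hxU ha₃U) (U.smul_mem _ hf'U)
    obtain ⟨x', hx'⟩ : ∃ v, v = xW + δ • w' + vU := ⟨_, rfl⟩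
    have hkx : (trv hF hcW' * uni hF hcU').1 x = x' := by
      have h1 : (uni hF hcU').1 x = xW + vU := by
        rw [uni_apply, ← hxc, herm_add_left, herm_add_left, hWU hxW hf'U, hWU hxW ha₃U,
          hpU.2.2, hsymm0 ha₃e, hvU]
        module
      rw [Subgroup.coe_mul, LinearEquiv.mul_apply, h1, trv_apply, herm_add_left, hpW.2.2,
        hUW hw'W hvUU, hx']
      module
    have hx'c : TrvCond q x' δ := ⟨by rw [← hkx, UG_app]; exact hcondx.1, hδ⟩
    have hx'M : trv hF hx'c ∈ M' := by
      convert mul_mem (mul_mem hk hxM) (inv_mem hk) using 1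
      rw [show trv hF hcondx = uni hF (hcondx.uniCond hF) from rfl,
        show trv hF hx'c = uni hF (hx'c.uniCond hF) from rfl, uni_conj]
      exact uni_congr hF _ _ hkx.symm (by simp) rfl
    obtain ⟨β, hβ⟩ : ∃ β, β = δ * (δ + α) := ⟨_, rfl⟩
    obtain ⟨y, hy⟩ : ∃ y, y = ((1 + β) • xW + δ • w') + ((1 + β) • xU + a₃ + α • f') := ⟨_, rfl⟩
    have hTy : (trv hF hcondx).1 x' = y := by
      have h2 : herm q x' x = δ + α := by
        rw [hx', hvU, ← hxc]
        simp only [herm_add_left, hF.herm_add_right, herm_smul_left, hxx, hUU, hwxW, hfxU, ha₃e,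
          hWU hxW hxU, hWU hw'W hxU, hUW hxW hxU, hUW hxW ha₃U, hUW hxW hf'U]
        ring
      rw [trv_apply, h2, hy, hx', hvU, ← hxc, ← hβ]
      module
    have hyc : TrvCond q y δ := ⟨by rw [← hTy, UG_app]; exact hx'c.1, hδ⟩
    have hyM : trv hF hyc ∈ M' := by
      convert mul_mem (mul_mem hxM hx'M) (inv_mem hxM) using 1
      rw [show trv hF hx'c = uni hF (hx'c.uniCond hF) from rfl,
        show trv hF hyc = uni hF (hyc.uniCond hF) from rfl, uni_conj]
      exact uni_congr hF _ _ hTy.symm (by simp) rfl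
    have hyUU : herm q ((1 + β) • xU + a₃ + α • f') ((1 + β) • xU + a₃ + α • f') ≠ 0 := by
      have : herm q ((1 + β) • xU + a₃ + α • f') ((1 + β) • xU + a₃ + α • f') =
          δ * δ * -herm q a₃ a₃ := by
        simp only [herm_add_left, hF.herm_add_right, herm_smul_left, herm_smul_right, hUU, hfxU,
          hpU.2.1, hpU.2.2, ha₃e, ha₃f, hsymm0 ha₃e, hsymm0 ha₃f, hF.add_pow, one_pow]
        rw [← hα, hβ, mul_pow, hF.add_pow, hδ]
        linear_combination hα
      rw [this]
      exact mul_ne_zero (mul_ne_zero hδ0 hδ0) (neg_ne_zero.2 ha₃)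
    refine ⟨y, hyc, hyM, _, W.add_mem (W.smul_mem _ hxW) (W.smul_mem _ hw'W), _,
      U.add_mem (U.add_mem (U.smul_mem _ hxU) ha₃U) (U.smul_mem _ hf'U), hy.symm, fun h => ?_,
      fun h => hyUU (by rw [h, herm_zero_left]), Or.inr hyUU⟩
    have := congrArg (fun v => herm q v xW) h
    simp only [herm_add_left, herm_smul_left, herm_zero_left, hxx, hwxW] at this
    exact hδ0 (by linear_combination this)
  clear hxW hxU hxc hxW0 hxU0
  -- an isotropic vector of `U` fixed by it
  obtain ⟨e, heU, he0, he, hex, hax'⟩ : ∃ e ∈ U, e ≠ 0 ∧ herm q e e = 0 ∧ herm q e yU = 0 ∧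
      ∃ a ∈ U, herm q a e = 0 ∧ herm q a yU ≠ 0 := by
    rcases hbig with h6 | hUU
    · obtain ⟨y, hy, hyx⟩ := hUnd yU hyU hyU0
      obtain ⟨e, ⟨⟨heU, hex⟩, hey⟩, he0, he⟩ := exists_isotropic_mem hF
        (S := U ⊓ LinearMap.ker (hermDual q yU) ⊓ LinearMap.ker (hermDual q y)) (by
        let χ : U →ₗ[F] F × F := ((hermDual q yU).prod (hermDual q y)) ∘ₗ U.subtype
        have := LinearMap.finrank_range_add_finrank_ker χ
        have h2 := (LinearMap.range χ).finrank_le
        rw [finrank_prod, finrank_self] at h2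
        have h3 : finrank F (LinearMap.ker χ) ≤ finrank F
            ↥(U ⊓ LinearMap.ker (hermDual q yU) ⊓ LinearMap.ker (hermDual q y)) := by
          rw [LinearMap.ker_comp, LinearMap.ker_prod,
            (Submodule.equivMapOfInjective U.subtype U.injective_subtype _).finrank_eq,
            Submodule.map_comap_subtype, inf_assoc]
        omega)
      exact ⟨e, heU, he0, he, hex, y, hy, hsymm0 (show herm q e y = 0 from hey), hyx⟩
    · -- the component in `U` is anisotropic
      obtain ⟨e, ⟨heU, hex⟩, he0, he⟩ := exists_isotropic_mem hF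
        (S := U ⊓ LinearMap.ker (hermDual q yU)) (by
        let χ : U →ₗ[F] F := (hermDual q yU) ∘ₗ U.subtype
        have := LinearMap.finrank_range_add_finrank_ker χ
        have h2 := (LinearMap.range χ).finrank_le
        rw [finrank_self] at h2
        have h3 : finrank F (LinearMap.ker χ) ≤
            finrank F ↥(U ⊓ LinearMap.ker (hermDual q yU)) := by
          rw [LinearMap.ker_comp,
            (Submodule.equivMapOfInjective U.subtype U.injective_subtype _).finrank_eq,
            Submodule.map_comap_subtype]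
        omega)
      exact ⟨e, heU, he0, he, hex, yU, hyU, hsymm0 (show herm q e yU = 0 from hex), hUU⟩
  have hec : herm q e (x₁) = 0 := by
    rw [← hyc, hF.herm_add_right, hUW hyW heU, hex, add_zero]
  have hTe : (trv hF hcond).1 e = e := by rw [trv_apply, hec, mul_zero, zero_smul, add_zero]
  obtain ⟨f, hfU, hp⟩ := exists_pair_mem hF heU he (hUnd e heU he0)
  have hef := hp.2.2
  have hfe : herm q f e = 1 := (hp.symm hF).2.2
  have hfun : ∀ {x : Fin n → F} {a a' : F} (h : UniCond q e x a) (h' : UniCond q e x a'),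
      uni hF h ∈ M' → uni hF h' ∈ M' := by
    intro x a a' h h' hmem
    have hc : TrvCond q e (a' - a) := ⟨he, by
      rw [hF.sub_pow]; linear_combination h'.2.2 - h.2.2⟩
    have h1 : trv hF hc ∈ M' := hmemP (det_uni hF _) fun w hw => by
      rw [trv_apply, hWU hw heU, mul_zero, zero_smul, add_zero]; exact hw
    have := mul_mem h1 hmem
    rw [trv, uni_mul] at this
    convert this using 1
    exact uni_congr hF _ _ rfl (by rw [zero_add]) (by rw [hF.herm_zero_right]; ring)
  have hexA : ∀ x : Fin n → F, herm q x e = 0 → ∃ a, UniCond q e x a := fun x hx => by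
    obtain ⟨a, ha⟩ := hF.exists_trace (c := -herm q x x) (by rw [hF.neg_pow, hF.herm_symm])
    exact ⟨a, he, hx, by rw [ha, neg_add_cancel]⟩
  have huniU : ∀ {u : Fin n → F} {a : F} (h : UniCond q e u a), u ∈ U → uni hF h ∈ M' :=
    fun h hu => hmemP (det_uni hF h) fun w hw => by
      rw [uni_apply, hWU hw heU, hWU hw hu]
      simpa using hw
  -- the components in `W` available at `e`
  let A : AddSubgroup (Fin n → F) :=
    { carrier := {x | x ∈ W ∧ ∀ (a : F) (h : UniCond q e x a), uni hF h ∈ M'}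
      zero_mem' := ⟨W.zero_mem, fun a h => huniU h U.zero_mem⟩
      add_mem' := fun {x y} hx hy => ⟨W.add_mem hx.1 hy.1, fun a h => by
        obtain ⟨a1, h1⟩ := hexA x (hWU hx.1 heU)
        obtain ⟨b1, h2⟩ := hexA y (hWU hy.1 heU)
        have := mul_mem (hx.2 a1 h1) (hy.2 b1 h2)
        rw [uni_mul] at this
        exact hfun _ h this⟩
      neg_mem' := fun {x} hx => ⟨W.neg_mem hx.1, fun a h => by
        obtain ⟨a1, h1⟩ := hexA x (hWU hx.1 heU)
        have hm := inv_mem (hx.2 a1 h1)
        have h' : UniCond q e (-x) (a1 ^ q) := by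
          refine ⟨he, by rw [herm_neg_left, h1.2.1, neg_zero], ?_⟩
          rw [herm_neg_left, hF.herm_neg_right, neg_neg, hF.pow_pow]
          linear_combination h1.2.2
        refine hfun h' h ?_
        convert hm using 1
        apply eq_inv_of_mul_eq_one_left
        rw [uni_mul]
        rw [uni_congr hF _ (uniCond_zero hF he) rfl (neg_add_cancel x) (by
          rw [hF.herm_neg_right]; linear_combination h1.2.2), uni_zero hF he]⟩ }
  have hAsmul : ∀ (c : F) {x : Fin n → F}, x ∈ A → c • x ∈ A := by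
    intro c x hx
    rcases eq_or_ne c 0 with rfl | hc
    · simpa using A.zero_mem
    obtain ⟨d, hd⟩ : ∃ d, d = c ^ q := ⟨_, rfl⟩
    have hd0 : d ≠ 0 := hd ▸ pow_ne_zero _ hc
    -- an anisotropic vector of `U` orthogonal to `e` and `f`
    obtain ⟨a₃, ha₃U, ha₃e, ha₃f, ha₃⟩ : ∃ a ∈ U, herm q a e = 0 ∧ herm q a f = 0 ∧
        herm q a a ≠ 0 := by
      by_contra hcon
      push Not at hcon
      obtain ⟨z, ⟨⟨hzU, hze⟩, hzf⟩, hz0⟩ := Submodule.exists_mem_ne_zero_of_ne_bot
        (p := U ⊓ LinearMap.ker (hermDual q e) ⊓ LinearMap.ker (hermDual q f)) (fun h => by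
        let χ : U →ₗ[F] F × F := ((hermDual q e).prod (hermDual q f)) ∘ₗ U.subtype
        have := LinearMap.finrank_range_add_finrank_ker χ
        have h2 := (LinearMap.range χ).finrank_le
        rw [finrank_prod, finrank_self] at h2
        have h3 : finrank F (LinearMap.ker χ) ≤ finrank F
            ↥(U ⊓ LinearMap.ker (hermDual q e) ⊓ LinearMap.ker (hermDual q f)) := by
          rw [LinearMap.ker_comp, LinearMap.ker_prod,
            (Submodule.equivMapOfInjective U.subtype U.injective_subtype _).finrank_eq,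
            Submodule.map_comap_subtype, inf_assoc]
        rw [h, finrank_bot] at h3
        omega)
      replace hze : herm q z e = 0 := hze
      replace hzf : herm q z f = 0 := hzf
      obtain ⟨y₂, hy₂, hy₂z⟩ := hUnd z hzU hz0
      set z' := y₂ - herm q y₂ f • e - herm q y₂ e • f with hz'
      have hz'U : z' ∈ U :=
        U.sub_mem (U.sub_mem hy₂ (U.smul_mem _ heU)) (U.smul_mem _ hfU)
      have hz'z : herm q z' z ≠ 0 := by
        rw [hz', herm_sub_left, herm_sub_left, herm_smul_left, herm_smul_left, hsymm0 hze,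
          hsymm0 hzf]
        simpa using hy₂z
      have hz'e : herm q z' e = 0 := by
        rw [hz', herm_sub_left, herm_sub_left, herm_smul_left, herm_smul_left, he, hfe]; ring
      have hz'f : herm q z' f = 0 := by
        rw [hz', herm_sub_left, herm_sub_left, herm_smul_left, herm_smul_left, hp.2.1, hef]; ring
      obtain ⟨τ, hτ⟩ := hF.exists_trace (c := 1) (one_pow q)
      have h1 := hcon (z + (τ / herm q z' z) • z') (U.add_mem hzU (U.smul_mem _ hz'U))
        (by rw [herm_add_left, herm_smul_left, hze, hz'e, mul_zero, add_zero])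
        (by rw [herm_add_left, herm_smul_left, hzf, hz'f, mul_zero, add_zero])
      rw [herm_add_left, hF.herm_add_right, hF.herm_add_right, herm_smul_left, herm_smul_left,
        herm_smul_right, herm_smul_right, hcon z hzU hze hzf, hcon z' hz'U hz'e hz'f,
        ← hF.herm_symm z' z, ← mul_pow, div_mul_cancel₀ _ hz'z] at h1
      exact one_ne_zero (α := F) (by linear_combination h1 - hτ)
    -- three moves inside `U` giving the scalar `d`
    obtain ⟨t, htdef⟩ : ∃ t, t = -(δ * δ * δ) / d := ⟨_, rfl⟩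
    have ht0 : t ≠ 0 := htdef ▸ div_ne_zero
      (neg_ne_zero.2 (mul_ne_zero (mul_ne_zero hδ0 hδ0) hδ0)) hd0
    obtain ⟨s, hs⟩ := hF.exists_norm (c := -(t + t ^ q) / herm q a₃ a₃) (by
      rw [div_pow, hF.neg_pow, hF.add_pow, hF.pow_pow, hF.herm_symm, add_comm (t ^ q) t])
    rw [pow_succ', eq_div_iff ha₃] at hs
    obtain ⟨v, hvdef⟩ : ∃ v, v = s • a₃ + f + t • e := ⟨_, rfl⟩
    have hvU : v ∈ U :=
      hvdef ▸ U.add_mem (U.add_mem (U.smul_mem _ ha₃U) hfU) (U.smul_mem _ heU)
    have hve : herm q v e = 1 := by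
      rw [hvdef, herm_add_left, herm_add_left, herm_smul_left, herm_smul_left, he, ha₃e, hfe]
      ring
    have hfv : herm q f v = t ^ q := by
      rw [hvdef, hF.herm_add_right, hF.herm_add_right, herm_smul_right, herm_smul_right, hfe,
        hp.2.1, hsymm0 ha₃f]
      ring
    have hv : herm q v v = 0 := by
      rw [hvdef]
      simp only [herm_add_left, hF.herm_add_right, herm_smul_left, herm_smul_right, he, hp.2.1,
        hef, hfe, ha₃e, ha₃f, hsymm0 ha₃e, hsymm0 ha₃f]
      linear_combination hs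
    have htq : (t ^ q) ≠ 0 := pow_ne_zero _ ht0
    have hδt : herm q f v * (δ / t) ^ q = -δ := by
      rw [hfv, div_pow, hδ]; field_simp
    obtain ⟨g1, hg1, e1, f1⟩ := exists_trv_move hF he hp.2.1 (b := δ)
      (by rw [hef, hδ, one_mul, neg_ne_zero]; exact hδ0)
      (by rw [hef, one_mul, hF.pow_pow, hδ, neg_neg])
    obtain ⟨g2, hg2, e2, f2⟩ := exists_trv_move hF hp.2.1 hv (b := δ / t)
      (by rw [hδt, neg_ne_zero]; exact hδ0) (by rw [hδt, hF.neg_pow, hδ])
    obtain ⟨g3, hg3, e3, f3⟩ := exists_trv_move hF hv he (b := δ)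
      (by rw [hve, hδ, one_mul, neg_ne_zero]; exact hδ0)
      (by rw [hve, one_mul, hF.pow_pow, hδ, neg_neg])
    set p := g3 * g2 * g1 with hpdef
    have hpW : ∀ w ∈ W, p.1 w = w := fun w hw => by
      rw [hpdef, Subgroup.coe_mul, Subgroup.coe_mul, LinearEquiv.mul_apply,
        LinearEquiv.mul_apply, f1 w (hWU hw heU) (hWU hw hfU), f2 w (hWU hw hfU) (hWU hw hvU),
        f3 w (hWU hw hvU) (hWU hw heU)]
    have hpe : p.1 e = d • e := by
      rw [hpdef, Subgroup.coe_mul, Subgroup.coe_mul, LinearEquiv.mul_apply,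
        LinearEquiv.mul_apply, e1, map_smul, e2, map_smul, map_smul, e3, smul_smul, smul_smul]
      congr 1
      rw [htdef]
      field_simp
    have hpM : p ∈ M' := hmemP
      (TG_le_SUG hF (mul_mem (mul_mem hg3 hg2) hg1)) fun w hw => by rw [hpW w hw]; exact hw
    refine ⟨W.smul_mem c hx.1, fun a h => ?_⟩
    obtain ⟨a1, h1⟩ := hexA x (hWU hx.1 heU)
    have := mul_mem (mul_mem hpM (hx.2 a1 h1)) (inv_mem hpM)
    rw [uni_conj] at this
    have h1' : UniCond q (d • e) x a1 := by
      refine ⟨?_, ?_, h1.2.2⟩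
      · rw [herm_smul_left, herm_smul_right, he]; simp
      · rw [herm_smul_right, h1.2.1, mul_zero]
    rw [uni_congr hF _ h1' hpe (hpW x hx.1) rfl] at this
    have hdq : d ^ q = c := hd ▸ hF.pow_pow c
    have h2 : UniCond q e (d ^ q • x) (d * d ^ q * a1) := by
      refine ⟨he, by rw [herm_smul_left, h1.2.1, mul_zero], ?_⟩
      rw [herm_smul_left, herm_smul_right, hF.pow_pow, mul_pow, mul_pow, hF.pow_pow]
      linear_combination (d * d ^ q) * h1.2.2
    rw [uni_smul hF h1' h2] at this
    have h3 : UniCond q e (c • x) (d * d ^ q * a1) := hdq ▸ h2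
    refine hfun h3 h ?_
    convert this using 1
    exact uni_congr hF _ _ rfl (by rw [hdq]) rfl
  let AS : Submodule F (Fin n → F) :=
    { A with smul_mem' := fun c {x} hx => hAsmul c hx }
  have hASW : AS ≤ W := fun x hx => hx.1
  obtain ⟨x₀, hx₀0, hx₀A⟩ : ∃ x, x ≠ 0 ∧ x ∈ AS := by
    obtain ⟨a, haU, hae, hax⟩ := hax'
    have hcondA : ∃ α, UniCond q e a α := hexA a hae
    obtain ⟨α, hα⟩ := hcondA
    have hga : (trv hF hcond).1 a = (δ * herm q a yU) • yW + (a + (δ * herm q a yU) • yU) := by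
      rw [trv_apply, ← hyc, hF.herm_add_right, hUW hyW haU, zero_add]
      module
    refine ⟨(δ * herm q a yU) • yW, smul_ne_zero (mul_ne_zero hδ0 hax) hyW0,
      W.smul_mem _ hyW, fun a' h => ?_⟩
    have := mul_mem (mul_mem hgM (huniU hα haU)) (inv_mem hgM)
    rw [uni_conj] at this
    set X := (δ * herm q a yU) • yW
    set Y := a + (δ * herm q a yU) • yU
    have hY : Y ∈ U := U.add_mem haU (U.smul_mem _ hyU)
    have hYe : herm q Y e = 0 := by
      rw [herm_add_left, herm_smul_left, hae, hsymm0 hex, mul_zero, add_zero]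
    obtain ⟨b, hb⟩ := hexA Y hYe
    have hc3 : UniCond q e (X + Y) α := by
      have h1 := (show UniCond q ((trv hF hcond).1 e) ((trv hF hcond).1 a) α from
        ⟨by rw [UG_app]; exact hα.1, by rw [UG_app]; exact hα.2.1, by
          rw [UG_app]; exact hα.2.2⟩)
      rwa [hTe, hga] at h1
    rw [uni_congr hF _ hc3 hTe hga rfl] at this
    have hnegc : UniCond q e (-Y) (b ^ q) := by
      refine ⟨he, by rw [herm_neg_left, hb.2.1, neg_zero], ?_⟩
      rw [herm_neg_left, hF.herm_neg_right, neg_neg, hF.pow_pow]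
      linear_combination hb.2.2
    have h5 := mul_mem this (huniU hnegc (U.neg_mem hY))
    rw [uni_mul] at h5
    have h6 : UniCond q e X (α + b ^ q - herm q (-Y) (X + Y)) := by
      have := uniCond_mul hF hc3 hnegc
      rwa [add_neg_cancel_right] at this
    refine hfun h6 h ?_
    convert h5 using 1
    exact uni_congr hF _ _ rfl (add_neg_cancel_right X Y).symm rfl
  -- `A` is all of `W`
  have hAW : W ≤ AS := by
    rcases Nat.lt_or_ge (finrank F W) 2 with hk | hk
    · have : AS = W := Submodule.eq_of_le_of_finrank_le hASW (by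
        have := Submodule.one_le_finrank_iff.2 (fun h : AS = ⊥ => hx₀0 (by simpa [h] using hx₀A))
        omega)
      exact this.ge
    by_contra hne
    set R := W ⊓ {
      carrier := {r | ∀ a ∈ AS, herm q a r = 0}
      add_mem' := fun {r s} hr hs a ha => by
        rw [hF.herm_add_right, hr a ha, hs a ha, add_zero]
      zero_mem' := fun a _ => hF.herm_zero_right a
      smul_mem' := fun c r hr a ha => by rw [herm_smul_right, hr a ha, mul_zero] } with hR
    have hiso : ∀ z ∈ W, herm q z z = 0 → z ∈ AS ∨ z ∈ R := by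
      intro z hz hzz
      by_cases hall : ∀ a ∈ AS, herm q a z = 0
      · exact Or.inr ⟨hz, hall⟩
      push Not at hall
      obtain ⟨a, ha, haz⟩ := hall
      refine Or.inl ?_
      have hc : TrvCond q z δ := ⟨hzz, hδ⟩
      have hstab : ∀ w ∈ W, (trv hF hc).1 w ∈ W := fun w hw => by
        rw [trv_apply]; exact W.add_mem hw (W.smul_mem _ hz)
      have hTM : trv hF hc ∈ M' := hmemP (det_uni hF _) hstab
      have hTe' : (trv hF hc).1 e = e := by
        rw [trv_apply, hUW hz heU, mul_zero, zero_smul, add_zero]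
      have h1 : (trv hF hc).1 a ∈ AS := by
        refine ⟨hstab a ha.1, fun α h => ?_⟩
        obtain ⟨a1, h1⟩ := hexA a (hWU ha.1 heU)
        have := mul_mem (mul_mem hTM (ha.2 a1 h1)) (inv_mem hTM)
        rw [uni_conj] at this
        have h2 : UniCond q e ((trv hF hc).1 a) a1 :=
          ⟨he, h.2.1, by rw [UG_app]; exact h1.2.2⟩
        rw [uni_congr hF _ h2 hTe' rfl rfl] at this
        exact hfun h2 h this
      have h2 := AS.sub_mem h1 ha
      rw [trv_apply, add_sub_cancel_left] at h2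
      have h3 := AS.smul_mem (δ * herm q a z)⁻¹ h2
      rwa [inv_smul_smul₀ (mul_ne_zero hδ0 haz)] at h3
    obtain ⟨w, hwW, hw0, hw⟩ := exists_isotropic_mem hF (S := W) hk
    obtain ⟨f', hf'W, hp'⟩ := exists_pair_mem hF hwW hw (hWnd w hwW hw0)
    have hspan : W ≤ AS ⊔ R := (le_span_isotropic hF hwW hf'W hp').trans
      (Submodule.span_le.2 fun z hz => by
        rcases hiso z hz.1 hz.2.1 with h | h
        · exact Submodule.mem_sup_left h
        · exact Submodule.mem_sup_right h)
    have hd : ∀ z, z ∈ AS → z ∈ R → z = 0 := by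
      intro z hzA hzR
      by_contra hz0
      obtain ⟨y, hy, hyz⟩ := hWnd z (hASW hzA) hz0
      obtain ⟨a, ha, r, hr, rfl⟩ := Submodule.mem_sup.1 (hspan hy)
      exact hyz (by
        rw [herm_add_left, hzR.2 a ha, hsymm0 (hr.2 z hzA), add_zero])
    -- both summands are spanned by their isotropic vectors
    have hspan' : W ≤ Submodule.span F {z | z ∈ AS ∧ herm q z z = 0} ⊔
        Submodule.span F {z | z ∈ R ∧ herm q z z = 0} :=
      (le_span_isotropic hF hwW hf'W hp').trans (Submodule.span_le.2 fun z hz => by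
        rcases hiso z hz.1 hz.2.1 with h | h
        · exact Submodule.mem_sup_left (Submodule.subset_span ⟨h, hz.2.1⟩)
        · exact Submodule.mem_sup_right (Submodule.subset_span ⟨h, hz.2.1⟩))
    obtain ⟨a, ha, ha0, haa⟩ : ∃ a ∈ AS, a ≠ 0 ∧ herm q a a = 0 := by
      by_contra hcon
      push Not at hcon
      have hb : Submodule.span F {z | z ∈ AS ∧ herm q z z = 0} = ⊥ :=
        Submodule.span_eq_bot.2 fun z hz => by_contra fun h0 => hcon z hz.1 h0 hz.2
      rw [hb, bot_sup_eq] at hspan'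
      exact hx₀0 (hd x₀ hx₀A (Submodule.span_le.2 (fun z hz => hz.1)
        (hspan' (hASW hx₀A))))
    obtain ⟨r, hr, hr0, hrr⟩ : ∃ r ∈ R, r ≠ 0 ∧ herm q r r = 0 := by
      by_contra hcon
      push Not at hcon
      have hb : Submodule.span F {z | z ∈ R ∧ herm q z z = 0} = ⊥ :=
        Submodule.span_eq_bot.2 fun z hz => by_contra fun h0 => hcon z hz.1 h0 hz.2
      rw [hb, sup_bot_eq] at hspan'
      exact hne (hspan'.trans (Submodule.span_le.2 fun z hz => hz.1))
    rcases hiso (a + r) (W.add_mem (hASW ha) hr.1) (by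
      rw [herm_add_left, hF.herm_add_right, hF.herm_add_right, haa, hrr, hr.2 a ha,
        hsymm0 (hr.2 a ha)]
      ring) with h | h
    · exact hr0 (hd r (by simpa using AS.sub_mem h ha) hr)
    · exact ha0 (hd a ha (by simpa using R.sub_mem h hr))
  have hecentre : e ∈ uniCentres hF M' := by
    refine ⟨he, fun z a hc => ?_⟩
    obtain ⟨x, hx, u, hu, hxu⟩ := hsplit z
    have hxe := hWU hx heU
    have hue : herm q u e = 0 := by
      have := hc.2.1
      rwa [← hxu, herm_add_left, hxe, zero_add] at this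
    obtain ⟨a1, h1⟩ := hexA x hxe
    obtain ⟨b1, h2⟩ := hexA u hue
    have := mul_mem ((hAW hx).2 a1 h1) (huniU h2 hu)
    rw [uni_mul] at this
    have h3 : UniCond q e z (a1 + b1 - herm q u x) := hxu ▸ uniCond_mul hF h1 h2
    refine hfun h3 hc ?_
    convert this using 1
    exact uni_congr hF _ _ rfl hxu.symm rfl
  have hc : TrvCond q f δ := ⟨hp.2.1, hδ⟩
  have hy := map_mem_uniCentres hF hecentre (htrvU hc hfU)
  refine SUG_le_of_uniCentre_pair hF (by omega) hecentre hy ?_
  rw [trv_apply, hF.herm_add_right, herm_smul_right, he, hef, zero_add, mul_one, mul_one]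
  exact pow_ne_zero _ hδ0

/-- Stabilisers of small non-degenerate subspaces are maximal, with the dimension hypothesis of
the two basic cases. -/
theorem suGL_nondeg_maximal' (hn : 4 ≤ n) {W : Submodule F (Fin n → F)}
    (_hk1 : 6 ≤ n ∨ finrank F W = 1) (hW0 : W ≠ ⊥)
    (hW : IsNondegenerateOn (Cfsg.hermForm n F q) W) (hdim : 2 * finrank F W < n) :
    IsMaximalIn (suGL n F q) (subspaceStabilizer W ⊓ suGL n F q) :=
  suGL_nondeg_maximal_four hF hn hW0 hW hdim

/-- Stabilisers of small non-degenerate subspaces are maximal in the special unitary group. -/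
theorem suGL_nondeg_maximal (hn : 6 ≤ n) {W : Submodule F (Fin n → F)} (hW0 : W ≠ ⊥)
    (hW : IsNondegenerateOn (Cfsg.hermForm n F q) W) (hdim : 2 * finrank F W < n) :
    IsMaximalIn (suGL n F q) (subspaceStabilizer W ⊓ suGL n F q) :=
  suGL_nondeg_maximal' hF (by omega) (Or.inl hn) hW0 hW hdim

end Cfsg.Agent.GeoClasses
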