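import Cfsg.Agent.GeoClasses.UnitRealMax
import Cfsg.Agent.GeoClasses.UnitNondeg

/-!
Overgroups of the centraliser of a semilinear involution in `SU_n(q)`.
-/

set_option autoImplicit false

namespace Cfsg.Agent.GeoClasses

open Matrix Cfsg.Geo Cfsg.Agent.Classical.U Cfsg.Agent.ClassicalMax Module
open Cfsg.Agent.Forms (hperp mem_hperp finrank_hperp hperp_hperp herm_comm_zero)
open scoped MatrixGroups Matrix

universe u

variable {F : Type u} [Field F] {n q : ℕ}

lemma mem_hperp_pair {p e v : Fin n → F} (hF : SqField F q) :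
    v ∈ hperp q (Submodule.span F {p, e}) ↔ herm q v p = 0 ∧ herm q v e = 0 := by
  refine ⟨fun h => ⟨h p (Submodule.subset_span (by simp)), h e (Submodule.subset_span (by simp))⟩,
    fun h w hw => ?_⟩
  obtain ⟨a, b, rfl⟩ := Submodule.mem_span_pair.1 hw
  rw [hF.herm_add_right, herm_smul_right, herm_smul_right, h.1, h.2, mul_zero, mul_zero, add_zero]

lemma mem_hperp_single {p v : Fin n → F} : v ∈ hperp q (F ∙ p) ↔ herm q v p = 0 := by
  refine ⟨fun h => h p (Submodule.mem_span_singleton_self p), fun h w hw => ?_⟩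
  obtain ⟨a, rfl⟩ := Submodule.mem_span_singleton.1 hw
  rw [herm_smul_right, h, mul_zero]

lemma exists_not_orth_perp (hF : SqField F q) {s : Submodule F (Fin n → F)}
    (h : 2 * finrank F s < n) :
    ∃ a ∈ hperp q s, ∃ b ∈ hperp q s, herm q a b ≠ 0 := by
  by_contra hc
  push Not at hc
  have hle : hperp q s ≤ hperp q (hperp q s) := fun a ha b hb => hc a ha b hb
  have := Submodule.finrank_mono hle
  rw [hperp_hperp hF, finrank_hperp hF] at this
  omega

lemma exists_perp_not_orth (hF : SqField F q) {p x : Fin n → F} (hx : x ∉ F ∙ p) :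
    ∃ y, herm q y p = 0 ∧ herm q y x ≠ 0 := by
  by_contra h
  push Not at h
  apply hx
  rw [← hperp_hperp hF (F ∙ p)]
  exact fun w hw => herm_comm_zero hF (h w (mem_hperp_single.1 hw))

/-- The involution commutes with the element. -/
def BarComm (bar : (Fin n → F) → (Fin n → F)) (g : UG n F q) : Prop :=
  ∀ w, bar (g.1 w) = g.1 (bar w)

variable {ε : F} {bar : (Fin n → F) → (Fin n → F)} (hF : SqField F q) (hb : RatStr q ε bar)
  {M : Subgroup (UG n F q)}

include hF hb

namespace RatStr

lemma exists_fix_ne {S : Submodule F (Fin n → F)} (hS : IsBarStable bar S)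
    (φ : (Fin n → F) →ₗ[F] F) (h : ∃ x ∈ S, φ x ≠ 0) : ∃ y ∈ S, bar y = y ∧ φ y ≠ 0 := by
  by_contra hc
  push Not at hc
  obtain ⟨x, hx, hx0⟩ := h
  exact hx0 (LinearMap.mem_ker.1 ((Submodule.span_le.2 fun y hy => LinearMap.mem_ker.2
    (hc y hy.1 hy.2)) (mem_span_fix hF hb hS hx)))

lemma exists_fix_not_mem {S N : Submodule F (Fin n → F)} (hS : IsBarStable bar S)
    (h : ¬ S ≤ N) : ∃ y ∈ S, bar y = y ∧ y ∉ N := by
  by_contra hc
  push Not at hc
  exact h ((mem_span_fix hF hb hS).trans (Submodule.span_le.2 fun y hy => hc y hy.1 hy.2))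

lemma exists_twist_pair {S : Submodule F (Fin n → F)} (hS : IsBarStable bar S)
    (hnd : ∃ a ∈ S, ∃ b ∈ S, herm q a b ≠ 0) :
    ∃ y ∈ S, ∃ y' ∈ S, bar y = ε • y ∧ bar y' = ε • y' ∧ herm q y' y ≠ 0 := by
  obtain ⟨c, hc0, hc⟩ := exists_scalar hF hb
  obtain ⟨a, ha, b, hb', hab⟩ := hnd
  obtain ⟨u, hu, hu1, hub⟩ := exists_fix_ne hF hb hS (hermL q b) ⟨a, ha, hab⟩
  obtain ⟨v, hv, hv1, hvu⟩ := exists_fix_ne hF hb hS (hermL q u)
    ⟨b, hb', fun h => hub (herm_comm_zero hF h)⟩
  refine ⟨c • u, S.smul_mem _ hu, c • v, S.smul_mem _ hv, bar_scalar_smul hF hb hc hu1,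
    bar_scalar_smul hF hb hc hv1, ?_⟩
  rw [herm_smul_left, herm_smul_right]
  exact mul_ne_zero hc0 (mul_ne_zero (pow_ne_zero _ hc0) hvu)

lemma stable_single {p : Fin n → F} (hp : bar p = p) : IsBarStable bar (hperp q (F ∙ p)) :=
  stable_hperp hF hb (stable_span hF hb fun x hx => by
    rw [Set.mem_singleton_iff.1 hx, hp]; exact Submodule.subset_span rfl)

lemma stable_pair {p e : Fin n → F} (hp : bar p = p) (he : bar e = e) :
    IsBarStable bar (hperp q (Submodule.span F {p, e})) :=
  stable_hperp hF hb (stable_span hF hb fun x hx => by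
    rcases hx with rfl | rfl
    · rw [hp]; exact Submodule.subset_span (by simp)
    · rw [he]; exact Submodule.subset_span (by simp))

/-- A unipotent element with rational data commutes with the involution. -/
lemma uni_barComm {p x : Fin n → F} {a : F} (hp : bar p = p) (hc : UniCond q p x a)
    (hx : bar x = ε • x) (ha : a ^ q = ε * a) : BarComm bar (uni hF hc) := by
  intro w
  have h1 : herm q (bar w) p = ε * herm q w p ^ q := by rw [herm_bar_left hF hb, hp]
  have h2 : herm q (bar w) x = herm q w x ^ q := by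
    rw [herm_bar_left hF hb, hx, herm_smul_right, eps_pow hF hb, mul_pow, eps_pow hF hb,
      ← mul_assoc, eps_sq hF hb, one_mul]
  rw [uni_apply, uni_apply, hb.add, hb.add, hb.smul, hb.smul, hp, hx, h1, h2, hF.sub_pow, mul_pow,
    ha, smul_smul]
  match_scalars <;> ring

variable (hK : ∀ g ∈ SUG n F q, BarComm bar g → g ∈ M)
include hK

lemma uni_mem {p x : Fin n → F} {a : F} (hp : bar p = p) (hc : UniCond q p x a)
    (hx : bar x = ε • x) (ha : a ^ q = ε * a) : uni hF hc ∈ M :=
  hK _ (det_uni hF hc) (uni_barComm hF hb hp hc hx ha)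

end RatStr

section Params

omit hb

variable {p : Fin n → F} (hpp : herm q p p = 0)
include hpp

/-- The vectors occurring in unipotent elements of `M` at the centre `p`. -/
def uniParams (M : Subgroup (UG n F q)) : AddSubgroup (Fin n → F) where
  carrier := {x | ∃ (a : F) (h : UniCond q p x a), uni hF h ∈ M}
  zero_mem' := ⟨0, uniCond_zero hF hpp, by rw [uni_zero hF hpp]; exact one_mem M⟩
  add_mem' := fun {x y} ⟨a, ha, hxM⟩ ⟨b, hb', hyM⟩ =>
    ⟨_, uniCond_mul hF ha hb', by rw [← uni_mul hF ha hb']; exact mul_mem hxM hyM⟩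
  neg_mem' := fun {x} ⟨a, ha, hxM⟩ => by
    have hxx : herm q (-x) (-x) = herm q x x := by
      rw [show -x = (-1 : F) • x by simp, herm_smul_left, herm_smul_right, hF.neg_pow, one_pow]
      ring
    have h' : UniCond q p (-x) (a ^ q) := by
      refine ⟨hpp, ?_, ?_⟩
      · rw [show -x = (-1 : F) • x by simp, herm_smul_left, ha.2.1, mul_zero]
      · rw [hF.pow_pow, hxx]; linear_combination ha.2.2
    refine ⟨_, h', ?_⟩
    have : uni hF ha * uni hF h' = 1 := by
      rw [uni_mul, ← uni_zero hF hpp]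
      refine uni_congr hF _ _ rfl (add_neg_cancel x) ?_
      rw [show -x = (-1 : F) • x by simp, herm_smul_left]
      linear_combination ha.2.2
    rw [eq_inv_of_mul_eq_one_right this]
    exact inv_mem hxM

lemma mem_uniParams {x : Fin n → F} :
    x ∈ uniParams hF hpp M ↔ ∃ (a : F) (h : UniCond q p x a), uni hF h ∈ M := Iff.rfl

lemma line_mem_uniParams (c : F) : c • p ∈ uniParams hF hpp M := by
  have h : UniCond q p (c • p) (c ^ q - c) := by
    refine ⟨hpp, by rw [herm_smul_left, hpp, mul_zero], ?_⟩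
    rw [herm_smul_left, herm_smul_right, hpp, hF.sub_pow, hF.pow_pow]
    ring
  refine ⟨_, h, ?_⟩
  convert one_mem M using 1
  refine Subtype.ext (LinearEquiv.ext fun w => ?_)
  rw [uni_apply, herm_smul_right]
  simp only [OneMemClass.coe_one, LinearEquiv.coe_one, id_eq]
  module

lemma orth_of_mem_uniParams {x : Fin n → F} (hx : x ∈ uniParams hF hpp M) : herm q x p = 0 := by
  obtain ⟨a, h, -⟩ := hx
  exact h.2.1

lemma map_mem_uniParams {x : Fin n → F} (hx : x ∈ uniParams hF hpp M) {g : UG n F q} (hg : g ∈ M)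
    (hgp : g.1 p = p) : g.1 x ∈ uniParams hF hpp M := by
  obtain ⟨a, h, hxM⟩ := hx
  have h' : UniCond q p (g.1 x) a := by
    refine ⟨hpp, ?_, ?_⟩
    · rw [← hgp, UG_app]; exact h.2.1
    · rw [UG_app]; exact h.2.2
  refine ⟨a, h', ?_⟩
  have := mul_mem (mul_mem hg hxM) (inv_mem hg)
  rw [uni_conj] at this
  convert this using 1
  exact uni_congr hF _ _ hgp.symm rfl rfl

/-- All root elements at `p` follow from all the vectors. -/
lemma mem_uniCentres_of_params {e f : Fin n → F} (hep : herm q e p = 0) (hfp : herm q f p = 0)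
    (hfe : herm q f e ≠ 0) (hall : ∀ v, herm q v p = 0 → v ∈ uniParams hF hpp M) :
    p ∈ uniCentres hF M := by
  have htrv : ∀ δ (h : UniCond q p 0 δ), uni hF h ∈ M := by
    intro δ h
    have hδ : δ ^ q = -δ := by
      have h1 := h.2.2
      rw [herm_zero_left, add_zero] at h1
      linear_combination h1
    obtain ⟨t, ht⟩ := hF.exists_trace (c := 1) (one_pow q)
    obtain ⟨a, ha, haM⟩ := hall ((δ * t / herm q f e) • f)
      (by rw [herm_smul_left, hfp, mul_zero])
    obtain ⟨b, hb', hbM⟩ := hall e hep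
    have key := mul_mem (mul_mem haM hbM) (inv_mem (mul_mem hbM haM))
    have e1 : uni hF h * (uni hF hb' * uni hF ha) = uni hF ha * uni hF hb' := by
      rw [uni_mul hF hb' ha, uni_mul, uni_mul]
      refine uni_congr hF _ _ rfl (by rw [zero_add, add_comm]) ?_
      have e2 : herm q e ((δ * t / herm q f e) • f) = (δ * t) ^ q := by
        rw [herm_smul_right, ← hF.herm_symm f e, ← mul_pow, div_mul_cancel₀ _ hfe]
      rw [hF.herm_zero_right, e2, herm_smul_left, div_mul_cancel₀ _ hfe, mul_pow, hδ]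
      linear_combination -δ * ht
    rwa [← e1, mul_inv_cancel_right] at key
  refine ⟨hpp, fun x a h => ?_⟩
  obtain ⟨b, hb', hbM⟩ := hall x h.2.1
  have hd : UniCond q p 0 (a - b) := ⟨hpp, herm_zero_left p, by
    rw [herm_zero_left, hF.sub_pow]; linear_combination h.2.2 - hb'.2.2⟩
  have := mul_mem (htrv _ hd) hbM
  rw [uni_mul] at this
  convert this using 1
  exact uni_congr hF _ _ rfl (zero_add x).symm (by rw [hF.herm_zero_right]; ring)

end Params

namespace RatStr

variable (hK : ∀ g ∈ SUG n F q, BarComm bar g → g ∈ M)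
include hK

lemma twist_mem {p x : Fin n → F} (hpp : herm q p p = 0) (hp : bar p = p)
    (hxp : herm q x p = 0) (hx : bar x = ε • x) : x ∈ uniParams hF hpp M := by
  obtain ⟨a, ha, ha'⟩ := hb.lift x hx
  exact ⟨a, ⟨hpp, hxp, ha'⟩, uni_mem hF hb hK hp _ hx ha⟩

/-- Second differences fill a line. -/
lemma line_mem (hn : 5 ≤ n) {p e x : Fin n → F} (hpp : herm q p p = 0) (hp : bar p = p)
    (hee : herm q e e = 0) (he : bar e = e) (hep : herm q e p = 0)
    (hx : x ∈ uniParams hF hpp M) (hα : herm q x e ^ q ≠ herm q x e) (t₀ : F) :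
    t₀ • e ∈ uniParams hF hpp M := by
  set T := hperp q (Submodule.span F {p, e}) with hT
  have hdim : finrank F (Submodule.span F ({p, e} : Set (Fin n → F))) ≤ 2 := by
    classical
    have := finrank_span_finset_le_card (R := F) ({p, e} : Finset (Fin n → F))
    rw [Finset.coe_pair] at this
    exact this.trans Finset.card_le_two
  obtain ⟨y, hy, y', hy', hyb, hyb', hs⟩ := exists_twist_pair hF hb (stable_pair hF hb hp he)
    (exists_not_orth_perp hF (by omega))
  rw [mem_hperp_pair hF] at hy hy'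
  set s := herm q y' y with hsdef
  set α := herm q x e with hαdef
  have hden : s * (α ^ q - α) ≠ 0 := mul_ne_zero hs (sub_ne_zero.2 hα)
  set c := ε * (t₀ ^ q - ε * t₀) / (s * (α ^ q - α)) with hc
  have hsq : s ^ q = ε * s := herm_twist hF hb hyb' hyb
  have hcq : c ^ q = c := by
    rw [hc, div_pow, mul_pow, mul_pow, hF.sub_pow, hF.sub_pow, hF.pow_pow, hF.pow_pow, mul_pow,
      eps_pow hF hb, hsq, div_eq_div_iff ?_ hden]
    · linear_combination (ε * t₀ * s * (α - α ^ q)) * eps_sq hF hb
    · rw [mul_assoc]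
      exact mul_ne_zero (eps_ne hF hb) (mul_ne_zero hs (sub_ne_zero.2 (Ne.symm hα)))
  -- the twisted part of the scalar
  have hr : (t₀ - c * s * α) • e ∈ uniParams hF hpp M := by
    refine twist_mem hF hb hK hpp hp (by rw [herm_smul_left, hep, mul_zero]) ?_
    rw [hb.smul, he, smul_smul]
    congr 1
    rw [hF.sub_pow, mul_pow, mul_pow, hcq, hsq]
    have hc' : c * (s * (α ^ q - α)) = ε * (t₀ ^ q - ε * t₀) := by
      rw [hc, div_mul_cancel₀ _ hden]
    linear_combination -ε * hc' - (t₀ ^ q - ε * t₀) * eps_sq hF hb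
  have hD : ∀ z, herm q z p = 0 → herm q z e = 0 → bar z = ε • z → ∀ b, b ^ q = ε * b →
      b + b ^ q + herm q z z = 0 →
      α • z + (b * α - herm q x z) • e ∈ uniParams hF hpp M := by
    intro z hzp hze hzb b hbq hb'
    have hcond : UniCond q e z b := ⟨hee, hze, hb'⟩
    have hfix : (uni hF hcond).1 p = p := by
      rw [uni_apply, herm_comm_zero hF hep, herm_comm_zero hF hzp]; simp
    have := (uniParams hF hpp M).sub_mem
      (map_mem_uniParams hF hpp hx (uni_mem hF hb hK he hcond hzb hbq) hfix) hx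
    convert this using 1
    rw [uni_apply, ← hαdef]; abel
  obtain ⟨b₁, hb₁, hb₁'⟩ := hb.lift y hyb
  have hyc : bar (c • y') = ε • (c • y') := by
    rw [hb.smul, hcq, hyb', smul_comm]
  obtain ⟨b₂, hb₂, hb₂'⟩ := hb.lift _ hyc
  have h1 := hD y hy.1 hy.2 hyb b₁ hb₁ hb₁'
  have h2 := hD (c • y') (by rw [herm_smul_left, hy'.1, mul_zero])
    (by rw [herm_smul_left, hy'.2, mul_zero]) hyc b₂ hb₂ hb₂'
  have hsum : herm q (c • y') y = c * s := by rw [herm_smul_left]
  have h3 := hD (y + c • y') (by rw [herm_add_left, herm_smul_left, hy.1, hy'.1]; ring)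
    (by rw [herm_add_left, herm_smul_left, hy.2, hy'.2]; ring)
    (by rw [hb.add, hyb, hyc, smul_add]) (b₁ + b₂ - herm q (c • y') y)
    (by rw [hF.sub_pow, hF.add_pow, hb₁, hb₂, hsum, mul_pow, hcq, hsq]; ring)
    (by
      rw [hF.sub_pow, hF.add_pow, hF.herm_symm]
      simp only [herm_add_left, hF.herm_add_right]
      linear_combination hb₁' + hb₂')
  have h4 := (uniParams hF hpp M).sub_mem ((uniParams hF hpp M).add_mem h1 h2) h3
  have h5 := (uniParams hF hpp M).add_mem h4 hr
  convert h5 using 1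
  rw [hF.herm_add_right, hsum]
  match_scalars <;> ring

/-- A vector outside the rational ones gives the whole of `p⊥`. -/
lemma params_eq_perp (hn : 5 ≤ n) {p x : Fin n → F} (hpp : herm q p p = 0) (hp : bar p = p)
    (hx : x ∈ uniParams hF hpp M) (hnew : bar x - ε • x ∉ F ∙ p) {v : Fin n → F}
    (hv : herm q v p = 0) : v ∈ uniParams hF hpp M := by
  set S := hperp q (F ∙ p) with hS
  have hSs := stable_single hF hb hp
  have hxp := orth_of_mem_uniParams hF hpp hx
  set d := bar x - ε • x with hd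
  have hdp : herm q d p = 0 := by
    rw [hd, herm_sub_left, herm_smul_left, herm_bar_left hF hb, hp, hxp, zero_pow hF.q_ne_zero]
    ring
  -- a fixed isotropic pair in `S`
  obtain ⟨y₀, hy₀p, hy₀⟩ := exists_perp_not_orth hF hnew
  have hp0 : p ≠ 0 ∨ p = 0 := em' _
  obtain ⟨e₀, he₀S, he₀, he₀0, he₀₀, he₀p⟩ :
      ∃ e ∈ S, bar e = e ∧ e ≠ 0 ∧ herm q e e = 0 ∧ e ∉ F ∙ p := by
    obtain ⟨f₀, hf₀⟩ : ∃ f₀, (p ≠ 0 → herm q p f₀ ≠ 0) ∧ bar f₀ = f₀ := by
      rcases hp0 with h | h
      · obtain ⟨f, hf⟩ : ∃ f, herm q f p ≠ 0 := by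
          by_contra hc
          push Not at hc
          exact h (hF.eq_zero_of_herm p fun w => herm_comm_zero hF (hc w))
        obtain ⟨f₀, -, h1, h2⟩ := exists_fix_ne hF hb (S := ⊤) (fun _ _ => trivial) (hermL q p)
          ⟨f, trivial, hf⟩
        exact ⟨f₀, fun _ h' => h2 (herm_comm_zero hF h'), h1⟩
      · exact ⟨0, fun h' => absurd h h', map_zero' hF hb⟩
    have hdim : 3 ≤ finrank F (hperp q (Submodule.span F {p, f₀})) := by
      rw [finrank_hperp hF]
      classical
      have := finrank_span_finset_le_card (R := F) ({p, f₀} : Finset (Fin n → F))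
      rw [Finset.coe_pair] at this
      have hle : finrank F (Submodule.span F ({p, f₀} : Set (Fin n → F))) ≤ 2 :=
        this.trans Finset.card_le_two
      omega
    obtain ⟨e, he, he1, he2, he3⟩ :=
      exists_fix_isotropic hF hb (stable_pair hF hb hp hf₀.2) hdim
    rw [mem_hperp_pair hF] at he
    refine ⟨e, mem_hperp_single.2 he.1, he1, he2, he3, fun h => he2 ?_⟩
    obtain ⟨c, rfl⟩ := Submodule.mem_span_singleton.1 h
    by_cases h0 : p = 0
    · rw [h0, smul_zero]
    · have := he.2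
      rw [herm_smul_left, mul_eq_zero] at this
      rw [this.resolve_right (hf₀.1 h0), zero_smul]
  obtain ⟨w₀, hw₀p, hw₀⟩ := exists_perp_not_orth hF he₀p
  obtain ⟨f₁, hf₁S, hf₁, hf₁₁, hf₁e⟩ := exists_fix_partner hF hb hSs he₀S he₀ he₀₀
    ⟨w₀, mem_hperp_single.2 hw₀p, hw₀⟩
  -- a fixed isotropic vector seeing the defect
  obtain ⟨z, hzS, hz, hzz, hzd⟩ : ∃ z ∈ S, bar z = z ∧ herm q z z = 0 ∧ herm q z d ≠ 0 := by
    by_contra hc
    push Not at hc
    apply hy₀
    have hker : Submodule.span F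
        {z | z ∈ S ∧ bar z = z ∧ herm q z z = 0 ∧ (herm q z e₀ ≠ 0 ∨ z = e₀)} ≤
        LinearMap.ker (hermL q d) := Submodule.span_le.2 fun z hz =>
      LinearMap.mem_ker.2 (hc z hz.1 hz.2.1 hz.2.2.1)
    exact LinearMap.mem_ker.1 (hker
      (le_span_fix_isotropic hF hb hSs he₀S hf₁S he₀ hf₁ he₀₀ hf₁₁ hf₁e
        (mem_hperp_single.2 hy₀p)))
  have hzp : herm q z p = 0 := mem_hperp_single.1 hzS
  have hα : herm q x z ^ q ≠ herm q x z := fun h => hzd (herm_comm_zero hF (by
    rw [hd, herm_sub_left, herm_smul_left, herm_bar_left hF hb, hz, h, sub_self]))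
  have hzline := line_mem hF hb hK (by omega) hpp hp hzz hz hzp hx hα
  have hzp' : z ∉ F ∙ p := fun h => hzd (by
    obtain ⟨c, rfl⟩ := Submodule.mem_span_singleton.1 h
    rw [herm_smul_left, herm_comm_zero hF hdp, mul_zero])
  obtain ⟨w₁, hw₁p, hw₁⟩ := exists_perp_not_orth hF hzp'
  obtain ⟨f, hfS, hf, hff, hfz⟩ := exists_fix_partner hF hb hSs hzS hz hzz
    ⟨w₁, mem_hperp_single.2 hw₁p, hw₁⟩
  let N : Submodule F (Fin n → F) :=
    { carrier := {v | ∀ c : F, c • v ∈ uniParams hF hpp M}
      zero_mem' := fun c => by rw [smul_zero]; exact zero_mem _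
      add_mem' := fun ha hb' c => by rw [smul_add]; exact add_mem (ha c) (hb' c)
      smul_mem' := fun a v hv c => by rw [smul_smul]; exact hv _ }
  have hle : S ≤ N := by
    refine (le_span_fix_isotropic hF hb hSs hzS hfS hz hf hzz hff hfz).trans
      (Submodule.span_le.2 ?_)
    rintro u ⟨huS, hu, huu, huz | rfl⟩
    · intro c
      obtain ⟨a, ha⟩ := exists_qConj_moved hF
      rw [qConj_apply] at ha
      refine line_mem hF hb hK (by omega) hpp hp huu hu (mem_hperp_single.1 huS)
        (hzline (a / herm q z u)) ?_ c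
      have hzu : herm q z u ≠ 0 := fun h => huz (herm_comm_zero hF h)
      rwa [herm_smul_left, div_mul_cancel₀ _ hzu]
    · exact hzline
  simpa using hle (mem_hperp_single.2 hv) 1

omit hK

lemma exists_fix_partner_top {p : Fin n → F} (hp : bar p = p) (hpp : herm q p p = 0)
    (hp0 : p ≠ 0) : ∃ f, bar f = f ∧ herm q f f = 0 ∧ herm q f p ≠ 0 := by
  obtain ⟨y, hy⟩ : ∃ y, herm q y p ≠ 0 := by
    by_contra hc
    push Not at hc
    exact hp0 (hF.eq_zero_of_herm p fun w => herm_comm_zero hF (hc w))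
  obtain ⟨f, -, h⟩ := exists_fix_partner hF hb (S := ⊤) (fun _ _ => trivial) trivial hp hpp
    ⟨y, trivial, hy⟩
  exact ⟨f, h⟩

lemma finrank_span_pair_le (p e : Fin n → F) :
    finrank F (Submodule.span F ({p, e} : Set (Fin n → F))) ≤ 2 := by
  classical
  have := finrank_span_finset_le_card (R := F) ({p, e} : Finset (Fin n → F))
  rw [Finset.coe_pair] at this
  exact this.trans Finset.card_le_two

lemma exists_fix_orth (hn : 5 ≤ n) {p : Fin n → F} (hp : bar p = p) (hpp : herm q p p = 0)
    (hp0 : p ≠ 0) :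
    ∃ e, bar e = e ∧ herm q e e = 0 ∧ herm q e p = 0 ∧ e ≠ 0 ∧ e ∉ F ∙ p := by
  obtain ⟨f, hf, -, hfp⟩ := exists_fix_partner_top hF hb hp hpp hp0
  have hd := finrank_span_pair_le hF hb p f
  obtain ⟨e, he, he1, he2, he3⟩ := exists_fix_isotropic hF hb (stable_pair hF hb hp hf)
    (by rw [finrank_hperp hF]; omega)
  rw [mem_hperp_pair hF] at he
  refine ⟨e, he1, he3, he.1, he2, fun h => he2 ?_⟩
  obtain ⟨c, rfl⟩ := Submodule.mem_span_singleton.1 h
  have := he.2
  rw [herm_smul_left, mul_eq_zero] at this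
  rw [this.resolve_right fun h' => hfp (herm_comm_zero hF h'), zero_smul]

/-- A linear map commuting with enough rational unipotent elements at `p` has `p` as eigenvector. -/
lemma eig_of_commute {p : Fin n → F} (hp : bar p = p) (hpp : herm q p p = 0) (hp0 : p ≠ 0)
    {S : Submodule F (Fin n → F)} (hS : IsBarStable bar S) (hSp : S ≤ hperp q (F ∙ p))
    (hdim : 3 ≤ finrank F S) {L : (Fin n → F) →ₗ[F] (Fin n → F)}
    (hL : ∀ (x : Fin n → F) (a : F) (hc : UniCond q p x a), x ∈ S → bar x = ε • x →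
      a ^ q = ε * a → ∀ w, L ((uni hF hc).1 w) = (uni hF hc).1 (L w)) :
    ∃ μ : F, L p = μ • p := by
  obtain ⟨c₀, hc₀0, hc₀⟩ := exists_scalar hF hb
  have key : ∀ v ∈ S, bar v = v → v ∉ F ∙ p → L p ∈ Submodule.span F {p, v} := by
    intro v hvS hvb hvp
    have hv : herm q v p = 0 := mem_hperp_single.1 (hSp hvS)
    have hx : bar (c₀ • v) = ε • (c₀ • v) := bar_scalar_smul hF hb hc₀ hvb
    obtain ⟨a, ha, ha'⟩ := hb.lift _ hx
    have hc : UniCond q p (c₀ • v) a := ⟨hpp, by rw [herm_smul_left, hv, mul_zero], ha'⟩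
    obtain ⟨w, hwp, hwv⟩ := exists_perp_not_orth hF hvp
    have h := hL _ a hc (S.smul_mem _ hvS) hx ha w
    rw [uni_apply, uni_apply, hwp, zero_smul, add_zero, mul_zero, zero_sub, map_add, map_smul,
      neg_smul, add_assoc, add_right_inj, neg_eq_iff_eq_neg] at h
    have hne : herm q w (c₀ • v) ≠ 0 := by
      rw [herm_smul_right]; exact mul_ne_zero (pow_ne_zero _ hc₀0) hwv
    rw [← inv_smul_smul₀ hne (L p), h]
    refine Submodule.smul_mem _ _ (neg_mem (add_mem ?_ ?_))
    · exact Submodule.smul_mem _ _ (Submodule.smul_mem _ _ (Submodule.subset_span (by simp)))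
    · exact Submodule.smul_mem _ _ (Submodule.subset_span (by simp))
  obtain ⟨v₁, hv₁S, hv₁, hv₁p⟩ := exists_fix_not_mem hF hb hS (N := F ∙ p) fun h => by
    have := Submodule.finrank_mono h
    rw [finrank_span_singleton hp0] at this
    omega
  obtain ⟨v₂, hv₂S, hv₂, hv₂p⟩ := exists_fix_not_mem hF hb hS
    (N := Submodule.span F {p, v₁}) fun h => by
    have := (Submodule.finrank_mono h).trans (finrank_span_pair_le hF hb p v₁)
    omega
  obtain ⟨a₁, b₁, h₁⟩ := Submodule.mem_span_pair.1 (key v₁ hv₁S hv₁ hv₁p)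
  obtain ⟨a₂, b₂, h₂⟩ := Submodule.mem_span_pair.1 (key v₂ hv₂S hv₂
    fun h => hv₂p (Submodule.span_mono (by simp) h))
  by_cases hb₂ : b₂ = 0
  · exact ⟨a₂, by rw [← h₂, hb₂, zero_smul, add_zero]⟩
  · refine absurd ?_ hv₂p
    have h3 : b₂ • v₂ = (a₁ - a₂) • p + b₁ • v₁ := by
      rw [sub_smul, sub_add_eq_add_sub, h₁, ← h₂, add_sub_cancel_left]
    rw [← inv_smul_smul₀ hb₂ v₂, h3]
    exact Submodule.smul_mem _ _ (Submodule.mem_span_pair.2 ⟨_, _, rfl⟩)

/-- A linear map with all rational isotropic vectors as eigenvectors is a scalar. -/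
lemma eq_smul_of_eig (hn : 5 ≤ n) {L : (Fin n → F) →ₗ[F] (Fin n → F)}
    (heig : ∀ p, bar p = p → herm q p p = 0 → ∃ μ : F, L p = μ • p) : ∃ μ : F, ∀ w, L w = μ • w := by
  have hrel : ∀ p e, bar p = p → herm q p p = 0 → bar e = e → herm q e e = 0 → herm q e p = 0 →
      p ≠ 0 → e ∉ F ∙ p → ∀ μ ν : F, L p = μ • p → L e = ν • e → μ = ν := by
    intro p e hp hpp he hee hep hp0 hnep μ ν hμ hν
    obtain ⟨l, hl⟩ := heig (p + e) (by rw [hb.add, hp, he]) (by
      rw [herm_add_left, hF.herm_add_right, hF.herm_add_right, hpp, hee, hep,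
        herm_comm_zero hF hep]
      ring)
    rw [map_add, hμ, hν, smul_add] at hl
    have h : (l - ν) • e = (μ - l) • p := by
      rw [sub_smul, sub_smul, sub_eq_sub_iff_add_eq_add, add_comm (l • e), ← hl]
    rcases eq_or_ne (l - ν) 0 with h0 | h0
    · rw [h0, zero_smul] at h
      have := (smul_eq_zero.1 h.symm).resolve_right hp0
      linear_combination this + h0
    · refine absurd ?_ hnep
      rw [← inv_smul_smul₀ h0 e, h]
      exact Submodule.smul_mem _ _ (Submodule.smul_mem _ _ (Submodule.mem_span_singleton_self p))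
  obtain ⟨p, -, hp, hp0, hpp⟩ := exists_fix_isotropic hF hb (S := ⊤) (fun _ _ => trivial)
    (by rw [finrank_top, Module.finrank_fin_fun]; omega)
  obtain ⟨f, hf, hff, hfp⟩ := exists_fix_partner_top hF hb hp hpp hp0
  obtain ⟨e, he, hee, hep, he0, hnep⟩ := exists_fix_orth hF hb hn hp hpp hp0
  obtain ⟨w, hwp, hwe⟩ := exists_perp_not_orth hF hnep
  obtain ⟨g, hgS, hg, hgg, hge⟩ := exists_fix_partner hF hb (stable_single hF hb hp)
    (mem_hperp_single.2 hep) he hee ⟨w, mem_hperp_single.2 hwp, hwe⟩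
  obtain ⟨μ, hLp⟩ := heig p hp hpp
  have hgen : ∀ z, bar z = z → herm q z z = 0 → herm q z p = 0 → z ∉ F ∙ p → L z = μ • z := by
    intro z hz hzz hzp hnz
    obtain ⟨ν, hν⟩ := heig z hz hzz
    rw [hν, hrel p z hp hpp hz hzz hzp hp0 hnz μ ν hLp hν]
  have hμ : L f = μ • f := by
    obtain ⟨r, hr, hr1, hr0, hrr⟩ := exists_fix_isotropic hF hb (stable_pair hF hb hp hf)
      (by have := finrank_span_pair_le hF hb p f; rw [finrank_hperp hF]; omega)
    rw [mem_hperp_pair hF] at hr
    have hnrp : r ∉ F ∙ p := fun h => hr0 (by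
      obtain ⟨c, rfl⟩ := Submodule.mem_span_singleton.1 h
      have := hr.2
      rw [herm_smul_left, mul_eq_zero] at this
      rw [this.resolve_right fun h' => hfp (herm_comm_zero hF h'), zero_smul])
    have hnrf : r ∉ F ∙ f := fun h => hr0 (by
      obtain ⟨c, rfl⟩ := Submodule.mem_span_singleton.1 h
      have := hr.1
      rw [herm_smul_left, mul_eq_zero] at this
      rw [this.resolve_right hfp, zero_smul])
    have hf0 : f ≠ 0 := fun h => hfp (by rw [h, herm_zero_left])
    obtain ⟨ν, hν⟩ := heig f hf hff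
    rw [hν, hrel f r hf hff hr1 hrr hr.2 hf0 hnrf ν μ hν (hgen r hr1 hrr hr.1 hnrp)]
  have hSle : hperp q (F ∙ p) ≤ LinearMap.ker (L - μ • LinearMap.id) :=
    (le_span_fix_isotropic hF hb (stable_single hF hb hp) (mem_hperp_single.2 hep) hgS he hg hee hgg
      hge).trans (Submodule.span_le.2 fun z hz => by
      obtain ⟨hzS, hz, hzz, -⟩ := hz
      simp only [SetLike.mem_coe, LinearMap.mem_ker, LinearMap.sub_apply, LinearMap.smul_apply,
        LinearMap.id_apply, sub_eq_zero]
      by_cases hnz : z ∈ F ∙ p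
      · obtain ⟨c, rfl⟩ := Submodule.mem_span_singleton.1 hnz
        rw [map_smul, hLp, smul_comm]
      · exact hgen z hz hzz (mem_hperp_single.1 hzS) hnz)
  refine ⟨μ, fun w => ?_⟩
  have h := hSle (mem_hperp_single.2 (show herm q (w - (herm q w p / herm q f p) • f) p = 0 by
    rw [herm_sub_left, herm_smul_left, div_mul_cancel₀ _ hfp, sub_self]))
  simp only [LinearMap.mem_ker, LinearMap.sub_apply, LinearMap.smul_apply, LinearMap.id_apply,
    map_sub, map_smul, hμ, sub_eq_zero] at h
  rw [sub_self, smul_zero, sub_eq_zero] at h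
  exact h

/-- The unipotent element with a prescribed value on a partner. -/
lemma exists_uni_map {p f v : Fin n → F} (hpp : herm q p p = 0) (hff : herm q f f = 0)
    (hvv : herm q v v = 0) (hfp : herm q f p ≠ 0) (hvp : herm q v p = herm q f p) :
    ∃ (x : Fin n → F) (a : F) (h : UniCond q p x a), (uni hF h).1 f = v := by
  set c := herm q f p with hc
  have hcq : c ^ q ≠ 0 := pow_ne_zero _ hfp
  have hx : herm q f (c⁻¹ • (v - f)) = (c ^ q)⁻¹ * herm q f v := by
    rw [herm_smul_right, hF.herm_sub_right, hff, sub_zero, inv_pow]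
  have hcond : UniCond q p (c⁻¹ • (v - f)) (herm q f (c⁻¹ • (v - f)) / c) := by
    refine ⟨hpp, ?_, ?_⟩
    · rw [herm_smul_left, herm_sub_left, hvp, sub_self, mul_zero]
    · rw [hx, div_pow, mul_pow, inv_pow, hF.pow_pow, hF.herm_symm f v]
      simp only [herm_smul_left, herm_smul_right, herm_sub_left, hF.herm_sub_right, hff, hvv,
        inv_pow]
      field_simp
      ring
  refine ⟨_, _, hcond, ?_⟩
  rw [uni_apply hF hcond f, ← hc, div_mul_cancel₀ _ hfp, sub_self, zero_smul, add_zero,
    smul_inv_smul₀ hfp, add_sub_cancel]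

/-- An element fixing a rational pair and preserving the rational vectors orthogonal to it. -/
lemma barComm_of_pair {k : UG n F q} {p f : Fin n → F} (hp : bar p = p) (hf : bar f = f)
    (hpp : herm q p p = 0) (hff : herm q f f = 0) (hfp : herm q f p ≠ 0)
    (hkp : k.1 p = p) (hkf : k.1 f = f)
    (hk : ∀ y, herm q y p = 0 → herm q y f = 0 → bar y = ε • y → bar (k.1 y) = ε • k.1 y) :
    BarComm bar k := by
  obtain ⟨c, hc0, hc⟩ := exists_scalar hF hb
  let E : Submodule F (Fin n → F) :=
    { carrier := {w | bar (k.1 w) = k.1 (bar w)}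
      zero_mem' := by simp [map_zero' hF hb]
      add_mem' := fun {a b} (ha : bar _ = _) (hb' : bar _ = _) => by
        show bar _ = _
        rw [map_add, hb.add, hb.add, map_add, ha, hb']
      smul_mem' := fun a w (hw : bar _ = _) => by
        show bar _ = _
        rw [map_smul, hb.smul, hb.smul, map_smul, hw] }
  have hpE : p ∈ E := by show bar _ = _; rw [hkp, hp, hkp]
  have hfE : f ∈ E := by show bar _ = _; rw [hkf, hf, hkf]
  have hT : hperp q (Submodule.span F {p, f}) ≤ E := by
    refine (mem_span_fix hF hb (stable_pair hF hb hp hf)).trans (Submodule.span_le.2 fun y hy => ?_)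
    obtain ⟨hyT, hy⟩ := hy
    rw [mem_hperp_pair hF] at hyT
    have := hk (c • y) (by rw [herm_smul_left, hyT.1, mul_zero])
      (by rw [herm_smul_left, hyT.2, mul_zero]) (bar_scalar_smul hF hb hc hy)
    rw [map_smul, hb.smul, hc, smul_smul] at this
    show bar _ = _
    rw [hy]
    exact smul_right_injective _ (mul_ne_zero (eps_ne hF hb) hc0) this
  intro w
  show w ∈ E
  set α := herm q w p / herm q f p
  set β := herm q w f / herm q p f
  have hpf : herm q p f ≠ 0 := fun h => hfp (herm_comm_zero hF h)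
  have hmem : w - α • f - β • p ∈ E := hT ((mem_hperp_pair hF).2 ⟨by
    rw [herm_sub_left, herm_sub_left, herm_smul_left, herm_smul_left, hpp,
      div_mul_cancel₀ _ hfp]; ring, by
    rw [herm_sub_left, herm_sub_left, herm_smul_left, herm_smul_left, hff,
      div_mul_cancel₀ _ hpf]; ring⟩)
  have := E.add_mem (E.add_mem hmem (E.smul_mem β hpE)) (E.smul_mem α hfE)
  simpa [sub_add_cancel] using this

/-- Overgroups of the centraliser of the involution not respecting it contain the whole of `SU`. -/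
theorem SUG_le_of_ratStr (hn : 6 ≤ n) (hK : ∀ g ∈ SUG n F q, BarComm bar g → g ∈ M)
    (hne : ∃ g ∈ M, ∀ μ : F, ∃ w, bar (g.1 w) ≠ μ • g.1 (bar w)) : SUG n F q ≤ M := by
  suffices h : ∃ p : Fin n → F, bar p = p ∧ p ≠ 0 ∧ ∃ hpp : herm q p p = 0,
      ∃ x ∈ uniParams hF hpp M, bar x - ε • x ∉ F ∙ p by
    obtain ⟨p, hp, hp0, hpp, x, hx, hnew⟩ := h
    obtain ⟨e, he, hee, hep, -, hnep⟩ := exists_fix_orth hF hb (by omega) hp hpp hp0
    obtain ⟨w, hwp, hwe⟩ := exists_perp_not_orth hF hnep
    have hcen : p ∈ uniCentres hF M := mem_uniCentres_of_params hF hpp hep hwp hwe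
      fun v hv => params_eq_perp hF hb hK (by omega) hpp hp hx hnew hv
    obtain ⟨f, hf, hff, hfp⟩ := exists_fix_partner_top hF hb hp hpp hp0
    have hpf : herm q p f ≠ 0 := fun h => hfp (herm_comm_zero hF h)
    obtain ⟨y, b, hyp, hyf, hy, hbq, hby, hb0⟩ : ∃ (y : Fin n → F) (b : F),
        herm q y p = 0 ∧ herm q y f = 0 ∧ bar y = ε • y ∧ b ^ q = ε * b ∧
        b + b ^ q + herm q y y = 0 ∧ b ≠ 0 := by
      rcases hb.sign with ⟨hε, h2⟩ | hε
      · obtain ⟨y₁, hy₁, y₂, hy₂, hb₁, hb₂, h12⟩ := exists_twist_pair hF hb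
          (stable_pair hF hb hp hf) (exists_not_orth_perp hF (by
            have := finrank_span_pair_le hF hb p f
            omega))
        rw [mem_hperp_pair hF] at hy₁ hy₂
        obtain ⟨y, hyp, hyf, hy, hyy⟩ : ∃ y, herm q y p = 0 ∧ herm q y f = 0 ∧ bar y = ε • y ∧
            herm q y y ≠ 0 := by
          by_contra hc
          push Not at hc
          have h11 := hc y₁ hy₁.1 hy₁.2 hb₁
          have h22 := hc y₂ hy₂.1 hy₂.2 hb₂
          have h3 := hc (y₁ + y₂) (by rw [herm_add_left, hy₁.1, hy₂.1, add_zero])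
            (by rw [herm_add_left, hy₁.2, hy₂.2, add_zero]) (by rw [hb.add, hb₁, hb₂, smul_add])
          have h21 : herm q y₁ y₂ = herm q y₂ y₁ := by
            rw [← hF.herm_symm, herm_twist hF hb hb₂ hb₁, hε, one_mul]
          simp only [herm_add_left, hF.herm_add_right, h11, h22, h21, zero_add, add_zero,
            ← two_mul] at h3
          exact h12 ((mul_eq_zero.1 h3).resolve_left h2)
        obtain ⟨b, hbq, hby⟩ := hb.lift y hy
        refine ⟨y, b, hyp, hyf, hy, hbq, hby, fun h0 => hyy ?_⟩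
        rw [h0, zero_pow hF.q_ne_zero] at hby
        linear_combination hby
      · obtain ⟨d, hd0, hd⟩ := hF.exists_skew
        exact ⟨0, d, herm_zero_left _, herm_zero_left _, by rw [map_zero' hF hb, smul_zero],
          by rw [hd, hε]; ring, by rw [hd, herm_zero_left]; ring, hd0⟩
    have hc : UniCond q f y b := ⟨hff, hyf, hby⟩
    refine SUG_le_of_uniCentre_pair hF (by omega) hcen
      (map_mem_uniCentres hF hcen (uni_mem hF hb hK hf hc hy hbq)) fun h => ?_
    rw [uni_apply, hF.herm_add_right, hF.herm_add_right, herm_smul_right, herm_smul_right, hpp,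
      herm_comm_zero hF hyp, hF.sub_pow, mul_pow] at h
    simp [hF.q_ne_zero, hb0, hpf, hfp, pow_eq_zero_iff] at h
  obtain ⟨g, hgM, hg⟩ := hne
  -- a conjugate of a rational element which is not rational, fixing a rational isotropic vector
  obtain ⟨P', X', a', hcond, huM, huK, p, hp, hp0, hpp, hpP, hpX⟩ : ∃ (P' X' : Fin n → F) (a' : F)
      (h : UniCond q P' X' a'), uni hF h ∈ M ∧ ¬ BarComm bar (uni hF h) ∧
        ∃ p, bar p = p ∧ p ≠ 0 ∧ herm q p p = 0 ∧ herm q p P' = 0 ∧ herm q p X' = 0 := by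
    by_contra hc
    let L : (Fin n → F) →ₗ[F] (Fin n → F) :=
      { toFun := fun w => g.1.symm (bar (g.1 (bar w)))
        map_add' := fun a b => by rw [hb.add, map_add, hb.add, map_add]
        map_smul' := fun a w => by
          rw [RingHom.id_apply, hb.smul, map_smul, hb.smul, hF.pow_pow, map_smul] }
    obtain ⟨μ, hμ⟩ := eq_smul_of_eig hF hb (by omega) (L := L) fun p hp hpp => by
      classical
      rcases eq_or_ne p 0 with rfl | hp0
      · exact ⟨0, by simp⟩
      obtain ⟨p', hp'S, hp', hp'0, hp'p'⟩ := exists_fix_isotropic hF hb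
        (S := hperp q (Submodule.span F ({g.1 p, bar (g.1 p)} : Set (Fin n → F))))
        (stable_hperp hF hb (stable_span hF hb fun x hx => Submodule.subset_span (by
          rcases hx with rfl | rfl <;> simp [hb.invol])))
        (by
          have := finrank_span_pair_le hF hb (g.1 p) (bar (g.1 p))
          rw [finrank_hperp hF]
          omega)
      set v := g.1.symm p' with hv
      have hgv : g.1 v = p' := g.1.apply_symm_apply p'
      have hpv : herm q p v = 0 := by
        rw [← UG_app g p v, hgv]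
        exact herm_comm_zero hF (hp'S _ (Submodule.subset_span (by simp)))
      set S := hperp q (Submodule.span F ({p, v, bar v} : Set (Fin n → F))) with hS
      refine eig_of_commute hF hb hp hpp hp0 (S := S)
        (stable_hperp hF hb (stable_span hF hb fun x hx => Submodule.subset_span (by
          rcases hx with rfl | rfl | rfl <;> simp [hb.invol, hp])))
        (fun z hz => mem_hperp_single.2 (hz p (Submodule.subset_span (by simp))))
        (by
          have h3 := finrank_span_finset_le_card (R := F) ({p, v, bar v} : Finset (Fin n → F))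
          simp only [Finset.coe_insert, Finset.coe_singleton] at h3
          have h3' : finrank F (Submodule.span F ({p, v, bar v} : Set (Fin n → F))) ≤ 3 :=
            h3.trans Finset.card_le_three
          rw [hS, finrank_hperp hF]
          omega) fun x a hpx hxS hx ha w => ?_
      have h1 := uni_barComm hF hb hp hpx hx ha
      have hmem := mul_mem (mul_mem hgM (uni_mem hF hb hK hp hpx hx ha)) (inv_mem hgM)
      rw [uni_conj] at hmem
      have h2 : BarComm bar (uni hF (show UniCond q (g.1 p) (g.1 x) a from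
          ⟨by rw [UG_app]; exact hpx.1, by rw [UG_app]; exact hpx.2.1,
            by rw [UG_app]; exact hpx.2.2⟩)) := by
        by_contra h
        refine hc ⟨_, _, _, _, hmem, h, p', hp', hp'0, hp'p', ?_, ?_⟩
        · rw [← hgv, UG_app, herm_comm_zero hF hpv]
        · rw [← hgv, UG_app]
          exact herm_comm_zero hF (hxS v (Submodule.subset_span (by simp)))
      rw [← uni_conj hF g hpx] at h2
      have h3 : ∀ v, (g * uni hF hpx * g⁻¹).1 v = g.1 ((uni hF hpx).1 (g.1.symm v)) :=
        fun v => rfl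
      have h4 := h2 (g.1 (bar w))
      rw [h3, h3, LinearEquiv.symm_apply_apply] at h4
      show g.1.symm (bar (g.1 (bar _))) = _
      rw [h1, h4, LinearEquiv.symm_apply_apply]
      rfl
    obtain ⟨w, hw⟩ := hg μ
    apply hw
    have := congrArg g.1 (hμ (bar w))
    rw [map_smul] at this
    simp only [L, LinearMap.coe_mk, AddHom.coe_mk, LinearEquiv.apply_symm_apply, hb.invol] at this
    exact this
  set u := uni hF hcond with hu
  have hup : u.1 p = p := by rw [hu, uni_apply, hpP, hpX]; simp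
  by_contra hcon
  have hold : ∀ q' : Fin n → F, bar q' = q' → q' ≠ 0 → ∀ (hq' : herm q q' q' = 0),
      ∀ x ∈ uniParams hF hq' M, bar x - ε • x ∈ F ∙ q' := fun q' h1 h2 h3 x hx => by
    by_contra h
    exact hcon ⟨q', h1, h2, h3, x, hx, h⟩
  obtain ⟨f, hf, hff, hfp⟩ := exists_fix_partner_top hF hb hp hpp hp0
  obtain ⟨x, a, hz, hzf⟩ := exists_uni_map hF hb hpp hff
    (show herm q (u.1 f) (u.1 f) = 0 by rw [UG_app, hff]) hfp
    (show herm q (u.1 f) p = herm q f p by conv_lhs => rw [← hup, UG_app])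
  set z := uni hF hz with hzdef
  have hzp : z.1 p = p := by
    rw [hzdef, uni_apply, hpp, herm_comm_zero hF hz.2.1]; simp
  set k := z⁻¹ * u with hk
  have hkz : ∀ v, z.1 (k.1 v) = u.1 v := fun v => by
    show z.1 (z.1.symm (u.1 v)) = _
    rw [LinearEquiv.apply_symm_apply]
  have hkp : k.1 p = p := z.1.injective (by rw [hkz, hup, hzp])
  have hkf : k.1 f = f := z.1.injective (by rw [hkz, hzf])
  have hkK : BarComm bar k := barComm_of_pair hF hb hp hf hpp hff hfp hkp hkf fun y hyp hyf hy => by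
    have hkyp : herm q (k.1 y) p = 0 := by rw [← hkp, UG_app, hyp]
    have hkyf : herm q (k.1 y) f = 0 := by rw [← hkf, UG_app, hyf]
    have hmem := hold p hp hp0 hpp _
      (map_mem_uniParams hF hpp (twist_mem hF hb hK hpp hp hyp hy) huM hup)
    rw [← hkz, hzdef, uni_apply, hkyp, zero_smul, add_zero, mul_zero, zero_sub, hb.add, hb.smul,
      hp] at hmem
    obtain ⟨r, hr⟩ := Submodule.mem_span_singleton.1 hmem
    set s := -herm q (k.1 y) x
    have h5 : bar (k.1 y) - ε • k.1 y = (r - s ^ q + ε * s) • p := by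
      rw [add_smul, sub_smul, hr]
      module
    have h6 := congrArg (fun v => herm q v f) h5
    simp only [herm_sub_left, herm_smul_left, herm_bar_left hF hb, hf, hkyf,
      zero_pow hF.q_ne_zero, mul_zero, sub_zero] at h6
    rw [(mul_eq_zero.1 h6.symm).resolve_right fun h => hfp (herm_comm_zero hF h), zero_smul,
      sub_eq_zero] at h5
    exact h5
  have hkM : k ∈ M := hK k (mul_mem (inv_mem (det_uni hF hz)) (det_uni hF hcond)) hkK
  have hzM : z ∈ M := by
    have := mul_mem huM (inv_mem hkM)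
    rwa [hk, _root_.mul_inv_rev, inv_inv, mul_inv_cancel_left] at this
  have hznot : ¬ BarComm bar z := fun h => huK fun w => by
    rw [← hkz, ← hkz, h, hkK]
  obtain ⟨s, hs⟩ := Submodule.mem_span_singleton.1 (hold p hp hp0 hpp x ⟨a, hz, hzM⟩)
  -- correct `x` to a rational vector
  have hsq : s ^ q = -(ε * s) := by
    have h7 := congrArg bar hs
    rw [hb.smul, hp, map_sub' hF hb, hb.invol, hb.smul, eps_pow hF hb] at h7
    refine smul_left_injective F hp0 ?_
    show (s ^ q) • p = (-(ε * s)) • p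
    rw [h7, neg_smul, mul_smul, hs, smul_sub, smul_smul, eps_sq hF hb, one_smul]
    abel
  obtain ⟨t, ht⟩ := hF.exists_trace (c := 1) (one_pow q)
  set r := ε * t * s with hr
  set x' := x + r • p with hx'
  have hx'b : bar x' = ε • x' := by
    rw [hx', hb.add, hb.smul, hp, smul_add, smul_smul,
      show bar x = ε • x + s • p by rw [hs]; abel, add_assoc, ← add_smul]
    congr 2
    rw [hr, mul_pow, mul_pow, hsq, eps_pow hF hb]
    linear_combination -s * ht + (-t ^ q * s - t * s) * eps_sq hF hb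
  obtain ⟨a₀, ha₀, ha₀'⟩ := hb.lift x' hx'b
  have hc' : UniCond q p x' a₀ := ⟨hpp, by
    rw [hx', herm_add_left, herm_smul_left, hz.2.1, hpp]; ring, ha₀'⟩
  have hkappa := uni_mem hF hb hK hp hc' hx'b ha₀
  set δ := a - r + r ^ q - a₀ with hδ
  have hxp' : herm q p x = 0 := herm_comm_zero hF hz.2.1
  have hxx : herm q x' x' = herm q x x := by
    simp only [hx', herm_add_left, hF.herm_add_right, herm_smul_left, herm_smul_right, hpp,
      hz.2.1, hxp']
    ring
  have hδq : δ ^ q = -δ := by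
    rw [hδ, hF.sub_pow, hF.add_pow, hF.sub_pow, hF.pow_pow]
    linear_combination hz.2.2 - ha₀' + hxx
  have ht' : TrvCond q p δ := trvCond_mk hpp hδq
  have hprod : trv hF ht' * uni hF hc' = z := by
    refine Subtype.ext (LinearEquiv.ext fun w => ?_)
    rw [Subgroup.coe_mul, LinearEquiv.mul_apply, trv_apply, uni_apply, hzdef, uni_apply]
    simp only [hδ, hx', herm_add_left, hF.herm_add_right, herm_smul_left, herm_smul_right, hpp,
      hz.2.1]
    match_scalars <;> ring
  have htM : trv hF ht' ∈ M := by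
    rw [← eq_mul_inv_iff_mul_eq] at hprod
    rw [hprod]
    exact mul_mem hzM (inv_mem hkappa)
  have htnot : ¬ BarComm bar (trv hF ht') := fun h => hznot fun w => by
    rw [← hprod, Subgroup.coe_mul, LinearEquiv.mul_apply, LinearEquiv.mul_apply, h,
      uni_barComm hF hb hp hc' hx'b ha₀]
  rcases hb.sign with ⟨hε, h2⟩ | hε
  swap
  · exact htnot (uni_barComm hF hb hp _ (by rw [map_zero' hF hb, smul_zero])
      (by rw [hδq, hε, neg_one_mul]))
  have hδ0 : δ ≠ 0 := fun h => htnot (fun w => by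
    rw [trv_apply, trv_apply, h]; simp)
  obtain ⟨p₁, hp₁, hp₁₁, hp₁p, hp₁0, hnp₁⟩ := exists_fix_orth hF hb (by omega) hp hpp hp0
  have hnp : p ∉ F ∙ p₁ := fun h => hnp₁ (by
    obtain ⟨c, hc⟩ := Submodule.mem_span_singleton.1 h
    have hc0 : c ≠ 0 := fun h0 => hp0 (by rw [← hc, h0, zero_smul])
    exact Submodule.mem_span_singleton.2 ⟨c⁻¹, by rw [← hc, inv_smul_smul₀ hc0]⟩)
  obtain ⟨w, hwp₁, hwp⟩ := exists_perp_not_orth hF hnp
  obtain ⟨y, hyS, hy, hyp⟩ := exists_fix_ne hF hb (stable_single hF hb hp₁) (hermL q p)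
    ⟨w, mem_hperp_single.2 hwp₁, hwp⟩
  change herm q y p ≠ 0 at hyp
  have hy' : bar y = ε • y := by rw [hy, hε, one_smul]
  have hfix₁ : (trv hF ht').1 p₁ = p₁ := by rw [trv_apply, hp₁p]; simp
  have hmem := hold p₁ hp₁ hp₁0 hp₁₁ _ (map_mem_uniParams hF hp₁₁
    (twist_mem hF hb hK hp₁₁ hp₁ (mem_hperp_single.1 hyS) hy') htM hfix₁)
  rw [trv_apply, hb.add, hb.smul, hp, hy', mul_pow, hδq, herm_fix hF hb hy hp, hε] at hmem
  have h8 : (2 * δ * herm q y p) • p ∈ F ∙ p₁ := by
    convert neg_mem hmem using 1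
    module
  have hne : (2 : F) * δ * herm q y p ≠ 0 := mul_ne_zero (mul_ne_zero h2 hδ0) hyp
  rw [Submodule.smul_mem_iff _ hne] at h8
  exact hnp h8

end RatStr

end Cfsg.Agent.GeoClasses
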