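import Cfsg.Agent.GeoClasses.UnitSubfieldRat
import Cfsg.Agent.GeoClasses.UnitRealMaxMain
import Cfsg.Agent.GeoClasses.Descent

/-!
Transvection parameters inside an overgroup of a unitary group over a subfield.
-/

set_option autoImplicit false

namespace Cfsg.Agent.GeoClasses

open Matrix Cfsg.Geo Cfsg.Agent.Classical.U Cfsg.Agent.ClassicalMax Module
open scoped MatrixGroups Matrix

universe u

variable {F : Type u} [Field F] {n q : ℕ}

section

variable (hF : SqField F q) {M : Subgroup (UG n F q)}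
include hF

lemma trv_add {x : Fin n → F} {c d : F} (hc : TrvCond q x c) (hd : TrvCond q x d)
    (h : TrvCond q x (c + d)) : trv hF hc * trv hF hd = trv hF h := by
  refine Subtype.ext (LinearEquiv.ext fun w => ?_)
  rw [Subgroup.coe_mul, LinearEquiv.mul_apply, trv_apply, trv_apply, trv_apply, herm_add_left,
    herm_smul_left, hd.1]
  module

lemma trv_eq_one {x : Fin n → F} (h : TrvCond q x 0) : trv hF h = 1 := by
  refine Subtype.ext (LinearEquiv.ext fun w => ?_)
  simp [trv_apply]

/-- The parameters of the transvections of `M` at one centre. -/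
def trvParams (M : Subgroup (UG n F q)) {x : Fin n → F} (hxx : herm q x x = 0) : AddSubgroup F where
  carrier := {c | ∃ h : TrvCond q x c, trv hF h ∈ M}
  zero_mem' := by
    have h : TrvCond q x 0 := ⟨hxx, by simp [hF.q_ne_zero]⟩
    exact ⟨h, by rw [trv_eq_one hF h]; exact one_mem M⟩
  add_mem' := fun {c d} ⟨hc, hcM⟩ ⟨hd, hdM⟩ => by
    have h : TrvCond q x (c + d) := ⟨hxx, by rw [hF.add_pow, hc.2, hd.2]; ring⟩
    exact ⟨h, by rw [← trv_add hF hc hd h]; exact mul_mem hcM hdM⟩
  neg_mem' := fun {c} ⟨hc, hcM⟩ => by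
    have h : TrvCond q x (-c) := ⟨hxx, by rw [hF.neg_pow, hc.2]⟩
    have h0 : TrvCond q x (c + -c) := ⟨hxx, by simp [hF.q_ne_zero]⟩
    have e : trv hF hc * trv hF h = 1 := by
      rw [trv_add hF hc h h0]
      refine Subtype.ext (LinearEquiv.ext fun w => ?_)
      rw [trv_apply]; simp
    exact ⟨h, by rw [eq_inv_of_mul_eq_one_right e]; exact inv_mem hcM⟩

lemma mem_trvParams {x : Fin n → F} (hxx : herm q x x = 0) {c : F} :
    c ∈ trvParams hF M hxx ↔ ∃ h : TrvCond q x c, trv hF h ∈ M := Iff.rfl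

lemma trvParams_congr {x y : Fin n → F} {hxx : herm q x x = 0} {hyy : herm q y y = 0} (h : x = y)
    {c : F} (hc : c ∈ trvParams hF M hxx) : c ∈ trvParams hF M hyy := by
  subst h; exact hc

lemma trvParams_skew {x : Fin n → F} (hxx : herm q x x = 0) {c : F}
    (hc : c ∈ trvParams hF M hxx) : c ^ q = -c := by
  obtain ⟨h, -⟩ := hc
  exact h.2

lemma map_mem_trvParams {x : Fin n → F} (hxx : herm q x x = 0) {g : UG n F q} (hg : g ∈ M) {c : F}
    (hc : c ∈ trvParams hF M hxx) {y : Fin n → F} (hy : g.1 x = y) (hyy : herm q y y = 0) :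
    c ∈ trvParams hF M hyy := by
  obtain ⟨h, hM⟩ := hc
  have h' : TrvCond q y c := ⟨hyy, h.2⟩
  refine ⟨h', ?_⟩
  convert mul_mem (mul_mem hg hM) (inv_mem hg) using 1
  rw [trv, trv, uni_conj]
  exact uni_congr hF _ _ hy.symm (by simp) rfl

lemma smul_mem_trvParams {x : Fin n → F} (hxx : herm q x x = 0) {a c : F}
    (hax : herm q (a • x) (a • x) = 0) (hc : c ∈ trvParams hF M hax) :
    a * a ^ q * c ∈ trvParams hF M hxx := by
  obtain ⟨h, hM⟩ := hc
  have h' : TrvCond q x (a * a ^ q * c) := ⟨hxx, by rw [mul_pow, mul_pow, hF.pow_pow, h.2]; ring⟩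
  refine ⟨h', ?_⟩
  convert hM using 1
  refine Subtype.ext (LinearEquiv.ext fun w => ?_)
  rw [trv_apply, trv_apply, herm_smul_right]
  module

end

variable {F₀ : Subfield F} {R : Set (Fin n → F)} (hF : SqField F q) (hU : RatU q F₀ R)
  {M : Subgroup (UG n F q)}
  (hK : ∀ (v y : Fin n → F) (a : F) (h : UniCond q v y a), v ∈ R → y ∈ R → a ∈ F₀ → uni hF h ∈ M)
include hF hU hK

namespace RatU

lemma rat_param {v : Fin n → F} (hv : v ∈ R) (hvv : herm q v v = 0) {c : F} (hc : c ∈ F₀)
    (hcq : c ^ q = -c) : c ∈ trvParams hF M hvv :=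
  ⟨⟨hvv, hcq⟩, hK v 0 c _ hv hU.set.zero hc⟩

/-- Moving an isotropic vector to an orthogonal one with a rational element fixing a third. -/
lemma move_step {e f g : Fin n → F} (he : e ∈ R) (hf : f ∈ R) (hg : g ∈ R)
    (hee : herm q e e = 0) (hff : herm q f f = 0) (hef : herm q e f = 0) (hgg : herm q g g = 0)
    (heg : herm q e g = 1) (hfg : herm q f g = 1) :
    ∃ k ∈ M, k.1 e = f ∧ ∀ p, herm q p e = 0 → herm q p f = 0 → herm q p g = 0 → k.1 p = p := by
  have hfe : herm q f e = 0 := by rw [← hF.herm_symm, hef, zero_pow hF.q_ne_zero]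
  have hc : UniCond q g (f - e) 0 := ⟨hgg, by rw [herm_sub_left, hfg, heg, sub_self], by
    simp [herm_sub_left, hF.herm_sub_right, hee, hff, hef, hfe, hF.q_ne_zero]⟩
  refine ⟨_, hK g _ 0 hc hg (hU.set.sub hf he) (zero_mem _), ?_, fun p h1 h2 h3 => ?_⟩
  · rw [uni_apply, heg, hF.herm_sub_right, hee, hef]; simp
  · rw [uni_apply, h3, hF.herm_sub_right, h1, h2]; simp

/-- All non-zero isotropic rational vectors are moved to one another. -/
lemma move_any [Finite F] (hn : 4 ≤ n) {e f : Fin n → F} (he : e ∈ R) (hf : f ∈ R) (he0 : e ≠ 0)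
    (hf0 : f ≠ 0) (hee : herm q e e = 0) (hff : herm q f f = 0) : ∃ k ∈ M, k.1 e = f := by
  have one : ∀ a b : Fin n → F, a ∈ R → b ∈ R → a ≠ 0 → herm q a a = 0 → herm q b b = 0 →
      herm q a b = 0 → b ∉ F ∙ a → ∃ k ∈ M, k.1 a = b := by
    intro a b ha hb ha0 haa hbb hab hnb
    obtain ⟨y, hy, h⟩ := dual hF hU ![b, a] (by simp [Fin.forall_fin_two, ha, hb])
      (linearIndependent_fin2.2 ⟨ha0, fun c h => hnb (Submodule.mem_span_singleton.2 ⟨c, h⟩)⟩)
      ![1, 1] (by simp [Fin.forall_fin_two, one_mem])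
    have hyb : herm q y b = 1 := h 0
    have hya : herm q y a = 1 := h 1
    obtain ⟨τ, hτ, hτ'⟩ := exists_trace hF hU
    have hyy : (herm q y y) ^ q = herm q y y := hF.herm_symm y y
    have hay := eq_one_of_fixed_pair hF hya
    have hby := eq_one_of_fixed_pair hF hyb
    have hba : herm q b a = 0 := by rw [← hF.herm_symm, hab, zero_pow hF.q_ne_zero]
    obtain ⟨k, hk, hka, -⟩ := move_step hF hU hK ha hb
      (g := y + (-(τ * herm q y y)) • a)
      (hU.set.add hy (hU.set.smul (neg_mem (mul_mem hτ (hU.form hy hy))) ha)) haa hbb hab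
      (by
        simp only [herm_add_left, hF.herm_add_right, herm_smul_left, herm_smul_right, haa,
          hya, hay, hF.neg_pow, mul_pow, hyy]
        linear_combination -(herm q y y) * hτ')
      (by rw [hF.herm_add_right, herm_smul_right, haa, hay, mul_zero, add_zero])
      (by rw [hF.herm_add_right, herm_smul_right, hba, hby, mul_zero, add_zero])
    exact ⟨k, hk, hka⟩
  have sym0 : ∀ {u v : Fin n → F}, herm q u v = 0 → herm q v u = 0 := fun h => by
    rw [← hF.herm_symm, h, zero_pow hF.q_ne_zero]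
  -- two vectors that are not orthogonal, through a vector orthogonal to both
  have two : ∀ a b : Fin n → F, a ∈ R → b ∈ R → herm q a a = 0 → herm q b b = 0 →
      herm q a b ≠ 0 → ∃ k ∈ M, k.1 a = b := by
    intro a b ha hb haa hbb hab
    obtain ⟨z, hz, hz0, hzz, hzs⟩ := exists_iso_perp hF hU (k := 2) (by omega) ![a, b]
      (by simp [Fin.forall_fin_two, ha, hb])
    have hza : herm q z a = 0 := hzs 0
    have hzb : herm q z b = 0 := hzs 1
    have ha0 : a ≠ 0 := fun h => hab (by rw [h, herm_zero_left])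
    obtain ⟨k₁, hk₁, e₁⟩ := one a z ha hz ha0 haa hzz (sym0 hza) fun h => by
      obtain ⟨c, rfl⟩ := Submodule.mem_span_singleton.1 h
      rw [herm_smul_left] at hzb
      exact hz0 (by rw [(mul_eq_zero.1 hzb).resolve_right hab, zero_smul])
    obtain ⟨k₂, hk₂, e₂⟩ := one z b hz hb hz0 hzz hbb hzb fun h => by
      obtain ⟨c, rfl⟩ := Submodule.mem_span_singleton.1 h
      rw [herm_smul_right, sym0 hza, mul_zero] at hab
      exact hab rfl
    exact ⟨k₂ * k₁, mul_mem hk₂ hk₁, by rw [Subgroup.coe_mul, LinearEquiv.mul_apply, e₁, e₂]⟩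
  by_cases hef : herm q e f = 0
  · by_cases hfe : f ∈ F ∙ e
    · obtain ⟨c, rfl⟩ := Submodule.mem_span_singleton.1 hfe
      have hc0 : c ≠ 0 := fun h => hf0 (by rw [h, zero_smul])
      obtain ⟨g, hg, hgg, heg⟩ := exists_iso_partner hF hU he he0 hee
      obtain ⟨k₁, hk₁, e₁⟩ := two e g he hg hee hgg (by rw [heg]; exact one_ne_zero)
      obtain ⟨k₂, hk₂, e₂⟩ := two g (c • e) hg hf hgg hff (by
        rw [herm_smul_right, eq_one_of_fixed_pair hF heg, mul_one]; exact pow_ne_zero _ hc0)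
      exact ⟨k₂ * k₁, mul_mem hk₂ hk₁, by rw [Subgroup.coe_mul, LinearEquiv.mul_apply, e₁, e₂]⟩
    · exact one e f he hf he0 hee hff hef hfe
  · exact two e f he hf hee hff hef

/-- A transvection centred in a rational isotropic plane gives parameters at its rational points. -/
lemma plane_param [Finite F] (hn : 4 ≤ n) {p e : Fin n → F} (hp : p ∈ R) (hp0 : p ≠ 0)
    (hpp : herm q p p = 0) (he : e ∈ R) (hee : herm q e e = 0) (hep : herm q e p = 0)
    (hne : e ∉ F ∙ p) {a b d : F} (hyy : herm q (a • p + b • e) (a • p + b • e) = 0)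
    (hmem : d ∈ trvParams hF M hyy) : a * a ^ q * d ∈ trvParams hF M hpp := by
  have hpe : herm q p e = 0 := by rw [← hF.herm_symm, hep, zero_pow hF.q_ne_zero]
  have he0 : e ≠ 0 := fun h => hne (by rw [h]; exact zero_mem _)
  obtain ⟨τ, hτ, hτ'⟩ := exists_trace hF hU
  have hd := trvParams_skew hF hyy hmem
  -- the rational elements fixing `e` move `p` along `e`
  have hiso : ∀ c : F, herm q (a • p + c • e) (a • p + c • e) = 0 := fun c => by
    simp [herm_add_left, hF.herm_add_right, herm_smul_left, herm_smul_right, hpp, hee, hep, hpe]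
  have hG : ∀ s ∈ F₀, d ∈ trvParams hF M (hiso (b + a * s)) := by
    intro s hs
    obtain ⟨y, hy, hye, hyp⟩ := exists_perp_not_orth hF hU he he0 hp fun h => hne (by
      obtain ⟨c, hc⟩ := Submodule.mem_span_singleton.1 h
      have hc0 : c ≠ 0 := fun h0 => hp0 (by rw [← hc, h0, zero_smul])
      exact Submodule.mem_span_singleton.2 ⟨c⁻¹, by rw [← hc, inv_smul_smul₀ hc0]⟩)
    set y' := (-s) ^ q • y with hy'
    have hy'R : y' ∈ R := hU.set.smul (pow_mem (neg_mem hs) q) hy
    have hy'e : herm q y' e = 0 := by rw [hy', herm_smul_left, hye, mul_zero]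
    have hpy : herm q p y' = -s := by
      rw [← hF.herm_symm, hy', herm_smul_left, hyp, mul_one, hF.pow_pow]
    set a₀ := -(τ * herm q y' y')
    have hyy' : (herm q y' y') ^ q = herm q y' y' := hF.herm_symm y' y'
    have hc : UniCond q e y' a₀ := ⟨hee, hy'e, by
      rw [hF.neg_pow, mul_pow, hyy']; linear_combination -(herm q y' y') * hτ'⟩
    have hm := hK e y' a₀ hc he hy'R (neg_mem (mul_mem hτ (hU.form hy'R hy'R)))
    have hey' : herm q e y' = 0 := by rw [← hF.herm_symm, hy'e, zero_pow hF.q_ne_zero]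
    refine map_mem_trvParams hF hyy hm hmem ?_ _
    have h1 : (uni hF hc).1 p = p + s • e := by
      rw [uni_apply, hpe, hpy]; simp
    have h2 : (uni hF hc).1 e = e := by
      rw [uni_apply, hee, hey']; simp
    rw [map_add, map_smul, map_smul, h1, h2]
    module
  -- an alternating sum leaves only the transvection at `e`
  obtain ⟨c₃, m₃⟩ := hG (1 + τ) (add_mem (one_mem _) hτ)
  obtain ⟨c₂, m₂⟩ := hG τ hτ
  obtain ⟨c₁, m₁⟩ := hG 1 (one_mem _)
  obtain ⟨c₀, m₀⟩ := hG 0 (zero_mem _)
  obtain ⟨n₂, i₂⟩ := (trvParams hF M c₂.1).neg_mem ⟨c₂, m₂⟩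
  obtain ⟨n₁, i₁⟩ := (trvParams hF M c₁.1).neg_mem ⟨c₁, m₁⟩
  have key := mul_mem (mul_mem (mul_mem m₃ i₁) i₂) m₀
  have hT : TrvCond q e (a * a ^ q * d) :=
    ⟨hee, by rw [mul_pow, mul_pow, hF.pow_pow, hd]; ring⟩
  have hate : a * a ^ q * d ∈ trvParams hF M hee := by
    refine ⟨hT, ?_⟩
    convert key using 1
    refine Subtype.ext (LinearEquiv.ext fun w => ?_)
    simp only [Subgroup.coe_mul, LinearEquiv.mul_apply, trv_apply, hF.herm_add_right,
      herm_smul_right, herm_add_left, herm_smul_left, hpp, hee, hep, hpe, hF.add_pow, mul_pow,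
      one_pow, mul_zero, add_zero]
    match_scalars
    all_goals first
      | ring1
      | linear_combination (a * a ^ q * d * herm q w e) * hτ'
      | linear_combination -(a * a ^ q * d * herm q w e) * hτ'
  obtain ⟨k, hk, hke⟩ := move_any hF hU hK hn he hp he0 hp0 hee hpp
  exact map_mem_trvParams hF hee hk hate hke hpp

end RatU

end Cfsg.Agent.GeoClasses
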