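import Cfsg.Agent.GeoClasses.TransvGen
import Cfsg.Agent.ClassicalMax.UnitaryProper

/-!
Stabilisers of totally singular subspaces are maximal in `SU_n(q)`.
-/

set_option autoImplicit false

namespace Cfsg.Agent.GeoClasses

open Matrix Cfsg.Geo Cfsg.Agent.Classical.U Cfsg.Agent.ClassicalMax
open scoped MatrixGroups Matrix

universe u

variable {F : Type u} [Field F] {n q : ℕ}

/-- The embedding of `UG` into the matrix group. -/
noncomputable def ugToGL (n : ℕ) (F : Type u) [Field F] (q : ℕ) : UG n F q →* GL (Fin n) F :=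
  (Cfsg.GU n F q).subtype.comp (guEquiv n F q).symm.toMonoidHom

lemma ugToGL_mulVec (g : UG n F q) (v : Fin n → F) :
    (ugToGL n F q g : Matrix (Fin n) (Fin n) F) *ᵥ v = g.1 v := by
  have h : (guEquiv n F q ((guEquiv n F q).symm g)).1 v =
      (ugToGL n F q g : Matrix (Fin n) (Fin n) F) *ᵥ v := rfl
  rw [MulEquiv.apply_symm_apply] at h
  exact h.symm

lemma ugToGL_mem_suGL {g : UG n F q} (hg : g ∈ SUG n F q) : ugToGL n F q g ∈ suGL n F q := by
  refine ⟨((guEquiv n F q).symm g).2, ?_⟩
  have h : (guEquiv n F q ((guEquiv n F q).symm g)).1 = glEquiv n F (ugToGL n F q g) := rfl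
  rw [MulEquiv.apply_symm_apply] at h
  rw [mem_SUG, h, det_glEquiv] at hg
  exact hg

lemma exists_ugToGL_eq {g : GL (Fin n) F} (hg : g ∈ suGL n F q) :
    ∃ k ∈ SUG n F q, ugToGL n F q k = g := by
  refine ⟨guEquiv n F q ⟨g, hg.1⟩, ?_, ?_⟩
  · rw [mem_SUG, show (guEquiv n F q ⟨g, hg.1⟩).1 = glEquiv n F g from rfl, det_glEquiv]
    exact hg.2
  · simp [ugToGL]

/-- The isotropic vectors all of whose root elements lie in `M`. -/
def uniCentres (hF : SqField F q) (M : Subgroup (UG n F q)) : Set (Fin n → F) :=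
  {e | herm q e e = 0 ∧ ∀ (x : Fin n → F) (a : F) (h : UniCond q e x a), uni hF h ∈ M}

variable (hF : SqField F q)
include hF

lemma smul_mem_uniCentres {M : Subgroup (UG n F q)} {e : Fin n → F} (h : e ∈ uniCentres hF M)
    (c : F) : c • e ∈ uniCentres hF M := by
  refine ⟨by rw [herm_smul_left, herm_smul_right, h.1, mul_zero, mul_zero], fun x a hc => ?_⟩
  rcases eq_or_ne c 0 with rfl | hc0
  · convert one_mem M using 1
    refine Subtype.ext (LinearEquiv.ext fun w => ?_)
    simp [uni_apply, hF.herm_zero_right]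
  have h2 : herm q x e = 0 := by
    have := hc.2.1
    rw [herm_smul_right] at this
    exact (mul_eq_zero.1 this).resolve_left (pow_ne_zero _ hc0)
  have h' : UniCond q e (c ^ q • x) (c * c ^ q * a) := by
    refine ⟨h.1, by rw [herm_smul_left, h2, mul_zero], ?_⟩
    rw [herm_smul_left, herm_smul_right, hF.pow_pow, mul_pow, mul_pow, hF.pow_pow]
    linear_combination (c * c ^ q) * hc.2.2
  rw [uni_smul hF hc h']
  exact h.2 _ _ _

lemma map_mem_uniCentres {M : Subgroup (UG n F q)} {e : Fin n → F} (h : e ∈ uniCentres hF M)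
    {g : UG n F q} (hg : g ∈ M) : g.1 e ∈ uniCentres hF M := by
  refine ⟨by rw [UG_app]; exact h.1, fun x a hc => ?_⟩
  have hc' : UniCond q e (g.1.symm x) a := by
    refine ⟨h.1, ?_, ?_⟩ <;>
      rw [← UG_app g, LinearEquiv.apply_symm_apply]
    · exact hc.2.1
    · exact hc.2.2
  have := mul_mem (mul_mem hg (h.2 _ _ hc')) (inv_mem hg)
  rw [uni_conj] at this
  convert this using 1
  exact uni_congr hF _ _ rfl (LinearEquiv.apply_symm_apply _ _).symm rfl

lemma mem_uniCentres_of_pair {M : Subgroup (UG n F q)} {e y u : Fin n → F}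
    (he : e ∈ uniCentres hF M) (hy : y ∈ uniCentres hF M) (hey : herm q e y ≠ 0)
    (hu : herm q u u = 0) (huy : herm q u y ≠ 0) : u ∈ uniCentres hF M := by
  set e₁ := (herm q e y)⁻¹ • e with he₁
  set u₁ := (herm q u y)⁻¹ • u with hu₁
  have he1X : e₁ ∈ uniCentres hF M := smul_mem_uniCentres hF he _
  have heq : herm q e₁ y = 1 := by rw [he₁, herm_smul_left, inv_mul_cancel₀ hey]
  have huq : herm q u₁ y = 1 := by rw [hu₁, herm_smul_left, inv_mul_cancel₀ huy]
  have hu0 : herm q u₁ u₁ = 0 := by rw [hu₁, herm_smul_left, herm_smul_right, hu]; simp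
  have hc : UniCond q y (u₁ - e₁) (herm q e₁ u₁) := by
    refine ⟨hy.1, by rw [herm_sub_left, huq, heq, sub_self], ?_⟩
    rw [hF.herm_symm, herm_sub_left, hF.herm_sub_right, hF.herm_sub_right, hu0, he1X.1]
    ring
  have := map_mem_uniCentres hF he1X (hy.2 _ _ hc)
  have hval : (uni hF hc).1 e₁ = u₁ := by
    rw [uni_apply, heq, hF.herm_sub_right, he1X.1]
    module
  rw [hval] at this
  have := smul_mem_uniCentres hF this (herm q u y)
  rwa [hu₁, smul_inv_smul₀ huy] at this

/-- Stabilisers of totally singular subspaces are maximal in the special unitary group. -/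
theorem suGL_singular_maximal (hn : 4 ≤ n) {W : Submodule F (Fin n → F)} (hW0 : W ≠ ⊥)
    (hW : IsTotallySingularFor (Cfsg.hermForm n F q) W) :
    IsMaximalIn (suGL n F q) (subspaceStabilizer W ⊓ suGL n F q) := by
  have hW1 : W ≠ ⊤ := by
    rintro rfl
    obtain ⟨w, -, hw0⟩ := Submodule.exists_mem_ne_zero_of_ne_bot hW0
    exact hw0 (hF.eq_zero_of_herm w fun v => hW w trivial v trivial)
  have hex : ¬ (n = 3 ∧ q = 2) := by omega
  refine ⟨lt_of_le_not_ge inf_le_right fun hle =>
    suGL_not_le_stabilizer hF (by omega) hW0 hW1 (hle.trans inf_le_left), fun M hM hMK => ?_⟩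
  by_cases hMW : M ≤ subspaceStabilizer W
  · exact Or.inl (le_antisymm (le_inf hMW hMK) hM)
  refine Or.inr (le_antisymm hMK ?_)
  set M' := M.comap (ugToGL n F q) with hM'
  suffices hS : SUG n F q ≤ M' by
    intro g hg
    obtain ⟨k, hk, rfl⟩ := exists_ugToGL_eq hg
    exact hS hk
  have hmemP : ∀ {e x : Fin n → F} {a : F} (h : UniCond q e x a),
      (∀ w ∈ W, (uni hF h).1 w ∈ W) → uni hF h ∈ M' := fun h hw =>
    hM ⟨mem_subspaceStabilizer_of_le fun w hwW => by rw [ugToGL_mulVec]; exact hw w hwW,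
      ugToGL_mem_suGL (det_uni hF h)⟩
  have hWX : ∀ e ∈ W, e ∈ uniCentres hF M' := fun e he => ⟨hW e he e he, fun x a hc =>
    hmemP hc fun w hw => by
      rw [uni_apply, show herm q w e = 0 from hW w hw e he, zero_smul, add_zero]
      exact W.add_mem hw (W.smul_mem _ he)⟩
  by_cases hpair : ∃ e ∈ uniCentres hF M', ∃ y ∈ uniCentres hF M', herm q e y ≠ 0
  · obtain ⟨e, he, y, hy, hey⟩ := hpair
    have hall : ∀ u, herm q u u = 0 → u ∈ uniCentres hF M' := by
      intro u hu
      rcases eq_or_ne u 0 with rfl | hu0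
      · simpa using smul_mem_uniCentres hF he 0
      by_cases huy : herm q u y = 0
      · have hy0 : y ≠ 0 := fun h => hey (by rw [h, hF.herm_zero_right])
        have hyu : herm q y u = 0 := by rw [← hF.herm_symm, huy, zero_pow hF.q_ne_zero]
        obtain ⟨z, hz, h1, h2⟩ := exists_isotropic_not_orth hF hy0 hy.1 hu0 hyu
        have hzy : herm q z y ≠ 0 := by rw [← hF.herm_symm]; exact pow_ne_zero _ h1
        have hzX := mem_uniCentres_of_pair hF he hy hey hz hzy
        exact mem_uniCentres_of_pair hF hy hzX h1 hu h2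
      · exact mem_uniCentres_of_pair hF he hy hey hu huy
    rw [SUG_eq_TG hF (by omega) hex, TG, Subgroup.closure_le]
    rintro g ⟨e, a, hea, hg⟩
    rw [mem_TG_generator hF hea hg, trv]
    exact (hall e hea.1).2 _ _ _
  exfalso
  push Not at hpair
  set S := Submodule.span F (uniCentres hF M') with hSdef
  have hS : ∀ x ∈ S, ∀ z ∈ S, herm q x z = 0 := by
    intro x hx
    induction hx using Submodule.span_induction with
    | mem y hy =>
      intro z hz
      induction hz using Submodule.span_induction with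
      | mem z hz => exact hpair y hy z hz
      | zero => exact hF.herm_zero_right y
      | add c d _ _ hc hd => rw [hF.herm_add_right, hc, hd, add_zero]
      | smul c d _ hd => rw [herm_smul_right, hd, mul_zero]
    | zero => intro z _; exact herm_zero_left z
    | add c d _ _ hc hd => intro z hz; rw [herm_add_left, hc z hz, hd z hz, add_zero]
    | smul c d _ hd => intro z hz; rw [herm_smul_left, hd z hz, mul_zero]
  have hSinv : ∀ g ∈ M', ∀ x ∈ S, g.1 x ∈ S := by
    intro g hg x hx
    induction hx using Submodule.span_induction with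
    | mem y hy => exact Submodule.subset_span (map_mem_uniCentres hF hy hg)
    | zero => simp
    | add a b _ _ ha hb => rw [map_add]; exact S.add_mem ha hb
    | smul c a _ ha => rw [map_smul]; exact S.smul_mem c ha
  have hWS : W ≤ S := fun w hw => Submodule.subset_span (hWX w hw)
  obtain ⟨s, hsS, hsW⟩ := SetLike.exists_of_lt (lt_of_le_of_ne hWS fun h => hMW fun g hg =>
    mem_subspaceStabilizer_of_le fun w hw => by
      obtain ⟨k, -, rfl⟩ := exists_ugToGL_eq (hMK hg)
      rw [h] at hw ⊢
      rw [ugToGL_mulVec]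
      exact hSinv k hg w hw)
  obtain ⟨φ, hφs, hφW⟩ := exists_functional hsW
  have hrep : ∀ v, herm q v (fun i => φ (Pi.single i 1) ^ q) = φ v := fun v => by
    conv_rhs => rw [pi_eq_sum_univ' v, map_sum]
    rw [herm_def]
    refine Finset.sum_congr rfl fun i _ => ?_
    rw [hF.pow_pow, map_smul, smul_eq_mul]
  set y : Fin n → F := fun i => φ (Pi.single i 1) ^ q
  obtain ⟨t, ht⟩ := hF.exists_trace (c := -herm q y y) (by rw [hF.neg_pow, hF.herm_symm])
  set z := y + t • s with hzdef
  have hys : herm q y s = 1 := by rw [← hF.herm_symm s y, hrep, hφs, one_pow]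
  have hsz : herm q s z = 1 := by
    rw [hzdef, hF.herm_add_right, herm_smul_right, hrep, hφs, hS s hsS s hsS]
    simp
  have hsy : herm q s y = 1 := by rw [hrep, hφs]
  have hzz : herm q z z = 0 := by
    rw [hzdef, herm_add_left, hF.herm_add_right, hF.herm_add_right, herm_smul_left,
      herm_smul_left, herm_smul_right, herm_smul_right, hys, hsy, hS s hsS s hsS]
    linear_combination ht
  have hwz : ∀ w ∈ W, herm q w z = 0 := fun w hw => by
    rw [hzdef, hF.herm_add_right, herm_smul_right, hrep, hφW w hw, hS w (hWS hw) s hsS]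
    simp
  obtain ⟨δ, hδ0, hδ⟩ := hF.exists_skew
  have hc : TrvCond q z δ := ⟨hzz, hδ⟩
  have hT : trv hF hc ∈ M' := hmemP _ fun w hw => by
    change (trv hF hc).1 w ∈ W
    rw [trv_apply, hwz w hw, mul_zero, zero_smul, add_zero]
    exact hw
  have key := hS s hsS _ (hSinv _ hT s hsS)
  rw [trv_apply, hF.herm_add_right, herm_smul_right, hsz, hS s hsS s hsS, zero_add, mul_one,
    mul_one] at key
  exact pow_ne_zero q hδ0 key

end Cfsg.Agent.GeoClasses
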