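import Mathlib

/-!
Small facts on finite fields used for the minimality conditions of the symplectic-type class.
-/

set_option autoImplicit false

namespace Cfsg.Agent.GeoClasses

variable {F : Type*} [Field F] [Fintype F]

lemma two_ne_zero_iff_odd_card : (2 : F) ≠ 0 ↔ Odd (Fintype.card F) := by
  constructor
  · intro h2
    rcases Nat.even_or_odd (Fintype.card F) with h | h
    · exfalso
      have hc : ringChar F = 2 := FiniteField.even_card_iff_char_two.2 (Nat.even_iff.1 h)
      haveI : CharP F 2 := hc ▸ ringChar.charP F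
      exact h2 (CharP.cast_eq_zero F 2)
    · exact h
  · intro hodd h2
    haveI : CharP F 2 := CharTwo.of_one_ne_zero_of_two_eq_zero one_ne_zero h2
    have := FiniteField.even_card_of_char_two (F := F) (ringChar.eq F 2)
    rw [Nat.odd_iff] at hodd
    omega

lemma card_le_of_forall_pow_eq {m : ℕ} (hm : 1 < m) (h : ∀ x : F, x ^ m = x) :
    Fintype.card F ≤ m := by
  classical
  have hp0 : (Polynomial.X ^ m - Polynomial.X : Polynomial F) ≠ 0 :=
    FiniteField.X_pow_card_sub_X_ne_zero F hm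
  have hle : (Finset.univ : Finset F).card ≤ (Polynomial.X ^ m - Polynomial.X : Polynomial F).natDegree := by
    refine Polynomial.card_le_degree_of_subset_roots fun x _ => ?_
    rw [Polynomial.mem_roots hp0]
    simp [h x]
  rwa [Finset.card_univ, FiniteField.X_pow_card_sub_X_natDegree_eq F hm] at hle

/-- If `F` is generated by `ζ`, a power of Frobenius fixing `ζ` is at least the degree. -/
lemma le_of_generator_fixed {p : ℕ} [Fact p.Prime] [CharP F p] {e m : ℕ}
    (hcard : Fintype.card F = p ^ e) (hm : 0 < m) {ζ : F} (hgen : Subfield.closure {ζ} = ⊤)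
    (hfix : ζ ^ p ^ m = ζ) : e ≤ m := by
  have hp1 : 1 < p := (Fact.out : p.Prime).one_lt
  have hall : ∀ x : F, x ^ p ^ m = x := by
    intro x
    have hle : Subfield.closure {ζ}
        ≤ RingHom.eqLocusField (iterateFrobenius F p m) (RingHom.id F) := by
      rw [Subfield.closure_le]
      rintro _ rfl
      exact hfix
    rw [hgen] at hle
    exact hle (Subfield.mem_top x)
  have hle := card_le_of_forall_pow_eq (Nat.one_lt_pow hm.ne' hp1) hall
  rw [hcard] at hle
  exact (Nat.pow_le_pow_iff_right hp1).1 hle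

lemma dvd_card_sub_one_of_primitive {ζ : F} {z : ℕ} (hζ : IsPrimitiveRoot ζ z) (hz : z ≠ 0) :
    z ∣ Fintype.card F - 1 :=
  (hζ.pow_eq_one_iff_dvd _).1 (FiniteField.pow_card_sub_one_eq_one ζ (hζ.ne_zero hz))

lemma pow_fixed_of_dvd {ζ : F} {z N : ℕ} (hζ : IsPrimitiveRoot ζ z) (hN : 0 < N)
    (h : z ∣ N - 1) : ζ ^ N = ζ := by
  obtain ⟨M, rfl⟩ : ∃ M, N = M + 1 := ⟨N - 1, by omega⟩
  rw [pow_succ, (hζ.pow_eq_one_iff_dvd M).2 (by simpa using h), one_mul]

/-- The inverting automorphism: if `F = F_p(ζ)` has even degree `e` and `ζ` has order `z`, with `z`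
an odd prime or four, then `x ↦ x ^ p ^ (e/2)` is an involution inverting `ζ`. -/
theorem exists_inverting_automorphism {p : ℕ} [Fact p.Prime] [CharP F p] {e : ℕ} (he : Even e)
    (hepos : 0 < e) (hcard : Fintype.card F = p ^ e) {ζ : F} {z : ℕ} (hζ : IsPrimitiveRoot ζ z)
    (hz : z.Prime ∨ z = 4) (hgen : Subfield.closure {ζ} = ⊤) :
    ∃ σ : F ≃+* F, σ ≠ RingEquiv.refl F ∧ (∀ a, σ (σ a) = a) ∧
      ∀ c : F, c ^ z = 1 → σ c * c = 1 := by
  obtain ⟨h, rfl⟩ := he
  have hh : 0 < h := by omega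
  have hσdef : ∀ x : F, iterateFrobeniusEquiv F p h x = x ^ p ^ h :=
    fun x => iterateFrobeniusEquiv_def F p h x
  have hz0 : z ≠ 0 := by rcases hz with h | h <;> [exact h.ne_zero; omega]
  have hne : ζ ^ p ^ h ≠ ζ := fun hfix => by
    have := le_of_generator_fixed hcard hh hgen hfix
    omega
  have hsq : ∀ a : F, (a ^ p ^ h) ^ p ^ h = a := fun a => by
    rw [← pow_mul, ← pow_add, ← hcard, FiniteField.pow_card]
  have hζ1 : ζ ^ p ^ h * ζ = 1 := by
    set w := ζ ^ p ^ h with hw
    have hwz : w ^ z = 1 := by rw [hw, ← pow_mul, mul_comm, pow_mul, hζ.pow_eq_one, one_pow]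
    rcases hz with hz | rfl
    · -- `z` divides `(p^h - 1)(p^h + 1)` but not `p^h - 1`
      have hd : z ∣ (p ^ h - 1) * (p ^ h + 1) := by
        have h1 : (p ^ h - 1) * (p ^ h + 1) = p ^ (h + h) - 1 := by
          rw [pow_add, mul_comm (p ^ h - 1), ← Nat.sq_sub_sq (p ^ h) 1, one_pow, pow_two]
        rw [h1, ← hcard]
        exact dvd_card_sub_one_of_primitive hζ hz0
      rcases hz.dvd_mul.1 hd with h1 | h1
      · exact absurd (pow_fixed_of_dvd hζ (pow_pos (Fact.out : p.Prime).pos h) h1) hne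
      · rw [hw, ← pow_succ]
        exact (hζ.pow_eq_one_iff_dvd _).2 h1
    · obtain ⟨i, hi, hiw⟩ := hζ.eq_pow_of_pow_eq_one hwz
      interval_cases i
      · exfalso
        -- `w = 1` forces `ζ = 1`
        have h1 := hsq ζ
        rw [← hw, ← hiw, pow_zero, one_pow] at h1
        exact absurd (hζ.eq_orderOf.trans (by rw [← h1, orderOf_one])) (by norm_num)
      · exact absurd (by rw [← hiw, pow_one]) hne
      · exfalso
        have h1 := hsq ζ
        rw [← hw, ← hiw, ← pow_mul, mul_comm, pow_mul, ← hw, ← hiw] at h1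
        have h2 : ζ ^ 4 = 1 := hζ.pow_eq_one
        rw [← pow_mul, show 2 * 2 = 4 from rfl, h2] at h1
        exact absurd (hζ.eq_orderOf.trans (by rw [← h1, orderOf_one])) (by norm_num)
      · rw [← hiw, ← pow_succ]
        exact hζ.pow_eq_one
  refine ⟨iterateFrobeniusEquiv F p h, fun hrefl => hne ?_, fun a => ?_, fun c hc => ?_⟩
  · rw [← hσdef, hrefl]; rfl
  · rw [hσdef, hσdef, hsq]
  · haveI : NeZero z := ⟨hz0⟩
    obtain ⟨i, -, rfl⟩ := hζ.eq_pow_of_pow_eq_one hc
    rw [hσdef, ← pow_mul, mul_comm i, pow_mul, ← mul_pow, hζ1, one_pow]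

end Cfsg.Agent.GeoClasses
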