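import Cfsg.Agent.GeoClasses.OrthMaxBase
import Cfsg.Agent.GeoClasses.FieldFacts

/-!
The similarity group of a quadratic form is maximal in `SL`, in odd characteristic.
-/

set_option autoImplicit false

namespace Cfsg.Agent.GeoClasses

open QuadraticMap Module Cfsg.Agent.Classical Cfsg.Geo
open scoped Matrix

universe u v

section Spaces

variable {F : Type u} [Field F] {V : Type v} [AddCommGroup V] [Module F V]
  [FiniteDimensional F V] {Q : QuadraticForm F V}

lemma polarBilin_nondeg (hB : BNondeg Q) : (polarBilin Q).Nondegenerate :=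
  ⟨fun a ha => hB a ha, fun a ha => hB a fun y => (polar_comm Q a y).trans (ha y)⟩

lemma polarBilin_refl (Q : QuadraticForm F V) : LinearMap.BilinForm.IsRefl (polarBilin Q) :=
  fun a b h => by simpa [polar_comm Q b a] using h

omit [FiniteDimensional F V] in
/-- A subspace with a pair is spanned by its singular vectors. -/
lemma le_span_singular {S : Submodule F V} {e : V} (heS : e ∈ S) (he : Q e = 0)
    (hnd : ∃ y ∈ S, polar Q e y ≠ 0) : S ≤ Submodule.span F {z | z ∈ S ∧ Q z = 0} := by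
  obtain ⟨y, hy, hey⟩ := hnd
  set N := Submodule.span F {z | z ∈ S ∧ Q z = 0}
  have hee : polar Q e e = 0 := by rw [polar_self, he, smul_zero]
  obtain ⟨y₁, hy₁S, hy₁⟩ : ∃ z ∈ S, polar Q e z = 1 :=
    ⟨(polar Q e y)⁻¹ • y, S.smul_mem _ hy, by
      rw [polar_smul_right, smul_eq_mul, inv_mul_cancel₀ hey]⟩
  set f := y₁ - Q y₁ • e with hf
  have hfS : f ∈ S := S.sub_mem hy₁S (S.smul_mem _ heS)
  have hf0 : Q f = 0 := by
    rw [hf, qf_sub, QuadraticMap.map_smul, he, polar_smul_right, polar_comm Q y₁ e, hy₁]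
    simp
  have hef : polar Q e f = 1 := by
    rw [hf, polar_sub_right, polar_smul_right, hee, hy₁]; simp
  have hff : polar Q f f = 0 := by rw [polar_self, hf0, smul_zero]
  intro s hs
  set s' := s - polar Q f s • e - polar Q e s • f with hs'
  have hs'S : s' ∈ S := S.sub_mem (S.sub_mem hs (S.smul_mem _ heS)) (S.smul_mem _ hfS)
  have h1 : polar Q e s' = 0 := by
    rw [hs', polar_sub_right, polar_sub_right, polar_smul_right, polar_smul_right, hee, hef]
    simp
  have h2 : polar Q f s' = 0 := by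
    rw [hs', polar_sub_right, polar_sub_right, polar_smul_right, polar_smul_right, hff,
      polar_comm Q f e, hef]
    simp
  have hmem : s' + f - Q s' • e ∈ N := Submodule.subset_span
    ⟨S.sub_mem (S.add_mem hs'S hfS) (S.smul_mem _ heS), by
      rw [qf_sub, qf_add, QuadraticMap.map_smul, he, hf0, polar_smul_right, polar_add_left,
        polar_comm Q s' e, h1, polar_comm Q f e, hef, polar_comm Q s' f, h2]
      simp⟩
  have heN : e ∈ N := Submodule.subset_span ⟨heS, he⟩
  have hfN : f ∈ N := Submodule.subset_span ⟨hfS, hf0⟩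
  have := N.add_mem (N.add_mem (N.sub_mem hmem hfN) (N.smul_mem (Q s') heN))
    (N.add_mem (N.smul_mem (polar Q f s) heN) (N.smul_mem (polar Q e s) hfN))
  convert this using 1
  rw [hs']; abel

variable [Finite F]

/-- A singular vector of a subspace outside a small one. -/
lemma exists_singular_outside (S P : Submodule F V) (h : finrank F P + 3 ≤ finrank F S) :
    ∃ z ∈ S, z ∉ P ∧ Q z = 0 := by
  obtain ⟨C, hC⟩ := Submodule.exists_isCompl P
  have h1 := Submodule.finrank_sup_add_finrank_inf_eq S C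
  have h2 := Submodule.finrank_le (S ⊔ C)
  have h3 := Submodule.finrank_add_eq_of_isCompl hC
  obtain ⟨z, ⟨hzS, hzC⟩, hz0, hz⟩ :=
    Forms.exists_singular_vector_of_three_le Q (S := S ⊓ C) (by omega)
  refine ⟨z, hzS, fun hzP => hz0 ?_, hz⟩
  have : z ∈ P ⊓ C := ⟨hzP, hzC⟩
  rwa [hC.inf_eq_bot, Submodule.mem_bot] at this

/-- The orthogonal of a small subspace is spanned by its singular vectors. -/
lemma perpSub_le_span_singular (hB : BNondeg Q) (T : Submodule F V)
    (h : 2 * finrank F T + 3 ≤ finrank F V) :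
    OrthGen.perpSub Q T ≤ Submodule.span F {z | z ∈ OrthGen.perpSub Q T ∧ Q z = 0} := by
  obtain ⟨e, heS, heT, he⟩ := exists_singular_outside (Q := Q) (OrthGen.perpSub Q T) T
    (by rw [OrthGen.finrank_orthogonal_polar hB]; omega)
  refine le_span_singular heS he ?_
  by_contra hcon
  push Not at hcon
  apply heT
  rw [← LinearMap.BilinForm.orthogonal_orthogonal (polarBilin_nondeg hB) (polarBilin_refl Q) T]
  intro y hy
  show polar Q y e = 0
  rw [polar_comm]
  exact hcon y hy

/-- A vector outside a small subspace meets a singular vector of its orthogonal. -/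
lemma exists_singular_perp_polar_ne (hB : BNondeg Q) (T : Submodule F V)
    (h : 2 * finrank F T + 3 ≤ finrank F V) {w : V} (hw : w ∉ T) :
    ∃ e ∈ OrthGen.perpSub Q T, Q e = 0 ∧ polar Q e w ≠ 0 := by
  by_contra hcon
  push Not at hcon
  apply hw
  rw [← LinearMap.BilinForm.orthogonal_orthogonal (polarBilin_nondeg hB) (polarBilin_refl Q) T]
  intro y hy
  show polar Q y w = 0
  have hspan := perpSub_le_span_singular hB T h hy
  clear hy
  induction hspan using Submodule.span_induction with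
  | mem z hz => exact hcon z hz.1 hz.2
  | zero => exact polar_zero_left _ _
  | add a b _ _ ha hb => rw [polar_add_left, ha, hb, add_zero]
  | smul c a _ ha => rw [polar_smul_left, ha, smul_zero]

end Spaces

variable {F : Type u} [Field F] [Finite F] {ι : Type} [Fintype ι] [DecidableEq ι]
  {Qf : QuadraticForm F (ι → F)}

/-- The vectors `w` for which the transvection with centre `v` and functional `B(w, ·)` lies in
`M`. -/
def qFun (Qf : QuadraticForm F (ι → F)) (M : Subgroup (GL ι F)) (v : ι → F) : Set (ι → F) :=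
  {w | ∃ h : polarBilin Qf w v = 0, transv (polarBilin Qf w) v h ∈ M}

omit [Finite F] in
lemma qFun_zero (M : Subgroup (GL ι F)) (v : ι → F) : (0 : ι → F) ∈ qFun Qf M v := by
  refine ⟨by simp, ?_⟩
  convert one_mem M using 1
  exact gl_ext_mulVec fun x => by simp

omit [Finite F] in
lemma qFun_add {M : Subgroup (GL ι F)} {v a b : ι → F} (ha : a ∈ qFun Qf M v)
    (hb : b ∈ qFun Qf M v) : a + b ∈ qFun Qf M v := by
  obtain ⟨ha, ha'⟩ := ha
  obtain ⟨hb, hb'⟩ := hb
  refine ⟨by rw [map_add, LinearMap.add_apply, ha, hb, add_zero], ?_⟩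
  convert mul_mem ha' hb' using 1
  refine gl_ext_mulVec fun x => ?_
  simp only [Units.val_mul, ← Matrix.mulVec_mulVec, transv_mulVec, map_add,
    LinearMap.add_apply, map_smul, ha, smul_eq_mul, mul_zero, add_zero]
  module

omit [Finite F] in
lemma qFun_neg {M : Subgroup (GL ι F)} {v a : ι → F} (ha : a ∈ qFun Qf M v) :
    -a ∈ qFun Qf M v := by
  obtain ⟨ha, ha'⟩ := ha
  refine ⟨by rw [map_neg, LinearMap.neg_apply, ha, neg_zero], ?_⟩
  convert inv_mem ha' using 1
  rw [eq_inv_iff_mul_eq_one]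
  refine gl_ext_mulVec fun x => ?_
  simp only [Units.val_mul, ← Matrix.mulVec_mulVec, transv_mulVec, map_neg, LinearMap.neg_apply,
    map_add, map_smul, ha, smul_eq_mul, mul_zero, add_zero, Units.val_one, Matrix.one_mulVec]
  module

omit [Finite F] in
lemma qFun_map {M : Subgroup (GL ι F)} {v a : ι → F} (ha : a ∈ qFun Qf M v)
    {k : OQ Qf} (hk : oqToGL Qf k ∈ M) : k.1 a ∈ qFun Qf M (k.1 v) := by
  obtain ⟨ha, ha'⟩ := ha
  refine ⟨by rw [polarBilin_apply_apply, OQ_polar]; exact ha, ?_⟩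
  convert mul_mem (mul_mem hk ha') (inv_mem hk) using 1
  rw [eq_mul_inv_iff_mul_eq]
  refine gl_ext_mulVec fun x => ?_
  simp only [Units.val_mul, ← Matrix.mulVec_mulVec, transv_mulVec, oqToGL_mulVec,
    polarBilin_apply_apply, OQ_polar, map_add, map_smul]

omit [Finite F] [DecidableEq ι] in
/-- Cutting by one functional loses at most one dimension. -/
lemma finrank_inf_ker_ge (φ : (ι → F) →ₗ[F] F) (S : Submodule F (ι → F)) :
    finrank F S ≤ finrank F ↥(S ⊓ LinearMap.ker φ) + 1 := by
  have h1 := Submodule.finrank_sup_add_finrank_inf_eq S (LinearMap.ker φ)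
  have h2 := Submodule.finrank_le (S ⊔ LinearMap.ker φ)
  have h3 := LinearMap.finrank_range_add_finrank_ker φ
  have h4 : finrank F (LinearMap.range φ) ≤ 1 :=
    (Submodule.finrank_le _).trans (by rw [Module.finrank_self])
  omega

/-- Two quadratic forms in at least five variables have a common singular vector. -/
lemma exists_common_singular [Fintype F] (h2 : (2 : F) ≠ 0) (hn : 5 ≤ Fintype.card ι)
    (Q₁ Q₂ : QuadraticForm F (ι → F)) : ∃ p, p ≠ 0 ∧ Q₁ p = 0 ∧ Q₂ p = 0 := by
  classical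
  obtain ⟨c, hc⟩ := CharP.exists F
  haveI := hc
  have hc1 : 1 < c := (CharP.char_is_prime F c).one_lt
  let P : QuadraticForm F (ι → F) → MvPolynomial ι F := fun R =>
    ∑ i, ∑ j, MvPolynomial.C (2⁻¹ * polar R (Pi.single i 1) (Pi.single j 1)) *
      (MvPolynomial.X i * MvPolynomial.X j)
  have hdeg : ∀ R, (P R).totalDegree ≤ 2 := fun R => by
    refine (MvPolynomial.totalDegree_finsetSum _ _).trans (Finset.sup_le fun i _ => ?_)
    refine (MvPolynomial.totalDegree_finsetSum _ _).trans (Finset.sup_le fun j _ => ?_)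
    refine (MvPolynomial.totalDegree_mul _ _).trans ?_
    rw [MvPolynomial.totalDegree_C, zero_add]
    refine (MvPolynomial.totalDegree_mul _ _).trans ?_
    rw [MvPolynomial.totalDegree_X, MvPolynomial.totalDegree_X]
  have heval : ∀ R x, MvPolynomial.eval x (P R) = R x := fun R x => by
    have h1 : polarBilin R x x = 2 * R x := by
      rw [polarBilin_apply_apply, polar_self, nsmul_eq_mul]; norm_num
    have h3 : polarBilin R x x =
        ∑ i, ∑ j, x i * x j * polar R (Pi.single i 1) (Pi.single j 1) := by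
      conv_lhs => rw [pi_eq_sum_univ' x]
      simp only [map_sum, map_smul, LinearMap.sum_apply, LinearMap.smul_apply,
        polarBilin_apply_apply, smul_eq_mul, Finset.mul_sum]
      rw [Finset.sum_comm]
      exact Finset.sum_congr rfl fun i _ => Finset.sum_congr rfl fun j _ => by ring
    simp only [P, map_sum, map_mul, MvPolynomial.eval_C, MvPolynomial.eval_X]
    rw [← mul_right_inj' h2, ← h1, h3, Finset.mul_sum]
    refine Finset.sum_congr rfl fun i _ => ?_
    rw [Finset.mul_sum]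
    refine Finset.sum_congr rfl fun j _ => ?_
    field_simp
  have hdvd := char_dvd_card_solutions_of_add_lt c (f₁ := P Q₁) (f₂ := P Q₂) (by
    have := hdeg Q₁; have := hdeg Q₂; omega)
  have h0 : MvPolynomial.eval (0 : ι → F) (P Q₁) = 0 ∧ MvPolynomial.eval (0 : ι → F) (P Q₂) = 0 :=
    ⟨by rw [heval, map_zero], by rw [heval, map_zero]⟩
  obtain ⟨⟨p, hp₁, hp₂⟩, hne⟩ := Fintype.exists_ne_of_one_lt_card (α := { x : ι → F //
      MvPolynomial.eval x (P Q₁) = 0 ∧ MvPolynomial.eval x (P Q₂) = 0 }) (by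
    refine lt_of_lt_of_le hc1 (Nat.le_of_dvd ?_ hdvd)
    exact Fintype.card_pos_iff.2 ⟨⟨0, h0⟩⟩) ⟨0, h0⟩
  exact ⟨p, fun h => hne (Subtype.ext h), by rw [← heval, hp₁], by rw [← heval, hp₂]⟩

/-- The orthogonal of a singular vector is spanned by singular vectors. -/
lemma perp_singular_le_span (hB : BNondeg Qf) (hn : 5 ≤ Fintype.card ι) {v : ι → F} (hv0 : v ≠ 0) :
    OrthGen.perpSub Qf (F ∙ v) ≤
      Submodule.span F {z | z ∈ OrthGen.perpSub Qf (F ∙ v) ∧ Qf z = 0} :=
  perpSub_le_span_singular hB (F ∙ v) (by rw [finrank_span_singleton hv0, finrank_pi]; omega)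

/-- A singular centre with a functional outside its line is a centre for all functionals. -/
lemma mem_centres_of_singular (hB : BNondeg Qf) (hn : 5 ≤ Fintype.card ι) {M : Subgroup (GL ι F)}
    (hEQ : ∀ k ∈ EQ Qf, oqToGL Qf k ∈ M) {v w₀ : ι → F} (hv0 : v ≠ 0) (hv : Qf v = 0)
    (hw₀ : w₀ ∈ qFun Qf M v) (hw₀v : w₀ ∉ F ∙ v) : v ∈ centres M := by
  have hV : finrank F (ι → F) = Fintype.card ι := finrank_pi F
  set S := OrthGen.perpSub Qf (F ∙ v) with hS
  have hmemS : ∀ {x}, polar Qf v x = 0 → x ∈ S := fun {x} h y hy => by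
    obtain ⟨c, rfl⟩ := Submodule.mem_span_singleton.1 hy
    show polar Qf (c • v) x = 0
    rw [polar_smul_left, h, smul_zero]
  have hSmem : ∀ {x}, x ∈ S → polar Qf v x = 0 := fun {x} h =>
    h v (Submodule.mem_span_singleton_self v)
  have hS' : ∀ {x}, x ∈ S → polar Qf x v = 0 := fun h => (polar_comm Qf _ v).trans (hSmem h)
  have hYS : ∀ {x}, x ∈ qFun Qf M v → x ∈ S := fun {x} h =>
    hmemS ((polar_comm Qf v x).trans h.choose)
  have hvv : polar Qf v v = 0 := by rw [polar_self, hv, smul_zero]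
  -- the multiples of the centre
  have hline : ∀ c : F, c • v ∈ qFun Qf M v := by
    obtain ⟨y, hy, hyw⟩ : ∃ y ∈ S, polar Qf y w₀ ≠ 0 := by
      by_contra hcon
      push Not at hcon
      apply hw₀v
      rw [← LinearMap.BilinForm.orthogonal_orthogonal (polarBilin_nondeg hB) (polarBilin_refl Qf)
        (F ∙ v)]
      exact hcon
    intro c
    have ht : polar Qf v ((c / polar Qf y w₀) • y) = 0 := by
      rw [polar_smul_right, hSmem hy, smul_zero]
    have hm := qFun_map hw₀ (hEQ _ (siegel_mem_EQ Qf hv ht))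
    rw [siegel_fix Qf hv ht hvv (by rw [polar_smul_left, hS' hy, smul_zero])] at hm
    have := qFun_neg (qFun_add hm (qFun_neg hw₀))
    convert this using 1
    rw [siegel_apply, hSmem (hYS hw₀), polar_smul_left, smul_eq_mul, div_mul_cancel₀ _ hyw,
      mul_zero, zero_smul, zero_smul]
    module
  have hone : ∀ w ∈ qFun Qf M v, ∀ e ∈ S, Qf e = 0 → polar Qf e w ≠ 0 →
      ∀ c : F, c • e ∈ qFun Qf M v := by
    intro w hw e heS he hew c
    set U := S ⊓ LinearMap.ker (polarBilin Qf e) with hU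
    obtain ⟨y₁, hy₁, y₂, hy₂, hy⟩ : ∃ y₁ ∈ U, ∃ y₂ ∈ U, polar Qf y₁ y₂ ≠ 0 := by
      by_contra hcon
      push Not at hcon
      have hle : U ≤ OrthGen.perpSub Qf U := fun a ha b hb => hcon b hb a ha
      have h1 := Submodule.finrank_mono hle
      rw [OrthGen.finrank_orthogonal_polar hB, hV] at h1
      have h3 := Submodule.finrank_sup_add_finrank_inf_eq S (LinearMap.ker (polarBilin Qf e))
      have h4 := Submodule.finrank_le (S ⊔ LinearMap.ker (polarBilin Qf e))
      have h5 := LinearMap.finrank_range_add_finrank_ker (polarBilin Qf e)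
      have h6 : finrank F (LinearMap.range (polarBilin Qf e)) ≤ 1 :=
        (Submodule.finrank_le _).trans (by rw [Module.finrank_self])
      have h7 : finrank F S = finrank F (ι → F) - 1 := by
        rw [hS, OrthGen.finrank_orthogonal_polar hB, finrank_span_singleton hv0]
      rw [← hU] at h3
      rw [hV] at h4 h5 h7
      omega
    have hk : ∀ y ∈ U, w + polar Qf e w • y - polar Qf y w • e - (Qf y * polar Qf e w) • e ∈
        qFun Qf M v := by
      intro y hy
      have h0 : polar Qf e y = 0 := hy.2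
      have hm := qFun_map hw (hEQ _ (siegel_mem_EQ Qf he h0))
      rw [siegel_fix Qf he h0 (hS' heS) (hS' hy.1), siegel_apply] at hm
      exact hm
    obtain ⟨x₂, hx₂⟩ : ∃ x, x = (-(c / polar Qf e w) / polar Qf y₁ y₂) • y₂ := ⟨_, rfl⟩
    have h12 := hk _ (U.add_mem hy₁ (hx₂ ▸ U.smul_mem _ hy₂ : x₂ ∈ U))
    have h1 := hk _ hy₁
    have h3 := hk x₂ (hx₂ ▸ U.smul_mem _ hy₂)
    have := qFun_add (qFun_add (qFun_add h12 (qFun_neg h1)) (qFun_neg h3)) hw
    convert this using 1
    rw [qf_add, polar_add_left, show polar Qf y₁ x₂ = -(c / polar Qf e w) by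
      rw [hx₂, polar_smul_right, smul_eq_mul, div_mul_cancel₀ _ hy]]
    match_scalars <;> field_simp <;> ring
  have hiso : ∀ e ∈ S, Qf e = 0 → ∀ c : F, c • e ∈ qFun Qf M v := by
    obtain ⟨e₀, he₀S, he₀, he₀w⟩ : ∃ e ∈ S, Qf e = 0 ∧ polar Qf e w₀ ≠ 0 := by
      by_contra hcon
      push Not at hcon
      apply hw₀v
      rw [← LinearMap.BilinForm.orthogonal_orthogonal (polarBilin_nondeg hB) (polarBilin_refl Qf)
        (F ∙ v)]
      intro y hy
      show polar Qf y w₀ = 0
      have hspan := perp_singular_le_span hB hn hv0 hy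
      clear hy
      induction hspan using Submodule.span_induction with
      | mem z hz => exact hcon z hz.1 hz.2
      | zero => exact polar_zero_left _ _
      | add a b _ _ ha hb => rw [polar_add_left, ha, hb, add_zero]
      | smul c a _ ha => rw [polar_smul_left, ha, smul_zero]
    have h0 := hone w₀ hw₀ e₀ he₀S he₀ he₀w
    have h01 : e₀ ∈ qFun Qf M v := by simpa using h0 1
    intro e heS he c
    by_cases hspan : e ∈ Submodule.span F {v, e₀}
    · obtain ⟨a, b, rfl⟩ := Submodule.mem_span_pair.1 hspan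
      rw [smul_add, smul_smul, smul_smul]
      exact qFun_add (hline _) (h0 _)
    by_cases hee : polar Qf e e₀ = 0
    swap
    · exact hone e₀ h01 e heS he hee c
    -- a singular vector of `S` meeting both
    obtain ⟨φ, hφ1, hφ⟩ := exists_functional hspan
    obtain ⟨ψ, hψ1, hψ⟩ := exists_functional (p := F ∙ v) (x := e₀) fun h => he₀w (by
      obtain ⟨l, rfl⟩ := Submodule.mem_span_singleton.1 h
      rw [polar_smul_left, hSmem (hYS hw₀), smul_zero])
    set χ := φ + (ψ - ψ e • φ) with hχ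
    obtain ⟨y, hy⟩ : ∃ y, ∀ x, polar Qf y x = χ x :=
      ⟨(LinearMap.BilinForm.toDual (polarBilin Qf) (polarBilin_nondeg hB)).symm χ, fun x =>
        LinearMap.BilinForm.apply_toDual_symm_apply (hB := polarBilin_nondeg hB) _ x⟩
    have hyv : polar Qf y v = 0 := by
      simp [hy, hχ, hφ v (Submodule.subset_span (by simp)),
        hψ v (Submodule.mem_span_singleton_self v)]
    have hye₀ : polar Qf y e₀ = 1 := by
      simp [hy, hχ, hφ e₀ (Submodule.subset_span (by simp)), hψ1]
    have hye : polar Qf y e = 1 := by simp [hy, hχ, hφ1]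
    set z := y - Qf y • e₀ with hz
    have hzS : z ∈ S := hmemS (by
      rw [polar_comm, hz, polar_sub_left, polar_smul_left, hyv, hS' he₀S, smul_zero, sub_zero])
    have hzQ : Qf z = 0 := by
      rw [hz, qf_sub, QuadraticMap.map_smul, he₀, polar_smul_right, hye₀]
      simp
    have hze₀ : polar Qf z e₀ = 1 := by
      rw [hz, polar_sub_left, polar_smul_left, hye₀, polar_self, he₀, smul_zero, smul_zero, sub_zero]
    have hez : polar Qf e z = 1 := by
      rw [polar_comm, hz, polar_sub_left, polar_smul_left, hye, polar_comm Qf e₀ e, hee, smul_zero,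
        sub_zero]
    have h1 := hone e₀ h01 z hzS hzQ (by rw [hze₀]; exact one_ne_zero) 1
    rw [one_smul] at h1
    exact hone z h1 e heS he (by rw [hez]; exact one_ne_zero) c
  intro φ hφ
  obtain ⟨w, hw⟩ : ∃ w, ∀ x, polar Qf w x = φ x :=
    ⟨(LinearMap.BilinForm.toDual (polarBilin Qf) (polarBilin_nondeg hB)).symm φ, fun x =>
      LinearMap.BilinForm.apply_toDual_symm_apply (hB := polarBilin_nondeg hB) _ x⟩
  have hwS : w ∈ S := hmemS ((polar_comm Qf v w).trans ((hw v).trans hφ))
  have hfin : ∀ c : F, c • w ∈ qFun Qf M v := by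
    have hsp := perp_singular_le_span hB hn hv0 hwS
    clear hw hwS
    induction hsp using Submodule.span_induction with
    | mem z hz => exact hiso z hz.1 hz.2
    | zero => intro c; rw [smul_zero]; exact qFun_zero M v
    | add a b _ _ ha hb => intro c; rw [smul_add]; exact qFun_add (ha c) (hb c)
    | smul l a _ ha => intro c; rw [smul_smul]; exact ha _
  obtain ⟨h, hm⟩ := hfin 1
  convert hm using 1
  exact gl_ext_mulVec fun x => by simp [hw]

/-- A singular transvection centre in a group containing an element that is not a similarity. -/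
lemma exists_qFun_of_not_sim [Fintype F] (hB : BNondeg Qf) (h2 : (2 : F) ≠ 0)
    (hn : 5 ≤ Fintype.card ι) {M : Subgroup (GL ι F)} (hEQ : ∀ k ∈ EQ Qf, oqToGL Qf k ∈ M)
    {g : GL ι F} (hg : g ∈ M)
    (hns : ¬ ∃ c : Fˣ, ∀ a, Qf ((g : Matrix ι ι F) *ᵥ a) = (c : F) * Qf a) :
    ∃ v w : ι → F, v ≠ 0 ∧ Qf v = 0 ∧ w ≠ 0 ∧ ∀ c : F, c • w ∈ qFun Qf M v := by
  have hV : finrank F (ι → F) = Fintype.card ι := finrank_pi F
  set G : Matrix ι ι F := (g : Matrix ι ι F) with hG
  set Gi : Matrix ι ι F := ((g⁻¹ : GL ι F) : Matrix ι ι F) with hGi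
  have hself : ∀ x, polar Qf x x = 2 * Qf x := fun x => by rw [polar_self, nsmul_eq_mul]; norm_num
  have hcancel : ∀ x, Gi *ᵥ (G *ᵥ x) = x := fun x => by
    rw [hG, hGi, Matrix.mulVec_mulVec, ← Units.val_mul, inv_mul_cancel, Units.val_one,
      Matrix.one_mulVec]
  have hcancel' : ∀ x, G *ᵥ (Gi *ᵥ x) = x := fun x => mulVec_inv_cancel g x
  have hdual : ∀ χ : (ι → F) →ₗ[F] F, ∃ y, ∀ x, polar Qf y x = χ x := fun χ =>
    ⟨(LinearMap.BilinForm.toDual (polarBilin Qf) (polarBilin_nondeg hB)).symm χ, fun x =>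
      LinearMap.BilinForm.apply_toDual_symm_apply (hB := polarBilin_nondeg hB) _ x⟩
  set Q' : QuadraticForm F (ι → F) := Qf.comp (Matrix.toLin' Gi) with hQ'
  have hQ'a : ∀ x, Q' x = Qf (Gi *ᵥ x) := fun x => by
    rw [hQ', QuadraticMap.comp_apply, Matrix.toLin'_apply]
  by_contra hcon
  push Not at hcon
  -- a common singular vector makes the two forms proportional near it
  have hstar : ∀ p, p ≠ 0 → Qf p = 0 → Qf (Gi *ᵥ p) = 0 → ∃ l : F,
      (∀ z, polar Qf (Gi *ᵥ p) (Gi *ᵥ z) = l * polar Qf p z) ∧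
      ∀ x y, polar Qf p x = 0 → polar Qf p y = 0 →
        polar Qf (Gi *ᵥ x) (Gi *ᵥ y) = l * polar Qf x y := by
    intro p hp0 hp hu
    set u := Gi *ᵥ p with hu'
    obtain ⟨p', hp'⟩ := hdual ((polarBilin Qf u) ∘ₗ Matrix.toLin' Gi)
    have hp'a : ∀ z, polar Qf p' z = polar Qf u (Gi *ᵥ z) := fun z => by
      rw [hp', LinearMap.comp_apply, Matrix.toLin'_apply, polarBilin_apply_apply]
    have hpp : polar Qf p p = 0 := by rw [hself, hp, mul_zero]
    have huu : polar Qf u u = 0 := by rw [hself, hu, mul_zero]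
    have hGu : G *ᵥ u = p := hcancel' p
    -- the commutator of two Siegel elements
    have hcomm : ∀ x y, polar Qf p x = 0 → polar Qf p y = 0 → polar Qf u (Gi *ᵥ x) = 0 →
        polar Qf u (Gi *ᵥ y) = 0 → ∀ c : F, c • (polar Qf (Gi *ᵥ x) (Gi *ᵥ y) • p
          - polar Qf x y • p') ∈ qFun Qf M p := by
      intro x₀ y hx hy hx' hy' c
      obtain ⟨x, hxdef⟩ : ∃ x, x = c • x₀ := ⟨_, rfl⟩
      have hx : polar Qf p x = 0 := by rw [hxdef, polar_smul_right, hx, smul_zero]
      have hx' : polar Qf u (Gi *ᵥ x) = 0 := by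
        rw [hxdef, Matrix.mulVec_smul, polar_smul_right, hx', smul_zero]
      rw [show c • (polar Qf (Gi *ᵥ x₀) (Gi *ᵥ y) • p - polar Qf x₀ y • p') =
          polar Qf (Gi *ᵥ x) (Gi *ᵥ y) • p - polar Qf x y • p' by
        rw [hxdef, Matrix.mulVec_smul, polar_smul_left, polar_smul_left, smul_sub, smul_smul,
          smul_smul, smul_eq_mul, smul_eq_mul]]
      set w := polar Qf (Gi *ᵥ x) (Gi *ᵥ y) • p - polar Qf x y • p' with hw
      have hwz : ∀ z, polar Qf w z = polar Qf (Gi *ᵥ x) (Gi *ᵥ y) * polar Qf p z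
          - polar Qf x y * polar Qf u (Gi *ᵥ z) := fun z => by
        rw [hw, polar_sub_left, polar_smul_left, polar_smul_left, hp'a, smul_eq_mul, smul_eq_mul]
      have h0 : polarBilin Qf w p = 0 := by
        rw [polarBilin_apply_apply, hwz, hpp, huu]; ring
      refine ⟨h0, ?_⟩
      have m1 := hEQ _ (siegel_mem_EQ Qf hp hx)
      have m2 : g * oqToGL Qf (siegel Qf hu hy') * g⁻¹ ∈ M :=
        mul_mem (mul_mem hg (hEQ _ (siegel_mem_EQ Qf hu hy'))) (inv_mem hg)
      obtain ⟨n₁, hn₁⟩ : ∃ k, k = oqToGL Qf (siegel Qf hp hx) := ⟨_, rfl⟩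
      obtain ⟨n₂, hn₂⟩ : ∃ k, k = g * oqToGL Qf (siegel Qf hu hy') * g⁻¹ := ⟨_, rfl⟩
      rw [← hn₁] at m1
      rw [← hn₂] at m2
      convert mul_mem (mul_mem m1 m2) (inv_mem (mul_mem m2 m1)) using 1
      rw [eq_mul_inv_iff_mul_eq]
      have e1 : ∀ z, (n₁ : Matrix ι ι F) *ᵥ z =
          z + polar Qf p z • x - (polar Qf x z + Qf x * polar Qf p z) • p := fun z => by
        rw [hn₁, oqToGL_mulVec, siegel_apply]; module
      have e2 : ∀ z, (n₂ : Matrix ι ι F) *ᵥ z = z + polar Qf u (Gi *ᵥ z) • y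
          - (polar Qf (Gi *ᵥ y) (Gi *ᵥ z) + Qf (Gi *ᵥ y) * polar Qf u (Gi *ᵥ z)) • p := fun z => by
        rw [hn₂, Units.val_mul, Units.val_mul, ← Matrix.mulVec_mulVec, ← Matrix.mulVec_mulVec,
          oqToGL_mulVec, siegel_apply, ← hG, ← hGi, Matrix.mulVec_sub, Matrix.mulVec_sub,
          Matrix.mulVec_add, Matrix.mulVec_smul, Matrix.mulVec_smul, Matrix.mulVec_smul, hcancel',
          hcancel', hGu]
        module
      refine gl_ext_mulVec fun z => ?_
      rw [Units.val_mul, Units.val_mul, Units.val_mul, ← Matrix.mulVec_mulVec,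
        ← Matrix.mulVec_mulVec, ← Matrix.mulVec_mulVec, transv_mulVec]
      simp only [e1, e2, polarBilin_apply_apply, hwz, Matrix.mulVec_add, Matrix.mulVec_sub,
        Matrix.mulVec_smul, polar_add_right, polar_sub_right, polar_smul_right, ← hu', hx, hy, hx',
        hy', hpp, huu, smul_eq_mul, mul_zero, add_zero, sub_zero, (polar_comm Qf x p).trans hx,
        (polar_comm Qf (Gi *ᵥ y) u).trans hy', polar_comm Qf (Gi *ᵥ y) (Gi *ᵥ x)]
      module
    have hzero : ∀ x y, polar Qf p x = 0 → polar Qf p y = 0 → polar Qf u (Gi *ᵥ x) = 0 →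
        polar Qf u (Gi *ᵥ y) = 0 →
        polar Qf (Gi *ᵥ x) (Gi *ᵥ y) • p - polar Qf x y • p' = 0 := by
      intro x y h1 h3 h4 h5
      by_contra hne
      obtain ⟨c, hc⟩ := hcon p _ hp0 hp hne
      exact hc (hcomm x y h1 h3 h4 h5 c)
    have hlin : p' ∈ F ∙ p := by
      by_contra hne
      set W := LinearMap.ker (polarBilin Qf p) ⊓
        LinearMap.ker ((polarBilin Qf u) ∘ₗ Matrix.toLin' Gi) with hW
      have hle : W ≤ OrthGen.perpSub Qf W := fun a ha b hb => by
        show polar Qf b a = 0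
        by_contra hba
        refine hne (Submodule.mem_span_singleton.2
          ⟨(polar Qf b a)⁻¹ * polar Qf (Gi *ᵥ b) (Gi *ᵥ a), ?_⟩)
        have := hzero b a hb.1 ha.1 hb.2 ha.2
        rw [sub_eq_zero] at this
        rw [mul_smul, this, inv_smul_smul₀ hba]
      have h1 := Submodule.finrank_mono hle
      rw [OrthGen.finrank_orthogonal_polar hB, hV] at h1
      have h3 := finrank_inf_ker_ge ((polarBilin Qf u) ∘ₗ Matrix.toLin' Gi)
        (LinearMap.ker (polarBilin Qf p))
      have h5 := finrank_inf_ker_ge (polarBilin Qf p) (⊤ : Submodule F (ι → F))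
      rw [top_inf_eq, finrank_top, hV] at h5
      rw [← hW] at h3
      omega
    obtain ⟨l, hl⟩ := Submodule.mem_span_singleton.1 hlin
    have hrep : ∀ z, polar Qf u (Gi *ᵥ z) = l * polar Qf p z := fun z => by
      rw [← hp'a, ← hl, polar_smul_left, smul_eq_mul]
    refine ⟨l, hrep, fun x y hx hy => ?_⟩
    have := hzero x y hx hy (by rw [hrep, hx, mul_zero]) (by rw [hrep, hy, mul_zero])
    rw [← hl, smul_smul, ← sub_smul, smul_eq_zero] at this
    rw [sub_eq_zero.1 (this.resolve_right hp0), mul_comm]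
  obtain ⟨p, hp0, hp, hpu⟩ := exists_common_singular h2 hn Qf Q'
  rw [hQ'a] at hpu
  obtain ⟨l, hl, hlW⟩ := hstar p hp0 hp hpu
  set S := OrthGen.perpSub Qf (F ∙ p) with hS
  have hSmem : ∀ {x}, x ∈ S → polar Qf p x = 0 := fun {x} h =>
    h p (Submodule.mem_span_singleton_self p)
  -- vectors for which the forms agree
  have hgood : ∀ z ∈ S, Qf z = 0 → ∀ y, polar Qf (Gi *ᵥ z) (Gi *ᵥ y) = l * polar Qf z y := by
    intro z hz hzQ
    by_cases hzp : z ∈ F ∙ p
    · obtain ⟨c, rfl⟩ := Submodule.mem_span_singleton.1 hzp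
      intro y
      rw [Matrix.mulVec_smul, polar_smul_left, polar_smul_left, hl]
      simp only [smul_eq_mul]; ring
    have hz0 : z ≠ 0 := fun h => hzp (h ▸ zero_mem _)
    have hzu : Qf (Gi *ᵥ z) = 0 := by
      have := hlW z z (hSmem hz) (hSmem hz)
      rw [hself, hself, hzQ, mul_zero, mul_zero] at this
      exact (mul_eq_zero.1 this).resolve_left h2
    obtain ⟨l', hl', -⟩ := hstar z hz0 hzQ hzu
    obtain ⟨y, hy, hzy⟩ : ∃ y ∈ S, polar Qf z y ≠ 0 := by
      by_contra hc
      push Not at hc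
      apply hzp
      rw [← LinearMap.BilinForm.orthogonal_orthogonal (polarBilin_nondeg hB) (polarBilin_refl Qf)
        (F ∙ p)]
      exact fun y hy => (polar_comm Qf y z).trans (hc y hy)
    have hll : l' = l := mul_right_cancel₀ hzy ((hl' y).symm.trans (hlW z y (hSmem hz) (hSmem hy)))
    exact hll ▸ hl'
  have hagree : ∀ z ∈ S, ∀ y, polar Qf (Gi *ᵥ z) (Gi *ᵥ y) = l * polar Qf z y := by
    intro z hz y
    have hspan := perp_singular_le_span hB hn hp0 hz
    clear hz
    induction hspan using Submodule.span_induction with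
    | mem a ha => exact hgood a ha.1 ha.2 y
    | zero => rw [Matrix.mulVec_zero, polar_zero_left, polar_zero_left, mul_zero]
    | add a b _ _ ha hb =>
      rw [Matrix.mulVec_add, polar_add_left, polar_add_left, ha, hb, mul_add]
    | smul c a _ ha =>
      rw [Matrix.mulVec_smul, polar_smul_left, polar_smul_left, ha]
      simp only [smul_eq_mul]; ring
  -- a second common singular vector
  obtain ⟨z, hzS, hzp, hzQ⟩ : ∃ z ∈ S, z ∉ F ∙ p ∧ Qf z = 0 :=
    exists_singular_outside S (F ∙ p) (by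
      rw [hS, OrthGen.finrank_orthogonal_polar hB, finrank_span_singleton hp0, hV]; omega)
  have hz0 : z ≠ 0 := fun h => hzp (h ▸ zero_mem _)
  have hzu : Qf (Gi *ᵥ z) = 0 := by
    have := hlW z z (hSmem hzS) (hSmem hzS)
    rw [hself, hself, hzQ, mul_zero, mul_zero] at this
    exact (mul_eq_zero.1 this).resolve_left h2
  obtain ⟨l', hl', hlW'⟩ := hstar z hz0 hzQ hzu
  obtain ⟨χ, hχ1, hχ⟩ := exists_functional (p := F ∙ z) (x := p) fun h => hzp (by
    obtain ⟨c, hc⟩ := Submodule.mem_span_singleton.1 h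
    have hc0 : c ≠ 0 := fun h => hp0 (by rw [← hc, h, zero_smul])
    exact Submodule.mem_span_singleton.2 ⟨c⁻¹, by rw [← hc, inv_smul_smul₀ hc0]⟩)
  obtain ⟨f, hf⟩ := hdual χ
  have hfp : polar Qf p f = 1 := by rw [polar_comm, hf, hχ1]
  have hfz : polar Qf z f = 0 := by
    rw [polar_comm, hf, hχ z (Submodule.mem_span_singleton_self z)]
  obtain ⟨y, hy, hzy⟩ : ∃ y ∈ S, polar Qf z y ≠ 0 := by
    by_contra hc
    push Not at hc
    apply hzp
    rw [← LinearMap.BilinForm.orthogonal_orthogonal (polarBilin_nondeg hB) (polarBilin_refl Qf)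
      (F ∙ p)]
    exact fun y hy => (polar_comm Qf y z).trans (hc y hy)
  have hll : l' = l := mul_right_cancel₀ hzy ((hl' y).symm.trans (hagree z hzS y))
  have hff : polar Qf (Gi *ᵥ f) (Gi *ᵥ f) = l * polar Qf f f := hll ▸ hlW' f f hfz hfz
  have hall : ∀ a b, polar Qf (Gi *ᵥ a) (Gi *ᵥ b) = l * polar Qf a b := by
    intro a b
    have hdec : ∀ a, a - polar Qf p a • f ∈ S := fun a y hy => by
      obtain ⟨c, rfl⟩ := Submodule.mem_span_singleton.1 hy
      show polar Qf (c • p) _ = 0
      rw [polar_smul_left, polar_sub_right, polar_smul_right, hfp]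
      simp
    have hfb : ∀ b, polar Qf (Gi *ᵥ f) (Gi *ᵥ b) = l * polar Qf f b := fun b => by
      have h1 := hagree _ (hdec b) f
      rw [polar_comm, Matrix.mulVec_sub, Matrix.mulVec_smul, polar_sub_right, polar_smul_right, hff,
        polar_comm Qf (b - _) f, polar_sub_right, polar_smul_right] at h1
      simp only [smul_eq_mul] at h1
      linear_combination h1
    have h1 := hagree _ (hdec a) b
    rw [Matrix.mulVec_sub, Matrix.mulVec_smul, polar_sub_left, polar_smul_left, hfb,
      polar_sub_left, polar_smul_left] at h1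
    simp only [smul_eq_mul] at h1
    linear_combination h1
  have hl0 : l ≠ 0 := fun h => hz0 (by
    refine (hcancel' z).symm.trans ?_
    rw [show Gi *ᵥ z = 0 from hB _ fun b => by
      rw [← hcancel b, hall, h, zero_mul], Matrix.mulVec_zero])
  refine hns ⟨(Units.mk0 l hl0)⁻¹, fun a => ?_⟩
  have h1 := hall (G *ᵥ a) (G *ᵥ a)
  rw [hcancel, hself, hself, mul_left_comm] at h1
  rw [mul_left_cancel₀ h2 h1, Units.val_inv_eq_inv_val, Units.val_mk0, inv_mul_cancel_left₀ hl0]

/-- From a self-paired centre to one with a functional outside its line. -/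
lemma exists_qFun_outside (hB : BNondeg Qf) (h2 : (2 : F) ≠ 0) (hn : 5 ≤ Fintype.card ι)
    {M : Subgroup (GL ι F)} (hEQ : ∀ k ∈ EQ Qf, oqToGL Qf k ∈ M) {p : ι → F} (hp0 : p ≠ 0)
    (hp : Qf p = 0) (hline : ∀ c : F, c • p ∈ qFun Qf M p) :
    ∃ v w, v ≠ 0 ∧ Qf v = 0 ∧ w ∈ qFun Qf M v ∧ w ∉ F ∙ v := by
  have hp2 := OrthGen.hasTwoPairs_of_five_le hB
    (by rw [finrank_pi]; omega : 5 ≤ finrank F (ι → F))
  have hall : ∀ q, q ≠ 0 → Qf q = 0 → ∀ c : F, c • q ∈ qFun Qf M q := by
    intro q hq0 hq c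
    obtain ⟨k, hk, hkp⟩ := EQ_transitive_singular hB.qNondeg hp2 hp0 hp hq0 hq
    have := qFun_map (hline c) (hEQ k hk)
    rwa [map_smul, hkp] at this
  obtain ⟨f, hf, hpf⟩ := Forms.exists_singular_partner hB hp hp0
  -- a singular vector orthogonal to both
  obtain ⟨r, hrU, hr0, hr⟩ := Forms.exists_singular_vector_of_three_le Qf
    (S := LinearMap.ker (polarBilin Qf p) ⊓ LinearMap.ker (polarBilin Qf f)) (by
      have h3 := finrank_inf_ker_ge (polarBilin Qf f) (LinearMap.ker (polarBilin Qf p))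
      have h5 := finrank_inf_ker_ge (polarBilin Qf p) (⊤ : Submodule F (ι → F))
      rw [top_inf_eq, finrank_top, finrank_pi] at h5
      omega)
  have hpr : polar Qf p r = 0 := hrU.1
  have hfr : polar Qf f r = 0 := hrU.2
  have hpp : polar Qf p p = 0 := by rw [polar_self, hp, smul_zero]
  set q := f + r with hq
  have hqQ : Qf q = 0 := by rw [hq, qf_add, hf, hr, hfr]; simp
  have hpq : polar Qf p q = 1 := by rw [hq, polar_add_right, hpf, hpr, add_zero]
  have hqq : polar Qf q q = 0 := by rw [polar_self, hqQ, smul_zero]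
  have hqf : polar Qf q f = 0 := by
    rw [hq, polar_add_left, polar_self, hf, smul_zero, polar_comm Qf r f, hfr, add_zero]
  have hfp : polar Qf f p = 1 := (polar_comm Qf f p).trans hpf
  have hqp : polar Qf q p = 1 := (polar_comm Qf q p).trans hpq
  have hq0 : q ≠ 0 := fun h => one_ne_zero (α := F) (by rw [← hpq, h, polar_zero_right])
  have hf0 : f ≠ 0 := fun h => one_ne_zero (α := F) (by rw [← hpf, h, polar_zero_right])
  obtain ⟨a1, hA⟩ := hall q hq0 hqQ (-1)
  obtain ⟨b1, hB'⟩ := hall p hp0 hp 1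
  obtain ⟨d1, hD⟩ := hall f hf0 hf 1
  obtain ⟨h', hh'⟩ : ∃ k, k = transv (polarBilin Qf ((-1 : F) • q)) q a1 *
      transv (polarBilin Qf ((1 : F) • p)) p b1 *
      transv (polarBilin Qf ((-1 : F) • q)) q a1 := ⟨_, rfl⟩
  have hkm : h' ∈ M := hh' ▸ mul_mem (mul_mem hA hB') hA
  have hrp0 : p - r ≠ 0 := fun h => one_ne_zero (α := F) (by
    rw [← hfp, sub_eq_zero.1 h, hfr])
  have hrp : Qf (p - r) = 0 := by rw [qf_sub, hp, hr, hpr]; simp
  have hw0 : polarBilin Qf (-(p + r)) (p - r) = 0 := by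
    rw [polarBilin_apply_apply, polar_neg_left, polar_sub_right, polar_add_left, polar_add_left,
      hpp, hpr, polar_comm Qf r p, hpr, polar_self, hr, smul_zero]
    simp
  refine ⟨p - r, -(p + r), hrp0, hrp, ⟨hw0, ?_⟩, fun h => ?_⟩
  · convert mul_mem (mul_mem hkm hD) (inv_mem hkm) using 1
    rw [eq_mul_inv_iff_mul_eq, hh']
    refine gl_ext_mulVec fun z => ?_
    simp only [Units.val_mul, ← Matrix.mulVec_mulVec, transv_mulVec, polarBilin_apply_apply,
      polar_smul_left, polar_neg_left, polar_add_left, polar_add_right, polar_smul_right, hpp, hpq, hqp, hqq, hqf,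
      hpf, hfp, smul_eq_mul, one_mul, mul_one, mul_zero, add_zero]
    have hrz : polar Qf r z = polar Qf q z - polar Qf f z := by rw [hq, polar_add_left]; ring
    have hrp' : polar Qf r p = 0 := (polar_comm Qf r p).trans hpr
    have hrq : polar Qf r q = 0 := by
      rw [hq, polar_add_right, polar_comm Qf r f, hfr, polar_self, hr, smul_zero, add_zero]
    simp only [hrz, hrp', hrq, mul_zero, add_zero, sub_zero, mul_one]
    rw [show r = q - f by rw [hq]; abel]
    module
  · obtain ⟨c, hc⟩ := Submodule.mem_span_singleton.1 h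
    have h1 := congrArg (polar Qf f) hc
    rw [polar_smul_right, polar_neg_right, polar_add_right, polar_sub_right, hfp, hfr] at h1
    simp only [smul_eq_mul, add_zero, sub_zero, mul_one] at h1
    have hc' : c = -1 := by linear_combination h1
    rw [hc'] at hc
    have h3 : (2 : F) • r = 0 := by linear_combination (norm := module) hc
    exact hr0 ((smul_eq_zero.1 h3).resolve_left h2)

/-- The similarity group of a quadratic form is maximal in `SL`, in odd characteristic. -/
theorem quad_similarity_maximal (hn : 5 ≤ Fintype.card ι) (h2 : (2 : F) ≠ 0) {Q : (ι → F) → F}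
    (hQ : IsNondegenerateQuadraticForm Q) :
    IsMaximalIn (specialLinear ι F) (quadSimilarityGroup Q ⊓ specialLinear ι F) := by
  haveI : Nontrivial ι := Fintype.one_lt_card_iff_nontrivial.1 (by omega)
  set Qf := toQF hQ with hQfdef
  have hQf : ∀ x, Qf x = Q x := fun x => rfl
  have hB : BNondeg Qf := bNondeg_toQF hQ
  have hV : finrank F (ι → F) = Fintype.card ι := finrank_pi F
  have hp2 := OrthGen.hasTwoPairs_of_five_le hB (by omega : 5 ≤ finrank F (ι → F))
  have hself : ∀ x, polar Qf x x = 2 * Qf x := fun x => by rw [polar_self, nsmul_eq_mul]; norm_num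
  have hperp1 : ∀ u : ι → F, ∀ y, polar Qf u y = 0 → y ∈ OrthGen.perpSub Qf (F ∙ u) :=
    fun u y h s hs => by
      obtain ⟨c, rfl⟩ := Submodule.mem_span_singleton.1 hs
      show polar Qf (c • u) y = 0
      rw [polar_smul_left, h, smul_zero]
  obtain ⟨e₀, -, he₀0, he₀⟩ :=
    exists_singular_outside (Q := Qf) (⊤ : Submodule F (ι → F)) ⊥ (by simp; omega)
  rw [Submodule.mem_bot] at he₀0
  obtain ⟨f₀, hf₀, hef₀⟩ := Forms.exists_singular_partner hB he₀ he₀0
  have hee₀ : polar Qf e₀ e₀ = 0 := by rw [hself, he₀, mul_zero]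
  refine ⟨lt_of_le_not_ge inf_le_right fun hle => ?_, fun M hM hMK => ?_⟩
  · have h0 : polarBilin Qf e₀ e₀ = 0 := hee₀
    obtain ⟨c, hc⟩ := (hle (transv_mem_specialLinear _ e₀ h0)).1
    have h1 := hc f₀
    rw [transv_mulVec, polarBilin_apply_apply, hef₀, one_smul, ← hQf, ← hQf, hf₀, mul_zero,
      qf_add, hf₀, he₀, polar_comm Qf f₀ e₀, hef₀] at h1
    simp at h1
  by_cases hMW : M ≤ quadSimilarityGroup Q
  · exact Or.inl (le_antisymm (le_inf hMW hMK) hM)
  refine Or.inr (le_antisymm hMK ?_)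
  have hEQ : ∀ k ∈ EQ Qf, oqToGL Qf k ∈ M := by
    intro k hk
    refine hM ⟨⟨1, fun x => by
      rw [oqToGL_mulVec, Units.val_one, one_mul, ← hQf, ← hQf]; exact OQ_map_app k x⟩, ?_⟩
    rw [← commutator_eq_EQ hB (by omega)] at hk
    have h1 := Abelianization.commutator_subset_ker
      ((Matrix.GeneralLinearGroup.det).comp (oqToGL Qf)) hk
    change oqToGL Qf k ∈ specialLinear ι F
    rw [mem_specialLinear_iff]
    exact congrArg Units.val (MonoidHom.mem_ker.1 h1)
  obtain ⟨g, hgM, hgW⟩ := SetLike.not_le_iff_exists.1 hMW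
  set G : Matrix ι ι F := (g : Matrix ι ι F) with hG
  have hcancel : ∀ x, ((g⁻¹ : GL ι F) : Matrix ι ι F) *ᵥ (G *ᵥ x) = x := fun x => by
    rw [hG, Matrix.mulVec_mulVec, ← Units.val_mul, inv_mul_cancel, Units.val_one,
      Matrix.one_mulVec]
  haveI := Fintype.ofFinite F
  have hns : ¬ ∃ c : Fˣ, ∀ a, Qf ((g : Matrix ι ι F) *ᵥ a) = (c : F) * Qf a :=
    fun ⟨c, hc⟩ => hgW ⟨c, fun a => hc a⟩
  obtain ⟨v₁, w₁, hv₁, hv₁Q, hw₁, hall₁⟩ :=
    exists_qFun_of_not_sim hB h2 (by omega) hEQ hgM hns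
  obtain ⟨e, w, he0, he, hwY, hwe⟩ : ∃ v w, v ≠ 0 ∧ Qf v = 0 ∧ w ∈ qFun Qf M v ∧ w ∉ F ∙ v := by
    by_cases hwv : w₁ ∈ F ∙ v₁
    · obtain ⟨c, rfl⟩ := Submodule.mem_span_singleton.1 hwv
      refine exists_qFun_outside hB h2 (by omega) hEQ hv₁ hv₁Q fun d => ?_
      have hc : c ≠ 0 := fun h => hw₁ (by rw [h, zero_smul])
      have := hall₁ (d / c)
      rwa [smul_smul, div_mul_cancel₀ _ hc] at this
    · exact ⟨v₁, w₁, hv₁, hv₁Q, by simpa using hall₁ 1, hwv⟩
  have heX : e ∈ centres M := mem_centres_of_singular hB (by omega) hEQ he0 he hwY hwe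
  -- closing up
  have hline : ∀ a b : ι → F, a ∈ centres M → b ∈ centres M → b ∉ F ∙ a → b + a ∈ centres M := by
    intro a b ha hb hab
    obtain ⟨ψ, hψ1, hψ⟩ := exists_functional hab
    have h := hψ a (Submodule.mem_span_singleton_self a)
    have := mulVec_mem_centres hb (ha ψ h)
    rwa [transv_mulVec, hψ1, one_smul] at this
  have hkmap : ∀ k ∈ EQ Qf, ∀ a ∈ centres M, k.1 a ∈ centres M := fun k hk a ha => by
    have := mulVec_mem_centres ha (hEQ k hk)
    rwa [oqToGL_mulVec] at this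
  have hsingX : ∀ z, Qf z = 0 → z ∈ centres M := by
    intro z hz
    rcases eq_or_ne z 0 with rfl | hz0
    · simpa using smul_mem_centres heX 0
    obtain ⟨k, hk, hke⟩ := EQ_transitive_singular hB.qNondeg hp2 he0 he hz0 hz
    exact hke ▸ hkmap k hk e heX
  refine specialLinear_le_of_transv_mem fun φ a h => ?_
  suffices ha : a ∈ centres M from ha φ h
  by_cases ha : Qf a = 0
  · exact hsingX a ha
  obtain ⟨z, -, hz, hza⟩ := exists_singular_perp_polar_ne hB (⊥ : Submodule F (ι → F))
    (by simp; omega) (w := a) (fun h => ha (by rw [Submodule.mem_bot] at h; simp [h]))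
  set z₁ := (Qf a / polar Qf z a) • z with hz₁
  have hz₁Q : Qf z₁ = 0 := by rw [hz₁, QuadraticMap.map_smul, hz, smul_zero]
  have hz₁a : polar Qf z₁ a = Qf a := by
    rw [hz₁, polar_smul_left, smul_eq_mul, div_mul_cancel₀ _ hza]
  have hdiff : Qf (a - z₁) = 0 := by
    rw [qf_sub, hz₁Q, polar_comm, hz₁a]; ring
  have := hline z₁ (a - z₁) (hsingX _ hz₁Q) (hsingX _ hdiff) (fun h' => ha (by
    obtain ⟨c, hc⟩ := Submodule.mem_span_singleton.1 h'
    rw [show a = (c + 1) • z₁ by linear_combination (norm := module) -hc, QuadraticMap.map_smul,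
      hz₁Q, smul_zero]))
  simpa using this

end Cfsg.Agent.GeoClasses
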