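import Cfsg.Agent.GeoClasses.TransvGen

/-!
The similarity group of a symplectic form is maximal in `SL`.
-/

set_option autoImplicit false

namespace Cfsg.Agent.GeoClasses

open Matrix Cfsg.Geo
open scoped MatrixGroups Matrix

variable {ι : Type} [Fintype ι] [DecidableEq ι] {F : Type*} [Field F]

omit [Fintype ι] [DecidableEq ι] in
/-- The bilinear map of a bilinear two-argument form. -/
lemma exists_bilin {f : (ι → F) → (ι → F) → F} (hf : IsBilinearForm f) :
    ∃ B : LinearMap.BilinForm F (ι → F), ∀ x y, B x y = f x y :=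
  ⟨LinearMap.mk₂ F f hf.add_left hf.smul_left hf.add_right hf.smul_right, fun _ _ => rfl⟩

/-- The similarity group of a symplectic form is maximal in `SL`. -/
theorem symp_similarity_maximal (hn : 3 ≤ Fintype.card ι) {f : (ι → F) → (ι → F) → F}
    (hf : IsSymplecticForm f) :
    IsMaximalIn (specialLinear ι F) (similarityGroup f ⊓ specialLinear ι F) := by
  haveI : Nontrivial ι := Fintype.one_lt_card_iff_nontrivial.1 (by omega)
  obtain ⟨B, hB⟩ := exists_bilin hf.bilinear
  have hflip : ∀ w x : ι → F, B.flip w x = B x w := fun _ _ => rfl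
  have hskew : ∀ x y, B x y = - B y x := fun x y => by rw [hB, hB]; exact hf.skew x y
  have halt : ∀ x, B x x = 0 := fun x => by rw [hB]; exact hf.alternating x
  have hnd : ∀ x, x ≠ 0 → ∃ y, B y x ≠ 0 := fun x hx => by
    obtain ⟨⟨y, hy⟩, -⟩ := hf.nondegenerate x hx
    exact ⟨y, by rwa [hB]⟩
  have hinj : ∀ a b : ι → F, (∀ x, B x a = B x b) → a = b := fun a b h => by
    by_contra hne
    obtain ⟨y, hy⟩ := hnd (a - b) (sub_ne_zero.2 hne)
    exact hy (by rw [map_sub, h, sub_self])
  have hrep : ∀ φ : (ι → F) →ₗ[F] F, ∃ w, ∀ x, B x w = φ x := by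
    intro φ
    have hj : Function.Injective (B.flip : (ι → F) →ₗ[F] ((ι → F) →ₗ[F] F)) := fun a b h =>
      hinj a b fun x => congrArg (fun L : (ι → F) →ₗ[F] F => L x) h
    obtain ⟨w, hw⟩ := (LinearMap.injective_iff_surjective_of_finrank_eq_finrank
      (Subspace.dual_finrank_eq (K := F) (V := ι → F)).symm).1 hj φ
    exact ⟨w, fun x => congrArg (fun L : (ι → F) →ₗ[F] F => L x) hw⟩
  -- separating a vector from a line
  have hsep : ∀ v w : ι → F, w ∉ F ∙ v → ∃ z, B z v = 0 ∧ B z w ≠ 0 := by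
    intro v w hw
    by_contra hcon
    push Not at hcon
    rcases eq_or_ne v 0 with rfl | hv
    · obtain ⟨y, hy⟩ := hnd w (fun h => hw (by simp [h]))
      exact hy (hcon y (map_zero _))
    obtain ⟨y₀, hy₀⟩ := hnd v hv
    obtain ⟨y, hy⟩ : ∃ y, B y v = 1 :=
      ⟨(B y₀ v)⁻¹ • y₀, by simp [inv_mul_cancel₀ hy₀]⟩
    refine hw (Submodule.mem_span_singleton.2 ⟨B y w, hinj _ _ fun x => ?_⟩)
    have h := hcon (x - B x v • y) (by simp [hy])
    simp only [map_sub, map_smul, LinearMap.sub_apply, LinearMap.smul_apply, smul_eq_mul,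
      sub_eq_zero] at h
    rw [map_smul, smul_eq_mul, h, mul_comm]
  let τ : (z : ι → F) → (c : F) → GL ι F := fun z c =>
    transv (c • B.flip z) z (by simp [halt])
  have hτv : ∀ (z : ι → F) (c : F) (x : ι → F),
      (τ z c : Matrix ι ι F) *ᵥ x = x + (c * B x z) • z := fun z c x => by simp [τ]
  have hτf : ∀ (z : ι → F) (c : F) (x y : ι → F),
      B ((τ z c : Matrix ι ι F) *ᵥ x) ((τ z c : Matrix ι ι F) *ᵥ y) = B x y := fun z c x y => by
    simp only [hτv, map_add, map_smul, LinearMap.add_apply, LinearMap.smul_apply, smul_eq_mul,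
      halt, hskew z y]
    ring
  have hτP : ∀ (z : ι → F) (c : F), τ z c ∈ similarityGroup f ⊓ specialLinear ι F := fun z c =>
    ⟨⟨1, fun x y => by rw [← hB, ← hB, hτf, Units.val_one, one_mul]⟩,
      transv_mem_specialLinear _ _ _⟩
  refine ⟨lt_of_le_not_ge inf_le_right fun hle => ?_, fun M hM hMK => ?_⟩
  · obtain ⟨i, j, hij⟩ := exists_pair_ne ι
    have hv : (Pi.single i (1 : F) : ι → F) ≠ 0 := by simp
    set v : ι → F := Pi.single i (1 : F)
    obtain ⟨w, hw, hwv⟩ : ∃ w, B v w = 0 ∧ w ∉ F ∙ v := by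
      by_contra hcon
      push Not at hcon
      have h1 := LinearMap.finrank_range_add_finrank_ker (B v)
      have h2 := (LinearMap.range (B v)).finrank_le
      have h3 := (Submodule.finrank_mono (show LinearMap.ker (B v) ≤ F ∙ v from
        fun w hw => hcon w hw)).trans (finrank_span_singleton hv).le
      rw [Module.finrank_self] at h2
      rw [Module.finrank_pi] at h1
      omega
    have h0 : (B.flip w) v = 0 := hw
    obtain ⟨μ, hμ⟩ := (hle (transv_mem_specialLinear (B.flip w) v h0)).1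
    obtain ⟨x, hxv, hxw⟩ := hsep v w hwv
    obtain ⟨y, hyw, hyv⟩ := hsep w v (fun h => by
      obtain ⟨a, ha⟩ := Submodule.mem_span_singleton.1 h
      have ha0 : a ≠ 0 := fun h0 => hv (by simp [← ha, h0])
      exact hwv (Submodule.mem_span_singleton.2 ⟨a⁻¹, by rw [← ha, inv_smul_smul₀ ha0]⟩))
    have h1 := hμ y v
    simp only [transv_mulVec, h0, zero_smul, add_zero, hflip, hyw, ← hB] at h1
    have hμ1 : (μ : F) = 1 := by
      have : ((μ : F) - 1) * B y v = 0 := by linear_combination -h1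
      exact sub_eq_zero.1 ((mul_eq_zero.1 this).resolve_right hyv)
    have h2 := hμ x y
    simp only [transv_mulVec, hflip, hyw, zero_smul, add_zero, ← hB, hμ1, one_mul,
      map_add, map_smul, LinearMap.add_apply, LinearMap.smul_apply, smul_eq_mul] at h2
    rw [add_eq_left, mul_eq_zero] at h2
    rcases h2 with h2 | h2
    · exact hxw h2
    · exact hyv (by rw [hskew, h2, neg_zero])
  by_cases hMW : M ≤ similarityGroup f
  · exact Or.inl (le_antisymm (le_inf hMW hMK) hM)
  refine Or.inr (le_antisymm hMK ?_)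
  obtain ⟨g, hgM, hgW⟩ := SetLike.not_le_iff_exists.1 hMW
  set gi : Matrix ι ι F := ((g⁻¹ : GL ι F) : Matrix ι ι F) with hgi
  have hconj : ∀ v : ι → F, ∀ h : (B.flip (gi *ᵥ v) ∘ₗ Matrix.toLin' gi) v = 0,
      transv (B.flip (gi *ᵥ v) ∘ₗ Matrix.toLin' gi) v h ∈ M := by
    intro v h
    have hmem := mul_mem (mul_mem hgM (hM (hτP (gi *ᵥ v) 1))) (inv_mem hgM)
    convert hmem using 1
    refine gl_ext_mulVec fun x => ?_
    simp only [Units.val_mul, ← Matrix.mulVec_mulVec, hτv, transv_mulVec, LinearMap.comp_apply,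
      Matrix.toLin'_apply, hflip, Matrix.mulVec_add, Matrix.mulVec_smul, one_mul,
      hgi, mulVec_inv_cancel]
  obtain ⟨v, w₀, hv0, hw₀, hvw₀, hT⟩ : ∃ v w₀, v ≠ 0 ∧ w₀ ∉ F ∙ v ∧
      ∃ h : (B.flip w₀) v = 0, transv (B.flip w₀) v h ∈ M := by
    by_contra hcon
    push Not at hcon
    have hprop : ∀ v, ∃ μ : F, ∀ x, B (gi *ᵥ x) (gi *ᵥ v) = μ * B x v := by
      intro v
      rcases eq_or_ne v 0 with rfl | hv
      · exact ⟨0, fun x => by simp⟩
      obtain ⟨w, hw⟩ := hrep (B.flip (gi *ᵥ v) ∘ₗ Matrix.toLin' gi)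
      have heq : B.flip w = B.flip (gi *ᵥ v) ∘ₗ Matrix.toLin' gi :=
        LinearMap.ext fun x => hw x
      have h0 : (B.flip w) v = 0 := by rw [heq]; simp [halt]
      have hmem : transv (B.flip w) v h0 ∈ M := by
        convert hconj v (by simp [halt]) using 2
      by_cases hwv : w ∈ F ∙ v
      · obtain ⟨μ, hμ⟩ := Submodule.mem_span_singleton.1 hwv
        exact ⟨μ, fun x => by
          have := hw x
          rw [← hμ, map_smul, smul_eq_mul] at this
          simpa using this.symm⟩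
      · exact absurd hmem (hcon v w hv hwv h0)
    choose μ hμ using hprop
    have heq : ∀ u v, B u v ≠ 0 → μ u = μ v := by
      intro u v huv
      have h1 := hμ v u
      have h2 := hμ u v
      rw [hskew (gi *ᵥ v), hskew v u] at h2
      have : (μ u - μ v) * B u v = 0 := by linear_combination h2 + h1
      exact sub_eq_zero.1 ((mul_eq_zero.1 this).resolve_right huv)
    obtain ⟨i, j, hij⟩ := exists_pair_ne ι
    have hv0 : (Pi.single i (1 : F) : ι → F) ≠ 0 := by simp
    set v₀ : ι → F := Pi.single i (1 : F)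
    have hall : ∀ x v, B (gi *ᵥ x) (gi *ᵥ v) = μ v₀ * B x v := by
      intro x v
      rcases eq_or_ne v 0 with rfl | hv
      · simp
      obtain ⟨y, hy₀, hy₁⟩ : ∃ y, B y v₀ ≠ 0 ∧ B y v ≠ 0 := by
        obtain ⟨a, ha⟩ := hnd v₀ hv0
        obtain ⟨b, hb⟩ := hnd v hv
        by_cases h1 : B a v = 0
        · by_cases h2 : B b v₀ = 0
          · exact ⟨a + b, by simp [h2, ha], by simp [h1, hb]⟩
          · exact ⟨b, h2, hb⟩
        · exact ⟨a, ha, h1⟩
      rw [hμ, ← heq y v₀ hy₀, heq y v hy₁]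
    have hμ0 : μ v₀ ≠ 0 := by
      intro h
      obtain ⟨y, hy⟩ := hnd v₀ hv0
      apply hy
      have := hall ((g : Matrix ι ι F) *ᵥ y) ((g : Matrix ι ι F) *ᵥ v₀)
      simpa [hgi, Matrix.mulVec_mulVec, h] using this
    have hsim : g⁻¹ ∈ similarityGroup f :=
      ⟨Units.mk0 _ hμ0, fun x y => by rw [← hB, ← hB]; exact hall x y⟩
    exact hgW (by simpa using inv_mem hsim)
  have hv : v ∈ centres M := by
    have one : ∀ z, B z v = 0 → B w₀ z ≠ 0 → ∀ h : (B.flip z) v = 0,
        transv (B.flip z) v h ∈ M := by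
      intro z hzv hzw h
      have hp : τ z (B w₀ z)⁻¹ ∈ M := hM (hτP _ _)
      have := mul_mem (mul_mem (mul_mem hp hT) (inv_mem hp)) (inv_mem hT)
      convert this using 1
      rw [eq_mul_inv_iff_mul_eq, eq_mul_inv_iff_mul_eq]
      refine gl_ext_mulVec fun x => ?_
      have hBvz : B v z = 0 := by rw [hskew, hzv, neg_zero]
      simp only [Units.val_mul, ← Matrix.mulVec_mulVec, transv_mulVec, hτv, hflip,
        map_add, map_smul, LinearMap.add_apply, LinearMap.smul_apply, smul_eq_mul,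
        Matrix.mulVec_add, Matrix.mulVec_smul, hBvz, halt]
      rw [hskew z w₀] at *
      match_scalars <;> field_simp <;> ring
    obtain ⟨z₀, hz₀v, hz₀w⟩ := hsep v w₀ hw₀
    have hz₀ : B w₀ z₀ ≠ 0 := by rw [hskew]; simpa using hz₀w
    intro φ h
    obtain ⟨w, hw⟩ := hrep φ
    have hBvw : B v w = 0 := by rw [hw]; exact h
    have hwv : B w v = 0 := by rw [hskew, hBvw, neg_zero]
    by_cases hw0 : B w₀ w = 0
    · have hvz : B v z₀ = 0 := by rw [hskew, hz₀v, neg_zero]
      have h1 := one (w + z₀) (by simp [hwv, hz₀v]) (by simp [hw0, hz₀])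
        ((hflip _ v).trans (by simp [hBvw, hvz]))
      have h2 := one z₀ hz₀v hz₀ ((hflip z₀ v).trans hvz)
      convert mul_mem h1 (inv_mem h2) using 1
      rw [eq_mul_inv_iff_mul_eq]
      refine gl_ext_mulVec fun x => ?_
      simp only [Units.val_mul, ← Matrix.mulVec_mulVec, transv_mulVec, hflip,
        map_add, map_smul, LinearMap.add_apply, LinearMap.smul_apply, smul_eq_mul, ← hw, hBvw, hvz,
        Matrix.mulVec_add, Matrix.mulVec_smul]
      module
    · convert one w hwv hw0 ((hflip w v).trans hBvw) using 1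
      exact gl_ext_mulVec fun x => by simp [hflip, hw]
  refine specialLinear_le_of_transv_mem fun φ u h => ?_
  rcases eq_or_ne u 0 with rfl | hu
  · convert one_mem M using 1
    exact gl_ext_mulVec fun x => by simp
  have step : ∀ {a b : ι → F}, a ∈ centres M → B a b ≠ 0 → b ∈ centres M := by
    intro a b ha hab
    have := mulVec_mem_centres ha (hM (hτP (b - a) (B a b)⁻¹))
    rwa [hτv, map_sub, halt, sub_zero, inv_mul_cancel₀ hab, one_smul, add_sub_cancel] at this
  obtain ⟨y, h1, h2⟩ : ∃ y, B v y ≠ 0 ∧ B y u ≠ 0 := by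
    obtain ⟨a, ha⟩ := hnd v hv0
    obtain ⟨b, hb⟩ := hnd u hu
    by_cases h1 : B a u = 0
    · by_cases h2 : B b v = 0
      · exact ⟨a + b, by rw [hskew]; simp [h2, ha], by simp [h1, hb]⟩
      · exact ⟨b, by rw [hskew]; simpa using h2, hb⟩
    · exact ⟨a, by rw [hskew]; simpa using ha, h1⟩
  exact step (step hv h1) h2 φ h

end Cfsg.Agent.GeoClasses
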