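import Mathlib
import Cfsg.Prelude.Def_GeometricClasses
import Cfsg.Agent.GeoClasses.Forms
import Cfsg.Agent.GeoClasses.Tensor

/-!
More on forms: parity of the dimension of a non-degenerate alternating form, forms transported to
other coordinates, and forms on tensor powers.
-/

set_option autoImplicit false
set_option maxHeartbeats 400000

namespace Cfsg.Agent.GeoClasses

open Matrix Cfsg.Geo
open scoped MatrixGroups Matrix Kronecker

variable {ι κ : Type} [Fintype ι] [DecidableEq ι] [Fintype κ] [DecidableEq κ] {F : Type*} [Field F]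

/-- An alternating matrix of odd size is singular, over any field. -/
theorem det_eq_zero_of_alternating {B : Matrix ι ι F} (hskew : Bᵀ = -B) (hdiag : ∀ i, B i i = 0)
    (hodd : Odd (Fintype.card ι)) : B.det = 0 := by
  rw [Matrix.det_apply']
  refine Finset.sum_involution (fun π _ => π⁻¹) (fun π _ => ?_) (fun π _ hne heq => ?_)
    (fun π _ => Finset.mem_univ _) (fun π _ => inv_inv π)
  · have h1 : ∏ i, B (π⁻¹ i) i = ∏ i, B i (π i) :=
      (Fintype.prod_equiv π _ _ fun i => by simp).symm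
    have h2 : ∏ i, B i (π i) = (-1) ^ Fintype.card ι * ∏ i, B (π i) i := by
      rw [← Finset.card_univ, ← Finset.prod_const, ← Finset.prod_mul_distrib]
      refine Finset.prod_congr rfl fun i _ => ?_
      have : B i (π i) = -B (π i) i := congrFun (congrFun hskew (π i)) i
      rw [this, neg_one_mul]
    rw [Equiv.Perm.sign_inv, h1, h2, hodd.neg_one_pow]
    ring
  · haveI : Fact (Nat.Prime 2) := ⟨Nat.prime_two⟩
    obtain ⟨a, ha⟩ := Equiv.Perm.exists_fixed_point_of_prime (p := 2) (n := 1)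
      (fun h => (Nat.not_even_iff_odd.2 hodd) (even_iff_two_dvd.2 h)) (σ := π)
      (by rw [pow_one, pow_two]; conv_lhs => arg 2; rw [← heq]
          exact mul_inv_cancel π)
    apply hne
    rw [Finset.prod_eq_zero (Finset.mem_univ a) (by rw [ha, hdiag]), mul_zero]

theorem even_card_of_alternating {B : Matrix ι ι F} (hB : IsUnit B) (hskew : Bᵀ = -B)
    (hdiag : ∀ i, B i i = 0) : Even (Fintype.card ι) := by
  by_contra h
  exact ((Matrix.isUnit_iff_isUnit_det B).1 hB).ne_zero
    (det_eq_zero_of_alternating hskew hdiag (Nat.not_even_iff_odd.1 h))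

/-- The form with Gram matrix `J` in the coordinates given by `e` and `P`. -/
def pullForm (σ : F ≃+* F) (e : ι ≃ κ) (P : GL ι F) (J : Matrix κ κ F) : Matrix ι ι F :=
  adjForm σ (Matrix.reindexAlgEquiv F F e.symm J) ((P⁻¹ : GL ι F) : Matrix ι ι F)

lemma adjForm_reindex (σ : F ≃+* F) (e : ι ≃ κ) (J X : Matrix κ κ F) :
    adjForm σ (Matrix.reindexAlgEquiv F F e.symm J) (Matrix.reindexAlgEquiv F F e.symm X)
      = Matrix.reindexAlgEquiv F F e.symm (adjForm σ J X) := by
  simp only [adjForm, map_mul]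
  rfl

lemma isUnit_pullForm (σ : F ≃+* F) (e : ι ≃ κ) (P : GL ι F) {J : Matrix κ κ F} (hJ : IsUnit J) :
    IsUnit (pullForm σ e P J) := by
  refine (((Matrix.isUnit_transpose _).2 (P⁻¹).isUnit).mul ?_).mul
    ((P⁻¹).isUnit.map σ.toRingHom.mapMatrix)
  exact hJ.map (Matrix.reindexAlgEquiv F F e.symm)

lemma pullForm_smul (σ : F ≃+* F) (e : ι ≃ κ) (P : GL ι F) (c : F) (J : Matrix κ κ F) :
    pullForm σ e P (c • J) = c • pullForm σ e P J := by
  rw [pullForm, map_smul, adjForm_smul_left]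
  rfl

lemma starMat_pullForm {σ : F ≃+* F} (hσ : ∀ a, σ (σ a) = a) (e : ι ≃ κ) (P : GL ι F)
    (J : Matrix κ κ F) : starMat σ (pullForm σ e P J) = pullForm σ e P (starMat σ J) := by
  rw [pullForm, ← adjForm_star hσ]
  rfl

lemma transpose_pullForm (e : ι ≃ κ) (P : GL ι F) (J : Matrix κ κ F) :
    (pullForm (RingEquiv.refl F) e P J)ᵀ = pullForm (RingEquiv.refl F) e P Jᵀ :=
  starMat_pullForm (σ := RingEquiv.refl F) (fun _ => rfl) e P J

lemma diag_pullForm (e : ι ≃ κ) (P : GL ι F) {J : Matrix κ κ F} (hskew : Jᵀ = -J)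
    (hdiag : ∀ k, J k k = 0) (i : ι) : pullForm (RingEquiv.refl F) e P J i i = 0 := by
  rw [← formOf_single (RingEquiv.refl F) (pullForm (RingEquiv.refl F) e P J) i i, pullForm,
    ← formOf_mulVec]
  refine formOf_self_eq_zero (B := Matrix.reindexAlgEquiv F F e.symm J) ?_ (fun k => hdiag (e k)) _
  ext a b
  exact congrFun (congrFun hskew (e a)) (e b)

lemma isSim_pullForm {σ : F ≃+* F} {e : ι ≃ κ} {P g : GL ι F} {L : (κ → F) ≃ₗ[F] (ι → F)}
    (hP : ∀ X, conjMat L X = (P : Matrix ι ι F) * Matrix.reindexAlgEquiv F F e.symm X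
      * ((P⁻¹ : GL ι F) : Matrix ι ι F))
    {J X : Matrix κ κ F} {μ : F} (hX : adjForm σ J X = μ • J)
    (hg : (g : Matrix ι ι F) = conjMat L X) : IsSim σ (pullForm σ e P J) g μ := by
  unfold IsSim
  have h1 : ((P⁻¹ : GL ι F) : Matrix ι ι F) * (g : Matrix ι ι F)
      = Matrix.reindexAlgEquiv F F e.symm X * ((P⁻¹ : GL ι F) : Matrix ι ι F) := by
    rw [hg, hP, ← mul_assoc, ← mul_assoc, Units.inv_mul, one_mul]
  rw [pullForm, ← adjForm_mul, h1, adjForm_mul, adjForm_reindex, hX, map_smul, adjForm_smul_left]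

/-- The standard alternating matrix of size two. -/
def altTwo (F : Type*) [Field F] : Matrix (Fin 2) (Fin 2) F := !![0, 1; -1, 0]

lemma altTwo_transpose : (altTwo F)ᵀ = -altTwo F := by
  ext i j; fin_cases i <;> fin_cases j <;> simp [altTwo]

lemma altTwo_diag (i : Fin 2) : altTwo F i i = 0 := by fin_cases i <;> simp [altTwo]

lemma altTwo_adj (c : Matrix (Fin 2) (Fin 2) F) : cᵀ * altTwo F * c = c.det • altTwo F := by
  ext i j
  fin_cases i <;> fin_cases j <;>
    simp [altTwo, Matrix.mul_apply, Fin.sum_univ_two, Matrix.det_fin_two] <;> ring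

lemma isUnit_altTwo : IsUnit (altTwo F) := by
  rw [Matrix.isUnit_iff_isUnit_det]
  simp [altTwo, Matrix.det_fin_two]

lemma pureMat_neg_smul {a t : ℕ} (ε : F) (J : Matrix (Fin a) (Fin a) F) :
    pureMat (fun _ : Fin t => ε • J) = ε ^ t • pureMat fun _ : Fin t => J := by
  rw [pureMat_smul (fun _ : Fin t => ε) fun _ => J, Finset.prod_const, Finset.card_univ,
    Fintype.card_fin]

lemma isUnit_pureMat {a t : ℕ} {Ys : Fin t → Matrix (Fin a) (Fin a) F} (h : ∀ i, IsUnit (Ys i)) :
    IsUnit (pureMat Ys) := by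
  choose u hu using h
  have h2 : (fun i => (u i : Matrix (Fin a) (Fin a) F)) = Ys := funext hu
  rw [← h2]
  exact (glPure u).isUnit

/-- Pure tensors of similarities and permutations of equal factors are similarities of the tensor
power of a form. -/
lemma adjForm_pure_perm {σ : F ≃+* F} {a t : ℕ} {J : Matrix (Fin a) (Fin a) F}
    {Ys : Fin t → Matrix (Fin a) (Fin a) F} {μ : Fin t → F}
    (h : ∀ i, adjForm σ J (Ys i) = μ i • J) (π : Equiv.Perm (Fin t)) :
    adjForm σ (pureMat fun _ : Fin t => J) (pureMat Ys * factorPerm a π)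
      = (∏ i, μ i) • pureMat fun _ : Fin t => J := by
  have h1 : (factorPerm a π : Matrix (Fin t → Fin a) (Fin t → Fin a) F).map σ = factorPerm a π := by
    ext x y
    simp [factorPerm, apply_ite σ]
  have h2 : adjForm σ (pureMat fun _ : Fin t => J) (pureMat Ys)
      = (∏ i, μ i) • pureMat fun _ : Fin t => J := by
    have hmap : (pureMat Ys).map σ = pureMat fun i => (Ys i).map σ :=
      pureMat_map σ.toRingHom Ys
    rw [adjForm, pureMat_transpose, hmap, pureMat_mul, pureMat_mul]
    rw [← pureMat_smul μ fun _ => J]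
    congr 1
    exact funext h
  rw [adjForm_mul, h2, adjForm_smul_left]
  congr 1
  rw [adjForm, h1, factorPerm_transpose_mul, mul_assoc, pureMat_mul_factorPerm, ← mul_assoc,
    factorPerm_mul, inv_mul_cancel, factorPerm_one, one_mul]

/-- The tensor power of the alternating form of size two. -/
theorem exists_form_wreath_two {t : ℕ} {e : ι ≃ (Fin t → Fin 2)} {P : GL ι F}
    {L : ((Fin t → Fin 2) → F) ≃ₗ[F] (ι → F)}
    (hP : ∀ X, conjMat L X = (P : Matrix ι ι F) * Matrix.reindexAlgEquiv F F e.symm X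
      * ((P⁻¹ : GL ι F) : Matrix ι ι F)) (ht : 0 < t) :
    ∃ B : Matrix ι ι F, IsUnit B ∧ Bᵀ = (-1 : F) ^ t • B ∧ (∀ i, ((-1 : F) ^ t = -1) → B i i = 0) ∧
      ∀ g : GL ι F, (∃ (cs : Fin t → GL (Fin 2) F) (π : Equiv.Perm (Fin t)), (g : Matrix ι ι F)
        = conjMat L (pureMat (fun i => (cs i : Matrix (Fin 2) (Fin 2) F)) * factorPerm 2 π)) →
        ∃ μ : F, IsSim (RingEquiv.refl F) B g μ := by
  refine ⟨pullForm (RingEquiv.refl F) e P (pureMat fun _ : Fin t => altTwo F),
    isUnit_pullForm _ _ _ (isUnit_pureMat fun _ => isUnit_altTwo), ?_, fun i hi => ?_, ?_⟩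
  · rw [transpose_pullForm, pureMat_transpose, altTwo_transpose, ← pullForm_smul, ← neg_one_smul F,
      pureMat_neg_smul]
  · refine diag_pullForm e P ?_ (fun k => ?_) i
    · rw [pureMat_transpose, altTwo_transpose, ← neg_one_smul F, pureMat_neg_smul, hi, neg_one_smul]
    · exact Finset.prod_eq_zero (Finset.mem_univ (⟨0, ht⟩ : Fin t)) (altTwo_diag _)
  · rintro g ⟨cs, π, hg⟩
    refine ⟨_, isSim_pullForm hP (adjForm_pure_perm (μ := fun i =>
      (cs i : Matrix (Fin 2) (Fin 2) F).det) (fun i => ?_) π) hg⟩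
    exact altTwo_adj _

end Cfsg.Agent.GeoClasses
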