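import Mathlib
import Cfsg.Prelude.Def_GeometricClasses
import Cfsg.Agent.GeoClasses.Basic
import Cfsg.Agent.GeoClasses.Algebra

/-!
The decomposition of the space attached to a block system of idempotents.
-/

set_option autoImplicit false
set_option maxHeartbeats 400000

namespace Cfsg.Agent.GeoClasses

open Matrix Cfsg.Geo
open scoped MatrixGroups Matrix Kronecker

variable {ι : Type} [Fintype ι] [DecidableEq ι] {F : Type*} [Field F]

/-- The summands attached to idempotent matrices. -/
def blockSpaces {t : ℕ} (e : Fin t → Matrix ι ι F) (i : Fin t) : Submodule F (ι → F) :=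
  LinearMap.range (Matrix.toLin' (e i))

lemma mem_blockSpaces {t : ℕ} {e : Fin t → Matrix ι ι F} (hid : ∀ i, e i * e i = e i) {i : Fin t}
    {v : ι → F} : v ∈ blockSpaces e i ↔ e i *ᵥ v = v := by
  constructor
  · rintro ⟨w, rfl⟩
    simp [Matrix.mulVec_mulVec, hid]
  · intro h
    exact ⟨v, by simpa using h⟩

lemma IsBlockSystem.map_blockSpaces {G : Subgroup (GL ι F)} {A : Subalgebra F (Matrix ι ι F)}
    {t : ℕ} {e : Fin t → Matrix ι ι F} (he : IsBlockSystem G A e) {g : GL ι F} {i j : Fin t}
    (h : conjGL g (e i) = e j) :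
    (blockSpaces e i).map (Matrix.toLin' (g : Matrix ι ι F)) = blockSpaces e j := by
  have hcomm : (g : Matrix ι ι F) * e i = e j * (g : Matrix ι ι F) := by
    rw [← h, conjGL_apply]; simp [mul_assoc]
  ext v
  constructor
  · rintro ⟨w, hw, rfl⟩
    rw [SetLike.mem_coe, mem_blockSpaces he.idem] at hw
    rw [mem_blockSpaces he.idem, Matrix.toLin'_apply, Matrix.mulVec_mulVec, ← hcomm,
      ← Matrix.mulVec_mulVec, hw]
  · intro hv
    rw [mem_blockSpaces he.idem] at hv
    refine ⟨((g⁻¹ : GL ι F) : Matrix ι ι F) *ᵥ v, ?_, ?_⟩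
    · rw [SetLike.mem_coe, mem_blockSpaces he.idem]
      conv_rhs => rw [← hv]
      rw [← h, conjGL_apply, Matrix.mulVec_mulVec, Matrix.mulVec_mulVec]
      congr 1
      simp [mul_assoc, ← mul_assoc ((g⁻¹ : GL ι F) : Matrix ι ι F)]
    · simp [Matrix.mulVec_mulVec]

theorem IsBlockSystem.decomposition {G : Subgroup (GL ι F)} {A : Subalgebra F (Matrix ι ι F)}
    {t : ℕ} {e : Fin t → Matrix ι ι F} (he : IsBlockSystem G A e) :
    ∃ m, IsMDecomposition m (blockSpaces e) ∧ G ≤ decompositionStabilizer (blockSpaces e) := by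
  have ht := he.two_le
  let i₀ : Fin t := ⟨0, by omega⟩
  refine ⟨Module.finrank F (blockSpaces e i₀), ⟨ht, ?_, fun i => ?_, ?_, ?_⟩, fun g hg => ?_⟩
  · rw [Nat.pos_iff_ne_zero]
    intro h0
    have h1 : blockSpaces e i₀ = ⊥ := Submodule.finrank_eq_zero.1 h0
    rw [blockSpaces, LinearMap.range_eq_bot] at h1
    exact he.ne_zero i₀ (by simpa using h1)
  · obtain ⟨g, -, hge⟩ := he.trans i₀ i
    rw [← he.map_blockSpaces hge]
    exact (Submodule.equivMapOfInjective _
      (fun u v h => mulVec_injective g (by simpa using h)) _).finrank_eq.symm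
  · rw [iSupIndep_def]
    intro i
    rw [Submodule.disjoint_def]
    intro v hv hv'
    rw [mem_blockSpaces he.idem] at hv
    have hker : (⨆ j, ⨆ (_ : j ≠ i), blockSpaces e j) ≤ LinearMap.ker (Matrix.toLin' (e i)) := by
      refine iSup₂_le fun j hj => ?_
      rintro w ⟨u, rfl⟩
      simp [Matrix.mulVec_mulVec, he.orth i j (Ne.symm hj)]
    have h0 : e i *ᵥ v = 0 := by simpa using hker hv'
    rw [← hv, h0]
  · rw [eq_top_iff]
    intro v _
    have hv : v = ∑ i, e i *ᵥ v := by rw [← Matrix.sum_mulVec, he.sum_eq, Matrix.one_mulVec]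
    rw [hv]
    exact Submodule.sum_mem _ fun i _ => Submodule.mem_iSup_of_mem i ⟨v, Matrix.toLin'_apply _ _⟩
  · choose π hπ using fun i => he.perm g hg i
    have hinj : Function.Injective π := fun i j hij => by
      by_contra hne
      have hh : conjGL g (e i) = conjGL g (e j) := by rw [hπ i, hπ j, hij]
      have h0 := he.orth i j hne
      rw [(conjGL g).injective hh, he.idem] at h0
      exact he.ne_zero j h0
    exact ⟨Equiv.ofBijective π (Finite.injective_iff_bijective.1 hinj),
      fun i => he.map_blockSpaces (hπ i)⟩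

end Cfsg.Agent.GeoClasses
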