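import Mathlib
import Cfsg.Prelude.Def_GeometricClasses
import Cfsg.Agent.GeoClasses.Basic
import Cfsg.Agent.GeoClasses.MatrixUnits
import Cfsg.Agent.GeoClasses.Algebra
import Cfsg.Agent.GeoClasses.Tensor

/-!
The structure of a group containing the scalars and acting absolutely irreducibly, seen through a
normal subgroup that is minimal over the scalars.
-/

set_option autoImplicit false
set_option maxHeartbeats 400000

namespace Cfsg.Agent.GeoClasses

open Matrix Cfsg.Geo
open scoped MatrixGroups Matrix Kronecker commutatorElement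

variable {ι : Type} [Fintype ι] [DecidableEq ι] {F : Type*} [Field F]

lemma scalar_mul_comm {z : GL ι F} (hz : z ∈ scalars ι F) (g : GL ι F) : z * g = g * z := by
  obtain ⟨c, hc⟩ := (mem_scalars_iff z).1 hz
  exact Units.ext (by simp [hc])

lemma scalar_mem_of_val {z : GL ι F} {c : F} (hc : c ≠ 0)
    (h : (z : Matrix ι ι F) = c • (1 : Matrix ι ι F)) : z ∈ scalars ι F :=
  (mem_scalars_iff z).2 ⟨Units.mk0 c hc, h⟩

lemma mem_scalars_of_commute_all [Nonempty ι] {g : GL ι F}
    (h : ∀ X : Matrix ι ι F, (g : Matrix ι ι F) * X = X * (g : Matrix ι ι F)) :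
    g ∈ scalars ι F := by
  obtain ⟨s, hs⟩ : (g : Matrix ι ι F) ∈ Set.range (Matrix.scalar ι) :=
    Matrix.mem_range_scalar_iff_commute_single'.2 fun i j => (h _).symm
  refine scalar_mem_of_val (c := s) (fun h0 => g.ne_zero ?_) ?_
  · rw [← hs, h0, map_zero]
  · rw [← hs, Matrix.scalar_apply, Matrix.smul_one_eq_diagonal]

lemma commute_all_of_span {R : Subgroup (GL ι F)} (hR : spanAlg R = ⊤) {M : Matrix ι ι F}
    (h : ∀ g ∈ R, M * (g : Matrix ι ι F) = (g : Matrix ι ι F) * M) (X : Matrix ι ι F) :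
    M * X = X * M := by
  have hle : spanAlg R ≤ Subalgebra.centralizer F {M} := Algebra.adjoin_le (by
    rintro _ ⟨g, hg, rfl⟩
    rw [SetLike.mem_coe, Subalgebra.mem_centralizer_iff]
    rintro _ rfl
    exact h g hg)
  exact (Subalgebra.mem_centralizer_iff (R := F)).1 (hle (hR ▸ Algebra.mem_top : X ∈ _)) M rfl

lemma not_le_scalars [Finite F] {R : Subgroup (GL ι F)}
    (hR : ActsAbsolutelyIrreducibly (matrixSet R)) (hn : 2 ≤ Fintype.card ι) :
    ¬ R ≤ scalars ι F := by
  intro hle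
  haveI : Nonempty ι := Fintype.card_pos_iff.1 (by omega)
  obtain ⟨i, j, hij⟩ := Fintype.exists_pair_of_one_lt_card (α := ι) (by omega)
  obtain ⟨c, hc⟩ := hR.2 (Matrix.single i j 1) (by
    rintro _ ⟨g, hg, rfl⟩
    obtain ⟨z, hz⟩ := (mem_scalars_iff g).1 (hle hg)
    simp [hz])
  have h1 := congrFun (congrFun hc i) j
  simp [hij] at h1

/-- Conjugate subgroup. -/
def conjSub (g : GL ι F) (M : Subgroup (GL ι F)) : Subgroup (GL ι F) :=
  M.map (MulAut.conj g).toMonoidHom

lemma mem_conjSub {g x : GL ι F} {M : Subgroup (GL ι F)} :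
    x ∈ conjSub g M ↔ g⁻¹ * x * g ∈ M := by
  constructor
  · rintro ⟨y, hy, rfl⟩
    simpa [mul_assoc] using hy
  · intro h
    exact ⟨_, h, by simp [mul_assoc]⟩

lemma conj_mem_conjSub {g x : GL ι F} {M : Subgroup (GL ι F)} (hx : x ∈ M) :
    g * x * g⁻¹ ∈ conjSub g M := mem_conjSub.2 (by simpa [mul_assoc] using hx)

lemma conjSub_conjSub (g h : GL ι F) (M : Subgroup (GL ι F)) :
    conjSub g (conjSub h M) = conjSub (g * h) M := by
  ext x
  simp [mem_conjSub, mul_assoc]

lemma conjSub_one (M : Subgroup (GL ι F)) : conjSub (1 : GL ι F) M = M := by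
  ext x
  simp [mem_conjSub]

lemma spanAlg_conjSub [Finite F] (g : GL ι F) (M : Subgroup (GL ι F)) :
    spanAlg (conjSub g M) = (spanAlg M).map (conjGL g).toAlgHom := by
  rw [spanAlg, spanAlg, AlgHom.map_adjoin]
  congr 1
  ext X
  constructor
  · rintro ⟨x, hx, rfl⟩
    exact ⟨_, ⟨g⁻¹ * x * g, mem_conjSub.1 hx, rfl⟩, by simp [mul_assoc]⟩
  · rintro ⟨_, ⟨y, hy, rfl⟩, rfl⟩
    exact ⟨g * y * g⁻¹, conj_mem_conjSub hy, by simp [mul_assoc]⟩

/-- `N` is minimal among the subgroups of `G` normalised by `G` and properly containing the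
scalars. -/
structure IsMinNormal (G N : Subgroup (GL ι F)) : Prop where
  le : N ≤ G
  scalars_le : scalars ι F ≤ N
  not_le : ¬ N ≤ scalars ι F
  normal : ∀ g ∈ G, ∀ x ∈ N, g * x * g⁻¹ ∈ N
  minimal : ∀ M : Subgroup (GL ι F), scalars ι F ≤ M → M ≤ N →
    (∀ g ∈ G, ∀ x ∈ M, g * x * g⁻¹ ∈ M) → ¬ M ≤ scalars ι F → M = N

lemma exists_minimal_subgroup [Finite F] (p : Subgroup (GL ι F) → Prop) (hp : ∃ M, p M) :
    ∃ M, p M ∧ ∀ K, K ≤ M → p K → K = M := by
  classical
  haveI : Fintype F := Fintype.ofFinite F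
  have hex : ∃ k, ∃ M, p M ∧ Nat.card M = k := by
    obtain ⟨M, hM⟩ := hp
    exact ⟨_, M, hM, rfl⟩
  obtain ⟨M, hM, hcard⟩ := Nat.find_spec hex
  exact ⟨M, hM, fun K hKM hK =>
    Subgroup.eq_of_le_of_card_ge hKM (hcard.le.trans (Nat.find_min' hex ⟨K, hK, rfl⟩))⟩

lemma exists_isMinNormal [Finite F] {G : Subgroup (GL ι F)} (hZ : scalars ι F ≤ G)
    (hG : ¬ G ≤ scalars ι F) : ∃ N, IsMinNormal G N := by
  obtain ⟨N, ⟨h1, h2, h3, h4⟩, hmin⟩ := exists_minimal_subgroup
    (fun N => N ≤ G ∧ scalars ι F ≤ N ∧ ¬ N ≤ scalars ι F ∧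
      ∀ g ∈ G, ∀ x ∈ N, g * x * g⁻¹ ∈ N)
    ⟨G, le_rfl, hZ, hG, fun g hg x hx => G.mul_mem (G.mul_mem hg hx) (G.inv_mem hg)⟩
  exact ⟨N, h1, h2, h3, h4, fun M hM1 hM2 hM4 hM3 => hmin M hM2 ⟨hM2.trans h1, hM1, hM3, hM4⟩⟩

/-- Elements commute modulo scalars. -/
def ModComm (N : Subgroup (GL ι F)) : Prop :=
  ∀ x ∈ N, ∀ y ∈ N, x * y * x⁻¹ * y⁻¹ ∈ scalars ι F

lemma commutatorElement_scalar_left {z w a b : GL ι F} (hz : z ∈ scalars ι F)
    (hw : w ∈ scalars ι F) : ⁅z * a, w * b⁆ = ⁅a, b⁆ := by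
  have e1 : ∀ g, z * g = g * z := scalar_mul_comm hz
  have e2 : ∀ g, w * g = g * w := scalar_mul_comm hw
  simp only [commutatorElement_def, _root_.mul_inv_rev]
  calc z * a * (w * b) * (a⁻¹ * z⁻¹) * (b⁻¹ * w⁻¹)
      = z * (a * (w * (b * a⁻¹))) * z⁻¹ * b⁻¹ * w⁻¹ := by group
    _ = (a * (w * (b * a⁻¹))) * z * z⁻¹ * b⁻¹ * w⁻¹ := by rw [e1]
    _ = a * (w * (b * a⁻¹ * b⁻¹)) * w⁻¹ := by group
    _ = a * ((b * a⁻¹ * b⁻¹) * w) * w⁻¹ := by rw [e2]
    _ = _ := by group

/-- An element centralising a perfect group modulo scalars centralises it. -/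
lemma commute_of_perfect {P : Subgroup (GL ι F)} (hP : ⁅P, P⁆ = P) {h : GL ι F}
    (hh : ∀ x ∈ P, h * x * h⁻¹ * x⁻¹ ∈ scalars ι F) : ∀ x ∈ P, h * x = x * h := by
  let C : Subgroup (GL ι F) :=
    { carrier := {x | h * x = x * h}
      mul_mem' := fun {a b} (ha : h * a = a * h) (hb : h * b = b * h) => by
        show h * (a * b) = a * b * h
        rw [← mul_assoc, ha, mul_assoc, hb, ← mul_assoc]
      one_mem' := by simp
      inv_mem' := fun {a} (ha : h * a = a * h) => by
        show h * a⁻¹ = a⁻¹ * h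
        exact (Commute.inv_right ha : Commute h a⁻¹) }
  have hle : ⁅P, P⁆ ≤ C := Subgroup.commutator_le.2 fun a ha b hb => by
    show h * ⁅a, b⁆ = ⁅a, b⁆ * h
    have h1 : h * ⁅a, b⁆ * h⁻¹ = ⁅h * a * h⁻¹, h * b * h⁻¹⁆ := by
      simp only [commutatorElement_def]; group
    have h2 : h * a * h⁻¹ = (h * a * h⁻¹ * a⁻¹) * a := by group
    have h3 : h * b * h⁻¹ = (h * b * h⁻¹ * b⁻¹) * b := by group
    rw [h2, h3, commutatorElement_scalar_left (hh a ha) (hh b hb)] at h1
    exact mul_inv_eq_iff_eq_mul.1 h1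
  intro x hx
  rw [← hP] at hx
  exact hle hx

lemma mem_sup_scalars {M : Subgroup (GL ι F)} {x : GL ι F} :
    x ∈ M ⊔ scalars ι F ↔ ∃ z ∈ scalars ι F, ∃ m ∈ M, z * m = x := by
  rw [sup_comm, Subgroup.mem_sup_of_normal_left]

lemma sup_scalars_normal {G M : Subgroup (GL ι F)} (h : ∀ g ∈ G, ∀ x ∈ M, g * x * g⁻¹ ∈ M) :
    ∀ g ∈ G, ∀ x ∈ M ⊔ scalars ι F, g * x * g⁻¹ ∈ M ⊔ scalars ι F := by
  intro g hg x hx
  obtain ⟨z, hz, m, hm, rfl⟩ := mem_sup_scalars.1 hx
  refine mem_sup_scalars.2 ⟨z, hz, _, h g hg m hm, ?_⟩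
  rw [← mul_assoc g z m, ← scalar_mul_comm hz g]
  group

lemma commutator_sup_scalars (M : Subgroup (GL ι F)) :
    ⁅M ⊔ scalars ι F, M ⊔ scalars ι F⁆ = ⁅M, M⁆ := by
  refine le_antisymm (Subgroup.commutator_le.2 fun a ha b hb => ?_)
    (Subgroup.commutator_mono le_sup_left le_sup_left)
  obtain ⟨z, hz, m, hm, rfl⟩ := mem_sup_scalars.1 ha
  obtain ⟨w, hw, n, hn, rfl⟩ := mem_sup_scalars.1 hb
  rw [commutatorElement_scalar_left hz hw]
  exact Subgroup.commutator_mem_commutator hm hn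

lemma spanAlg_sup_scalars [Finite F] (M : Subgroup (GL ι F)) :
    spanAlg (M ⊔ scalars ι F) = spanAlg M := by
  refine le_antisymm (Algebra.adjoin_le ?_) (Algebra.adjoin_mono ?_)
  · rintro _ ⟨x, hx, rfl⟩
    obtain ⟨z, hz, m, hm, rfl⟩ := mem_sup_scalars.1 hx
    obtain ⟨c, hc⟩ := (mem_scalars_iff z).1 hz
    rw [SetLike.mem_coe]
    simp only [Units.val_mul, hc, Matrix.smul_mul, one_mul]
    exact (spanAlg M).smul_mem (Algebra.subset_adjoin ⟨m, hm, rfl⟩) _
  · exact Set.image_mono (le_sup_left : M ≤ M ⊔ scalars ι F)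

lemma normal_commutator {G M : Subgroup (GL ι F)} (h : ∀ g ∈ G, ∀ x ∈ M, g * x * g⁻¹ ∈ M) :
    ∀ g ∈ G, ∀ x ∈ ⁅M, M⁆, g * x * g⁻¹ ∈ ⁅M, M⁆ := by
  intro g hg x hx
  have hle : (⁅M, M⁆ : Subgroup (GL ι F)).map (MulAut.conj g).toMonoidHom ≤ ⁅M, M⁆ := by
    rw [Subgroup.map_commutator]
    have : M.map (MulAut.conj g).toMonoidHom ≤ M := by
      rintro _ ⟨y, hy, rfl⟩; exact h g hg y hy
    exact Subgroup.commutator_mono this this
  exact hle ⟨x, hx, rfl⟩

lemma modComm_of_commutator_le {N : Subgroup (GL ι F)} (h : ⁅N, N⁆ ≤ scalars ι F) : ModComm N :=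
  fun x hx y hy => h (Subgroup.commutator_mem_commutator hx hy)

lemma IsMinNormal.commutator_sup {G N : Subgroup (GL ι F)} (hN : IsMinNormal G N)
    (hna : ¬ ModComm N) : ⁅N, N⁆ ⊔ scalars ι F = N :=
  hN.minimal _ le_sup_right (sup_le (Subgroup.commutator_le.2 fun a ha b hb =>
      N.mul_mem (N.mul_mem (N.mul_mem ha hb) (N.inv_mem ha)) (N.inv_mem hb)) hN.scalars_le)
    (sup_scalars_normal (normal_commutator hN.normal))
    (fun h => hna (modComm_of_commutator_le (le_sup_left.trans h)))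

lemma IsMinNormal.perfect {G N : Subgroup (GL ι F)} (hN : IsMinNormal G N) (hna : ¬ ModComm N) :
    ⁅(⁅N, N⁆ : Subgroup (GL ι F)), (⁅N, N⁆ : Subgroup (GL ι F))⁆ = ⁅N, N⁆ := by
  conv_rhs => rw [← hN.commutator_sup hna, commutator_sup_scalars]

lemma IsMinNormal.spanAlg_commutator [Finite F] {G N : Subgroup (GL ι F)} (hN : IsMinNormal G N)
    (hna : ¬ ModComm N) : spanAlg ⁅N, N⁆ = spanAlg N := by
  conv_rhs => rw [← hN.commutator_sup hna, spanAlg_sup_scalars]

lemma absIrred_of_spanAlg_top [Nonempty ι] {R : Subgroup (GL ι F)} (h : spanAlg R = ⊤) :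
    ActsAbsolutelyIrreducibly (matrixSet R) := by
  refine ⟨fun W hW => ?_, fun M hM => ?_⟩
  · have hall : ∀ X : Matrix ι ι F, ∀ w ∈ W, X *ᵥ w ∈ W := by
      intro X w hw
      let A : Subalgebra F (Matrix ι ι F) :=
        { carrier := {X | ∀ w ∈ W, X *ᵥ w ∈ W}
          mul_mem' := fun {a b} ha hb w hw => by
            rw [← Matrix.mulVec_mulVec]; exact ha _ (hb w hw)
          add_mem' := fun {a b} ha hb w hw => by
            rw [Matrix.add_mulVec]; exact W.add_mem (ha w hw) (hb w hw)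
          algebraMap_mem' := fun c w hw => by
            rw [Algebra.algebraMap_eq_smul_one, Matrix.smul_mulVec, Matrix.one_mulVec]
            exact W.smul_mem c hw }
      have hle : spanAlg R ≤ A := Algebra.adjoin_le (by
        rintro _ ⟨g, hg, rfl⟩ w hw
        exact hW _ ⟨g, hg, rfl⟩ ⟨w, hw, Matrix.toLin'_apply _ _⟩)
      exact hle (h ▸ Algebra.mem_top : X ∈ _) w hw
    by_cases hb : W = ⊥
    · exact Or.inl hb
    right
    obtain ⟨w, hw, hw0⟩ := W.exists_mem_ne_zero_of_ne_bot hb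
    obtain ⟨i, hi⟩ := Function.ne_iff.1 hw0
    rw [eq_top_iff]
    intro v _
    have := hall (Matrix.vecMulVec v (Pi.single i (w i)⁻¹)) w hw
    rwa [Matrix.vecMulVec_mulVec, single_dotProduct, inv_mul_cancel₀ hi, MulOpposite.op_one,
      one_smul] at this
  · obtain ⟨s, hs⟩ : M ∈ Set.range (Matrix.scalar ι) :=
      Matrix.mem_range_scalar_iff_commute_single'.2 fun i j =>
        (commute_all_of_span h (fun g hg => hM _ ⟨g, hg, rfl⟩) _).symm
    exact ⟨s, by rw [← hs, Matrix.scalar_apply, Matrix.smul_one_eq_diagonal]⟩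

/-- The components of a non-abelian minimal normal subgroup. -/
structure IsComponentSystem (G N : Subgroup (GL ι F)) {t : ℕ} (M : Fin t → Subgroup (GL ι F)) :
    Prop where
  pos : 0 < t
  inj : Function.Injective M
  scalars_le : ∀ i, scalars ι F ≤ M i
  le : ∀ i, M i ≤ N
  not_le : ∀ i, ¬ M i ≤ scalars ι F
  normal : ∀ i, ∀ g ∈ N, ∀ x ∈ M i, g * x * g⁻¹ ∈ M i
  minimal : ∀ i, ∀ K : Subgroup (GL ι F), scalars ι F ≤ K → K ≤ M i →
    (∀ g ∈ N, ∀ x ∈ K, g * x * g⁻¹ ∈ K) → ¬ K ≤ scalars ι F → K = M i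
  comm : ∀ i j, i ≠ j → ∀ x ∈ M i, ∀ y ∈ M j, x * y = y * x
  iSup_eq : ⨆ i, M i = N
  perm : ∀ g ∈ G, ∀ i, ∃ j, conjSub g (M i) = M j
  trans : ∀ i j, ∃ g ∈ G, conjSub g (M i) = M j

lemma exists_componentSystem [Finite F] {G N : Subgroup (GL ι F)} (hN : IsMinNormal G N)
    (hna : ¬ ModComm N) :
    ∃ (t : ℕ) (M : Fin t → Subgroup (GL ι F)), IsComponentSystem G N M := by
  classical
  haveI : Fintype F := Fintype.ofFinite F
  obtain ⟨M₀, ⟨h1, h2, h3, h4⟩, hmin⟩ := exists_minimal_subgroup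
    (fun M => scalars ι F ≤ M ∧ M ≤ N ∧ ¬ M ≤ scalars ι F ∧ ∀ g ∈ N, ∀ x ∈ M, g * x * g⁻¹ ∈ M)
    ⟨N, hN.scalars_le, le_rfl, hN.not_le,
      fun g hg x hx => N.mul_mem (N.mul_mem hg hx) (N.inv_mem hg)⟩
  haveI : Fintype G := Fintype.ofFinite G
  let O : Finset (Subgroup (GL ι F)) := Finset.univ.image fun g : G => conjSub (g : GL ι F) M₀
  have hO : ∀ M, M ∈ O ↔ ∃ g ∈ G, conjSub g M₀ = M := fun M => by simp [O]
  have hOp : ∀ M ∈ O, scalars ι F ≤ M ∧ M ≤ N ∧ ¬ M ≤ scalars ι F ∧
      (∀ g ∈ N, ∀ x ∈ M, g * x * g⁻¹ ∈ M) ∧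
      ∀ K : Subgroup (GL ι F), scalars ι F ≤ K → K ≤ M →
        (∀ g ∈ N, ∀ x ∈ K, g * x * g⁻¹ ∈ K) → ¬ K ≤ scalars ι F → K = M := by
    intro M hM
    obtain ⟨g, hg, rfl⟩ := (hO M).1 hM
    have hNg : ∀ x ∈ N, g⁻¹ * x * g ∈ N := fun x hx => by
      simpa using hN.normal g⁻¹ (G.inv_mem hg) x hx
    refine ⟨fun z hz => mem_conjSub.2 (h1 ?_), ?_, fun hle => h3 fun x hx => ?_,
      fun k hk x hx => ?_, fun K hK1 hK2 hK4 hK3 => ?_⟩
    · exact Subgroup.Normal.conj_mem' inferInstance z hz g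
    · rintro _ ⟨y, hy, rfl⟩
      exact hN.normal g hg y (h2 hy)
    · have := hle (conj_mem_conjSub hx)
      simpa [mul_assoc] using Subgroup.Normal.conj_mem' (inferInstance : (scalars ι F).Normal) _
        this g
    · rw [mem_conjSub] at hx ⊢
      have := h4 _ (hNg k hk) _ hx
      simpa [mul_assoc] using this
    · have hK' : conjSub g⁻¹ K = M₀ := by
        refine hmin _ ?_ ⟨fun z hz => mem_conjSub.2 ?_, ?_, fun hle => hK3 fun x hx => ?_, ?_⟩
        · rintro _ ⟨y, hy, rfl⟩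
          simpa using mem_conjSub.1 (hK2 hy)
        · exact hK1 (Subgroup.Normal.conj_mem' inferInstance z hz g⁻¹)
        · rintro _ ⟨y, hy, rfl⟩
          exact h2 (by simpa using mem_conjSub.1 (hK2 hy))
        · have := hle (conj_mem_conjSub (g := g⁻¹) hx)
          simpa [mul_assoc] using Subgroup.Normal.conj_mem' (inferInstance : (scalars ι F).Normal) _
            this g⁻¹
        · intro k hk x hx
          rw [mem_conjSub] at hx ⊢
          have := hK4 _ (by simpa using hN.normal g hg k hk) _ hx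
          simpa [mul_assoc] using this
      rw [← hK', conjSub_conjSub, mul_inv_cancel, conjSub_one]
  have hOperm : ∀ g ∈ G, ∀ M ∈ O, conjSub g M ∈ O := fun g hg M hM => by
    obtain ⟨k, hk, rfl⟩ := (hO M).1 hM
    exact (hO _).2 ⟨g * k, G.mul_mem hg hk, (conjSub_conjSub g k M₀).symm⟩
  have hmodcomm : ∀ A ∈ O, ∀ B ∈ O, A ≠ B → ∀ x ∈ A, ∀ y ∈ B,
      x * y * x⁻¹ * y⁻¹ ∈ scalars ι F := by
    intro A hA B hB hne x hx y hy
    obtain ⟨ha1, ha2, -, ha4, ha5⟩ := hOp A hA
    obtain ⟨hb1, hb2, -, hb4, hb5⟩ := hOp B hB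
    have hle : A ⊓ B ≤ scalars ι F := by
      by_contra hle
      have hn : ∀ g ∈ N, ∀ x ∈ A ⊓ B, g * x * g⁻¹ ∈ A ⊓ B :=
        fun g hg x hx => ⟨ha4 g hg x hx.1, hb4 g hg x hx.2⟩
      exact hne ((ha5 _ (le_inf ha1 hb1) inf_le_left hn hle).symm.trans
        (hb5 _ (le_inf ha1 hb1) inf_le_right hn hle))
    refine hle ⟨?_, B.mul_mem (hb4 x (ha2 hx) y hy) (B.inv_mem hy)⟩
    have e : x * y * x⁻¹ * y⁻¹ = x * (y * x⁻¹ * y⁻¹) := by group
    rw [e]
    exact A.mul_mem hx (ha4 y (hb2 hy) _ (A.inv_mem hx))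
  have hM₀O : M₀ ∈ O := (hO _).2 ⟨1, G.one_mem, conjSub_one _⟩
  have hsup : (⨆ M ∈ O, M) = N := by
    refine hN.minimal _ ?_ (iSup₂_le fun M hM => (hOp M hM).2.1) ?_ ?_
    · exact h1.trans (le_iSup₂ (f := fun (M : Subgroup (GL ι F)) (_ : M ∈ O) => M) M₀ hM₀O)
    · intro g hg x hx
      have hle : (⨆ M ∈ O, M).map (MulAut.conj g).toMonoidHom ≤ ⨆ M ∈ O, M := by
        simp only [Subgroup.map_iSup]
        exact iSup₂_le fun M hM =>
          le_iSup₂ (f := fun (M : Subgroup (GL ι F)) (_ : M ∈ O) => M) _ (hOperm g hg M hM)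
      exact hle ⟨x, hx, rfl⟩
    · exact fun hle =>
        h3 ((le_iSup₂ (f := fun (M : Subgroup (GL ι F)) (_ : M ∈ O) => M) M₀ hM₀O).trans hle)
  have hOna : ∀ A ∈ O, ¬ ModComm A := by
    intro A hA hmod
    apply hna
    -- all conjugates of a component commute modulo scalars, hence so does everything
    have hall : ∀ B ∈ O, ModComm B := by
      intro B hB
      obtain ⟨k, hk, rfl⟩ := (hO A).1 hA
      obtain ⟨l, hl, rfl⟩ := (hO B).1 hB
      intro x hx y hy
      rw [mem_conjSub] at hx hy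
      have := hmod _ (conj_mem_conjSub hx) _ (conj_mem_conjSub hy)
      have h5 := Subgroup.Normal.conj_mem (inferInstance : (scalars ι F).Normal) _ this (l * k⁻¹)
      simpa [mul_assoc] using h5
    let f := QuotientGroup.mk' (scalars ι F)
    have hf : ∀ x y : GL ι F,
        x * y * x⁻¹ * y⁻¹ ∈ scalars ι F ↔ f x * f y = f y * f x := fun x y => by
      rw [← (QuotientGroup.eq_one_iff (N := scalars ι F) _)]
      show f _ = 1 ↔ _
      rw [map_mul, map_mul, map_mul, map_inv, map_inv, mul_inv_eq_one, mul_inv_eq_iff_eq_mul]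
    intro x hx y hy
    rw [hf]
    rw [← hsup] at hx hy
    have hmap : ∀ z, z ∈ (⨆ M ∈ O, M) → f z ∈ Subgroup.closure (⋃ M ∈ O, f '' M) := by
      intro z hz
      have hle : (⨆ M ∈ O, M) ≤ (Subgroup.closure (⋃ M ∈ O, f '' M)).comap f :=
        iSup₂_le fun M hM z hz => Subgroup.subset_closure (Set.mem_biUnion hM ⟨z, hz, rfl⟩)
      exact hle hz
    have hgen : ∀ u ∈ ⋃ M ∈ O, f '' M, ∀ v ∈ ⋃ M ∈ O, f '' M, u * v = v * u := by
      intro u hu v hv
      simp only [Set.mem_iUnion] at hu hv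
      obtain ⟨A', hA', a, ha, rfl⟩ := hu
      obtain ⟨B', hB', b, hb, rfl⟩ := hv
      by_cases hAB : A' = B'
      · subst hAB; exact (hf a b).1 (hall _ hA' a ha b hb)
      · exact (hf a b).1 (hmodcomm _ hA' _ hB' hAB a ha b hb)
    haveI := Subgroup.isMulCommutative_closure hgen
    exact Subgroup.mul_comm_of_mem_isMulCommutative _ (hmap x hx) (hmap y hy)
  have hperf : ∀ A ∈ O, ⁅A, A⁆ ⊔ scalars ι F = A := by
    intro A hA
    obtain ⟨ha1, ha2, -, ha4, ha5⟩ := hOp A hA
    refine ha5 _ le_sup_right (sup_le (Subgroup.commutator_le.2 fun a ha b hb =>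
      A.mul_mem (A.mul_mem (A.mul_mem ha hb) (A.inv_mem ha)) (A.inv_mem hb)) ha1)
      (sup_scalars_normal (normal_commutator ha4))
      fun h => hOna A hA (modComm_of_commutator_le (le_sup_left.trans h))
  have hcomm : ∀ A ∈ O, ∀ B ∈ O, A ≠ B → ∀ x ∈ A, ∀ y ∈ B, x * y = y * x := by
    intro A hA B hB hne x hx y hy
    have hP : ⁅(⁅A, A⁆ : Subgroup (GL ι F)), (⁅A, A⁆ : Subgroup (GL ι F))⁆ = ⁅A, A⁆ := by
      conv_rhs => rw [← hperf A hA, commutator_sup_scalars]
    have hle : ⁅A, A⁆ ≤ A := le_sup_left.trans (hperf A hA).le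
    rw [← hperf A hA] at hx
    obtain ⟨z, hz, m, hm, rfl⟩ := mem_sup_scalars.1 hx
    have h5 : y * m = m * y := commute_of_perfect hP
      (fun u hu => hmodcomm B hB A hA (Ne.symm hne) y hy u (hle hu)) m hm
    rw [mul_assoc, ← h5, ← mul_assoc, scalar_mul_comm hz y, mul_assoc]
  let en : Fin O.card ≃ O := O.equivFin.symm
  refine ⟨O.card, fun i => en i, ⟨Finset.card_pos.2 ⟨M₀, hM₀O⟩,
    Subtype.val_injective.comp en.injective,
    fun i => (hOp _ (en i).2).1, fun i => (hOp _ (en i).2).2.1, fun i => (hOp _ (en i).2).2.2.1,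
    fun i => (hOp _ (en i).2).2.2.2.1, fun i => (hOp _ (en i).2).2.2.2.2,
    fun i j hij => hcomm _ (en i).2 _ (en j).2
      fun h => hij (en.injective (Subtype.ext h)), ?_, fun g hg i => ?_, fun i j => ?_⟩⟩
  · conv_rhs => rw [← hsup, iSup_subtype']
    exact en.iSup_comp (g := fun x : O => (x : Subgroup (GL ι F)))
  · exact ⟨en.symm ⟨_, hOperm g hg _ (en i).2⟩, by simp⟩
  · obtain ⟨k, hk, hek⟩ := (hO _).1 (en i).2
    obtain ⟨l, hl, hel⟩ := (hO _).1 (en j).2
    refine ⟨l * k⁻¹, G.mul_mem hl (G.inv_mem hk), ?_⟩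
    rw [← hek, conjSub_conjSub, inv_mul_cancel_right, hel]

/-- The almost simple case: a single component. -/
lemma simple_of_one_component [Finite F] {G N : Subgroup (GL ι F)} (hN : IsMinNormal G N)
    (hna : ¬ ModComm N) {M : Fin 1 → Subgroup (GL ι F)} (hM : IsComponentSystem G N M) :
    IsSimpleGroup (↥(⁅N, N⁆ : Subgroup (GL ι F)) ⧸
        (scalars ι F).subgroupOf (⁅N, N⁆ : Subgroup (GL ι F))) ∧
      ¬ IsMulCommutative (↥(⁅N, N⁆ : Subgroup (GL ι F)) ⧸
        (scalars ι F).subgroupOf (⁅N, N⁆ : Subgroup (GL ι F))) := by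
  set P : Subgroup (GL ι F) := ⁅N, N⁆ with hPdef
  have hM0 : M 0 = N := by
    have := hM.iSup_eq
    rwa [iSup_unique] at this
  have hnab : ¬ IsMulCommutative (↥P ⧸ (scalars ι F).subgroupOf P) := by
    intro hc
    apply hna
    apply modComm_of_commutator_le
    have hP : ⁅P, P⁆ = P := hN.perfect hna
    show P ≤ scalars ι F
    rw [← hP]
    refine Subgroup.commutator_le.2 fun a ha b hb => ?_
    have := hc.is_comm.comm (QuotientGroup.mk (⟨a, ha⟩ : P)) (QuotientGroup.mk (⟨b, hb⟩ : P))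
    rw [← QuotientGroup.mk_mul, ← QuotientGroup.mk_mul, QuotientGroup.eq,
      Subgroup.mem_subgroupOf] at this
    have h2 := Subgroup.Normal.conj_mem (inferInstance : (scalars ι F).Normal) _
      ((scalars ι F).inv_mem this) (b * a)
    simpa [commutatorElement_def, mul_assoc] using h2
  refine ⟨?_, hnab⟩
  haveI : Nontrivial (↥P ⧸ (scalars ι F).subgroupOf P) :=
    not_subsingleton_iff_nontrivial.1 fun h => hnab ⟨⟨fun a b => Subsingleton.elim _ _⟩⟩
  refine { eq_bot_or_eq_top_of_normal := fun H hH => ?_ }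
  let π := QuotientGroup.mk' ((scalars ι F).subgroupOf P)
  let K : Subgroup (GL ι F) := (H.comap π).map P.subtype
  have hKP : K ≤ P := Subgroup.map_subtype_le _
  have hPN : P ≤ N := le_sup_left.trans (hN.commutator_sup hna).le
  have hKn : ∀ g ∈ N, ∀ x ∈ K ⊔ scalars ι F, g * x * g⁻¹ ∈ K ⊔ scalars ι F := by
    refine sup_scalars_normal fun g hg x hx => ?_
    rw [← hN.commutator_sup hna] at hg
    obtain ⟨z, hz, p, hp, rfl⟩ := mem_sup_scalars.1 hg
    obtain ⟨y, hy, rfl⟩ := hx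
    refine ⟨⟨p, hp⟩ * y * ⟨p, hp⟩⁻¹, ?_, ?_⟩
    · show π _ ∈ H
      rw [map_mul, map_mul, map_inv]
      exact hH.conj_mem _ hy _
    · show p * (y : GL ι F) * p⁻¹ = z * p * (y : GL ι F) * (z * p)⁻¹
      rw [_root_.mul_inv_rev, mul_assoc z, mul_assoc z, scalar_mul_comm hz]
      group
  by_cases hKZ : K ⊔ scalars ι F ≤ scalars ι F
  · left
    rw [eq_bot_iff]
    intro q hq
    obtain ⟨y, rfl⟩ := QuotientGroup.mk'_surjective _ q
    rw [Subgroup.mem_bot]
    refine (QuotientGroup.eq_one_iff _).2 ?_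
    exact Subgroup.mem_subgroupOf.2 (hKZ (Subgroup.mem_sup_left ⟨y, hq, rfl⟩))
  · right
    have hKN : K ⊔ scalars ι F = N := by
      rw [← hM0]
      exact hM.minimal 0 _ le_sup_right (by rw [hM0]; exact sup_le (hKP.trans hPN) hN.scalars_le)
        hKn hKZ
    have hKP' : P ≤ K := by
      rw [hPdef, ← hKN, commutator_sup_scalars]
      exact Subgroup.commutator_le.2 fun a ha b hb =>
        K.mul_mem (K.mul_mem (K.mul_mem ha hb) (K.inv_mem ha)) (K.inv_mem hb)
    rw [eq_top_iff]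
    intro q _
    obtain ⟨y, rfl⟩ := QuotientGroup.mk'_surjective _ q
    obtain ⟨y', hy', hyy⟩ := hKP' y.2
    obtain rfl : y' = y := Subtype.ext hyy
    exact hy'

/-- The tensor decomposition induced by at least two components. -/
theorem exists_tensor_of_components [Nonempty ι] [Finite F] {G N : Subgroup (GL ι F)}
    (habs : spanAlg N = ⊤) (hNG : N ≤ G) {t : ℕ} {M : Fin t → Subgroup (GL ι F)}
    (hM : IsComponentSystem G N M) :
    ∃ (a : ℕ) (L : ((Fin t → Fin a) → F) ≃ₗ[F] (ι → F))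
      (φ : Fin t → (Matrix (Fin a) (Fin a) F →ₐ[F] Matrix ι ι F)),
      2 ≤ a ∧ (∀ i, Function.Injective (φ i)) ∧ (∀ i, (φ i).range = spanAlg (M i)) ∧
      (∀ i Y, φ i Y = conjMat L (pureMat (Function.update 1 i Y))) ∧
      ((⨆ i, (φ i).range) = ⊤) ∧
      (∀ g ∈ G, ∃ (cs : Fin t → GL (Fin a) F) (π : Equiv.Perm (Fin t)), (g : Matrix ι ι F)
        = conjMat L (pureMat (fun i => (cs i : Matrix (Fin a) (Fin a) F)) * factorPerm a π)) := by
  classical
  haveI : Fintype F := Fintype.ofFinite F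
  haveI : NeZero t := ⟨hM.pos.ne'⟩
  have hNirr := absIrred_of_spanAlg_top habs
  have hcentre : ∀ i, ∀ z ∈ centerIn (spanAlg (M i)), ∃ c : F, z = c • (1 : Matrix ι ι F) := by
    intro i z hz
    refine hNirr.2 z ?_
    rintro _ ⟨g, hg, rfl⟩
    rw [SetLike.mem_coe, ← hM.iSup_eq] at hg
    let S : Subgroup (GL ι F) :=
      { carrier := {g | z * (g : Matrix ι ι F) = (g : Matrix ι ι F) * z}
        mul_mem' := fun {a b} (ha : _ = _) (hb : _ = _) => by
          show z * ((a * b : GL ι F) : Matrix ι ι F) = _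
          rw [Units.val_mul, ← mul_assoc, ha, mul_assoc, hb, mul_assoc]
        one_mem' := by simp
        inv_mem' := fun {a} (ha : _ = _) => by
          show z * ((a⁻¹ : GL ι F) : Matrix ι ι F) = _
          exact (Commute.units_inv_right (u := a) ha) }
    refine (iSup_le fun j => ?_ : (⨆ j, M j) ≤ S) hg
    intro y hy
    show z * (y : Matrix ι ι F) = (y : Matrix ι ι F) * z
    obtain ⟨hzA, hzc⟩ := mem_centerIn.1 hz
    by_cases hij : i = j
    · subst hij; exact (hzc _ (Algebra.subset_adjoin ⟨y, hy, rfl⟩)).symm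
    · have hle : spanAlg (M i) ≤ Subalgebra.centralizer F {(y : Matrix ι ι F)} :=
        Algebra.adjoin_le (by
          rintro _ ⟨x, hx, rfl⟩
          rw [SetLike.mem_coe, Subalgebra.mem_centralizer_iff]
          rintro _ rfl
          exact congrArg Units.val (hM.comm i j hij x hx y hy).symm)
      exact ((Subalgebra.mem_centralizer_iff (R := F)).1 (hle hzA) _ rfl).symm
  obtain ⟨a, φ₀, ha, hinj₀, hrange₀⟩ : ∃ (a : ℕ)
      (φ : Matrix (Fin a) (Fin a) F →ₐ[F] Matrix ι ι F),
      0 < a ∧ Function.Injective φ ∧ φ.range = spanAlg (M 0) := by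
    rcases normalised_subalgebra_cases hNirr.1
      (normalises_spanAlg (G := N) (hM.normal 0)) with ⟨t', e, he⟩ | ⟨r, K, hr, hK, hKZ, -, -⟩ | h
    · exfalso
      obtain ⟨c, hc⟩ := hcentre 0 _ (he.mem ⟨0, by have := he.two_le; omega⟩)
      have ho := he.orth ⟨0, by have := he.two_le; omega⟩ ⟨1, by have := he.two_le; omega⟩ (by simp)
      rw [hc, Matrix.smul_mul, one_mul, smul_eq_zero] at ho
      rcases ho with h0 | h1
      · exact he.ne_zero _ (by rw [hc, h0, zero_smul])
      · exact he.ne_zero _ h1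
    · exfalso
      have hle : K ≤ (⊥ : Subalgebra F (Matrix ι ι F)) := by
        intro k hk
        obtain ⟨c, rfl⟩ := hcentre 0 k (hKZ hk)
        exact Algebra.mem_bot.2 ⟨c, by simp [Algebra.algebraMap_eq_smul_one]⟩
      have := hK.finrank_eq
      rw [le_bot_iff.1 hle, Subalgebra.finrank_bot] at this
      exact hr.one_lt.ne this
    · exact h
  have ha2 : 2 ≤ a := by
    by_contra hlt
    obtain rfl : a = 1 := by omega
    apply hM.not_le 0
    intro x hx
    apply mem_scalars_of_commute_all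
    intro X
    obtain ⟨Y, hY⟩ : (x : Matrix ι ι F) ∈ φ₀.range :=
      hrange₀ ▸ Algebra.subset_adjoin ⟨x, hx, rfl⟩
    have hY1 : Y = Y 0 0 • (1 : Matrix (Fin 1) (Fin 1) F) := by
      ext i j
      obtain rfl := Subsingleton.elim i 0
      obtain rfl := Subsingleton.elim j 0
      simp
    rw [← hY]
    show φ₀ Y * X = X * φ₀ Y
    rw [hY1, map_smul, map_one]
    simp
  choose gi hgi hgiM using fun i => hM.trans 0 i
  let φ : Fin t → (Matrix (Fin a) (Fin a) F →ₐ[F] Matrix ι ι F) :=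
    fun i => (conjGL (gi i)).toAlgHom.comp φ₀
  have hrange : ∀ i, (φ i).range = spanAlg (M i) := fun i => by
    rw [AlgHom.range_comp, hrange₀, ← spanAlg_conjSub, hgiM]
  have hinj : ∀ i, Function.Injective (φ i) := fun i => (conjGL (gi i)).injective.comp hinj₀
  have hcomm : ∀ i j, i ≠ j → ∀ Y Z, φ i Y * φ j Z = φ j Z * φ i Y := by
    intro i j hij Y Z
    have h1 : φ i Y ∈ spanAlg (M i) := hrange i ▸ ⟨Y, rfl⟩
    have h2 : φ j Z ∈ spanAlg (M j) := hrange j ▸ ⟨Z, rfl⟩
    have hle : spanAlg (M i) ≤ Subalgebra.centralizer F (spanAlg (M j) : Set (Matrix ι ι F)) := by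
      refine Algebra.adjoin_le ?_
      rintro _ ⟨x, hx, rfl⟩
      rw [SetLike.mem_coe, Subalgebra.mem_centralizer_iff]
      intro b hb
      have hle' : spanAlg (M j) ≤ Subalgebra.centralizer F {(x : Matrix ι ι F)} :=
        Algebra.adjoin_le (by
          rintro _ ⟨y, hy, rfl⟩
          rw [SetLike.mem_coe, Subalgebra.mem_centralizer_iff]
          rintro _ rfl
          exact congrArg Units.val (hM.comm i j hij x hx y hy))
      exact ((Subalgebra.mem_centralizer_iff (R := F)).1 (hle' hb) _ rfl).symm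
    exact ((Subalgebra.mem_centralizer_iff (R := F)).1 (hle h1) _ h2).symm
  have hgen : (⨆ i, (φ i).range) = ⊤ := by
    rw [eq_top_iff, ← habs]
    refine Algebra.adjoin_le ?_
    rintro _ ⟨g, hg, rfl⟩
    rw [SetLike.mem_coe, ← hM.iSup_eq] at hg
    rw [SetLike.mem_coe]
    induction hg using Subgroup.iSup_induction' with
    | hp i x hx =>
      exact le_iSup (fun i => (φ i).range) i (hrange i ▸ Algebra.subset_adjoin ⟨x, hx, rfl⟩)
    | h1 => exact one_mem _
    | hmul x y _ _ hx hy =>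
      show ((x * y : GL ι F) : Matrix ι ι F) ∈ _
      rw [Units.val_mul]; exact mul_mem hx hy
  obtain ⟨L, hL⟩ := exists_tensor_coords (by omega) φ hcomm hgen
  refine ⟨a, L, φ, ha2, hinj, hrange, hL, hgen, fun g hg => ?_⟩
  choose π hπ using hM.perm g hg
  have hπinj : Function.Injective π := fun i j hij => hM.inj (by
    have h1 : conjSub g (M i) = conjSub g (M j) := by rw [hπ, hπ, hij]
    have h2 := congrArg (conjSub g⁻¹) h1
    rwa [conjSub_conjSub, conjSub_conjSub, inv_mul_cancel, conjSub_one, conjSub_one] at h2)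
  obtain ⟨cs, hcs⟩ := normaliser_pure (by omega) hL hgen hinj
    (Equiv.ofBijective π (Finite.injective_iff_bijective.1 hπinj)) (g := g) (fun i x hx => by
      rw [hrange] at hx
      rw [Equiv.ofBijective_apply, hrange, ← hπ, spanAlg_conjSub]
      exact ⟨x, hx, rfl⟩)
  exact ⟨cs, _, hcs⟩

lemma mul_pow_scalar_comm {A B : Matrix ι ι F} {c : F} (h : B * A = c • (A * B)) :
    ∀ k : ℕ, (A * B) ^ k = c ^ (k.choose 2) • (A ^ k * B ^ k) := by
  have hBk : ∀ k : ℕ, B ^ k * A = c ^ k • (A * B ^ k) := by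
    intro k
    induction k with
    | zero => simp
    | succ k ih =>
      rw [pow_succ', mul_assoc, ih, Matrix.mul_smul, ← mul_assoc, h, Matrix.smul_mul, smul_smul,
        ← pow_succ, mul_assoc, ← pow_succ']
  intro k
  induction k with
  | zero => simp
  | succ k ih =>
    rw [pow_succ, ih, Matrix.smul_mul, mul_assoc, ← mul_assoc (B ^ k), hBk, Matrix.smul_mul,
      Matrix.mul_smul, smul_smul, ← pow_add, Nat.choose_succ_succ' k 1, Nat.choose_one_right,
      add_comm k]
    congr 1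
    rw [pow_succ A, pow_succ B, mul_assoc, mul_assoc]

/-- The data of an abelian minimal normal subgroup. -/
structure IsSympTypeSystem (N : Subgroup (GL ι F)) (r : ℕ) {k : ℕ} (x : Fin k → GL ι F) : Prop where
  prime : r.Prime
  char_ne : (r : F) ≠ 0
  card_eq : k = Fintype.card ι * Fintype.card ι
  card_pow : ∃ m, 1 ≤ m ∧ Fintype.card ι = r ^ m
  mem : ∀ i, x i ∈ N
  li : LinearIndependent F fun i => (x i : Matrix ι ι F)
  decomp : ∀ g ∈ N, ∃ i, ∃ z ∈ scalars ι F, g = z * x i
  class_inj : ∀ i j, x i * (x j)⁻¹ ∈ scalars ι F → i = j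
  pow_mem : ∀ g ∈ N, g ^ r ∈ scalars ι F
  commutator_eq : ∀ g ∈ N, ∀ h ∈ N, ∃ c : F, c ^ r = 1 ∧
    (g : Matrix ι ι F) * (h : Matrix ι ι F) = c • ((h : Matrix ι ι F) * (g : Matrix ι ι F))
  exists_root : ∃ c : F, c ^ r = 1 ∧ c ≠ 1

theorem exists_sympTypeSystem [Nonempty ι] [Finite F] {G N : Subgroup (GL ι F)}
    (hN : IsMinNormal G N) (hmod : ModComm N) (habs : spanAlg N = ⊤)
    (hn : 2 ≤ Fintype.card ι) :
    ∃ (r k : ℕ) (x : Fin k → GL ι F), IsSympTypeSystem N r x := by
  classical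
  haveI : Fintype F := Fintype.ofFinite F
  set f := QuotientGroup.mk' (scalars ι F) with hf
  have hfker : ∀ x, f x = 1 ↔ x ∈ scalars ι F := fun x => QuotientGroup.eq_one_iff x
  have hfcomm : ∀ x ∈ N, ∀ y ∈ N, f x * f y = f y * f x := fun x hx y hy => by
    have := (hfker _).2 (hmod x hx y hy)
    rwa [map_mul, map_mul, map_mul, map_inv, map_inv, mul_inv_eq_one, mul_inv_eq_iff_eq_mul]
      at this
  obtain ⟨r, hr, hpow⟩ : ∃ r : ℕ, r.Prime ∧ ∀ g ∈ N, g ^ r ∈ scalars ι F := by
    obtain ⟨g, hg, hgZ⟩ := SetLike.not_le_iff_exists.1 hN.not_le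
    have ho : orderOf (f g) ≠ 1 := fun h => hgZ ((hfker g).1 (orderOf_eq_one_iff.1 h))
    obtain ⟨r, hr, hrd⟩ := Nat.exists_prime_and_dvd ho
    refine ⟨r, hr, ?_⟩
    let K : Subgroup (GL ι F) :=
      { carrier := {y | y ∈ N ∧ f y ^ r = 1}
        mul_mem' := fun {a b} ha hb => ⟨N.mul_mem ha.1 hb.1, by
          rw [map_mul, (show Commute (f a) (f b) from hfcomm a ha.1 b hb.1).mul_pow, ha.2, hb.2,
            mul_one]⟩
        one_mem' := ⟨N.one_mem, by simp⟩
        inv_mem' := fun {a} ha => ⟨N.inv_mem ha.1, by rw [map_inv, inv_pow, ha.2, inv_one]⟩ }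
    have hKN : K = N := by
      refine hN.minimal K (fun z hz => ⟨hN.scalars_le hz, by rw [(hfker z).2 hz, one_pow]⟩)
        (fun y hy => hy.1) (fun a ha y hy => ⟨hN.normal a ha y hy.1, ?_⟩) ?_
      · rw [map_mul, map_mul, map_inv, conj_pow, hy.2]; simp
      · intro hle
        have hmem : g ^ (orderOf (f g) / r) ∈ K := ⟨N.pow_mem hg _, by
          rw [map_pow, ← pow_mul, Nat.div_mul_cancel hrd, pow_orderOf_eq_one]⟩
        have h1 := (hfker _).2 (hle hmem)
        rw [map_pow] at h1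
        have h2 := orderOf_dvd_of_pow_eq_one h1
        have hpos : 0 < orderOf (f g) := orderOf_pos _
        have h3 : orderOf (f g) / r < orderOf (f g) := Nat.div_lt_self hpos hr.one_lt
        have h4 : 0 < orderOf (f g) / r := Nat.div_pos (Nat.le_of_dvd hpos hrd) hr.pos
        exact absurd (Nat.le_of_dvd h4 h2) (by omega)
    intro y hy
    rw [← hKN] at hy
    exact (hfker _).1 (by rw [map_pow]; exact hy.2)
  have hcomm : ∀ g ∈ N, ∀ h ∈ N, ∃ c : F, c ^ r = 1 ∧
      (g : Matrix ι ι F) * (h : Matrix ι ι F) = c • ((h : Matrix ι ι F) * (g : Matrix ι ι F)) := by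
    intro g hg h hh
    obtain ⟨c, hc⟩ := (mem_scalars_iff _).1 (hmod g hg h hh)
    have hgh : (g : Matrix ι ι F) * (h : Matrix ι ι F)
        = (c : F) • ((h : Matrix ι ι F) * (g : Matrix ι ι F)) := by
      have h2 : g * h = (g * h * g⁻¹ * h⁻¹) * (h * g) := by group
      have h3 := congrArg Units.val h2
      rw [Units.val_mul, Units.val_mul (g * h * g⁻¹ * h⁻¹), hc, Units.val_mul] at h3
      rw [h3, Matrix.smul_mul, one_mul]
    refine ⟨c, ?_, hgh⟩
    -- `h ^ r` is central, so conjugating it by `g` changes nothing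
    obtain ⟨s, hs⟩ := (mem_scalars_iff _).1 (hpow h hh)
    have hk : ∀ k : ℕ, (g : Matrix ι ι F) * (h : Matrix ι ι F) ^ k
        = (c : F) ^ k • ((h : Matrix ι ι F) ^ k * (g : Matrix ι ι F)) := by
      intro k
      induction k with
      | zero => simp
      | succ k ih =>
        rw [pow_succ, ← mul_assoc, ih, Matrix.smul_mul, mul_assoc, hgh, Matrix.mul_smul, smul_smul,
          ← pow_succ, ← mul_assoc]
    have h5 := hk r
    rw [← Units.val_pow_eq_pow_val, hs] at h5
    simp only [Matrix.mul_smul, mul_one, Matrix.smul_mul, one_mul, smul_smul] at h5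
    have h6 : ((s : F) - (c : F) ^ r * s) • (g : Matrix ι ι F) = 0 := by
      rw [sub_smul, ← h5, sub_self]
    have h7 := (smul_eq_zero.1 h6).resolve_right g.ne_zero
    exact mul_right_cancel₀ s.ne_zero (by linear_combination -h7)
  obtain ⟨c₀, hc₀r, hc₀⟩ : ∃ c : F, c ^ r = 1 ∧ c ≠ 1 := by
    by_contra hno
    push Not at hno
    obtain ⟨i, j, hij⟩ := Fintype.exists_pair_of_one_lt_card (α := ι) (by omega)
    have habel : ∀ g ∈ N, ∀ X : Matrix ι ι F, (g : Matrix ι ι F) * X = X * (g : Matrix ι ι F) :=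
      fun g hg X => commute_all_of_span habs (fun h hh => by
        obtain ⟨c, hc, he⟩ := hcomm g hg h hh
        rw [he, hno c hc, one_smul]) X
    exact hN.not_le fun g hg => mem_scalars_of_commute_all (habel g hg)
  have hchar : (r : F) ≠ 0 := by
    intro h0
    haveI : Fact r.Prime := ⟨hr⟩
    haveI : CharP F r := CharP.charP_iff_prime_eq_zero hr |>.2 h0
    apply hc₀
    have h1 : (c₀ - 1) ^ r = 0 := by rw [sub_pow_char, hc₀r, one_pow, sub_self]
    exact sub_eq_zero.1 (pow_eq_zero_iff hr.ne_zero |>.1 h1)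
  -- coset representatives
  set Q := ↥N ⧸ (scalars ι F).subgroupOf N with hQ
  haveI : Fintype Q := Fintype.ofFinite _
  let en : Fin (Fintype.card Q) ≃ Q := (Fintype.equivFin Q).symm
  let x : Fin (Fintype.card Q) → GL ι F := fun i => ((en i).out : GL ι F)
  have hxN : ∀ i, x i ∈ N := fun i => ((en i).out).2
  have hdec : ∀ g ∈ N, ∃ i, ∃ z ∈ scalars ι F, g = z * x i := by
    intro g hg
    refine ⟨en.symm (QuotientGroup.mk ⟨g, hg⟩), g * (x (en.symm (QuotientGroup.mk ⟨g, hg⟩)))⁻¹,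
      ?_, (inv_mul_cancel_right _ _).symm⟩
    have h1 : QuotientGroup.mk ((en (en.symm (QuotientGroup.mk (⟨g, hg⟩ : N)))).out)
        = (QuotientGroup.mk (⟨g, hg⟩ : N) : Q) := by
      rw [QuotientGroup.out_eq', Equiv.apply_symm_apply]
    rw [QuotientGroup.eq, Subgroup.mem_subgroupOf] at h1
    have h2 := Subgroup.Normal.conj_mem (inferInstance : (scalars ι F).Normal) _ h1
      (x (en.symm (QuotientGroup.mk ⟨g, hg⟩)))
    simpa [x, mul_assoc] using h2
  have hinj : ∀ i j, x i * (x j)⁻¹ ∈ scalars ι F → i = j := by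
    intro i j h
    apply en.injective
    rw [← QuotientGroup.out_eq' (en i), ← QuotientGroup.out_eq' (en j), QuotientGroup.eq,
      Subgroup.mem_subgroupOf]
    have h2 := Subgroup.Normal.conj_mem (inferInstance : (scalars ι F).Normal) _
      ((scalars ι F).inv_mem h) (x i)⁻¹
    simpa [x, mul_assoc] using h2
  have hli : LinearIndependent F fun i => (x i : Matrix ι ι F) := by
    rw [Fintype.linearIndependent_iff]
    have key : ∀ (s : Finset (Fin (Fintype.card Q))) (c : Fin (Fintype.card Q) → F),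
        ∑ i ∈ s, c i • (x i : Matrix ι ι F) = 0 → ∀ i ∈ s, c i = 0 := by
      intro s
      induction s using Finset.induction_on with
      | empty => simp
      | insert a s has ih =>
        intro c hsum
        have hrest : ∀ b ∈ s, c b = 0 := by
          intro b hb
          have hab : a ≠ b := fun h => has (h ▸ hb)
          obtain ⟨y, hy, hyne⟩ : ∃ y ∈ N, conjGL y ((x b * (x a)⁻¹ : GL ι F) : Matrix ι ι F)
              ≠ ((x b * (x a)⁻¹ : GL ι F) : Matrix ι ι F) := by
            by_contra hno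
            push Not at hno
            exact hab (hinj b a (mem_scalars_of_commute_all fun X => commute_all_of_span habs
              (fun y hy => ((conjGL_eq_self_iff _ _).1 (hno y hy)).symm) X)).symm
          choose χ _ hχ using fun i => hcomm y hy (x i) (hxN i)
          have hχ' : ∀ i, conjGL y (x i : Matrix ι ι F) = χ i • (x i : Matrix ι ι F) := fun i => by
            rw [conjGL_apply, hχ, Matrix.smul_mul, mul_assoc, Units.mul_inv, mul_one]
          have hsum2 : ∑ i ∈ s, (c i * (χ i - χ a)) • (x i : Matrix ι ι F) = 0 := by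
            have h1 := congrArg (conjGL y) hsum
            rw [map_sum, map_zero] at h1
            simp only [map_smul, hχ', smul_smul] at h1
            rw [Finset.sum_insert has] at h1
            rw [Finset.sum_insert has] at hsum
            have h2 : χ a • (c a • (x a : Matrix ι ι F) + ∑ i ∈ s, c i • (x i : Matrix ι ι F)) = 0 := by
              rw [hsum, smul_zero]
            rw [smul_add, Finset.smul_sum] at h2
            have h3 := congrArg₂ (· - ·) h1 h2
            simp only [sub_zero, smul_smul] at h3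
            rw [show c a * χ a = χ a * c a from mul_comm _ _, add_sub_add_left_eq_sub,
              ← Finset.sum_sub_distrib] at h3
            rw [← h3]
            exact Finset.sum_congr rfl fun i _ => by rw [← sub_smul]; congr 1; ring
          rcases mul_eq_zero.1 (ih _ hsum2 b hb) with h | h
          · exact h
          exfalso
          apply hyne
          have he := sub_eq_zero.1 h
          have h4 : conjGL y (x b : Matrix ι ι F) * conjGL y ((x a)⁻¹ : GL ι F)
              = (x b : Matrix ι ι F) * ((x a)⁻¹ : GL ι F) := by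
            have h5 : conjGL y ((x a)⁻¹ : GL ι F) = (χ a)⁻¹ • (((x a)⁻¹ : GL ι F) : Matrix ι ι F) := by
              have h6 : conjGL y (x a : Matrix ι ι F) * conjGL y ((x a)⁻¹ : GL ι F) = 1 := by
                rw [← map_mul, Units.mul_inv, map_one]
              rw [hχ', Matrix.smul_mul] at h6
              have hχ0 : χ a ≠ 0 := fun h0 => by rw [h0, zero_smul] at h6; exact zero_ne_one h6
              have h7 := congrArg (fun M => (χ a)⁻¹ • ((((x a)⁻¹ : GL ι F) : Matrix ι ι F) * M)) h6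
              simp only [Matrix.mul_smul, smul_smul, inv_mul_cancel₀ hχ0, one_smul, ← mul_assoc,
                Units.inv_mul, one_mul, mul_one] at h7
              exact h7
            rw [hχ', h5, Matrix.smul_mul, Matrix.mul_smul, smul_smul, he]
            by_cases hχ0 : χ a = 0
            · exfalso
              have h8 := hχ' a
              rw [hχ0, zero_smul] at h8
              exact (x a).ne_zero ((conjGL y).injective (h8.trans (map_zero _).symm))
            · rw [mul_inv_cancel₀ hχ0, one_smul]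
          rw [Units.val_mul, map_mul]
          exact h4
        intro i hi
        rcases Finset.mem_insert.1 hi with rfl | hi'
        · rw [Finset.sum_insert has,
            Finset.sum_eq_zero fun b hb => by rw [hrest b hb, zero_smul], add_zero] at hsum
          exact (smul_eq_zero.1 hsum).resolve_right (x i).ne_zero
        · exact hrest i hi'
    exact fun c hc i => key Finset.univ c hc i (Finset.mem_univ i)
  have hcard : Fintype.card Q = Fintype.card ι * Fintype.card ι := by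
    have h1 : Submodule.span F (Set.range fun i => (x i : Matrix ι ι F)) = ⊤ := by
      rw [eq_top_iff, ← Algebra.top_toSubmodule (R := F), ← habs, spanAlg_toSubmodule,
        Submodule.span_le]
      rintro _ ⟨g, hg, rfl⟩
      obtain ⟨i, z, hz, rfl⟩ := hdec g hg
      obtain ⟨c, hc⟩ := (mem_scalars_iff z).1 hz
      show ((z * x i : GL ι F) : Matrix ι ι F) ∈ _
      rw [Units.val_mul, hc, Matrix.smul_mul, one_mul]
      exact Submodule.smul_mem _ _ (Submodule.subset_span ⟨i, rfl⟩)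
    have h2 := linearIndependent_iff_card_eq_finrank_span.1 hli
    rw [Set.finrank, h1, finrank_top, Module.finrank_matrix, Module.finrank_self, mul_one,
      Fintype.card_fin] at h2
    exact h2
  have hm : ∃ m, 1 ≤ m ∧ Fintype.card ι = r ^ m := by
    haveI : Fact r.Prime := ⟨hr⟩
    have hp : IsPGroup r Q := by
      intro q
      obtain ⟨g, rfl⟩ := QuotientGroup.mk_surjective q
      refine ⟨1, ?_⟩
      rw [pow_one, ← QuotientGroup.mk_pow, QuotientGroup.eq_one_iff, Subgroup.mem_subgroupOf,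
        SubmonoidClass.coe_pow]
      exact hpow g g.2
    obtain ⟨e, he⟩ := hp.exists_card_eq
    rw [Nat.card_eq_fintype_card, hcard] at he
    obtain ⟨m, -, hm⟩ := (Nat.dvd_prime_pow hr).1 (Dvd.intro _ he : Fintype.card ι ∣ r ^ e)
    refine ⟨m, ?_, hm⟩
    by_contra h
    have : m = 0 := by omega
    rw [this, pow_zero] at hm
    omega
  exact ⟨r, _, x, hr, hchar, hcard, hm, hxN, hli, hdec, hinj, hpow, hcomm, c₀, hc₀r, hc₀⟩

lemma natCard_units_quotient_powers [Finite F] {r : ℕ} (hr : r.Prime) {c : F} (hc : c ^ r = 1)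
    (hc1 : c ≠ 1) : Nat.card (Fˣ ⧸ (powMonoidHom r : Fˣ →* Fˣ).range) = r := by
  haveI : Fintype F := Fintype.ofFinite F
  have hdvd : r ∣ Nat.card Fˣ := by
    haveI : Fact r.Prime := ⟨hr⟩
    have h0 : c ≠ 0 := fun h => by simp [h, zero_pow hr.ne_zero] at hc
    have h1 : orderOf (Units.mk0 c h0) = r := orderOf_eq_prime (Units.ext (by simpa using hc))
      (fun h => hc1 (by simpa using congrArg Units.val h))
    rw [← h1]
    exact orderOf_dvd_natCard _
  rw [← Subgroup.index_eq_card, IsCyclic.index_powMonoidHom_range, Nat.gcd_eq_right hdvd]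

/-- Coset representatives of order `r` exist when commutator scalars are squares enough. -/
theorem IsSympTypeSystem.exists_root_rep [Nonempty ι] [Finite F] {G N : Subgroup (GL ι F)}
    (hN : IsMinNormal G N) {r k : ℕ} {x : Fin k → GL ι F} (hS : IsSympTypeSystem N r x)
    (hsq : r = 2 → ∃ i : F, i * i = -1) :
    ∀ g ∈ N, ∃ z ∈ scalars ι F, (z * g) ^ r = 1 := by
  classical
  haveI : Fintype F := Fintype.ofFinite F
  have hchoose : ∀ c : F, c ^ r = 1 → ∃ d : F, c ^ r.choose 2 = d ^ r := by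
    intro c hc
    rcases hS.prime.eq_two_or_odd' with rfl | hodd
    · obtain ⟨i, hi⟩ := hsq rfl
      rcases sq_eq_one_iff.1 hc with rfl | rfl
      · exact ⟨1, by simp⟩
      · exact ⟨i, by simp [pow_two, hi]⟩
    · refine ⟨1, ?_⟩
      obtain ⟨q, hq⟩ := hodd
      rw [Nat.choose_two_right, show r * (r - 1) / 2 = r * q by
        rw [hq, show 2 * q + 1 - 1 = 2 * q by omega, show (2 * q + 1) * (2 * q) = 2 * ((2 * q + 1) * q)
          by ring, Nat.mul_div_cancel_left _ (by norm_num : 0 < 2)], pow_mul, hc]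
      simp
  let K : Subgroup (GL ι F) :=
    { carrier := {g | g ∈ N ∧ ∃ d : F, d ≠ 0 ∧
        (g : Matrix ι ι F) ^ r = (d ^ r) • (1 : Matrix ι ι F)}
      mul_mem' := fun {a b} ha hb => by
        obtain ⟨ha1, d, hd0, hd⟩ := ha
        obtain ⟨hb1, e, he0, he⟩ := hb
        obtain ⟨c, hc, hcomm⟩ := hS.commutator_eq b hb1 a ha1
        obtain ⟨f, hf⟩ := hchoose c hc
        have hc0 : c ≠ 0 := fun h => by
          rw [h, zero_pow hS.prime.ne_zero] at hc
          exact zero_ne_one hc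
        refine ⟨N.mul_mem ha1 hb1, f * d * e, mul_ne_zero (mul_ne_zero (fun h => ?_) hd0) he0, ?_⟩
        · rw [h, zero_pow hS.prime.ne_zero] at hf
          exact pow_ne_zero _ hc0 hf
        · rw [Units.val_mul, mul_pow_scalar_comm hcomm, hd, he, hf]
          simp only [Matrix.smul_mul, Matrix.mul_smul, one_mul, smul_smul, mul_pow]
          congr 1
          ring
      one_mem' := ⟨N.one_mem, 1, one_ne_zero, by simp⟩
      inv_mem' := fun {a} ha => by
        obtain ⟨ha1, d, hd0, hd⟩ := ha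
        refine ⟨N.inv_mem ha1, d⁻¹, inv_ne_zero hd0, ?_⟩
        have h1 : ((a⁻¹ : GL ι F) : Matrix ι ι F) ^ r * (a : Matrix ι ι F) ^ r = 1 := by
          rw [← (Commute.units_inv_left (u := a) (Commute.refl (a : Matrix ι ι F))).mul_pow,
            Units.inv_mul, one_pow]
        rw [hd, Matrix.mul_smul, mul_one] at h1
        rw [inv_pow, eq_inv_smul_iff₀ (pow_ne_zero _ hd0)]
        exact h1 }
  have hKN : K = N := by
    refine hN.minimal K (fun z hz => ?_) (fun y hy => hy.1) (fun a ha y hy => ?_) ?_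
    · obtain ⟨c, hc⟩ := (mem_scalars_iff z).1 hz
      exact ⟨hN.scalars_le hz, c, c.ne_zero, by simp [hc, smul_pow]⟩
    · obtain ⟨hy1, d, hd0, hd⟩ := hy
      refine ⟨hN.normal a ha y hy1, d, hd0, ?_⟩
      have h1 : ((a * y * a⁻¹ : GL ι F) : Matrix ι ι F) = conjGL a (y : Matrix ι ι F) := by simp
      rw [h1, ← map_pow, hd, map_smul, map_one]
    · intro hle
      -- otherwise the cosets inject into the units modulo r-th powers
      obtain ⟨m, hm, hnm⟩ := hS.card_pow
      choose s hs using fun i => (mem_scalars_iff _).1 (hS.pow_mem (x i) (hS.mem i))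
      let θ : Fin k → Fˣ ⧸ (powMonoidHom r : Fˣ →* Fˣ).range := fun i => QuotientGroup.mk (s i)
      have hθ : Function.Injective θ := by
        intro i j hij
        obtain ⟨d, hd⟩ := (QuotientGroup.eq.1 hij : _ ∈ (powMonoidHom r : Fˣ →* Fˣ).range)
        apply hS.class_inj
        apply hle
        refine ⟨N.mul_mem (hS.mem i) (N.inv_mem (hS.mem j)), ?_⟩
        obtain ⟨c, hc, hcomm⟩ := hS.commutator_eq (x j)⁻¹ (N.inv_mem (hS.mem j)) (x i) (hS.mem i)
        obtain ⟨f, hf⟩ := hchoose c hc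
        have hf0 : f ≠ 0 := by
          intro h
          rw [h, zero_pow hS.prime.ne_zero] at hf
          refine pow_ne_zero _ (fun h0 => ?_) hf
          rw [h0, zero_pow hS.prime.ne_zero] at hc
          exact zero_ne_one hc
        have hd' : (d : F) ^ r = ((s i : F))⁻¹ * (s j : F) := by
          have h2 := congrArg Units.val hd
          simpa using h2
        refine ⟨f * ((d : F))⁻¹, mul_ne_zero hf0 (inv_ne_zero d.ne_zero), ?_⟩
        have hjr : (((x j)⁻¹ : GL ι F) : Matrix ι ι F) ^ r = ((s j : F))⁻¹ • 1 := by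
          have h1 : (((x j)⁻¹ : GL ι F) : Matrix ι ι F) ^ r * (x j : Matrix ι ι F) ^ r = 1 := by
            rw [← (Commute.units_inv_left (u := x j) (Commute.refl (x j : Matrix ι ι F))).mul_pow,
              Units.inv_mul, one_pow]
          rw [← Units.val_pow_eq_pow_val (x j), hs, Matrix.mul_smul, mul_one] at h1
          rw [eq_inv_smul_iff₀ (s j).ne_zero]
          exact h1
        rw [Units.val_mul, mul_pow_scalar_comm hcomm, ← Units.val_pow_eq_pow_val (x i), hs, hjr,
          hf, mul_pow, inv_pow, hd', mul_inv, inv_inv]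
        simp only [Matrix.smul_mul, Matrix.mul_smul, one_mul, smul_smul]
        congr 1
        ring
      have h3 := Nat.card_le_card_of_injective θ hθ
      obtain ⟨c₀, hc₀, hc₀1⟩ := hS.exists_root
      rw [natCard_units_quotient_powers hS.prime hc₀ hc₀1, Nat.card_eq_fintype_card,
        Fintype.card_fin, hS.card_eq, hnm] at h3
      have h4 : r ^ 1 ≤ r ^ m := Nat.pow_le_pow_right hS.prime.pos hm
      have h5 := hS.prime.two_le
      rw [pow_one] at h4
      nlinarith
  intro g hg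
  rw [← hKN] at hg
  obtain ⟨-, d, hd0, hd⟩ := hg
  refine ⟨(Units.map (Matrix.scalar ι : F →+* Matrix ι ι F).toMonoidHom) (Units.mk0 d⁻¹
    (inv_ne_zero hd0)), ⟨_, rfl⟩, Units.ext ?_⟩
  rw [Units.val_pow_eq_pow_val, Units.val_mul]
  simp only [Units.coe_map, RingHom.toMonoidHom_eq_coe, MonoidHom.coe_coe, Units.val_mk0,
    Matrix.scalar_apply, ← Matrix.smul_one_eq_diagonal, Matrix.smul_mul, one_mul, smul_pow, hd,
    smul_smul, Units.val_one]
  rw [inv_pow, inv_mul_cancel₀ (pow_ne_zero _ hd0), one_smul]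

end Cfsg.Agent.GeoClasses
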