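import Mathlib
import Cfsg.Prelude.Def_GeometricClasses
import Cfsg.Agent.GeoClasses.Basic
import Cfsg.Agent.GeoClasses.MatrixUnits
import Cfsg.Agent.GeoClasses.Algebra
import Cfsg.Agent.GeoClasses.Forms
import Cfsg.Agent.GeoClasses.Blocks
import Cfsg.Agent.GeoClasses.Structure

/-!
Adjoints with respect to a reflexive form, and the cases for a subalgebra closed under adjoints and
normalised by an irreducible group of isometries.
-/

set_option autoImplicit false
set_option maxHeartbeats 400000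

namespace Cfsg.Agent.GeoClasses

open Matrix Cfsg.Geo
open scoped MatrixGroups Matrix Kronecker

variable {ι : Type} [Fintype ι] [DecidableEq ι] {F : Type*} [Field F]

/-- `B` is the Gram matrix of a non-degenerate `σ`-sesquilinear reflexive form. -/
structure IsPolar (σ : F ≃+* F) (B : Matrix ι ι F) (ε : F) : Prop where
  invol : ∀ a, σ (σ a) = a
  unit : IsUnit B
  star : starMat σ B = ε • B

/-- The adjoint of a matrix with respect to the form with Gram matrix `B`. -/
noncomputable def adj (σ : F ≃+* F) (B X : Matrix ι ι F) : Matrix ι ι F := (B⁻¹ * Xᵀ * B).map σ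

/-- A subalgebra closed under adjoints. -/
def StarClosed (σ : F ≃+* F) (B : Matrix ι ι F) (A : Subalgebra F (Matrix ι ι F)) : Prop :=
  ∀ X ∈ A, adj σ B X ∈ A

lemma formOf_mulVec_left (σ : F ≃+* F) (B X : Matrix ι ι F) (u v : ι → F) :
    formOf σ B (X *ᵥ u) v = formOf σ (Xᵀ * B) u v := by
  simp only [formOf]
  rw [← Matrix.mulVec_mulVec, dotProduct_comm, Matrix.dotProduct_mulVec, ← Matrix.mulVec_transpose,
    dotProduct_comm]

lemma formOf_mulVec_right (σ : F ≃+* F) (B X : Matrix ι ι F) (u v : ι → F) :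
    formOf σ B u (X *ᵥ v) = formOf σ (B * X.map σ) u v := by
  simp only [formOf, map_mulVec_ringEquiv, Matrix.mulVec_mulVec]

lemma formOf_zero_right (σ : F ≃+* F) (B : Matrix ι ι F) (u : ι → F) : formOf σ B u 0 = 0 := by
  have h : (fun i => σ ((0 : ι → F) i)) = 0 := funext fun i => map_zero σ
  rw [formOf, h, Matrix.mulVec_zero, dotProduct_zero]

lemma formOf_zero_left (σ : F ≃+* F) (B : Matrix ι ι F) (v : ι → F) : formOf σ B 0 v = 0 :=
  zero_dotProduct _

section Polar

variable {σ : F ≃+* F} {B : Matrix ι ι F} {ε : F} (hP : IsPolar σ B ε)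
include hP

lemma IsPolar.map_map (X : Matrix ι ι F) : (X.map σ).map σ = X := by
  ext i j
  simp [hP.invol]

lemma IsPolar.formOf_adj (X : Matrix ι ι F) (u v : ι → F) :
    formOf σ B (X *ᵥ u) v = formOf σ B u (adj σ B X *ᵥ v) := by
  rw [formOf_mulVec_left, formOf_mulVec_right, adj, hP.map_map, ← mul_assoc, ← mul_assoc,
    Matrix.mul_nonsing_inv _ ((Matrix.isUnit_iff_isUnit_det B).1 hP.unit), one_mul]

lemma IsPolar.adj_eq {X Y : Matrix ι ι F}
    (h : ∀ u v, formOf σ B (X *ᵥ u) v = formOf σ B u (Y *ᵥ v)) : adj σ B X = Y := by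
  have h1 : B * (adj σ B X).map σ = B * Y.map σ := formOf_injective fun u v => by
    rw [← formOf_mulVec_right, ← hP.formOf_adj, h, formOf_mulVec_right]
  have h2 := congrArg (fun Z : Matrix ι ι F => Z.map σ) (hP.unit.mul_left_cancel h1)
  simpa only [hP.map_map] using h2

lemma IsPolar.eps_ne_zero [Nonempty ι] : ε ≠ 0 := by
  intro h0
  have h := isUnit_starMat (σ := σ) hP.unit
  rw [hP.star, h0, zero_smul] at h
  exact not_isUnit_zero h

lemma IsPolar.map_formOf (u v : ι → F) : σ (formOf σ B v u) = ε * formOf σ B u v := by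
  rw [← formOf_star hP.invol, hP.star, formOf_smul]

lemma IsPolar.formOf_eq_zero_comm [Nonempty ι] {u v : ι → F} (h : formOf σ B u v = 0) :
    formOf σ B v u = 0 := by
  have h1 := hP.map_formOf u v
  rw [h, mul_zero] at h1
  exact σ.map_eq_zero_iff.1 h1

lemma IsPolar.formOf_adj' [Nonempty ι] (X : Matrix ι ι F) (u v : ι → F) :
    formOf σ B u (X *ᵥ v) = formOf σ B (adj σ B X *ᵥ u) v := by
  apply mul_left_cancel₀ hP.eps_ne_zero
  rw [← hP.map_formOf, ← hP.map_formOf, hP.formOf_adj]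

lemma IsPolar.adj_adj [Nonempty ι] (X : Matrix ι ι F) : adj σ B (adj σ B X) = X :=
  hP.adj_eq fun u v => (hP.formOf_adj' X u v).symm

lemma IsPolar.adj_mul (X Y : Matrix ι ι F) : adj σ B (X * Y) = adj σ B Y * adj σ B X :=
  hP.adj_eq fun u v => by
    rw [← Matrix.mulVec_mulVec, hP.formOf_adj, hP.formOf_adj, Matrix.mulVec_mulVec]

lemma IsPolar.adj_one : adj σ B 1 = 1 := hP.adj_eq fun u v => by simp

omit hP in
lemma adj_zero : adj σ B 0 = 0 := by simp [adj]

omit hP in
lemma adj_add (X Y : Matrix ι ι F) : adj σ B (X + Y) = adj σ B X + adj σ B Y := by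
  simp [adj, Matrix.mul_add, Matrix.add_mul, Matrix.map_add]

omit hP in
lemma adj_smul (c : F) (X : Matrix ι ι F) : adj σ B (c • X) = σ c • adj σ B X := by
  simp [adj, Matrix.map_smul']

omit hP in
lemma adj_neg (X : Matrix ι ι F) : adj σ B (-X) = -adj σ B X := by
  rw [← neg_one_smul F X, adj_smul, map_neg, map_one, neg_one_smul]

omit hP in
lemma adj_sum {α : Type*} (s : Finset α) (f : α → Matrix ι ι F) :
    adj σ B (∑ i ∈ s, f i) = ∑ i ∈ s, adj σ B (f i) := by
  classical
  induction s using Finset.induction_on with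
  | empty => simp [adj_zero]
  | insert a s ha ih => rw [Finset.sum_insert ha, Finset.sum_insert ha, adj_add, ih]

lemma IsPolar.adj_sim {g : GL ι F} {μ : F} (hg : IsSim σ B g μ) :
    adj σ B (g : Matrix ι ι F) = σ μ • ((g⁻¹ : GL ι F) : Matrix ι ι F) :=
  hP.adj_eq fun u v => by
    have h := formOf_eq_of_isSim hg u (((g⁻¹ : GL ι F) : Matrix ι ι F) *ᵥ v)
    rw [gl_mulVec_inv] at h
    rw [h, Matrix.smul_mulVec, formOf_smul_right, hP.invol]

lemma IsPolar.adj_conj {g : GL ι F} (hg : IsSim σ B g 1) (X : Matrix ι ι F) :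
    adj σ B (conjGL g X) = conjGL g (adj σ B X) := by
  have h1 := hP.adj_sim hg
  have h2 := hP.adj_sim (by simpa using hg.inv one_ne_zero : IsSim σ B g⁻¹ 1)
  rw [map_one, one_smul] at h1 h2
  rw [inv_inv] at h2
  rw [conjGL_apply, conjGL_apply, hP.adj_mul, hP.adj_mul, h1, h2, mul_assoc]

lemma IsPolar.det_adj (hσ : σ = RingEquiv.refl F) (X : Matrix ι ι F) :
    (adj σ B X).det = X.det := by
  subst hσ
  rw [adj, show (B⁻¹ * Xᵀ * B).map (RingEquiv.refl F) = B⁻¹ * Xᵀ * B from rfl, Matrix.det_mul,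
    Matrix.det_mul, Matrix.det_transpose, Matrix.det_nonsing_inv, mul_comm (Ring.inverse B.det),
    mul_assoc, Ring.inverse_mul_cancel _ ((Matrix.isUnit_iff_isUnit_det B).1 hP.unit), mul_one]

lemma IsPolar.starClosed_spanAlg {R : Subgroup (GL ι F)}
    (hR : ∀ g ∈ R, ∃ μ : F, IsSim σ B g μ) : StarClosed σ B (spanAlg R) := by
  intro X hX
  induction hX using Algebra.adjoin_induction with
  | mem x hx =>
    obtain ⟨g, hg, rfl⟩ := hx
    obtain ⟨μ, hμ⟩ := hR g hg
    rw [hP.adj_sim hμ]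
    exact (spanAlg R).smul_mem (Algebra.subset_adjoin ⟨g⁻¹, R.inv_mem hg, rfl⟩) _
  | algebraMap c =>
    rw [Algebra.algebraMap_eq_smul_one, adj_smul, hP.adj_one]
    exact (spanAlg R).smul_mem (spanAlg R).one_mem _
  | add x y _ _ hx hy => rw [adj_add]; exact add_mem hx hy
  | mul x y _ _ hx hy => rw [hP.adj_mul]; exact mul_mem hy hx

lemma IsPolar.starClosed_centralizer [Nonempty ι] {H : Subgroup (GL ι F)}
    (hH : ∀ h ∈ H, IsSim σ B h 1) :
    StarClosed σ B (Subalgebra.centralizer F (matrixSet H)) := by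
  intro X hX
  rw [Subalgebra.mem_centralizer_iff] at hX ⊢
  rintro _ ⟨g, hg, rfl⟩
  have h1 := congrArg (adj σ B) (hX _ ⟨g⁻¹, H.inv_mem hg, rfl⟩)
  have h2 := hP.adj_sim (hH _ (H.inv_mem hg))
  rw [map_one, one_smul, inv_inv] at h2
  rw [hP.adj_mul, hP.adj_mul, h2] at h1
  exact h1.symm

lemma IsPolar.starClosed_centerIn [Nonempty ι] {A : Subalgebra F (Matrix ι ι F)}
    (hA : StarClosed σ B A) : StarClosed σ B (centerIn A) := by
  intro z hz
  obtain ⟨hzA, hzc⟩ := mem_centerIn.1 hz
  refine mem_centerIn.2 ⟨hA z hzA, fun a ha => ?_⟩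
  have h1 := congrArg (adj σ B) (hzc _ (hA a ha))
  rw [hP.adj_mul, hP.adj_mul, hP.adj_adj] at h1
  exact h1.symm

/-- The image of a subalgebra under taking adjoints. -/
noncomputable def IsPolar.adjAlg (K : Subalgebra F (Matrix ι ι F)) :
    Subalgebra F (Matrix ι ι F) where
  carrier := {X | adj σ B X ∈ K}
  mul_mem' {a b} (ha : adj σ B a ∈ K) (hb : adj σ B b ∈ K) := by
    show adj σ B (a * b) ∈ K
    rw [hP.adj_mul]
    exact mul_mem hb ha
  add_mem' {a b} (ha : adj σ B a ∈ K) (hb : adj σ B b ∈ K) := by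
    show adj σ B (a + b) ∈ K
    rw [adj_add]
    exact add_mem ha hb
  algebraMap_mem' c := by
    show adj σ B (algebraMap F _ c) ∈ K
    rw [Algebra.algebraMap_eq_smul_one, adj_smul, hP.adj_one]
    exact K.smul_mem K.one_mem _

/-- A field singled out by the cases of a star-closed subalgebra is star-closed. -/
lemma IsPolar.starClosed_of_unique [Nonempty ι] {A K : Subalgebra F (Matrix ι ι F)}
    (hA : StarClosed σ B A) (hK : K ≤ centerIn A)
    (huniq : ∀ K' : Subalgebra F (Matrix ι ι F), K' ≤ centerIn A → Nat.card K' = Nat.card K →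
      K' = K) : StarClosed σ B K := by
  have h1 : hP.adjAlg K = K := by
    refine huniq _ (fun X hX => ?_) (Nat.card_congr
      { toFun := fun X => ⟨adj σ B X.1, X.2⟩
        invFun := fun X => ⟨adj σ B X.1, by
          show adj σ B (adj σ B X.1) ∈ K
          rw [hP.adj_adj]
          exact X.2⟩
        left_inv := fun X => Subtype.ext (hP.adj_adj X.1)
        right_inv := fun X => Subtype.ext (hP.adj_adj X.1) })
    have := hP.starClosed_centerIn hA _ (hK hX)
    rwa [hP.adj_adj] at this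
  intro X hX
  rw [← h1] at hX
  exact hX

omit hP in
lemma IsBlockSystem.eq_of_mul_eq {G : Subgroup (GL ι F)} {A : Subalgebra F (Matrix ι ι F)} {t : ℕ}
    {e : Fin t → Matrix ι ι F} (he : IsBlockSystem G A e) {i j : Fin t} (h : e i = e j) :
    i = j := by
  by_contra hne
  have h0 := he.orth i j hne
  rw [h, he.idem] at h0
  exact he.ne_zero j h0

omit hP in
lemma IsBlockSystem.exists_perm {G : Subgroup (GL ι F)} {A : Subalgebra F (Matrix ι ι F)} {t : ℕ}
    {e : Fin t → Matrix ι ι F} (he : IsBlockSystem G A e) {g : GL ι F} (hg : g ∈ G) :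
    ∃ ρ : Equiv.Perm (Fin t), ∀ i, conjGL g (e i) = e (ρ i) := by
  choose ρ hρ using fun i => he.perm g hg i
  exact ⟨Equiv.ofBijective ρ (Finite.injective_iff_bijective.1 fun i j hij =>
    he.eq_of_mul_eq ((conjGL g).injective ((hρ i).trans ((congrArg e hij).trans (hρ j).symm)))), hρ⟩

/-- Adjoints permute the idempotents of a block system. -/
lemma IsPolar.exists_adjPerm [Nonempty ι] {H : Subgroup (GL ι F)}
    {A : Subalgebra F (Matrix ι ι F)} (hA : StarClosed σ B A) {t : ℕ} {e : Fin t → Matrix ι ι F}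
    (he : IsBlockSystem H A e) :
    ∃ π : Fin t → Fin t, (∀ i, adj σ B (e i) = e (π i)) ∧ ∀ i, π (π i) = i := by
  have hmem : ∀ i, adj σ B (e i) ∈ centerIn A := fun i =>
    hP.starClosed_centerIn hA _ (he.mem i)
  have hid : ∀ i, adj σ B (e i) * adj σ B (e i) = adj σ B (e i) := fun i => by
    rw [← hP.adj_mul, he.idem]
  have key : ∀ i, ∃ j, adj σ B (e i) = e j := fun i => by
    obtain ⟨j, hj⟩ : ∃ j, adj σ B (e i) * e j ≠ 0 := by
      by_contra h
      push Not at h
      refine he.ne_zero i ?_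
      have h1 : adj σ B (e i) = 0 := by
        rw [← mul_one (adj σ B (e i)), ← he.sum_eq, Finset.mul_sum]
        exact Finset.sum_eq_zero fun j _ => h j
      rw [← hP.adj_adj (e i), h1, adj_zero]
    refine ⟨j, ?_⟩
    have h1 : adj σ B (e i) * e j = e j := (he.atom _ (hmem i) (hid i) j).resolve_left hj
    have h3 : adj σ B (adj σ B (e j) * e i) = adj σ B (e i) * e j := by
      rw [hP.adj_mul, hP.adj_adj]
    have h2 : adj σ B (e j) * e i = e i := (he.atom _ (hmem j) (hid j) i).resolve_left fun h0 => by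
      apply hj
      rw [← h3, h0, adj_zero]
    rw [h2, h1] at h3
    exact h3
  choose π hπ using key
  refine ⟨π, hπ, fun i => he.eq_of_mul_eq ?_⟩
  rw [← hπ (π i), ← hπ i, hP.adj_adj]

/-- A block system of self-adjoint idempotents gives an orthogonal decomposition. -/
lemma IsPolar.orth_decomposition [Nonempty ι] {H : Subgroup (GL ι F)}
    {A : Subalgebra F (Matrix ι ι F)} {t : ℕ} {e : Fin t → Matrix ι ι F}
    (he : IsBlockSystem H A e) (hfix : ∀ i, adj σ B (e i) = e i) :
    ∃ k, IsNondegenerateMDecomposition (formOf σ B) k (blockSpaces e) ∧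
      H ≤ decompositionStabilizer (blockSpaces e) ∧
      ∀ i j, ∃ g ∈ H, (blockSpaces e i).map (Matrix.toLin' (g : Matrix ι ι F))
        = blockSpaces e j := by
  obtain ⟨k, hk, hle⟩ := he.decomposition
  refine ⟨k, ⟨hk, fun i w hw hw0 => ?_, fun i j hij u hu v hv => ?_⟩, hle, fun i j => ?_⟩
  · rw [mem_blockSpaces he.idem] at hw
    obtain ⟨⟨x, hx⟩, -⟩ := isNondegenerateForm_formOf σ hP.unit w hw0
    have hmem : e i *ᵥ x ∈ blockSpaces e i := ⟨x, by simp⟩
    have hxw : formOf σ B (e i *ᵥ x) w = formOf σ B x w := by rw [hP.formOf_adj, hfix, hw]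
    refine ⟨⟨_, hmem, by rwa [hxw]⟩, ⟨_, hmem, fun h0 => hx ?_⟩⟩
    rw [← hxw]
    exact hP.formOf_eq_zero_comm h0
  · rw [mem_blockSpaces he.idem] at hu hv
    rw [← hu, ← hv, hP.formOf_adj, hfix, Matrix.mulVec_mulVec, he.orth i j hij, Matrix.zero_mulVec,
      formOf_zero_right]
  · obtain ⟨g, hg, hge⟩ := he.trans i j
    exact ⟨g, hg, he.map_blockSpaces hge⟩

/-- Two idempotents exchanged by adjoints give totally singular summands. -/
lemma IsPolar.singular_pair [Nonempty ι] {H : Subgroup (GL ι F)}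
    {A : Subalgebra F (Matrix ι ι F)} {e : Fin 2 → Matrix ι ι F} (he : IsBlockSystem H A e)
    (h01 : adj σ B (e 0) = e 1) (i : Fin 2) :
    IsTotallySingularFor (formOf σ B) (blockSpaces e i) := by
  intro u hu v hv
  rw [mem_blockSpaces he.idem] at hu hv
  rw [← hu, ← hv, hP.formOf_adj, Matrix.mulVec_mulVec]
  have h10 : adj σ B (e 1) = e 0 := by rw [← h01, hP.adj_adj]
  rcases (show i = 0 ∨ i = 1 by omega) with rfl | rfl
  · rw [h01, he.orth 1 0 (by decide), Matrix.zero_mulVec, formOf_zero_right]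
  · rw [h10, he.orth 0 1 (by decide), Matrix.zero_mulVec, formOf_zero_right]

/-- The cases for a star-closed subalgebra normalised by an irreducible group of isometries. -/
theorem IsPolar.cases [Nonempty ι] [Finite F] {H : Subgroup (GL ι F)}
    (hH : ∀ h ∈ H, IsSim σ B h 1) (hirr : ActsIrreducibly (matrixSet H))
    {A : Subalgebra F (Matrix ι ι F)} (hA : Normalises H A) (hAs : StarClosed σ B A) :
    (∃ (t k : ℕ) (D : Fin t → Submodule F (ι → F)),
      IsNondegenerateMDecomposition (formOf σ B) k D ∧ H ≤ decompositionStabilizer D ∧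
      ∀ i j, ∃ g ∈ H, (D i).map (Matrix.toLin' (g : Matrix ι ι F)) = D j) ∨
    (∃ (A' : Subalgebra F (Matrix ι ι F)) (e : Fin 2 → Matrix ι ι F),
      IsBlockSystem H A' e ∧ adj σ B (e 0) = e 1) ∨
    (∃ (r : ℕ) (K : Subalgebra F (Matrix ι ι F)), r.Prime ∧ IsFieldSubalgebra r K ∧
      K ≤ centerIn A ∧ StarClosed σ B K ∧ H ≤ subalgebraNormalizer K) ∨
    (∃ (a : ℕ) (φ : Matrix (Fin a) (Fin a) F →ₐ[F] Matrix ι ι F),
      0 < a ∧ Function.Injective φ ∧ φ.range = A) := by
  classical
  rcases normalised_subalgebra_cases hirr hA with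
    ⟨t, e, he⟩ | ⟨r, K, hr, hK, hKZ, hle, huniq⟩ | h
  rotate_left
  · exact Or.inr <| Or.inr <| Or.inl ⟨r, K, hr, hK, hKZ, hP.starClosed_of_unique hAs hKZ huniq, hle⟩
  · exact Or.inr <| Or.inr <| Or.inr h
  obtain ⟨π, hπ, hππ⟩ := hP.exists_adjPerm hAs he
  have hcomm : ∀ g ∈ H, ∀ i j, conjGL g (e i) = e j → conjGL g (e (π i)) = e (π j) :=
    fun g hg i j h => by rw [← hπ, ← hπ, ← hP.adj_conj (hH g hg), h]
  by_cases hfp : ∃ i, π i = i
  · obtain ⟨i₀, hi₀⟩ := hfp
    have hall : ∀ j, adj σ B (e j) = e j := fun j => by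
      obtain ⟨g, hg, hge⟩ := he.trans i₀ j
      have h1 := hcomm g hg i₀ j hge
      rw [hi₀, hge] at h1
      rw [hπ, ← h1]
    obtain ⟨k, h⟩ := hP.orth_decomposition he hall
    exact Or.inl ⟨t, k, _, h⟩
  push Not at hfp
  by_cases ht : t = 2
  · subst ht
    refine Or.inr <| Or.inl ⟨A, e, he, ?_⟩
    have h01 : ∀ j : Fin 2, j ≠ 0 → j = 1 := by decide
    rw [hπ, h01 _ (hfp 0)]
  -- merge the pairs
  let S : Subalgebra F (Matrix ι ι F) :=
    { carrier := {X | ∃ c : Fin t → F, (∀ i, c (π i) = c i) ∧ X = ∑ i, c i • e i}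
      mul_mem' := by
        rintro _ _ ⟨c, hc, rfl⟩ ⟨d, hd, rfl⟩
        refine ⟨fun i => c i * d i, fun i => by simp only [hc, hd], ?_⟩
        rw [Finset.sum_mul]
        refine Finset.sum_congr rfl fun i _ => ?_
        rw [Finset.mul_sum, Finset.sum_eq_single i (fun j _ hj => by
          rw [Matrix.smul_mul, Matrix.mul_smul, he.orth i j (Ne.symm hj), smul_zero, smul_zero])
          (by simp), Matrix.smul_mul, Matrix.mul_smul, he.idem, smul_smul]
      add_mem' := by
        rintro _ _ ⟨c, hc, rfl⟩ ⟨d, hd, rfl⟩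
        exact ⟨fun i => c i + d i, fun i => by simp only [hc, hd],
          by simp [add_smul, Finset.sum_add_distrib]⟩
      algebraMap_mem' := fun a => ⟨fun _ => a, fun _ => rfl, by
        rw [← Finset.smul_sum, he.sum_eq, Algebra.algebraMap_eq_smul_one]⟩ }
  have hSn : Normalises H S := by
    rintro g hg _ ⟨c, hc, rfl⟩
    obtain ⟨ρ, hρ⟩ := he.exists_perm hg
    have hρπ : ∀ i, ρ (π i) = π (ρ i) := fun i => he.eq_of_mul_eq (by
      rw [← hρ, hcomm g hg i (ρ i) (hρ i)])
    refine ⟨fun i => c (ρ.symm i), fun i => ?_, ?_⟩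
    · show c (ρ.symm (π i)) = c (ρ.symm i)
      rw [← hc (ρ.symm i)]
      congr 1
      apply ρ.injective
      rw [hρπ, ρ.apply_symm_apply, ρ.apply_symm_apply]
    · rw [map_sum]
      simp only [map_smul, hρ]
      exact Fintype.sum_equiv ρ _ _ fun i => by simp
  have hmul : ∀ (c : Fin t → F) (i : Fin t), (∑ j, c j • e j) * e i = c i • e i := fun c i => by
    rw [Finset.sum_mul, Finset.sum_eq_single i (fun j _ hj => by
      rw [Matrix.smul_mul, he.orth j i hj, smul_zero]) (by simp), Matrix.smul_mul, he.idem]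
  have hadj : ∀ c : Fin t → F, (∀ i, c (π i) = c i) →
      adj σ B (∑ i, c i • e i) = ∑ i, σ (c i) • e i := fun c hc => by
    let πe : Equiv.Perm (Fin t) := ⟨π, π, hππ, hππ⟩
    rw [adj_sum]
    refine Fintype.sum_equiv πe _ _ fun i => ?_
    show _ = σ (c (π i)) • e (π i)
    rw [hc, adj_smul, hπ]
  have ht2 := he.two_le
  let i0 : Fin t := ⟨0, by omega⟩
  obtain ⟨k0, hk0, hk0'⟩ : ∃ k : Fin t, k ≠ i0 ∧ k ≠ π i0 := by
    by_contra h
    push Not at h
    have hsub : (Finset.univ : Finset (Fin t)) ⊆ {i0, π i0} := fun k _ => by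
      simp only [Finset.mem_insert, Finset.mem_singleton]
      exact or_iff_not_imp_left.2 (h k)
    have := (Finset.card_le_card hsub).trans Finset.card_le_two
    simp at this
    omega
  let c0 : Fin t → F := fun i => if i = i0 ∨ i = π i0 then 1 else 0
  have hc0 : ∀ i, c0 (π i) = c0 i := fun i => by
    have : (π i = i0 ∨ π i = π i0) ↔ (i = i0 ∨ i = π i0) := by
      constructor
      · rintro (h | h)
        · right; rw [← h, hππ]
        · left; rw [← hππ i, h, hππ]
      · rintro (rfl | rfl)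
        · right; rfl
        · left; exact hππ _
    simp only [c0, this]
  have hcent : ∀ X ∈ S, X ∈ centerIn S := fun X hX => mem_centerIn.2 ⟨hX, fun Y hY => by
    obtain ⟨c, -, rfl⟩ := hX
    obtain ⟨d, -, rfl⟩ := hY
    rw [Finset.mul_sum, Finset.mul_sum]
    refine Finset.sum_congr rfl fun i _ => ?_
    rw [Matrix.mul_smul, Matrix.mul_smul, hmul, hmul, smul_comm]⟩
  obtain ⟨t', e', he'⟩ := exists_blockSystem hirr hSn
    ⟨∑ i, c0 i • e i, hcent _ ⟨c0, hc0, rfl⟩, by
      rw [Finset.mul_sum]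
      refine Finset.sum_congr rfl fun i _ => ?_
      rw [Matrix.mul_smul, hmul, smul_smul]
      congr 1
      simp only [c0]
      split <;> simp,
    fun h0 => he.ne_zero i0 (by
      have h2 := hmul c0 i0
      rw [h0, zero_mul] at h2
      simpa [c0] using h2.symm),
    fun h1 => he.ne_zero k0 (by
      have h2 := hmul c0 k0
      rw [h1, one_mul] at h2
      simpa [c0, hk0, hk0'] using h2)⟩
  obtain ⟨k, h⟩ := hP.orth_decomposition he' fun j => by
    obtain ⟨c, hc, hje⟩ := (mem_centerIn.1 (he'.mem j)).1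
    rw [hje, hadj c hc]
    refine Finset.sum_congr rfl fun i _ => ?_
    congr 1
    have h1 : (e' j * e' j) * e i = e' j * e i := by rw [he'.idem]
    rw [mul_assoc, hje, hmul, Matrix.mul_smul, hmul, smul_smul] at h1
    have h2 : (c i * c i - c i) • e i = 0 := by rw [sub_smul, h1, sub_self]
    have h3 := sub_eq_zero.1 ((smul_eq_zero.1 h2).resolve_right (he.ne_zero i))
    rcases em (c i = 0) with h | h
    · rw [h, map_zero]
    · rw [(mul_eq_left₀ h).1 h3, map_one]
  exact Or.inl ⟨t', k, _, h⟩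

end Polar

end Cfsg.Agent.GeoClasses
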