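import Mathlib
import Cfsg.Prelude.Def_GeometricClasses
import Cfsg.Agent.GeoClasses.Basic
import Cfsg.Agent.GeoClasses.MatrixUnits
import Cfsg.Agent.GeoClasses.Tensor
import Cfsg.Agent.GeoClasses.Forms
import Cfsg.Agent.GeoClasses.FormsMore
import Cfsg.Agent.GeoClasses.Polarized

/-!
Forms in other coordinates, and the cases of a reducible group of isometries.
-/

set_option autoImplicit false
set_option maxHeartbeats 400000

namespace Cfsg.Agent.GeoClasses

open Matrix Cfsg.Geo
open scoped MatrixGroups Matrix Kronecker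

variable {ι κ κ' : Type} [Fintype ι] [DecidableEq ι] [Fintype κ] [DecidableEq κ]
  [Fintype κ'] [DecidableEq κ'] {F : Type*} [Field F]

/-- The Gram matrix of the form in the coordinates given by `L`. -/
def coordGram (σ : F ≃+* F) (B : Matrix ι ι F) (L : (κ → F) ≃ₗ[F] (ι → F)) : Matrix κ κ F :=
  fun a b => formOf σ B (L (Pi.single a 1)) (L (Pi.single b 1))

lemma formOf_coord (σ : F ≃+* F) (B : Matrix ι ι F) (L : (κ → F) ≃ₗ[F] (ι → F))
    (x y : κ → F) : formOf σ B (L x) (L y) = formOf σ (coordGram σ B L) x y := by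
  have h := formOf_expand σ (f := fun x y : κ → F => formOf σ B (L x) (L y))
    (fun x y v => by simp only [map_add, formOf_add_left])
    (fun c x v => by simp only [map_smul, formOf_smul_left])
    (fun v x y => by simp only [map_add, formOf_add_right])
    (fun c v x => by simp only [map_smul, formOf_smul_right])
  exact congrFun (congrFun h x) y

lemma coordGram_eq {σ : F ≃+* F} {B : Matrix ι ι F} {L : (κ → F) ≃ₗ[F] (ι → F)}
    {G : Matrix κ κ F} (h : ∀ x y, formOf σ B (L x) (L y) = formOf σ G x y) :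
    coordGram σ B L = G :=
  formOf_injective fun x y => by rw [← formOf_coord, h]

lemma isUnit_coordGram {σ : F ≃+* F} {B : Matrix ι ι F} (hB : IsUnit B)
    (L : (κ → F) ≃ₗ[F] (ι → F)) : IsUnit (coordGram σ B L) := by
  refine isUnit_of_isNondegenerateForm (σ := σ) fun v hv => ?_
  obtain ⟨⟨x, hx⟩, ⟨y, hy⟩⟩ := isNondegenerateForm_formOf σ hB (L v)
    (fun h => hv (L.injective (h.trans L.map_zero.symm)))
  exact ⟨⟨L.symm x, by rwa [← formOf_coord, L.apply_symm_apply]⟩,
    ⟨L.symm y, by rwa [← formOf_coord, L.apply_symm_apply]⟩⟩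

lemma IsPolar.coord {σ : F ≃+* F} {B : Matrix ι ι F} {ε : F} (hP : IsPolar σ B ε)
    (L : (κ → F) ≃ₗ[F] (ι → F)) : IsPolar σ (coordGram σ B L) ε where
  invol := hP.invol
  unit := isUnit_coordGram hP.unit L
  star := formOf_injective fun x y => by
    rw [formOf_star hP.invol, ← formOf_coord, hP.map_formOf, formOf_smul, formOf_coord]

lemma IsPolar.adj_conjMat {σ : F ≃+* F} {B : Matrix ι ι F} {ε : F} (hP : IsPolar σ B ε)
    (L : (κ → F) ≃ₗ[F] (ι → F)) (X : Matrix κ κ F) :
    adj σ B (conjMat L X) = conjMat L (adj σ (coordGram σ B L) X) :=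
  hP.adj_eq fun u v => by
    obtain ⟨x, rfl⟩ := L.surjective u
    obtain ⟨y, rfl⟩ := L.surjective v
    rw [conjMat_mulVec_apply, conjMat_mulVec_apply, formOf_coord, formOf_coord,
      (hP.coord L).formOf_adj]

lemma isSim_coord_iff {σ : F ≃+* F} {B : Matrix ι ι F} {L : (κ → F) ≃ₗ[F] (ι → F)}
    {g : GL ι F} {X : Matrix κ κ F} (hg : (g : Matrix ι ι F) = conjMat L X) {μ : F} :
    IsSim σ B g μ ↔ adjForm σ (coordGram σ B L) X = μ • coordGram σ B L := by
  constructor
  · intro h
    refine formOf_injective (σ := σ) fun x y => ?_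
    rw [← formOf_mulVec, formOf_smul, ← formOf_coord, ← formOf_coord, ← conjMat_mulVec_apply L X x,
      ← conjMat_mulVec_apply L X y, ← hg, formOf_eq_of_isSim h]
  · intro h
    refine isSim_of_formOf fun u v => ?_
    obtain ⟨x, rfl⟩ := L.surjective u
    obtain ⟨y, rfl⟩ := L.surjective v
    rw [hg, conjMat_mulVec_apply, conjMat_mulVec_apply, formOf_coord, formOf_coord, formOf_mulVec,
      h, formOf_smul]

/-- Composition of coordinates with an invertible matrix. -/
noncomputable def coordMul (L : (κ → F) ≃ₗ[F] (ι → F)) (D : GL κ F) : (κ → F) ≃ₗ[F] (ι → F) :=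
  (equivOfGL D).trans L

lemma coordGram_coordMul (σ : F ≃+* F) (B : Matrix ι ι F) (L : (κ → F) ≃ₗ[F] (ι → F))
    (D : GL κ F) :
    coordGram σ B (coordMul L D) = adjForm σ (coordGram σ B L) (D : Matrix κ κ F) :=
  coordGram_eq fun x y => by
    rw [coordMul, LinearEquiv.trans_apply, LinearEquiv.trans_apply, formOf_coord, equivOfGL_apply,
      equivOfGL_apply, formOf_mulVec]

lemma conjMat_coordMul (L : (κ → F) ≃ₗ[F] (ι → F)) (D : GL κ F) (X : Matrix κ κ F) :
    conjMat (coordMul L D) X = conjMat L (conjGL D X) := by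
  apply mat_ext_mulVec
  intro v
  obtain ⟨x, rfl⟩ := (coordMul L D).surjective v
  rw [conjMat_mulVec_apply, coordMul, LinearEquiv.trans_apply, LinearEquiv.trans_apply,
    conjMat_mulVec_apply, equivOfGL_apply, equivOfGL_apply, conjGL_apply,
    ← Matrix.mulVec_mulVec, ← Matrix.mulVec_mulVec, gl_inv_mulVec]

/-- Renaming of the coordinates. -/
noncomputable def coordPerm (L : (κ → F) ≃ₗ[F] (ι → F)) (π : κ' ≃ κ) :
    (κ' → F) ≃ₗ[F] (ι → F) :=
  (LinearEquiv.funCongrLeft F F π.symm).trans L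

lemma coordPerm_apply (L : (κ → F) ≃ₗ[F] (ι → F)) (π : κ' ≃ κ) (x : κ' → F) :
    coordPerm L π x = L (x ∘ π.symm) := rfl

lemma formOf_comp_equiv (σ : F ≃+* F) (G : Matrix κ κ F) (π : κ' ≃ κ) (x y : κ' → F) :
    formOf σ G (x ∘ π.symm) (y ∘ π.symm) = formOf σ (G.submatrix π π) x y := by
  simp only [formOf, dotProduct, Matrix.mulVec, Matrix.submatrix_apply, Function.comp_apply]
  refine (Fintype.sum_equiv π _ _ fun a => ?_).symm
  rw [π.symm_apply_apply]
  congr 1
  exact Fintype.sum_equiv π _ _ fun b => by rw [π.symm_apply_apply]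

lemma coordGram_coordPerm (σ : F ≃+* F) (B : Matrix ι ι F) (L : (κ → F) ≃ₗ[F] (ι → F))
    (π : κ' ≃ κ) : coordGram σ B (coordPerm L π) = (coordGram σ B L).submatrix π π :=
  coordGram_eq fun x y => by
    rw [coordPerm_apply, coordPerm_apply, formOf_coord, formOf_comp_equiv]

lemma conjMat_coordPerm (L : (κ → F) ≃ₗ[F] (ι → F)) (π : κ' ≃ κ) (X : Matrix κ κ F) :
    conjMat (coordPerm L π) (X.submatrix π π) = conjMat L X := by
  apply mat_ext_mulVec
  intro v
  obtain ⟨x, rfl⟩ := (coordPerm L π).surjective v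
  rw [conjMat_mulVec_apply, coordPerm_apply, coordPerm_apply, conjMat_mulVec_apply]
  congr 1
  funext a
  simp only [Function.comp_apply, Matrix.mulVec, dotProduct, Matrix.submatrix_apply,
    Equiv.apply_symm_apply]
  exact Fintype.sum_equiv π _ _ fun b => by rw [Equiv.symm_apply_apply]

lemma kronecker_submatrix_swap {a b : ℕ} (X : Matrix (Fin a) (Fin a) F)
    (Y : Matrix (Fin b) (Fin b) F) :
    (X ⊗ₖ Y).submatrix (Equiv.prodComm (Fin b) (Fin a)) (Equiv.prodComm (Fin b) (Fin a))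
      = Y ⊗ₖ X := by
  ext ⟨i, j⟩ ⟨k, l⟩
  simp [Matrix.kroneckerMap_apply, mul_comm]

lemma kronecker_submatrix_pair {a : ℕ} (X Y : Matrix (Fin a) (Fin a) F) :
    (X ⊗ₖ Y).submatrix (piFinTwoEquiv fun _ => Fin a) (piFinTwoEquiv fun _ => Fin a)
      = pureMat ![X, Y] := by
  ext x y
  simp [Matrix.kroneckerMap_apply, pureMat, Fin.prod_univ_two]

/-- The matrix of the change of coordinates, as used by the Prelude. -/
lemma exists_coordGL (L : (κ → F) ≃ₗ[F] (ι → F)) (e : ι ≃ κ) :
    ∃ P : GL ι F, (∀ x : κ → F, (P : Matrix ι ι F) *ᵥ (x ∘ e) = L x) ∧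
      ∀ X : Matrix κ κ F, conjMat L X
        = (P : Matrix ι ι F) * Matrix.reindexAlgEquiv F F e.symm X
          * ((P⁻¹ : GL ι F) : Matrix ι ι F) := by
  set P := glOfEquiv (coordPerm L e) with hPdef
  have hP : ∀ x : κ → F, (P : Matrix ι ι F) *ᵥ (x ∘ e) = L x := fun x => by
    rw [hPdef, glOfEquiv_mulVec, coordPerm_apply]
    congr 1
    funext k
    simp
  refine ⟨P, hP, fun X => ?_⟩
  apply mat_ext_mulVec
  intro v
  obtain ⟨x, rfl⟩ := L.surjective v
  rw [conjMat_mulVec_apply]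
  conv_rhs => rw [← hP x]
  rw [← Matrix.mulVec_mulVec, ← Matrix.mulVec_mulVec, gl_inv_mulVec, ← hP (X *ᵥ x)]
  congr 1
  funext i
  simp only [Function.comp_apply, Matrix.mulVec, dotProduct, Matrix.reindexAlgEquiv_apply,
    Matrix.reindex_apply, Matrix.submatrix_apply, Equiv.symm_symm]
  exact (Fintype.sum_equiv e _ _ fun b => rfl).symm

lemma gramMatrix_formOf (σ : F ≃+* F) (B : Matrix ι ι F) : gramMatrix (formOf σ B) = B :=
  funext fun a => funext fun b => formOf_single σ B a b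

lemma formOfGram_eq (σ : F ≃+* F) (G : Matrix κ κ F) :
    formOfGram (fun x => σ x) G = formOf σ G := by
  funext x y
  simp [formOfGram, formOf, dotProduct, Matrix.mulVec, Finset.mul_sum, mul_assoc]

/-- A tensor product of forms in suitable coordinates is a tensor structure of the Prelude. -/
lemma tensorFormStructure {σ : F ≃+* F} {B : Matrix ι ι F} {a b : ℕ}
    {L : (Fin a × Fin b → F) ≃ₗ[F] (ι → F)} {e : ι ≃ Fin a × Fin b} {P : GL ι F}
    (hP : ∀ x : Fin a × Fin b → F, (P : Matrix ι ι F) *ᵥ (x ∘ e) = L x)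
    {J₁ : Matrix (Fin a) (Fin a) F} {J₂ : Matrix (Fin b) (Fin b) F} {c : F} (hc : c ≠ 0)
    (hg : coordGram σ B L = c • (J₁ ⊗ₖ J₂)) :
    IsTensorFormStructure (fun x => σ x) (formOf σ B) (formOf σ J₁) (formOf σ J₂) e P :=
  ⟨c, hc, fun x y => by
    rw [hP, hP, formOf_coord, hg, formOf_smul, gramMatrix_formOf, gramMatrix_formOf,
      formOfGram_eq]⟩

/-- A tensor power of a form in suitable coordinates is a structure of the Prelude. -/
lemma tensorPowerFormStructure {σ : F ≃+* F} {B : Matrix ι ι F} {a t : ℕ}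
    {L : ((Fin t → Fin a) → F) ≃ₗ[F] (ι → F)} {e : ι ≃ (Fin t → Fin a)} {P : GL ι F}
    (hP : ∀ x : (Fin t → Fin a) → F, (P : Matrix ι ι F) *ᵥ (x ∘ e) = L x)
    {J : Matrix (Fin a) (Fin a) F} {c : F} (hc : c ≠ 0)
    (hg : coordGram σ B L = c • pureMat fun _ : Fin t => J) :
    IsTensorPowerFormStructure (fun x => σ x) (formOf σ B) (formOf σ J) e P :=
  ⟨c, hc, fun x y => by
    rw [hP, hP, formOf_coord, hg, formOf_smul, gramMatrix_formOf, ← formOfGram_eq]
    rfl⟩

lemma card_eq_of_decomposition {t k : ℕ} {D : Fin t → Submodule F (ι → F)}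
    (hD : IsMDecomposition k D) : t * k = Fintype.card ι := by
  classical
  have h := DirectSum.isInternal_submodule_of_iSupIndep_of_iSup_eq_top hD.indep hD.iSup_eq_top
  have hb := Module.finrank_eq_card_basis
    (h.collectedBasis fun i => Module.finBasis F (D i))
  rw [Module.finrank_fintype_fun_eq_card, Fintype.card_sigma] at hb
  simp [hD.finrank_eq] at hb
  exact hb.symm

/-- The cases of a reducible group of isometries. -/
theorem IsPolar.reducible_cases [Nonempty ι] {σ : F ≃+* F} {B : Matrix ι ι F} {ε : F}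
    (hP : IsPolar σ B ε) {H : Subgroup (GL ι F)} (hH : ∀ h ∈ H, IsSim σ B h 1)
    (hirr : ¬ ActsIrreducibly (matrixSet H)) :
    (∃ W : Submodule F (ι → F), W ≠ ⊥ ∧ IsTotallySingularFor (formOf σ B) W ∧
      H ≤ subspaceStabilizer W) ∨
    (∃ W : Submodule F (ι → F), W ≠ ⊥ ∧ W ≠ ⊤ ∧ IsNondegenerateOn (formOf σ B) W ∧
      2 * Module.finrank F W < Fintype.card ι ∧ H ≤ subspaceStabilizer W) ∨
    (∃ (k : ℕ) (D : Fin 2 → Submodule F (ι → F)), 2 * k = Fintype.card ι ∧
      IsNondegenerateMDecomposition (formOf σ B) k D ∧ H ≤ decompositionStabilizer D) := by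
  classical
  obtain ⟨W, hb, ht, hW⟩ : ∃ W : Submodule F (ι → F), W ≠ ⊥ ∧ W ≠ ⊤ ∧
      ∀ g ∈ H, ∀ v ∈ W, (g : Matrix ι ι F) *ᵥ v ∈ W := by
    simp only [ActsIrreducibly, not_forall, not_or] at hirr
    obtain ⟨W, hW, hb, ht⟩ := hirr
    exact ⟨W, hb, ht, fun g hg v hv => hW _ ⟨g, hg, rfl⟩ ⟨v, hv, Matrix.toLin'_apply _ _⟩⟩
  let W' : Submodule F (ι → F) :=
    { carrier := {v | ∀ w ∈ W, formOf σ B v w = 0}
      add_mem' := fun {a b} ha hb w hw => by rw [formOf_add_left, ha w hw, hb w hw, add_zero]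
      zero_mem' := fun w _ => formOf_zero_left σ B w
      smul_mem' := fun c a ha w hw => by rw [formOf_smul_left, ha w hw, mul_zero] }
  have hW' : ∀ g ∈ H, ∀ v ∈ W', (g : Matrix ι ι F) *ᵥ v ∈ W' := fun g hg v hv w hw => by
    have h1 := formOf_eq_of_isSim (hH g hg) v (((g⁻¹ : GL ι F) : Matrix ι ι F) *ᵥ w)
    rw [gl_mulVec_inv, hv _ (hW _ (H.inv_mem hg) w hw), mul_zero] at h1
    exact h1
  by_cases hR : W ⊓ W' = ⊥
  swap
  · exact Or.inl ⟨W ⊓ W', hR, fun u hu v hv => hu.2 v hv.1, fun g hg =>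
      mem_subspaceStabilizer_of_le fun v hv => ⟨hW g hg v hv.1, hW' g hg v hv.2⟩⟩
  let bW := Module.finBasis F W
  let Φ : (ι → F) →ₗ[F] (Fin (Module.finrank F W) → F) :=
    { toFun := fun v j => formOf σ B v (bW j : ι → F)
      map_add' := fun a b => funext fun j => formOf_add_left _ _ _ _ _
      map_smul' := fun c a => funext fun j => formOf_smul_left _ _ _ _ _ }
  have hΦ : ∀ v, Φ v = 0 ↔ v ∈ W' := fun v => by
    constructor
    · intro h w hw
      have h2 := congrArg Subtype.val (bW.sum_repr ⟨w, hw⟩)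
      simp only [AddSubmonoidClass.coe_finsetSum, Submodule.coe_smul] at h2
      rw [← h2]
      refine Finset.sum_induction _ (fun u => formOf σ B v u = 0)
        (fun a b ha hb => by rw [formOf_add_right, ha, hb, add_zero]) (formOf_zero_right σ B v)
        fun j _ => ?_
      rw [formOf_smul_right, show formOf σ B v (bW j : ι → F) = 0 from congrFun h j, mul_zero]
    · intro h
      exact funext fun j => h _ (bW j).2
  have hinj : Function.Injective (Φ.domRestrict W) := by
    rw [← LinearMap.ker_eq_bot, Submodule.eq_bot_iff]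
    intro w hw
    have h1 : (w : ι → F) ∈ W ⊓ W' := ⟨w.2, (hΦ _).1 hw⟩
    rw [hR] at h1
    exact Subtype.ext ((Submodule.mem_bot F).1 h1)
  have hsur : Function.Surjective (Φ.domRestrict W) :=
    (LinearMap.injective_iff_surjective_of_finrank_eq_finrank
      (Module.finrank_fin_fun F).symm).1 hinj
  have hsup : W ⊔ W' = ⊤ := eq_top_iff.2 fun v _ => by
    obtain ⟨w, hw⟩ := hsur (Φ v)
    have h1 : v - (w : ι → F) ∈ W' := (hΦ _).1 (by
      rw [map_sub, sub_eq_zero]; exact hw.symm)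
    simpa using Submodule.add_mem_sup w.2 h1
  have hdim : Module.finrank F W + Module.finrank F W' = Fintype.card ι := by
    have h1 := Submodule.finrank_sup_add_finrank_inf_eq W W'
    rw [hsup, hR, finrank_top, finrank_bot, Module.finrank_fintype_fun_eq_card] at h1
    omega
  have horth : ∀ w ∈ W, ∀ v ∈ W', formOf σ B w v = 0 := fun w hw v hv =>
    hP.formOf_eq_zero_comm (hv w hw)
  have hnd : ∀ U U' : Submodule F (ι → F), U ⊔ U' = ⊤ →
      (∀ u ∈ U, ∀ v ∈ U', formOf σ B v u = 0) → IsNondegenerateOn (formOf σ B) U := by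
    intro U U' htop ho u hu hu0
    obtain ⟨⟨x, hx⟩, -⟩ := isNondegenerateForm_formOf σ hP.unit u hu0
    obtain ⟨a, ha, b, hb, rfl⟩ := Submodule.mem_sup.1 (htop ▸ Submodule.mem_top : x ∈ U ⊔ U')
    rw [formOf_add_left, ho u hu b hb, add_zero] at hx
    exact ⟨⟨a, ha, hx⟩, ⟨a, ha, fun h0 => hx (hP.formOf_eq_zero_comm h0)⟩⟩
  have hndW := hnd W W' hsup fun w hw v hv => hv w hw
  have hndW' := hnd W' W (by rwa [sup_comm]) fun v hv w hw => horth w hw v hv
  have hb' : W' ≠ ⊥ := fun h => ht (by rwa [h, sup_bot_eq] at hsup)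
  have ht' : W' ≠ ⊤ := fun h => hb (by rwa [h, inf_top_eq] at hR)
  rcases lt_trichotomy (2 * Module.finrank F W) (Fintype.card ι) with hlt | heq | hgt
  · exact Or.inr <| Or.inl ⟨W, hb, ht, hndW, hlt, fun g hg => mem_subspaceStabilizer_of_le (hW g hg)⟩
  · refine Or.inr <| Or.inr ⟨Module.finrank F W, ![W, W'], heq, ⟨⟨le_refl 2, ?_, ?_, ?_, ?_⟩, ?_, ?_⟩,
      fun g hg => ⟨1, fun i => ?_⟩⟩
    · exact Nat.pos_of_ne_zero fun h => hb (Submodule.finrank_eq_zero.1 h)
    · intro i
      fin_cases i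
      · rfl
      · show Module.finrank F W' = _
        omega
    · rw [iSupIndep_pair (i := (0 : Fin 2)) (j := 1) (by decide) (by decide)]
      exact disjoint_iff.2 hR
    · rw [eq_top_iff, ← hsup]
      exact sup_le (le_iSup ![W, W'] 0) (le_iSup ![W, W'] 1)
    · intro i
      fin_cases i
      · exact hndW
      · exact hndW'
    · intro i j hij
      fin_cases i <;> fin_cases j
      · exact absurd rfl hij
      · exact horth
      · exact fun v hv w hw => hv w hw
      · exact absurd rfl hij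
    · have hmap : ∀ U : Submodule F (ι → F), (∀ v ∈ U, (g : Matrix ι ι F) *ᵥ v ∈ U) →
          U.map (Matrix.toLin' (g : Matrix ι ι F)) = U := fun U hU =>
        mem_subspaceStabilizer_iff_map_eq.1 (mem_subspaceStabilizer_of_le hU)
      fin_cases i
      · exact hmap W (hW g hg)
      · exact hmap W' (hW' g hg)
  · exact Or.inr <| Or.inl ⟨W', hb', ht', hndW', by omega,
      fun g hg => mem_subspaceStabilizer_of_le (hW' g hg)⟩

end Cfsg.Agent.GeoClasses
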