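import Mathlib
import Cfsg.Prelude.Def_GeometricClasses
import Cfsg.Agent.GeoClasses.Basic
import Cfsg.Agent.GeoClasses.MatrixUnits
import Cfsg.Agent.GeoClasses.Algebra
import Cfsg.Agent.GeoClasses.Tensor
import Cfsg.Agent.GeoClasses.Forms
import Cfsg.Agent.GeoClasses.FormsMore
import Cfsg.Agent.GeoClasses.Polarized
import Cfsg.Agent.GeoClasses.Coords

/-!
Decompositions of a form along a tensor decomposition of an adjoint-closed kind.
-/

set_option autoImplicit false
set_option maxHeartbeats 400000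

namespace Cfsg.Agent.GeoClasses

open Matrix Cfsg.Geo
open scoped MatrixGroups Matrix Kronecker

variable {ι κ : Type} [Fintype ι] [DecidableEq ι] [Fintype κ] [DecidableEq κ] {F : Type*} [Field F]

lemma map_map_of_invol {σ : F ≃+* F} (hσ : ∀ a, σ (σ a) = a) (X : Matrix ι ι F) :
    (X.map σ).map σ = X := by
  ext i j
  simp [hσ]

lemma kronecker_one_map (σ : F ≃+* F) (X : Matrix ι ι F) :
    (X ⊗ₖ (1 : Matrix κ κ F)).map σ = X.map σ ⊗ₖ (1 : Matrix κ κ F) := by
  ext ⟨i, k⟩ ⟨j, l⟩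
  by_cases h : k = l <;> simp [Matrix.kroneckerMap_apply, h]

lemma exists_entry_ne_zero {X : Matrix ι κ F} (h : X ≠ 0) : ∃ i j, X i j ≠ 0 := by
  by_contra hc
  push Not at hc
  exact h (Matrix.ext fun i j => hc i j)

lemma kronecker_eq_kronecker {A C : Matrix ι ι F} {B D : Matrix κ κ F}
    (h : A ⊗ₖ B = C ⊗ₖ D) (hC : C ≠ 0) (hD : D ≠ 0) :
    ∃ c d : F, c * d = 1 ∧ A = c • C ∧ B = d • D := by
  obtain ⟨i, j, hij⟩ := exists_entry_ne_zero hC
  obtain ⟨k, l, hkl⟩ := exists_entry_ne_zero hD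
  have key : ∀ i j k l, A i j * B k l = C i j * D k l := fun i j k l =>
    congrFun (congrFun h (i, k)) (j, l)
  have h0 : A i j * B k l ≠ 0 := by rw [key]; exact mul_ne_zero hij hkl
  have hA := left_ne_zero_of_mul h0
  have hB := right_ne_zero_of_mul h0
  refine ⟨D k l / B k l, C i j / A i j, ?_, ?_, ?_⟩
  · field_simp
    linear_combination -key i j k l
  · ext x y
    rw [Matrix.smul_apply, smul_eq_mul]
    field_simp
    linear_combination key x y k l
  · ext x y
    rw [Matrix.smul_apply, smul_eq_mul]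
    field_simp
    linear_combination key i j x y

lemma pureMat_eq_smul_pureMat {a t : ℕ} {A B : Fin t → Matrix (Fin a) (Fin a) F} {s : F}
    (h : pureMat A = s • pureMat B) (hs : s ≠ 0) (hB : ∀ i, B i ≠ 0) (i : Fin t) :
    ∃ c : F, c ≠ 0 ∧ A i = c • B i := by
  classical
  choose x y hxy using fun j => exists_entry_ne_zero (hB j)
  have key : ∀ u v : Fin t → Fin a, ∏ j, A j (u j) (v j) = s * ∏ j, B j (u j) (v j) := fun u v =>
    congrFun (congrFun h u) v
  set T := Finset.univ.erase i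
  have hsplit : ∀ (C : Fin t → Matrix (Fin a) (Fin a) F) (p r : Fin a),
      ∏ j, C j (Function.update x i p j) (Function.update y i r j)
        = C i p r * ∏ j ∈ T, C j (x j) (y j) := by
    intro C p r
    rw [← Finset.mul_prod_erase Finset.univ _ (Finset.mem_univ i), Function.update_self,
      Function.update_self]
    congr 1
    refine Finset.prod_congr rfl fun j hj => ?_
    rw [Function.update_of_ne (Finset.ne_of_mem_erase hj),
      Function.update_of_ne (Finset.ne_of_mem_erase hj)]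
  have hB0 : ∏ j ∈ T, B j (x j) (y j) ≠ 0 := Finset.prod_ne_zero_iff.2 fun j _ => hxy j
  have h1 : ∀ p r, A i p r * ∏ j ∈ T, A j (x j) (y j)
      = s * (B i p r * ∏ j ∈ T, B j (x j) (y j)) := fun p r => by
    rw [← hsplit A, ← hsplit B, key]
  have hA0 : ∏ j ∈ T, A j (x j) (y j) ≠ 0 := by
    intro h0
    have := h1 (x i) (y i)
    rw [h0, mul_zero] at this
    exact mul_ne_zero hs (mul_ne_zero (hxy i) hB0) this.symm
  refine ⟨s * (∏ j ∈ T, B j (x j) (y j)) / ∏ j ∈ T, A j (x j) (y j),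
    div_ne_zero (mul_ne_zero hs hB0) hA0, ?_⟩
  ext p r
  rw [Matrix.smul_apply, smul_eq_mul]
  field_simp
  linear_combination h1 p r

lemma adjForm_kronecker {a b : ℕ} (σ : F ≃+* F) (J₁ c : Matrix (Fin a) (Fin a) F)
    (J₂ d : Matrix (Fin b) (Fin b) F) :
    adjForm σ (J₁ ⊗ₖ J₂) (c ⊗ₖ d) = adjForm σ J₁ c ⊗ₖ adjForm σ J₂ d := by
  have hmap : (c ⊗ₖ d).map σ = c.map σ ⊗ₖ d.map σ := by
    ext ⟨i, j⟩ ⟨k, l⟩
    simp [Matrix.kroneckerMap_apply]
  have htr : (c ⊗ₖ d)ᵀ = cᵀ ⊗ₖ dᵀ := by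
    ext ⟨i, j⟩ ⟨k, l⟩
    simp [Matrix.kroneckerMap_apply]
  rw [adjForm, adjForm, adjForm, htr, hmap, Matrix.mul_kronecker_mul, Matrix.mul_kronecker_mul]

lemma starMat_kronecker {a b : ℕ} (σ : F ≃+* F) (J₁ : Matrix (Fin a) (Fin a) F)
    (J₂ : Matrix (Fin b) (Fin b) F) :
    starMat σ (J₁ ⊗ₖ J₂) = starMat σ J₁ ⊗ₖ starMat σ J₂ := by
  ext ⟨i, j⟩ ⟨k, l⟩
  simp [starMat, Matrix.kroneckerMap_apply]

lemma starMat_pureMat {a t : ℕ} (σ : F ≃+* F) (Ys : Fin t → Matrix (Fin a) (Fin a) F) :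
    starMat σ (pureMat Ys) = pureMat fun i => starMat σ (Ys i) := by
  rw [starMat, show (pureMat Ys).map σ = pureMat fun i => (Ys i).map σ from
    pureMat_map σ.toRingHom Ys, pureMat_transpose]
  rfl

lemma starMat_smul (σ : F ≃+* F) (c : F) (X : Matrix ι ι F) :
    starMat σ (c • X) = σ c • starMat σ X := by
  simp [starMat, Matrix.map_smul']

/-- The data of a tensor decomposition of a form. -/
structure IsTensorData (σ : F ≃+* F) (B : Matrix ι ι F) (ε : F) (H : Subgroup (GL ι F)) {a b : ℕ}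
    (L : (Fin a × Fin b → F) ≃ₗ[F] (ι → F)) (J₁ : Matrix (Fin a) (Fin a) F)
    (J₂ : Matrix (Fin b) (Fin b) F) : Prop where
  left_two_le : 2 ≤ a
  right_two_le : 2 ≤ b
  gram : coordGram σ B L = J₁ ⊗ₖ J₂
  unit₁ : IsUnit J₁
  unit₂ : IsUnit J₂
  star : ∃ c₁ c₂ : F, c₁ * c₂ = ε ∧ starMat σ J₁ = c₁ • J₁ ∧ starMat σ J₂ = c₂ • J₂
  mem : ∀ h ∈ H, ∃ (c : GL (Fin a) F) (d : GL (Fin b) F) (μ ν : F), (h : Matrix ι ι F)
    = conjMat L ((c : Matrix (Fin a) (Fin a) F) ⊗ₖ (d : Matrix (Fin b) (Fin b) F)) ∧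
      IsSim σ J₁ c μ ∧ IsSim σ J₂ d ν

lemma IsTensorData.swap {σ : F ≃+* F} {B : Matrix ι ι F} {ε : F} {H : Subgroup (GL ι F)} {a b : ℕ}
    {L : (Fin a × Fin b → F) ≃ₗ[F] (ι → F)} {J₁ : Matrix (Fin a) (Fin a) F}
    {J₂ : Matrix (Fin b) (Fin b) F} (h : IsTensorData σ B ε H L J₁ J₂) :
    IsTensorData σ B ε H (coordPerm L (Equiv.prodComm (Fin b) (Fin a))) J₂ J₁ where
  left_two_le := h.right_two_le
  right_two_le := h.left_two_le
  gram := by rw [coordGram_coordPerm, h.gram, kronecker_submatrix_swap]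
  unit₁ := h.unit₂
  unit₂ := h.unit₁
  star := by
    obtain ⟨c₁, c₂, hc, h1, h2⟩ := h.star
    exact ⟨c₂, c₁, by rw [mul_comm, hc], h2, h1⟩
  mem g hg := by
    obtain ⟨c, d, μ, ν, hcd, hc, hd⟩ := h.mem g hg
    exact ⟨d, c, ν, μ, by rw [hcd, ← kronecker_submatrix_swap (c : Matrix (Fin a) (Fin a) F),
      conjMat_coordPerm], hd, hc⟩

/-- An adjoint-closed full matrix subalgebra with a non-trivial centraliser decomposes the form. -/
theorem exists_tensor_forms [Nonempty ι] {σ : F ≃+* F} {B : Matrix ι ι F} {ε : F}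
    (hP : IsPolar σ B ε) {H : Subgroup (GL ι F)} (hH : ∀ h ∈ H, IsSim σ B h 1) {a b : ℕ}
    (ha : 2 ≤ a) (hb : 2 ≤ b) {φ : Matrix (Fin a) (Fin a) F →ₐ[F] Matrix ι ι F}
    {L : (Fin a × Fin b → F) ≃ₗ[F] (ι → F)}
    (hL : ∀ Y, φ Y = conjMat L (Y ⊗ₖ (1 : Matrix (Fin b) (Fin b) F)))
    (hinj : Function.Injective φ) (hs : StarClosed σ B φ.range) (hn : Normalises H φ.range) :
    ∃ (J₁ : Matrix (Fin a) (Fin a) F) (J₂ : Matrix (Fin b) (Fin b) F),
      IsTensorData σ B ε H L J₁ J₂ := by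
  haveI : NeZero a := ⟨by omega⟩
  haveI : NeZero b := ⟨by omega⟩
  set G := coordGram σ B L with hG
  have hQ : IsPolar σ G ε := hP.coord L
  have hθ : ∀ Y : Matrix (Fin a) (Fin a) F, ∃ Y' : Matrix (Fin a) (Fin a) F,
      adj σ G ((starMat σ Y) ⊗ₖ (1 : Matrix (Fin b) (Fin b) F))
        = Y' ⊗ₖ (1 : Matrix (Fin b) (Fin b) F) := fun Y => by
    obtain ⟨Y', hY'⟩ := hs (φ (starMat σ Y)) ⟨_, rfl⟩
    refine ⟨Y', (conjMat L).injective ?_⟩
    rw [← hP.adj_conjMat, ← hL, ← hL]
    exact hY'.symm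
  choose θ hθ using hθ
  have hkinj : ∀ X Y : Matrix (Fin a) (Fin a) F,
      X ⊗ₖ (1 : Matrix (Fin b) (Fin b) F) = Y ⊗ₖ (1 : Matrix (Fin b) (Fin b) F) → X = Y :=
    fun X Y h => by
      ext i j
      simpa [Matrix.kroneckerMap_apply] using congrFun (congrFun h (i, 0)) (j, 0)
  let θ' : Matrix (Fin a) (Fin a) F →ₐ[F] Matrix (Fin a) (Fin a) F :=
    { toFun := θ
      map_one' := hkinj _ _ (by
        rw [← hθ]; simp [starMat, Matrix.map_one, hQ.adj_one])
      map_mul' := fun X Y => hkinj _ _ (by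
        rw [← hθ, show starMat σ (X * Y) = starMat σ Y * starMat σ X by
          simp [starMat, Matrix.map_mul, Matrix.transpose_mul]]
        conv_lhs => rw [← one_mul (1 : Matrix (Fin b) (Fin b) F), Matrix.mul_kronecker_mul]
        rw [hQ.adj_mul, hθ, hθ, ← Matrix.mul_kronecker_mul, one_mul])
      map_zero' := hkinj _ _ (by rw [← hθ]; simp [starMat, adj_zero])
      map_add' := fun X Y => hkinj _ _ (by
        rw [← hθ, show starMat σ (X + Y) = starMat σ X + starMat σ Y by
          simp [starMat, Matrix.map_add], Matrix.add_kronecker, adj_add, hθ, hθ,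
          Matrix.add_kronecker])
      commutes' := fun c => hkinj _ _ (by
        rw [← hθ, Algebra.algebraMap_eq_smul_one, starMat_smul, Matrix.smul_kronecker,
          show starMat σ (1 : Matrix (Fin a) (Fin a) F) = 1 by simp [starMat, Matrix.map_one],
          Matrix.one_kronecker_one, adj_smul, hQ.adj_one, hP.invol, Matrix.smul_kronecker,
          Matrix.one_kronecker_one]) }
  obtain ⟨C, hC⟩ := exists_conj_of_algHom θ' (AlgHom.id F _)
  set C' : Matrix (Fin a) (Fin a) F := (C : Matrix (Fin a) (Fin a) F).map σ with hC'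
  set J₁ : Matrix (Fin a) (Fin a) F := ((C⁻¹ : GL (Fin a) F) : Matrix (Fin a) (Fin a) F).map σ
    with hJ₁
  have hJC : J₁ * C' = 1 := by
    rw [hJ₁, hC', ← Matrix.map_mul, Units.inv_mul]; simp [Matrix.map_one]
  have hCJ : C' * J₁ = 1 := by
    rw [hJ₁, hC', ← Matrix.map_mul, Units.mul_inv]; simp [Matrix.map_one]
  have hcomm : ∀ Z : Matrix (Fin a) (Fin a) F,
      (Z ⊗ₖ (1 : Matrix (Fin b) (Fin b) F)) * (G * (C' ⊗ₖ 1))
        = (G * (C' ⊗ₖ 1)) * (Z ⊗ₖ (1 : Matrix (Fin b) (Fin b) F)) := by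
    intro Z
    set Y := Z.map σ with hY
    have hZ : (starMat σ Y ⊗ₖ (1 : Matrix (Fin b) (Fin b) F))ᵀ = Z ⊗ₖ 1 := by
      ext ⟨i, k⟩ ⟨j, l⟩
      simp [starMat, hY, hP.invol, Matrix.kroneckerMap_apply, Matrix.one_apply, eq_comm]
    have h1 := hθ Y
    rw [show θ Y = (C : Matrix (Fin a) (Fin a) F) * Y
      * ((C⁻¹ : GL (Fin a) F) : Matrix (Fin a) (Fin a) F) from hC Y] at h1
    have h2 := congrArg (fun X => G * X.map σ) h1
    simp only [adj, hQ.map_map, hZ] at h2
    rw [← mul_assoc, ← mul_assoc,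
      Matrix.mul_nonsing_inv _ ((Matrix.isUnit_iff_isUnit_det G).1 hQ.unit), one_mul] at h2
    have h3 : ((C : Matrix (Fin a) (Fin a) F) * Y * ((C⁻¹ : GL (Fin a) F) : Matrix (Fin a) (Fin a) F))
        ⊗ₖ (1 : Matrix (Fin b) (Fin b) F) = ((C : Matrix (Fin a) (Fin a) F) * Y
          * ((C⁻¹ : GL (Fin a) F) : Matrix (Fin a) (Fin a) F)) ⊗ₖ 1 := rfl
    have h4 : (((C : Matrix (Fin a) (Fin a) F) * Y * ((C⁻¹ : GL (Fin a) F) :
        Matrix (Fin a) (Fin a) F)) ⊗ₖ (1 : Matrix (Fin b) (Fin b) F)).map σ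
          = (C' * Z * J₁) ⊗ₖ 1 := by
      rw [show C' * Z * J₁ = ((C : Matrix (Fin a) (Fin a) F) * Y
        * ((C⁻¹ : GL (Fin a) F) : Matrix (Fin a) (Fin a) F)).map σ by
          rw [Matrix.map_mul, Matrix.map_mul, hY, map_map_of_invol hP.invol]]
      exact kronecker_one_map σ _
    rw [h4] at h2
    calc (Z ⊗ₖ (1 : Matrix (Fin b) (Fin b) F)) * (G * (C' ⊗ₖ 1))
        = ((Z ⊗ₖ (1 : Matrix (Fin b) (Fin b) F)) * G) * (C' ⊗ₖ 1) := (mul_assoc _ _ _).symm
      _ = G * ((C' * Z * J₁) ⊗ₖ 1) * (C' ⊗ₖ 1) := by rw [h2]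
      _ = _ := by
        rw [mul_assoc G, mul_assoc G, ← Matrix.mul_kronecker_mul, ← Matrix.mul_kronecker_mul,
          mul_assoc (C' * Z), hJC, mul_one]
  obtain ⟨J₂, hJ₂⟩ := commutant_kronecker hcomm
  have hgram : G = J₁ ⊗ₖ J₂ := by
    calc G = G * ((C' ⊗ₖ (1 : Matrix (Fin b) (Fin b) F)) * (J₁ ⊗ₖ 1)) := by
          rw [← Matrix.mul_kronecker_mul, hCJ, one_mul, Matrix.one_kronecker_one, mul_one]
      _ = _ := by rw [← mul_assoc, hJ₂, ← Matrix.mul_kronecker_mul, one_mul, mul_one]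
  have hdet : IsUnit (J₁.det ^ b * J₂.det ^ a) := by
    have := (Matrix.isUnit_iff_isUnit_det G).1 hQ.unit
    rw [hgram, Matrix.det_kronecker] at this
    simpa using this
  have hu₁ : IsUnit J₁ := (Matrix.isUnit_iff_isUnit_det _).2
    ((isUnit_pow_iff (by omega)).1 (isUnit_of_mul_isUnit_left hdet))
  have hu₂ : IsUnit J₂ := (Matrix.isUnit_iff_isUnit_det _).2
    ((isUnit_pow_iff (by omega)).1 (isUnit_of_mul_isUnit_right hdet))
  have hstar : ∃ c₁ c₂ : F, c₁ * c₂ = ε ∧ starMat σ J₁ = c₁ • J₁ ∧ starMat σ J₂ = c₂ • J₂ := by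
    have h1 := hQ.star
    rw [hgram, starMat_kronecker, ← Matrix.smul_kronecker] at h1
    obtain ⟨c, d, hcd, h2, h3⟩ := kronecker_eq_kronecker h1
      (smul_ne_zero hP.eps_ne_zero hu₁.ne_zero) hu₂.ne_zero
    exact ⟨c * ε, d, by linear_combination ε * hcd, by rw [h2, smul_smul], h3⟩
  refine ⟨J₁, J₂, ⟨ha, hb, hgram, hu₁, hu₂, hstar, fun h hh => ?_⟩⟩
  obtain ⟨c, d, hcd⟩ := normaliser_kronecker (by omega) (by omega) hL hinj (fun x hx => hn h hh x hx)
  have h1 := (isSim_coord_iff hcd).1 (hH h hh)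
  rw [← hG, hgram, adjForm_kronecker, one_smul] at h1
  obtain ⟨μ, ν, -, hμ, hν⟩ := kronecker_eq_kronecker h1 hu₁.ne_zero hu₂.ne_zero
  exact ⟨c, d, μ, ν, hcd, hμ, hν⟩

/-- The data of a tensor power decomposition of a form. -/
structure IsWreathData (σ : F ≃+* F) (B : Matrix ι ι F) (ε : F) (H : Subgroup (GL ι F)) {a t : ℕ}
    (L : ((Fin t → Fin a) → F) ≃ₗ[F] (ι → F)) (J : Matrix (Fin a) (Fin a) F) (s : F) : Prop where
  two_le : 2 ≤ a
  card_two_le : 2 ≤ t
  ne_zero : s ≠ 0
  gram : coordGram σ B L = s • pureMat fun _ : Fin t => J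
  unit : IsUnit J
  star : ∃ c : F, starMat σ J = c • J ∧ σ s * c ^ t = ε * s
  mem : ∀ h ∈ H, ∃ (cs : Fin t → GL (Fin a) F) (π : Equiv.Perm (Fin t)), (h : Matrix ι ι F)
    = conjMat L (pureMat (fun i => (cs i : Matrix (Fin a) (Fin a) F)) * factorPerm a π) ∧
      ∀ i, ∃ μ, IsSim σ J (cs i) μ

lemma pureMat_update_mul {a t : ℕ} (cs : Fin t → GL (Fin a) F) (π : Equiv.Perm (Fin t)) (i : Fin t)
    (Y : Matrix (Fin a) (Fin a) F) :
    pureMat (fun j => (cs j : Matrix (Fin a) (Fin a) F)) * factorPerm a π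
        * pureMat (Function.update 1 i Y)
      = pureMat (Function.update 1 (π i) ((cs (π i) : Matrix (Fin a) (Fin a) F) * Y
        * (((cs (π i))⁻¹ : GL (Fin a) F) : Matrix (Fin a) (Fin a) F)))
        * (pureMat (fun j => (cs j : Matrix (Fin a) (Fin a) F)) * factorPerm a π) := by
  have h1 : factorPerm a π * pureMat (Function.update 1 i Y)
      = pureMat (Function.update 1 (π i) Y) * factorPerm (F := F) a π := by
    rw [pureMat_mul_factorPerm]
    congr 2
    funext k
    by_cases hk : k = i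
    · subst hk; simp
    · rw [Function.update_of_ne hk, Function.update_of_ne (fun h => hk (π.injective h))]
      rfl
  rw [mul_assoc, h1, ← mul_assoc, ← mul_assoc, pureMat_mul, pureMat_mul]
  congr 2
  funext j
  by_cases hj : j = π i
  · subst hj; simp [mul_assoc]
  · simp [Function.update_of_ne hj]

lemma adjForm_factorPerm {a t : ℕ} (σ : F ≃+* F) (E : Fin t → Matrix (Fin a) (Fin a) F)
    (π : Equiv.Perm (Fin t)) :
    adjForm σ (pureMat E) (factorPerm a π) = pureMat fun i => E (π i) := by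
  have h1 : (factorPerm a π : Matrix (Fin t → Fin a) (Fin t → Fin a) F).map σ = factorPerm a π := by
    ext x y
    simp [factorPerm, apply_ite σ]
  rw [adjForm, h1, factorPerm_transpose_mul, mul_assoc, pureMat_mul_factorPerm, ← mul_assoc,
    factorPerm_mul, inv_mul_cancel, factorPerm_one, one_mul]

lemma adjForm_pureMat {a t : ℕ} (σ : F ≃+* F) (J Ys : Fin t → Matrix (Fin a) (Fin a) F) :
    adjForm σ (pureMat J) (pureMat Ys) = pureMat fun i => adjForm σ (J i) (Ys i) := by
  rw [adjForm, pureMat_transpose, show (pureMat Ys).map σ = pureMat fun i => (Ys i).map σ from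
    pureMat_map σ.toRingHom Ys, pureMat_mul, pureMat_mul]
  rfl

/-- Adjoint-closed commuting full matrix subalgebras, permuted transitively, decompose the form
as a tensor power. -/
theorem exists_wreath_forms [Nonempty ι] {σ : F ≃+* F} {B : Matrix ι ι F} {ε : F}
    (hP : IsPolar σ B ε) {H : Subgroup (GL ι F)} (hH : ∀ h ∈ H, IsSim σ B h 1) {a t : ℕ}
    (ha : 2 ≤ a) (ht : 2 ≤ t) {φ : Fin t → (Matrix (Fin a) (Fin a) F →ₐ[F] Matrix ι ι F)}
    {L : ((Fin t → Fin a) → F) ≃ₗ[F] (ι → F)}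
    (hL : ∀ i Y, φ i Y = conjMat L (pureMat (Function.update 1 i Y)))
    (hinj : ∀ i, Function.Injective (φ i)) (hgen : (⨆ i, (φ i).range) = ⊤)
    (hs : ∀ i, StarClosed σ B (φ i).range)
    (hmem : ∀ g ∈ H, ∃ (cs : Fin t → GL (Fin a) F) (π : Equiv.Perm (Fin t)), (g : Matrix ι ι F)
      = conjMat L (pureMat (fun i => (cs i : Matrix (Fin a) (Fin a) F)) * factorPerm a π))
    (htrans : ∀ i j, ∃ g ∈ H, ∀ x ∈ (φ i).range, conjGL g x ∈ (φ j).range) :
    ∃ (L' : ((Fin t → Fin a) → F) ≃ₗ[F] (ι → F)) (J : Matrix (Fin a) (Fin a) F) (s : F),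
      IsWreathData σ B ε H L' J s ∧
      ∀ i, (φ i).range = ((conjMat L').toAlgHom.comp
        ((conjMat L).symm.toAlgHom.comp (φ i))).range := by
  classical
  haveI : NeZero a := ⟨by omega⟩
  haveI : NeZero t := ⟨by omega⟩
  set G := coordGram σ B L with hG
  have hQ : IsPolar σ G ε := hP.coord L
  have hupd : ∀ i, Function.Injective fun Y : Matrix (Fin a) (Fin a) F =>
      pureMat (Function.update (1 : Fin t → Matrix (Fin a) (Fin a) F) i Y) := fun i X Y h =>
    hinj i (by rw [hL, hL]; exact congrArg (conjMat L) h)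
  have hθ : ∀ i, ∀ Y : Matrix (Fin a) (Fin a) F, ∃ Y' : Matrix (Fin a) (Fin a) F,
      adj σ G (pureMat (Function.update 1 i (starMat σ Y))) = pureMat (Function.update 1 i Y') :=
    fun i Y => by
    obtain ⟨Y', hY'⟩ := hs i (φ i (starMat σ Y)) ⟨_, rfl⟩
    refine ⟨Y', (conjMat L).injective ?_⟩
    rw [← hP.adj_conjMat, ← hL, ← hL]
    exact hY'.symm
  choose θ hθ using hθ
  have hpm : ∀ (i : Fin t) (X Y : Matrix (Fin a) (Fin a) F),
      pureMat (Function.update (1 : Fin t → Matrix (Fin a) (Fin a) F) i X)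
        * pureMat (Function.update 1 i Y) = pureMat (Function.update 1 i (X * Y)) := by
    intro i X Y
    rw [pureMat_mul]
    congr 1
    funext j
    by_cases hj : j = i
    · subst hj; simp
    · simp [Function.update_of_ne hj]
  have hconj : ∀ i, ∃ C : GL (Fin a) F, ∀ Y, θ i Y
      = (C : Matrix (Fin a) (Fin a) F) * Y * ((C⁻¹ : GL (Fin a) F) : Matrix (Fin a) (Fin a) F) := by
    intro i
    let θ' : Matrix (Fin a) (Fin a) F →ₗ[F] Matrix (Fin a) (Fin a) F :=
      { toFun := θ i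
        map_add' := fun X Y => hinj i (by
          rw [map_add, hL, hL, hL, ← hθ, ← hθ, ← hθ, ← hP.adj_conjMat, ← hP.adj_conjMat,
            ← hP.adj_conjMat, ← hL, ← hL, ← hL, ← adj_add, ← map_add]
          simp [starMat, Matrix.map_add])
        map_smul' := fun c X => hinj i (by
          rw [RingHom.id_apply, map_smul, hL, hL, ← hθ, ← hθ, ← hP.adj_conjMat, ← hP.adj_conjMat,
            ← hL, ← hL, starMat_smul, map_smul, adj_smul, hP.invol]) }
    obtain ⟨C, hC⟩ := exists_conj_of_algHom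
      (AlgHom.ofLinearMap θ' (hupd i (by
        show pureMat (Function.update 1 i (θ i 1)) = _
        rw [← hθ, show starMat σ (1 : Matrix (Fin a) (Fin a) F) = 1 by simp [starMat, Matrix.map_one]]
        simp only [Function.update_eq_self_iff.2 (Pi.one_apply i).symm]
        rw [show pureMat (1 : Fin t → Matrix (Fin a) (Fin a) F) = 1 from pureMat_one a t]
        exact hQ.adj_one))
        (fun X Y => hupd i (by
          show pureMat (Function.update 1 i (θ i (X * Y)))
            = pureMat (Function.update 1 i (θ i X * θ i Y))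
          rw [← hpm, ← hθ, show starMat σ (X * Y) = starMat σ Y * starMat σ X by
            simp [starMat, Matrix.map_mul, Matrix.transpose_mul], ← hpm, hQ.adj_mul, hθ, hθ])))
      (AlgHom.id F _)
    exact ⟨C, hC⟩
  choose C hC using hconj
  set C' : Fin t → Matrix (Fin a) (Fin a) F := fun i => (C i : Matrix (Fin a) (Fin a) F).map σ with hC'
  set Js : Fin t → Matrix (Fin a) (Fin a) F := fun i =>
    (((C i)⁻¹ : GL (Fin a) F) : Matrix (Fin a) (Fin a) F).map σ with hJs
  have hCJ : ∀ i, C' i * Js i = 1 := fun i => by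
    rw [hJs, hC', ← Matrix.map_mul, Units.mul_inv]; simp [Matrix.map_one]
  have hJC : ∀ i, Js i * C' i = 1 := fun i => by
    rw [hJs, hC', ← Matrix.map_mul, Units.inv_mul]; simp [Matrix.map_one]
  have hcomm : ∀ (i : Fin t) (Z : Matrix (Fin a) (Fin a) F),
      pureMat (Function.update 1 i Z) * (G * pureMat C')
        = (G * pureMat C') * pureMat (Function.update 1 i Z) := by
    intro i Z
    have hmapu : ∀ X : Matrix (Fin a) (Fin a) F, (pureMat (Function.update
        (1 : Fin t → Matrix (Fin a) (Fin a) F) i X)).map σ = pureMat (Function.update 1 i (X.map σ)) := by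
      intro X
      rw [show (pureMat _).map σ = pureMat fun j => (Function.update
        (1 : Fin t → Matrix (Fin a) (Fin a) F) i X j).map σ from pureMat_map σ.toRingHom _]
      congr 1
      funext j
      by_cases hj : j = i
      · subst hj; simp
      · simp [Function.update_of_ne hj, Matrix.map_one]
    have h1 := hθ i (Z.map σ)
    have hZ : (pureMat (Function.update (1 : Fin t → Matrix (Fin a) (Fin a) F) i
        (starMat σ (Z.map σ))))ᵀ = pureMat (Function.update 1 i Z) := by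
      rw [pureMat_transpose]
      congr 1
      funext j
      by_cases hj : j = i
      · subst hj
        ext p q
        simp [starMat, hP.invol]
      · simp [Function.update_of_ne hj]
    have h2 := congrArg (fun X => G * X.map σ) h1
    simp only [adj, hQ.map_map, hZ, hmapu] at h2
    rw [← mul_assoc, ← mul_assoc,
      Matrix.mul_nonsing_inv _ ((Matrix.isUnit_iff_isUnit_det G).1 hQ.unit), one_mul] at h2
    have h3 : (θ i (Z.map σ)).map σ = C' i * Z * Js i := by
      rw [hC, hC', hJs, Matrix.map_mul, Matrix.map_mul, map_map_of_invol hP.invol]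
    rw [h3] at h2
    rw [← mul_assoc, h2, mul_assoc G, mul_assoc G, pureMat_mul, pureMat_mul]
    congr 2
    funext j
    by_cases hj : j = i
    · subst hj; simp [mul_assoc, hJC]
    · simp [Function.update_of_ne hj]
  obtain ⟨s, hs'⟩ : G * pureMat C' ∈ Set.range (Matrix.scalar (Fin t → Fin a)) := by
    refine Matrix.mem_range_scalar_iff_commute_single'.2 fun x y => ?_
    have hle : (⨆ i, (φ i).range) ≤ Subalgebra.centralizer F {conjMat L (G * pureMat C')} := by
      refine iSup_le fun i => ?_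
      rintro _ ⟨Z, rfl⟩
      rw [Subalgebra.mem_centralizer_iff]
      rintro _ rfl
      show _ * φ i Z = φ i Z * _
      rw [hL, ← map_mul, ← map_mul, hcomm]
    have h1 := (Subalgebra.mem_centralizer_iff (R := F)).1
      (hle (hgen ▸ Algebra.mem_top : conjMat L (Matrix.single x y 1) ∈ _)) _ rfl
    rw [← map_mul, ← map_mul] at h1
    exact ((conjMat L).injective h1).symm
  have hgram : G = s • pureMat Js := by
    calc G = G * (pureMat C' * pureMat Js) := by
          rw [pureMat_mul, show (fun i => C' i * Js i) = fun _ => 1 from funext hCJ, pureMat_one,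
            mul_one]
      _ = _ := by
          rw [← mul_assoc, ← hs', Matrix.scalar_apply, ← Matrix.smul_one_eq_diagonal,
            Matrix.smul_mul, one_mul]
  have hs0 : s ≠ 0 := fun h0 => hQ.unit.ne_zero (by rw [hgram, h0, zero_smul])
  have hJu : ∀ i, IsUnit (Js i) := fun i =>
    ((C i)⁻¹).isUnit.map σ.toRingHom.mapMatrix
  have hperm : ∀ h ∈ H, ∀ (cs : Fin t → GL (Fin a) F) (π : Equiv.Perm (Fin t)), (h : Matrix ι ι F)
      = conjMat L (pureMat (fun i => (cs i : Matrix (Fin a) (Fin a) F)) * factorPerm a π) →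
      ∀ i, ∃ ν : F, ν ≠ 0 ∧
        adjForm σ (Js (π i)) (cs (π i) : Matrix (Fin a) (Fin a) F) = ν • Js i := by
    intro h hh cs π hd i
    have h1 := (isSim_coord_iff hd).1 (hH h hh)
    rw [← hG, hgram, one_smul, adjForm_mul, adjForm_smul_left, adjForm_pureMat,
      adjForm_smul_left, adjForm_factorPerm] at h1
    have h2 : pureMat (fun k => adjForm σ (Js (π k)) (cs (π k) : Matrix (Fin a) (Fin a) F))
        = (1 : F) • pureMat Js := by rw [one_smul]; exact smul_right_injective _ hs0 h1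
    exact pureMat_eq_smul_pureMat h2 one_ne_zero (fun j => (hJu j).ne_zero) i
  have hcong : ∀ i, ∃ (c : GL (Fin a) F) (w : F), w ≠ 0 ∧
      Js i = w • adjForm σ (Js 0) (c : Matrix (Fin a) (Fin a) F) := by
    intro i
    obtain ⟨g, hg, hgr⟩ := htrans i 0
    obtain ⟨cs, π, hd⟩ := hmem g hg
    have hπ : π i = 0 := by
      by_contra hne
      have hsub : ∀ Z, φ (π i) Z ∈ (φ 0).range := fun Z => by
        have h1 := hgr (φ i (((cs (π i))⁻¹ : GL (Fin a) F) * Z * (cs (π i) : Matrix (Fin a) (Fin a) F)))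
          ⟨_, rfl⟩
        rw [conjGL_eq_of_mul_eq (Y := φ (π i) Z) (by
          rw [hd, hL, hL, ← map_mul, ← map_mul, pureMat_update_mul]
          simp [mul_assoc])] at h1
        exact h1
      have h01 : (⟨0, by omega⟩ : Fin a) ≠ ⟨1, by omega⟩ := by simp
      set X : Matrix (Fin a) (Fin a) F := Matrix.single ⟨0, by omega⟩ ⟨1, by omega⟩ 1 with hX
      set Y : Matrix (Fin a) (Fin a) F := Matrix.single ⟨1, by omega⟩ ⟨0, by omega⟩ 1 with hY
      obtain ⟨Z, hZ⟩ := hsub Y
      have h2 : φ (π i) X * φ 0 Z = φ 0 Z * φ (π i) X := by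
        rw [hL, hL, ← map_mul, ← map_mul, pureMat_mul, pureMat_mul]
        congr 2
        funext j
        by_cases hj : j = π i
        · subst hj; simp [Function.update_of_ne hne]
        · simp [Function.update_of_ne hj]
      rw [show φ 0 Z = φ (π i) Y from hZ, ← map_mul, ← map_mul] at h2
      have h3 := congrFun (congrFun (hinj _ h2) (⟨0, by omega⟩ : Fin a)) (⟨0, by omega⟩ : Fin a)
      simp [hX, hY] at h3
    obtain ⟨ν, hν0, hν⟩ := hperm g hg cs π hd i
    rw [hπ] at hν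
    exact ⟨cs 0, ν⁻¹, inv_ne_zero hν0, by rw [hν, smul_smul, inv_mul_cancel₀ hν0, one_smul]⟩
  choose c w hw hJc using hcong
  set D : Fin t → GL (Fin a) F := fun i => (c i)⁻¹ with hD
  have hJD : ∀ i, adjForm σ (Js i) (D i : Matrix (Fin a) (Fin a) F) = w i • Js 0 := fun i => by
    rw [hJc i, adjForm_smul_left, ← adjForm_mul, hD, Units.mul_inv, adjForm_one]
  set L' := coordMul L (glPure D) with hL'
  have hgram' : coordGram σ B L' = (s * ∏ i, w i) • pureMat fun _ : Fin t => Js 0 := by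
    rw [hL', coordGram_coordMul, ← hG, hgram, adjForm_smul_left,
      show ((glPure D : GL (Fin t → Fin a) F) : Matrix (Fin t → Fin a) (Fin t → Fin a) F)
        = pureMat fun i => (D i : Matrix (Fin a) (Fin a) F) from rfl,
      adjForm_pureMat, funext hJD, pureMat_smul, smul_smul]
  have hS0 : s * ∏ i, w i ≠ 0 :=
    mul_ne_zero hs0 (Finset.prod_ne_zero_iff.2 fun i _ => hw i)
  refine ⟨L', Js 0, s * ∏ i, w i, ⟨ha, ht, hS0, hgram', hJu 0, ?_, fun h hh => ?_⟩, fun i => ?_⟩
  · have h1 := (hP.coord L').star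
    rw [hgram', starMat_smul, starMat_pureMat, smul_smul] at h1
    obtain ⟨e, -, he⟩ := pureMat_eq_smul_pureMat (A := fun _ : Fin t => starMat σ (Js 0))
      (B := fun _ : Fin t => Js 0) (s := (σ (s * ∏ i, w i))⁻¹ * (ε * (s * ∏ i, w i)))
      (by rw [← smul_smul, ← h1, smul_smul, inv_mul_cancel₀ (fun h => hS0 (σ.map_eq_zero_iff.1 h)),
        one_smul])
      (mul_ne_zero (inv_ne_zero fun h => hS0 (σ.map_eq_zero_iff.1 h))
        (mul_ne_zero hP.eps_ne_zero hS0)) (fun _ => (hJu 0).ne_zero) 0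
    refine ⟨e, he, ?_⟩
    rw [funext fun _ : Fin t => he, pureMat_neg_smul, smul_smul] at h1
    have hpu : (pureMat fun _ : Fin t => Js 0) ≠ 0 := (isUnit_pureMat fun _ => hJu 0).ne_zero
    exact smul_left_injective F hpu h1
  · obtain ⟨cs, π, hd⟩ := hmem h hh
    set cs' : Fin t → GL (Fin a) F := fun i => (D i)⁻¹ * cs i * D (π.symm i) with hcs'
    have hd' : (h : Matrix ι ι F) = conjMat L'
        (pureMat (fun i => (cs' i : Matrix (Fin a) (Fin a) F)) * factorPerm a π) := by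
      have h1 : factorPerm (F := F) a π * pureMat (fun i => (D i : Matrix (Fin a) (Fin a) F))
          = pureMat (fun i => (D (π.symm i) : Matrix (Fin a) (Fin a) F)) * factorPerm a π := by
        rw [pureMat_mul_factorPerm]
        simp
      rw [hd, hL', conjMat_coordMul]
      congr 1
      show _ = pureMat (fun i => (D i : Matrix (Fin a) (Fin a) F)) * _
        * pureMat (fun i => (((D i)⁻¹ : GL (Fin a) F) : Matrix (Fin a) (Fin a) F))
      rw [← mul_assoc, pureMat_mul, mul_assoc]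
      have h2 : factorPerm (F := F) a π * pureMat (fun i => (((D i)⁻¹ : GL (Fin a) F) :
          Matrix (Fin a) (Fin a) F)) = pureMat (fun i => (((D (π.symm i))⁻¹ : GL (Fin a) F) :
          Matrix (Fin a) (Fin a) F)) * factorPerm a π := by
        rw [pureMat_mul_factorPerm]
        simp
      rw [h2, ← mul_assoc, pureMat_mul]
      congr 2
      funext i
      simp [hcs', mul_assoc]
    refine ⟨cs', π, hd', fun j => ?_⟩
    have h1 := (isSim_coord_iff hd').1 (hH h hh)
    rw [hgram', one_smul, adjForm_mul, adjForm_smul_left, adjForm_pureMat,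
      adjForm_smul_left, adjForm_factorPerm] at h1
    have h2 : pureMat (fun k => adjForm σ (Js 0) (cs' (π k) : Matrix (Fin a) (Fin a) F))
        = (1 : F) • pureMat (fun _ : Fin t => Js 0) := by
      rw [one_smul]; exact smul_right_injective _ hS0 h1
    obtain ⟨ν, -, hν⟩ := pureMat_eq_smul_pureMat h2 one_ne_zero
      (fun _ => (hJu 0).ne_zero) (π.symm j)
    exact ⟨ν, by simpa [IsSim] using hν⟩
  · have key : ∀ Y, φ i Y = conjMat L' (pureMat (Function.update 1 i
        ((((D i)⁻¹ : GL (Fin a) F) : Matrix (Fin a) (Fin a) F) * Y * (D i : Matrix (Fin a) (Fin a) F)))) := by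
      intro Y
      rw [hL, hL', conjMat_coordMul]
      congr 1
      show _ = pureMat (fun i => (D i : Matrix (Fin a) (Fin a) F)) * _
        * pureMat (fun i => (((D i)⁻¹ : GL (Fin a) F) : Matrix (Fin a) (Fin a) F))
      rw [pureMat_mul, pureMat_mul]
      congr 1
      funext j
      by_cases hj : j = i
      · subst hj; simp [mul_assoc]
      · simp [Function.update_of_ne hj]
    ext x
    constructor
    · rintro ⟨Y, rfl⟩
      refine ⟨(((D i)⁻¹ : GL (Fin a) F) : Matrix (Fin a) (Fin a) F) * Y * (D i : Matrix (Fin a) (Fin a) F), ?_⟩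
      show conjMat L' ((conjMat L).symm (φ i _)) = φ i Y
      rw [hL, AlgEquiv.symm_apply_apply, key]
    · rintro ⟨Y, rfl⟩
      refine ⟨(D i : Matrix (Fin a) (Fin a) F) * Y * (((D i)⁻¹ : GL (Fin a) F) : Matrix (Fin a) (Fin a) F), ?_⟩
      show φ i _ = conjMat L' ((conjMat L).symm (φ i Y))
      rw [key, hL, AlgEquiv.symm_apply_apply]
      simp [mul_assoc]

end Cfsg.Agent.GeoClasses
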