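import Cfsg.Agent.GeoClasses.UnitRealMaxMain
import Cfsg.Agent.ClassicalMax.UnitaryProper
import Cfsg.Agent.MaxSub.LinearClasses
import Cfsg.Agent.GeoClasses.FormDecomp

/-!
The subfield groups of index two are maximal in `SU_n(q)`.
-/

set_option autoImplicit false

namespace Cfsg.Agent.GeoClasses

open Matrix Cfsg.Geo Cfsg.Agent.Classical.U Cfsg.Agent.ClassicalMax Module
open scoped MatrixGroups Matrix

universe u

variable {F : Type u} [Field F] {n q : ℕ}

/-- The involution raising the coordinates in the basis of the columns of `P` to the power `q`. -/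
noncomputable def ratBar (q : ℕ) (P : GL (Fin n) F) (x : Fin n → F) : Fin n → F :=
  (P : Matrix (Fin n) (Fin n) F) *ᵥ
    fun i => ((((P⁻¹ : GL (Fin n) F) : Matrix (Fin n) (Fin n) F)) *ᵥ x) i ^ q

variable (hF : SqField F q) {F₀ : Subfield F} {P : GL (Fin n) F}

lemma ratBar_mulVec (u : Fin n → F) :
    ratBar q P ((P : Matrix (Fin n) (Fin n) F) *ᵥ u) =
      (P : Matrix (Fin n) (Fin n) F) *ᵥ fun i => u i ^ q := by
  rw [ratBar, gl_inv_mulVec]

include hF

lemma mem_iff_fixed (hcard : Nat.card F = Nat.card F₀ ^ 2) {a : F} : a ∈ F₀ ↔ a ^ q = a := by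
  haveI : Finite F := hF.1
  have hsub : (F₀ : Set F) ⊆ {a : F | a ^ q = a} := fun a ha => qConj_fixed_of_index_two hF hcard ha
  have h1 : Nat.card F₀ = q := by
    rw [hF.2] at hcard
    exact (Nat.pow_left_injective (by norm_num) hcard).symm
  have h2 : Set.ncard {a : F | a ^ q = a} = q := by
    rw [← Nat.card_coe_set_eq]
    exact card_fixed_qConj hF
  have := Set.eq_of_subset_of_ncard_le hsub (by
    rw [h2, ← Nat.card_coe_set_eq]; exact h1.ge) (Set.toFinite _)
  exact ⟨fun h => hsub h, fun h => (this.ge h : a ∈ (F₀ : Set F))⟩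

lemma ratBar_add (x y : Fin n → F) : ratBar q P (x + y) = ratBar q P x + ratBar q P y := by
  rw [ratBar, ratBar, ratBar, ← Matrix.mulVec_add, Matrix.mulVec_add]
  congr 1
  funext i
  simp [hF.add_pow]

omit hF in
lemma ratBar_smul (c : F) (x : Fin n → F) : ratBar q P (c • x) = c ^ q • ratBar q P x := by
  rw [ratBar, ratBar, ← Matrix.mulVec_smul, Matrix.mulVec_smul]
  congr 1
  funext i
  simp [mul_pow]

lemma ratBar_invol (x : Fin n → F) : ratBar q P (ratBar q P x) = x := by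
  conv_lhs => arg 3; rw [ratBar]
  rw [ratBar_mulVec]
  simp only [hF.pow_pow]
  exact gl_mulVec_inv P x

lemma exists_of_ratBar_fixed (hcard : Nat.card F = Nat.card F₀ ^ 2) {x : Fin n → F}
    (hx : ratBar q P x = x) :
    ∃ u : Fin n → F, (∀ i, u i ∈ F₀) ∧ (P : Matrix (Fin n) (Fin n) F) *ᵥ u = x := by
  refine ⟨((P⁻¹ : GL (Fin n) F) : Matrix (Fin n) (Fin n) F) *ᵥ x, fun i => ?_, gl_mulVec_inv P x⟩
  rw [mem_iff_fixed hF hcard]
  have := congrArg (fun v => (((P⁻¹ : GL (Fin n) F) : Matrix (Fin n) (Fin n) F) *ᵥ v) i) hx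
  simpa [ratBar, gl_inv_mulVec] using this

lemma herm_bar_of_fixed {ε : F} (hε : ε ^ q = ε)
    (h : ∀ x y, ratBar q P x = x → ratBar q P y = y → herm q x y ^ q = ε * herm q x y)
    (hε2 : ε * ε = 1) (x y : Fin n → F) :
    herm q (ratBar q P x) (ratBar q P y) = ε * herm q x y ^ q := by
  obtain ⟨l, hl⟩ := exists_qConj_moved hF
  rw [qConj_apply] at hl
  have split : ∀ x : Fin n → F, ∃ (α β : F) (a b : Fin n → F), ratBar q P a = a ∧
      ratBar q P b = b ∧ x = α • a + β • b := by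
    intro x
    refine ⟨l ^ q / (l ^ q - l), -(1 / (l ^ q - l)), x + ratBar q P x,
      l • x + l ^ q • ratBar q P x, ?_, ?_, ?_⟩
    · rw [ratBar_add hF, ratBar_invol hF, add_comm]
    · rw [ratBar_add hF, ratBar_smul, ratBar_smul, ratBar_invol hF, hF.pow_pow, add_comm]
    · match_scalars <;> field_simp [sub_ne_zero.2 hl] <;> ring
  obtain ⟨α, β, a, b, ha, hb, rfl⟩ := split x
  obtain ⟨γ, δ, c, d, hc, hd, rfl⟩ := split y
  rw [ratBar_add hF, ratBar_add hF, ratBar_smul, ratBar_smul, ratBar_smul, ratBar_smul, ha, hb, hc,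
    hd]
  simp only [herm_add_left, hF.herm_add_right, herm_smul_left, herm_smul_right, hF.add_pow,
    mul_pow, hF.pow_pow, h a c ha hc, h a d ha hd, h b c hb hc, h b d hb hd]
  linear_combination -(α ^ q * γ * herm q a c + α ^ q * δ * herm q a d + β ^ q * γ * herm q b c +
    β ^ q * δ * herm q b d) * hε2

lemma ratStr_orth (hcard : Nat.card F = Nat.card F₀ ^ 2) (h2 : (2 : F) ≠ 0)
    (hP : IsFormRationalStructure (Cfsg.hermForm n F q) F₀ 1 P) :
    RatStr q 1 (ratBar q P) where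
  add := ratBar_add hF
  smul := ratBar_smul
  invol := ratBar_invol hF
  herm_bar := herm_bar_of_fixed hF (one_pow q) (fun x y hx hy => by
    obtain ⟨u, hu, rfl⟩ := exists_of_ratBar_fixed hF hcard hx
    obtain ⟨v, hv, rfl⟩ := exists_of_ratBar_fixed hF hcard hy
    have := hP u v hu hv
    rw [one_mul] at this
    rw [one_mul]
    exact (mem_iff_fixed hF hcard).1 this) (one_mul 1)
  sign := Or.inl ⟨rfl, h2⟩
  lift x _ := by
    have hq2 : (herm q x x / 2) ^ q = herm q x x / 2 := by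
      rw [div_pow, hF.herm_symm, show (2 : F) = 1 + 1 by norm_num, hF.add_pow, one_pow]
    refine ⟨-(herm q x x / 2), by rw [one_mul, hF.neg_pow, hq2], ?_⟩
    rw [hF.neg_pow, hq2]
    field_simp
    ring

lemma ratStr_symp (hcard : Nat.card F = Nat.card F₀ ^ 2) {ζ : F} (hζ0 : ζ ≠ 0)
    (hζ : ζ + ζ ^ q = 0) (hP : IsFormRationalStructure (Cfsg.hermForm n F q) F₀ ζ P)
    (halt : ∀ u : Fin n → F, (∀ i, u i ∈ F₀) → Cfsg.hermForm n F q
      ((P : Matrix (Fin n) (Fin n) F) *ᵥ u) ((P : Matrix (Fin n) (Fin n) F) *ᵥ u) = 0) :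
    RatStr q (-1) (ratBar q P) where
  add := ratBar_add hF
  smul := ratBar_smul
  invol := ratBar_invol hF
  herm_bar := herm_bar_of_fixed hF (by rw [hF.neg_pow, one_pow]) (fun x y hx hy => by
    obtain ⟨u, hu, rfl⟩ := exists_of_ratBar_fixed hF hcard hx
    obtain ⟨v, hv, rfl⟩ := exists_of_ratBar_fixed hF hcard hy
    have h := (mem_iff_fixed hF hcard).1 (hP u v hu hv)
    set H := Cfsg.hermForm n F q ((P : Matrix (Fin n) (Fin n) F) *ᵥ u)
      ((P : Matrix (Fin n) (Fin n) F) *ᵥ v) with hH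
    show H ^ q = -1 * H
    rw [mul_pow] at h
    refine mul_left_cancel₀ hζ0 ?_
    linear_combination -h + H ^ q * hζ) (by ring)
  sign := Or.inr rfl
  lift x hx := by
    refine ⟨0, by rw [zero_pow hF.q_ne_zero, mul_zero], ?_⟩
    have hy : ratBar q P (ζ⁻¹ • x) = ζ⁻¹ • x := by
      rw [ratBar_smul, hx, smul_smul, inv_pow, show ζ ^ q = -ζ by linear_combination hζ, inv_neg]
      simp
    obtain ⟨u, hu, hux⟩ := exists_of_ratBar_fixed hF hcard hy
    have h := halt u hu
    rw [hux] at h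
    change herm q _ _ = 0 at h
    rw [herm_smul_left, herm_smul_right, mul_eq_zero, mul_eq_zero] at h
    rw [(h.resolve_left (inv_ne_zero hζ0)).resolve_left (pow_ne_zero _ (inv_ne_zero hζ0)),
      zero_pow hF.q_ne_zero]
    ring

lemma mem_subfieldSubgroup_of_semiComm [NeZero n] (hcard : Nat.card F = Nat.card F₀ ^ 2)
    {g : UG n F q} {μ : F} (hg : ∀ w, ratBar q P (g.1 w) = μ • g.1 (ratBar q P w)) :
    ugToGL n F q g ∈ subfieldSubgroup F₀ P := by
  classical
  set A : GL (Fin n) F := P⁻¹ * ugToGL n F q g * P with hA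
  have hcol : ∀ i j, (A : Matrix (Fin n) (Fin n) F) i j ^ q = μ * (A : Matrix _ _ F) i j := by
    intro i j
    have h1 : ratBar q P ((P : Matrix (Fin n) (Fin n) F) *ᵥ Pi.single j 1) =
        (P : Matrix (Fin n) (Fin n) F) *ᵥ Pi.single j 1 := by
      rw [ratBar_mulVec]
      congr 1
      funext k
      by_cases hk : k = j <;> simp [hk, hF.q_ne_zero]
    have h2 := hg ((P : Matrix (Fin n) (Fin n) F) *ᵥ Pi.single j 1)
    rw [h1, ← ugToGL_mulVec] at h2
    have h3 := congrArg (fun v => (((P⁻¹ : GL (Fin n) F) : Matrix (Fin n) (Fin n) F) *ᵥ v) i) h2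
    simp only [ratBar, gl_inv_mulVec, Matrix.mulVec_smul, Pi.smul_apply, smul_eq_mul] at h3
    have hAij : (A : Matrix (Fin n) (Fin n) F) i j =
        (((P⁻¹ : GL (Fin n) F) : Matrix (Fin n) (Fin n) F) *ᵥ
          ((ugToGL n F q g : Matrix (Fin n) (Fin n) F) *ᵥ
            ((P : Matrix (Fin n) (Fin n) F) *ᵥ Pi.single j 1))) i := by
      rw [Matrix.mulVec_mulVec, Matrix.mulVec_mulVec, ← Units.val_mul, ← Units.val_mul, hA]
      simp
    rw [hAij]
    exact h3
  obtain ⟨i₀, j₀, ha⟩ := exists_entry_ne_zero (Units.isUnit A).ne_zero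
  set a := (A : Matrix (Fin n) (Fin n) F) i₀ j₀ with ha'
  have hfix : ∀ i j, a⁻¹ * (A : Matrix (Fin n) (Fin n) F) i j ∈ F₀ := by
    intro i j
    have hμ : μ ≠ 0 := fun h => pow_ne_zero q ha (by rw [hcol i₀ j₀, h, zero_mul])
    rw [mem_iff_fixed hF hcard, mul_pow, inv_pow, ha', hcol i₀ j₀, hcol i j, _root_.mul_inv,
      mul_mul_mul_comm, inv_mul_cancel₀ hμ, one_mul]
  set A₀ : Matrix (Fin n) (Fin n) F₀ :=
    fun i j => ⟨a⁻¹ * (A : Matrix (Fin n) (Fin n) F) i j, hfix i j⟩ with hA₀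
  have hmap : F₀.subtype.mapMatrix A₀ = a⁻¹ • (A : Matrix (Fin n) (Fin n) F) := rfl
  have hdet : A₀.det ≠ 0 := fun h => by
    have := congrArg F₀.subtype h
    rw [RingHom.map_det, map_zero, hmap, Matrix.det_smul] at this
    exact mul_ne_zero (pow_ne_zero _ (inv_ne_zero ha))
      ((Matrix.isUnit_iff_isUnit_det _).1 (Units.isUnit A)).ne_zero this
  refine ⟨A, ?_, by rw [hA]; simp [mul_assoc]⟩
  have hAeq : A = Matrix.GeneralLinearGroup.map (F₀.subtype : F₀ →+* F)
      (Matrix.GeneralLinearGroup.mkOfDetNeZero A₀ hdet) *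
      Units.map (Matrix.scalar (Fin n) : F →+* Matrix (Fin n) (Fin n) F).toMonoidHom
        (Units.mk0 a ha) := by
    refine Units.ext (Matrix.ext fun i j => ?_)
    show _ = (A₀.map F₀.subtype * Matrix.scalar (Fin n) a) i j
    rw [Matrix.scalar_apply, Matrix.mul_diagonal, Matrix.map_apply]
    show _ = a⁻¹ * _ * a
    rw [mul_comm a⁻¹, mul_assoc, inv_mul_cancel₀ ha, mul_one]
  rw [hAeq]
  exact mul_mem (Subgroup.mem_sup_left ⟨_, rfl⟩) (Subgroup.mem_sup_right ⟨_, rfl⟩)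

theorem suGL_realSubfield_maximal [Fintype F] (hn : 6 ≤ n)
    (hcard : Fintype.card F = Nat.card F₀ ^ 2) {ε : F} (hb : RatStr q ε (ratBar q P)) :
    IsMaximalIn (suGL n F q) (subfieldSubgroup F₀ P ⊓ suGL n F q) := by
  haveI : NeZero n := ⟨by omega⟩
  have hcard' : Nat.card F = Nat.card F₀ ^ 2 := by rw [Nat.card_eq_fintype_card, hcard]
  have hex : ¬ (n = 3 ∧ q = 2) := by omega
  have hperf := suGL_commutator hF (n := n) (by omega) hex
  refine ⟨lt_of_le_not_ge inf_le_right fun hle =>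
    suGL_not_le_subfieldSubgroup hF (by omega) hperf (MaxSub.subfield_ne_top Nat.prime_two hcard) P
      (hle.trans inf_le_left), fun M hM hMK => ?_⟩
  by_cases hsemi : ∀ g ∈ M.comap (ugToGL n F q),
      ∃ μ : F, ∀ w, ratBar q P (g.1 w) = μ • g.1 (ratBar q P w)
  · refine Or.inl (le_antisymm (le_inf (fun g hg => ?_) hMK) hM)
    obtain ⟨k, -, rfl⟩ := exists_ugToGL_eq (hMK hg)
    obtain ⟨μ, hμ⟩ := hsemi k hg
    exact mem_subfieldSubgroup_of_semiComm hF hcard' hμ
  refine Or.inr (le_antisymm hMK ?_)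
  push Not at hsemi
  have hS : SUG n F q ≤ M.comap (ugToGL n F q) :=
    RatStr.SUG_le_of_ratStr hF hb (by omega) (fun g hg hgc => hM ⟨mem_subfieldSubgroup_of_semiComm hF
      hcard' (μ := 1) fun w => by rw [one_smul]; exact hgc w, ugToGL_mem_suGL hg⟩) hsemi
  intro g hg
  obtain ⟨k, hk, rfl⟩ := exists_ugToGL_eq hg
  exact hS hk

end Cfsg.Agent.GeoClasses
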