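import Cfsg.Agent.Classical.UBasic

/-!
An automorphism of order two of a finite field is `x ↦ x ^ q` with `q²` elements in the field.
-/

set_option autoImplicit false

namespace Cfsg.Agent.GeoClasses

open Cfsg.Agent.Classical.U (SqField)

theorem exists_sqField_of_involution {F : Type*} [Field F] [Fintype F] {σ : F ≃+* F}
    (hσ : ∀ a, σ (σ a) = a) (hne : σ ≠ RingEquiv.refl F) :
    ∃ q : ℕ, SqField F q ∧ ∀ x, σ x = x ^ q := by
  obtain ⟨p, hchar⟩ := CharP.exists F
  obtain ⟨e, hp, he⟩ := FiniteField.card F p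
  haveI : Fact p.Prime := ⟨hp⟩
  let _ : Algebra (ZMod p) F := ZMod.algebra F p
  let τ : F ≃ₐ[ZMod p] F := AlgEquiv.ofRingEquiv (f := σ) fun a => by
    obtain ⟨m, rfl⟩ := ZMod.natCast_zmod_surjective a
    simp
  obtain ⟨i, hi⟩ := (FiniteField.bijective_frobeniusAlgEquivOfAlgebraic_pow (ZMod p) F).2 τ
  have hfr : ∀ x : F, σ x = x ^ p ^ (i : ℕ) := by
    intro x
    have h := congrFun (congrArg DFunLike.coe hi) x
    rw [AlgEquiv.coe_pow, FiniteField.coe_frobeniusAlgEquivOfAlgebraic_iterate, ZMod.card] at h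
    exact h.symm
  have hord := FiniteField.orderOf_frobeniusAlgEquivOfAlgebraic (ZMod p) F
  have hfin : Module.finrank (ZMod p) F = e := by
    have := Module.card_eq_pow_finrank (K := ZMod p) (V := F)
    rw [ZMod.card, he] at this
    exact (Nat.pow_right_injective hp.two_le this).symm
  have hi0 : (i : ℕ) ≠ 0 := fun h => hne (RingEquiv.ext fun x => by
    rw [hfr, h, pow_zero, pow_one]; rfl)
  have h2 : (FiniteField.frobeniusAlgEquivOfAlgebraic (ZMod p) F) ^ (2 * (i : ℕ)) = 1 := by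
    rw [two_mul, pow_add]
    change (fun j : Fin _ => (FiniteField.frobeniusAlgEquivOfAlgebraic (ZMod p) F) ^ (j : ℕ)) i *
      (fun j : Fin _ => (FiniteField.frobeniusAlgEquivOfAlgebraic (ZMod p) F) ^ (j : ℕ)) i = 1
    rw [hi]
    exact AlgEquiv.ext fun x => hσ x
  have hdvd := orderOf_dvd_of_pow_eq_one h2
  rw [hord] at hdvd
  have hlt := i.isLt
  obtain ⟨k, hk⟩ := hdvd
  have hk1 : k = 1 := by
    rcases k with _ | _ | k
    · simp at hk; omega
    · rfl
    · have : Module.finrank (ZMod p) F * 2 ≤ Module.finrank (ZMod p) F * (k + 1 + 1) :=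
        Nat.mul_le_mul_left _ (by omega)
      omega
  subst hk1
  refine ⟨p ^ (i : ℕ), ⟨inferInstance, ?_⟩, hfr⟩
  rw [Nat.card_eq_fintype_card, he, ← pow_mul]
  congr 1
  omega

end Cfsg.Agent.GeoClasses
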