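import Mathlib
import Cfsg.Prelude.Def_GeometricClasses
import Cfsg.Agent.Classical.UBasic
import Cfsg.Agent.Forms.Orthogonal
import Cfsg.Agent.GeoClasses.Basic
import Cfsg.Agent.GeoClasses.MatrixUnits
import Cfsg.Agent.GeoClasses.Algebra
import Cfsg.Agent.GeoClasses.Forms
import Cfsg.Agent.GeoClasses.FormsMore
import Cfsg.Agent.GeoClasses.FieldFacts
import Cfsg.Agent.GeoClasses.Descent
import Cfsg.Agent.GeoClasses.Polarized
import Cfsg.Agent.GeoClasses.Coords

/-!
The standard unitary form as a polarised form; facts on the involution `x ↦ x ^ q`.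
-/

set_option autoImplicit false
set_option maxHeartbeats 400000

namespace Cfsg.Agent.GeoClasses

open Matrix Cfsg.Geo
open scoped MatrixGroups Matrix Kronecker
open Cfsg.Agent.Classical.U (SqField)

variable {F : Type*} [Field F]

/-- The automorphism `x ↦ x ^ q` of a field with `q ^ 2` elements. -/
def qConj {q : ℕ} (hF : SqField F q) : F ≃+* F where
  toFun x := x ^ q
  invFun x := x ^ q
  left_inv := hF.pow_pow
  right_inv := hF.pow_pow
  map_mul' x y := mul_pow x y q
  map_add' x y := hF.add_pow x y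

lemma qConj_apply {q : ℕ} (hF : SqField F q) (x : F) : qConj hF x = x ^ q := rfl

lemma qConj_invol {q : ℕ} (hF : SqField F q) (x : F) : qConj hF (qConj hF x) = x := hF.pow_pow x

lemma qConj_ne {q : ℕ} (hF : SqField F q) : qConj hF ≠ RingEquiv.refl F := by
  intro h
  obtain ⟨hfin, hcard⟩ := id hF
  haveI : Fintype F := Fintype.ofFinite F
  have hq := hF.one_lt
  have h1 := card_le_of_forall_pow_eq hq fun x : F =>
    show qConj hF x = x by rw [h]; rfl
  rw [← Nat.card_eq_fintype_card, hcard] at h1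
  nlinarith

lemma exists_qConj_moved {q : ℕ} (hF : SqField F q) : ∃ a : F, qConj hF a ≠ a := by
  by_contra h
  push Not at h
  exact qConj_ne hF (RingEquiv.ext h)

variable {n q : ℕ}

lemma hermForm_eq_formOf (hF : SqField F q) :
    Cfsg.hermForm n F q = formOf (qConj hF) (1 : Matrix (Fin n) (Fin n) F) := by
  funext u v
  simp [Cfsg.hermForm, formOf, dotProduct, qConj_apply]

lemma isPolar_one {ι : Type} [Fintype ι] [DecidableEq ι] {σ : F ≃+* F} (hσ : ∀ a, σ (σ a) = a) :
    IsPolar σ (1 : Matrix ι ι F) 1 where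
  invol := hσ
  unit := isUnit_one
  star := by simp [starMat, Matrix.map_one]

lemma isSim_of_mem_GU (hF : SqField F q) {g : GL (Fin n) F} (hg : g ∈ Cfsg.GU n F q) :
    IsSim (qConj hF) (1 : Matrix (Fin n) (Fin n) F) g 1 :=
  isSim_of_formOf fun u v => by
    rw [one_mul, ← hermForm_eq_formOf hF]
    exact hg u v

lemma isUnitaryFormPow_formOf (hF : SqField F q) {k : ℕ} {J : Matrix (Fin k) (Fin k) F}
    (hJ : IsUnit J) (hherm : starMat (qConj hF) J = J) :
    IsUnitaryFormPow q (formOf (qConj hF) J) where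
  add_left := formOf_add_left _ _
  smul_left := formOf_smul_left _ _
  herm v w := by
    have h := formOf_star (σ := qConj hF) (qConj_invol hF) J v w
    rw [hherm] at h
    exact h
  nondegenerate := isNondegenerateForm_formOf _ hJ

lemma mem_fixed_qConj (hF : SqField F q) {a : F} :
    a ∈ RingHom.eqLocusField (qConj hF).toRingHom (RingHom.id F) ↔ qConj hF a = a := Iff.rfl

/-- A subfield of index two in cardinality is the fixed field. -/
lemma qConj_fixed_of_index_two (hF : SqField F q) {F₁ : Subfield F}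
    (h : Nat.card F = Nat.card F₁ ^ 2) {a : F} (ha : a ∈ F₁) : qConj hF a = a := by
  obtain ⟨hfin, hcard⟩ := id hF
  haveI : Fintype F₁ := Fintype.ofFinite F₁
  have hq : Fintype.card F₁ = q := by
    rw [hcard, Nat.card_eq_fintype_card] at h
    exact (Nat.pow_left_injective (by norm_num) h).symm
  have h1 := congrArg Subtype.val (FiniteField.pow_card (⟨a, ha⟩ : F₁))
  rw [hq] at h1
  exact h1

/-- A subfield of odd index is not fixed pointwise. -/
lemma exists_moved_of_odd_index (hF : SqField F q) {F₁ : Subfield F} {r : ℕ} (hodd : Odd r)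
    (h : Nat.card F = Nat.card F₁ ^ r) : ∃ a ∈ F₁, qConj hF a ≠ a := by
  by_contra hc
  push Not at hc
  obtain ⟨hfin, hcard⟩ := id hF
  haveI : Fintype F₁ := Fintype.ofFinite F₁
  obtain ⟨p, j, hp, hchar, rfl⟩ := hF.exists_char
  haveI : Fact p.Prime := ⟨hp⟩
  haveI : CharP F₁ p := (RingHom.charP_iff F₁.subtype Subtype.val_injective p).2 hchar
  obtain ⟨i, -, hi⟩ := FiniteField.card F₁ p
  rw [hcard, Nat.card_eq_fintype_card, hi, ← pow_mul, ← pow_mul] at h
  have hji : j * 2 = (i : ℕ) * r := Nat.pow_right_injective hp.two_le h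
  have hfix : ∀ x : F₁, x ^ p ^ j = x := fun x => Subtype.ext (hc x x.2)
  have hper : ∀ k : ℕ, ∀ x : F₁, x ^ p ^ ((i : ℕ) * k) = x := by
    intro k x
    rw [pow_mul, ← hi, FiniteField.pow_card_pow]
  obtain ⟨k, l, hl, hjk⟩ : ∃ k l, l < (i : ℕ) ∧ j = (i : ℕ) * k + l :=
    ⟨j / i, j % i, Nat.mod_lt _ i.pos, (Nat.div_add_mod j i).symm⟩
  have hl0 : l = 0 := by
    by_contra hl0
    have h1 : Fintype.card F₁ ≤ p ^ l :=
      card_le_of_forall_pow_eq (Nat.one_lt_pow hl0 hp.one_lt) fun x => by
        have h2 := hfix x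
        rw [hjk, pow_add, pow_mul, hper] at h2
        exact h2
    rw [hi] at h1
    exact absurd ((Nat.pow_le_pow_iff_right hp.one_lt).1 h1) (not_le.2 hl)
  rw [hjk, hl0, add_zero, mul_assoc] at hji
  obtain ⟨u, hu⟩ := hodd
  have := Nat.eq_of_mul_eq_mul_left i.pos hji
  omega

/-- The fixed field has `q` elements. -/
lemma card_fixed_qConj (hF : SqField F q) :
    Nat.card (RingHom.eqLocusField (qConj hF).toRingHom (RingHom.id F)) = q := by
  obtain ⟨hfin, hcard⟩ := id hF
  set F₀ := RingHom.eqLocusField (qConj hF).toRingHom (RingHom.id F) with hF₀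
  haveI : Fintype F₀ := Fintype.ofFinite F₀
  have hle : Nat.card F₀ ≤ q := by
    rw [Nat.card_eq_fintype_card]
    exact card_le_of_forall_pow_eq hF.one_lt fun x => Subtype.ext ((mem_fixed_qConj hF).1 x.2)
  obtain ⟨d, hd⟩ := exists_qConj_moved hF
  let Φ : F → F₀ × F₀ := fun x =>
    (⟨x + qConj hF x, (mem_fixed_qConj hF).2 (by rw [map_add, qConj_invol, add_comm])⟩,
      ⟨d * x + qConj hF (d * x), (mem_fixed_qConj hF).2 (by rw [map_add, qConj_invol, add_comm])⟩)
  have hinj : Function.Injective Φ := by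
    intro x y h
    have h1 : x + qConj hF x = y + qConj hF y := congrArg (fun p => ((p.1 : F₀) : F)) h
    have h2 : d * x + qConj hF (d * x) = d * y + qConj hF (d * y) :=
      congrArg (fun p => ((p.2 : F₀) : F)) h
    rw [map_mul, map_mul] at h2
    have h3 : (d - qConj hF d) * (x - y) = 0 := by linear_combination h2 - qConj hF d * h1
    exact sub_eq_zero.1 ((mul_eq_zero.1 h3).resolve_left (sub_ne_zero.2 (Ne.symm hd)))
  have h1 := Nat.card_le_card_of_injective Φ hinj
  rw [hcard, Nat.card_prod] at h1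
  nlinarith

/-- A hermitian form is congruent to the standard one. -/
lemma exists_congr_one [Finite F] {σ : F ≃+* F} (hσ : ∀ a, σ (σ a) = a) (hne : σ ≠ RingEquiv.refl F)
    {k : ℕ} {J : Matrix (Fin k) (Fin k) F} (hJ : IsUnit J) (hherm : starMat σ J = J) :
    ∃ D : GL (Fin k) F, adjForm σ J (D : Matrix (Fin k) (Fin k) F) = 1 := by
  let B : (Fin k → F) →ₛₗ[σ.toRingHom] (Fin k → F) →ₗ[F] F :=
    LinearMap.mk₂'ₛₗ σ.toRingHom (RingHom.id F) (fun x y => formOf σ J y x)
      (fun x x' y => formOf_add_right _ _ _ _ _) (fun c x y => formOf_smul_right _ _ _ _ _)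
      (fun x y y' => formOf_add_left _ _ _ _ _) (fun c x y => formOf_smul_left _ _ _ _ _)
  have hS : B.IsSymm := ⟨fun x y => by
    show σ (formOf σ J y x) = formOf σ J x y
    rw [← formOf_star hσ, hherm]⟩
  have hB : B.Nondegenerate := by
    constructor
    · intro x hx
      by_contra h0
      obtain ⟨⟨y, hy⟩, -⟩ := isNondegenerateForm_formOf σ hJ x h0
      exact hy (hx y)
    · intro y hy
      by_contra h0
      obtain ⟨-, ⟨x, hx⟩⟩ := isNondegenerateForm_formOf σ hJ y h0
      exact hx (hy x)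
  obtain ⟨b, hb⟩ := Forms.exists_orthonormal_basis_herm (σ := σ.toRingHom)
    (fun h => hne (RingEquiv.ext fun a => RingHom.congr_fun h a)) hσ hS hB
  let e : Fin k ≃ Fin (Module.finrank F (Fin k → F)) := finCongr (Module.finrank_fin_fun F).symm
  set M : Matrix (Fin k) (Fin k) F := fun i j => b (e j) i with hM
  have h1 : adjForm σ J M = 1 := by
    ext i j
    rw [← formOf_single σ (adjForm σ J M) i j, ← formOf_mulVec, Matrix.mulVec_single_one,
      Matrix.mulVec_single_one]
    show B (b (e j)) (b (e i)) = _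
    rw [hb, Matrix.one_apply]
    simp [eq_comm]
  have hMu : IsUnit M := by
    rw [Matrix.isUnit_iff_isUnit_det]
    have h2 := congrArg Matrix.det h1
    rw [adjForm, Matrix.det_mul, Matrix.det_mul, Matrix.det_one, Matrix.det_transpose, mul_assoc]
      at h2
    exact IsUnit.of_mul_eq_one _ h2
  exact ⟨hMu.unit, h1⟩

end Cfsg.Agent.GeoClasses
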