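import Cfsg.Agent.GeoClasses.UnitTotDecomp
import Cfsg.Agent.GeoClasses.UnitBase
import Cfsg.Agent.GeoClasses.FieldInvol
import Cfsg.Agent.GeoClasses.OrthMaxBase
import Cfsg.Agent.Forms.UnitaryGeom

/-!
The similarity group of a unitary form is maximal in `SL`.
-/

set_option autoImplicit false

namespace Cfsg.Agent.GeoClasses

open Matrix Cfsg.Geo Cfsg.Agent.Classical.U Cfsg.Agent.ClassicalMax Module
open Cfsg.Agent.Forms (hperp mem_hperp finrank_hperp hperp_hperp)
open scoped MatrixGroups Matrix

universe u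

variable {F : Type u} [Field F] {n q : ℕ}

/-- The vectors `w` for which the transvection with centre `v` and functional `h(·, w)` lies in
`M`. -/
def uFun (q : ℕ) (M : Subgroup (GL (Fin n) F)) (v : Fin n → F) : Set (Fin n → F) :=
  {w | ∃ h : hermL q w v = 0, transv (hermL q w) v h ∈ M}

lemma hermL_add (hF : SqField F q) (a b : Fin n → F) :
    hermL q (a + b) = hermL q a + hermL q b :=
  LinearMap.ext fun x => hF.herm_add_right x a b

variable (hF : SqField F q)
include hF

lemma exists_herm_rep (φ : (Fin n → F) →ₗ[F] F) : ∃ w, ∀ x, herm q x w = φ x :=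
  ⟨fun i => φ (Pi.single i 1) ^ q, fun x => by
    conv_rhs => rw [pi_eq_sum_univ' x, map_sum]
    rw [herm_def]
    refine Finset.sum_congr rfl fun i _ => ?_
    rw [hF.pow_pow, map_smul, smul_eq_mul]⟩

lemma herm_right_ext {a b : Fin n → F} (h : ∀ x, herm q x a = herm q x b) : a = b :=
  sub_eq_zero.1 (hF.eq_zero_of_herm _ fun x => by
    rw [← hF.herm_symm, hF.herm_sub_right, h, sub_self, zero_pow hF.q_ne_zero])

lemma uFun_add {M : Subgroup (GL (Fin n) F)} {v a b : Fin n → F} (ha : a ∈ uFun q M v)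
    (hb : b ∈ uFun q M v) : a + b ∈ uFun q M v := by
  obtain ⟨ha, ha'⟩ := ha
  obtain ⟨hb, hb'⟩ := hb
  refine ⟨by rw [hermL_add hF, LinearMap.add_apply, ha, hb, add_zero], ?_⟩
  convert mul_mem ha' hb' using 1
  refine gl_ext_mulVec fun x => ?_
  simp only [Units.val_mul, ← Matrix.mulVec_mulVec, transv_mulVec, hermL_add hF,
    LinearMap.add_apply, map_add, map_smul, hb, ha, smul_eq_mul, mul_zero, add_zero]
  module

lemma uFun_neg {M : Subgroup (GL (Fin n) F)} {v a : Fin n → F} (ha : a ∈ uFun q M v) :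
    -a ∈ uFun q M v := by
  obtain ⟨ha, ha'⟩ := ha
  have e : ∀ x, hermL q (-a) x = - hermL q a x := fun x => hF.herm_neg_right x a
  refine ⟨by rw [e, ha, neg_zero], ?_⟩
  convert inv_mem ha' using 1
  rw [eq_inv_iff_mul_eq_one]
  refine gl_ext_mulVec fun x => ?_
  simp only [Units.val_mul, ← Matrix.mulVec_mulVec, transv_mulVec, e, map_add, map_smul, ha,
    smul_eq_mul, mul_zero, add_zero, Units.val_one, Matrix.one_mulVec]
  module

omit hF in
lemma uFun_zero (M : Subgroup (GL (Fin n) F)) (hq : q ≠ 0) (v : Fin n → F) :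
    (0 : Fin n → F) ∈ uFun q M v := by
  have e : ∀ x, hermL q (0 : Fin n → F) x = 0 := fun x => by
    simp [hermL_apply, herm_def, hq]
  refine ⟨e v, ?_⟩
  convert one_mem M using 1
  exact gl_ext_mulVec fun x => by simp [e]

lemma uFun_map {M : Subgroup (GL (Fin n) F)} {v a : Fin n → F} (ha : a ∈ uFun q M v)
    {k : UG n F q} (hk : ugToGL n F q k ∈ M) : k.1 a ∈ uFun q M (k.1 v) := by
  obtain ⟨ha, ha'⟩ := ha
  refine ⟨by rw [hermL_apply, UG_app]; exact ha, ?_⟩
  convert mul_mem (mul_mem hk ha') (inv_mem hk) using 1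
  rw [eq_mul_inv_iff_mul_eq]
  refine gl_ext_mulVec fun x => ?_
  simp only [Units.val_mul, ← Matrix.mulVec_mulVec, transv_mulVec, ugToGL_mulVec, hermL_apply,
    UG_app, map_add, map_smul]

/-- Isotropic vectors separate: a subspace with a pair is spanned by isotropic vectors. -/
lemma exists_iso_not_orth_in {v e u : Fin n → F} (he : herm q e e = 0)
    (heS : e ∈ hperp q (F ∙ v)) (hev : e ∉ F ∙ v) (huS : u ∈ hperp q (F ∙ v)) (huv : u ∉ F ∙ v) :
    ∃ z, z ∈ hperp q (F ∙ v) ∧ herm q z z = 0 ∧ herm q z e ≠ 0 ∧ herm q z u ≠ 0 := by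
  have hnd : ∀ a, a ∈ hperp q (F ∙ v) → a ∉ F ∙ v →
      ∃ y ∈ hperp q (F ∙ v), herm q y a ≠ 0 := by
    intro a _ hav
    by_contra hcon
    push Not at hcon
    apply hav
    rw [← hperp_hperp hF (F ∙ v), mem_hperp]
    exact fun y hy => Cfsg.Agent.Forms.herm_comm_zero hF (hcon y hy)
  obtain ⟨f, hfS, hp⟩ := exists_pair_mem hF heS he (hnd e heS hev)
  by_contra hcon
  push Not at hcon
  obtain ⟨y, hy, hyu⟩ := hnd u huS huv
  apply hyu
  have hspan := le_span_isotropic hF heS hfS hp hy
  clear hy hyu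
  induction hspan using Submodule.span_induction with
  | mem z hz => exact hcon z hz.1 hz.2.1 hz.2.2
  | zero => exact herm_zero_left u
  | add a b _ _ ha hb => rw [herm_add_left, ha, hb, add_zero]
  | smul c a _ ha => rw [herm_smul_left, ha, mul_zero]

/-- An isotropic centre with a functional outside its line is a centre for all functionals. -/
lemma mem_centres_of_uFun (hn : 5 ≤ n) {M : Subgroup (GL (Fin n) F)}
    (hSU : ∀ k ∈ SUG n F q, ugToGL n F q k ∈ M) {v w₀ : Fin n → F} (hv0 : v ≠ 0)
    (hv : herm q v v = 0) (hw₀ : w₀ ∈ uFun q M v) (hw₀v : w₀ ∉ F ∙ v) : v ∈ centres M := by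
  set S := hperp q (F ∙ v) with hS
  have hmemS : ∀ {x}, herm q x v = 0 → x ∈ S := fun {x} h w hw => by
    obtain ⟨c, rfl⟩ := Submodule.mem_span_singleton.1 hw
    rw [herm_smul_right, h, mul_zero]
  have hSmem : ∀ {x}, x ∈ S → herm q x v = 0 := fun {x} h =>
    h v (Submodule.mem_span_singleton_self v)
  have hYS : ∀ {x}, x ∈ uFun q M v → x ∈ S := fun {x} h =>
    hmemS (Cfsg.Agent.Forms.herm_comm_zero hF h.choose)
  have hone : ∀ w ∈ uFun q M v, ∀ e ∈ S, herm q e e = 0 → herm q w e ≠ 0 →
      ∀ c : F, c • e ∈ uFun q M v := by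
    intro w hw e heS he hwe c
    have hev := hSmem heS
    have hve := Cfsg.Agent.Forms.herm_comm_zero hF hev
    have hk : ∀ {x : Fin n → F} {a : F} (h : UniCond q e x a), x ∈ S →
        w + herm q w e • x + (a * herm q w e - herm q w x) • e ∈ uFun q M v := by
      intro x a h hx
      have := uFun_map hF hw (hSU _ (det_uni hF h))
      rw [uni_apply, uni_apply, hve, Cfsg.Agent.Forms.herm_comm_zero hF (hSmem hx)] at this
      simpa using this
    set U := hperp q (Submodule.span F {v, e}) with hU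
    have hUdim : n - 2 ≤ finrank F U := by
      rw [hU, finrank_hperp hF]
      have : finrank F (Submodule.span F ({v, e} : Set (Fin n → F))) ≤ 2 := by
        rw [Submodule.span_insert]
        refine (Submodule.finrank_add_le_finrank_add_finrank _ _).trans ?_
        have h1 := finrank_span_le_card (R := F) ({v} : Set (Fin n → F))
        have h2 := finrank_span_le_card (R := F) ({e} : Set (Fin n → F))
        simp only [Set.toFinset_singleton, Finset.card_singleton] at h1 h2
        omega
      omega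
    obtain ⟨y₁, hy₁, y₂, hy₂, hy⟩ : ∃ y₁ ∈ U, ∃ y₂ ∈ U, herm q y₂ y₁ ≠ 0 := by
      by_contra hcon
      push Not at hcon
      have hle : U ≤ hperp q U := fun a ha b hb => hcon b hb a ha
      have := Submodule.finrank_mono hle
      rw [finrank_hperp hF U] at this
      omega
    have hUS : ∀ {x}, x ∈ U → x ∈ S ∧ herm q x e = 0 := fun {x} hx =>
      ⟨hmemS (hx v (Submodule.subset_span (by simp))), hx e (Submodule.subset_span (by simp))⟩
    set d := -(c / herm q w e) with hd
    obtain ⟨x₂, hx₂⟩ : ∃ z, z = (d / herm q y₂ y₁) • y₂ := ⟨_, rfl⟩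
    have hx₂U : x₂ ∈ U := hx₂ ▸ U.smul_mem _ hy₂
    have hx₂y : herm q x₂ y₁ = d := by rw [hx₂, herm_smul_left, div_mul_cancel₀ _ hy]
    obtain ⟨a₁, ha₁⟩ := hF.exists_trace (c := -herm q y₁ y₁) (by rw [hF.neg_pow, hF.herm_symm])
    obtain ⟨a₂, ha₂⟩ := hF.exists_trace (c := -herm q x₂ x₂) (by rw [hF.neg_pow, hF.herm_symm])
    have hc₁ : UniCond q e y₁ a₁ := ⟨he, (hUS hy₁).2, by rw [ha₁]; ring⟩
    have hc₂ : UniCond q e x₂ a₂ := ⟨he, (hUS hx₂U).2, by rw [ha₂]; ring⟩
    have h12 := hk (uniCond_mul hF hc₁ hc₂) (S.add_mem (hUS hy₁).1 (hUS hx₂U).1)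
    have := uFun_add hF (uFun_add hF (uFun_add hF h12 (uFun_neg hF (hk hc₁ (hUS hy₁).1)))
      (uFun_neg hF (hk hc₂ (hUS hx₂U).1))) hw
    convert this using 1
    rw [hx₂y, hF.herm_add_right, hd]
    match_scalars <;> field_simp <;> ring
  have hspread : ∀ e ∈ S, herm q e e = 0 → e ∉ F ∙ v → ∀ c : F, c • e ∈ uFun q M v := by
    -- first reach one isotropic line
    have hdimS : 2 ≤ finrank F S - 1 := by
      rw [hS, finrank_hperp hF, finrank_span_singleton hv0]
      omega
    obtain ⟨S', hS'S, hdis, hsup⟩ : ∃ S', S' ≤ S ∧ (F ∙ v) ⊓ S' = ⊥ ∧ (F ∙ v) ⊔ S' = S := by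
      obtain ⟨C, hC⟩ := Submodule.exists_isCompl (F ∙ v)
      refine ⟨C ⊓ S, inf_le_right, ?_, ?_⟩
      · rw [← inf_assoc, hC.inf_eq_bot, bot_inf_eq]
      · rw [← sup_inf_assoc_of_le C ((Submodule.span_singleton_le_iff_mem _ _).2 (hmemS hv)),
          hC.sup_eq_top, top_inf_eq]
    have hS'dim : 2 ≤ finrank F S' := by
      have h1 := Submodule.finrank_add_le_finrank_add_finrank (F ∙ v) S'
      rw [hsup, finrank_span_singleton hv0] at h1
      omega
    obtain ⟨e₁, he₁S', he₁0, he₁⟩ := exists_isotropic_mem hF hS'dim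
    have he₁v : e₁ ∉ F ∙ v := fun h => he₁0 (by
      have : e₁ ∈ (F ∙ v) ⊓ S' := ⟨h, he₁S'⟩
      rwa [hdis, Submodule.mem_bot] at this)
    obtain ⟨e₀, he₀S, he₀, -, hwe₀⟩ :=
      exists_iso_not_orth_in hF he₁ (hS'S he₁S') he₁v (hYS hw₀) hw₀v
    have hwe₀' : herm q w₀ e₀ ≠ 0 := by rw [← hF.herm_symm]; exact pow_ne_zero _ hwe₀
    have h0 := hone w₀ hw₀ e₀ he₀S he₀ hwe₀'
    have he₀v : e₀ ∉ F ∙ v := fun h => hwe₀ (by
      obtain ⟨c, rfl⟩ := Submodule.mem_span_singleton.1 h
      rw [herm_smul_left, Cfsg.Agent.Forms.herm_comm_zero hF (hSmem (hYS hw₀)), mul_zero])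
    intro e heS he hev
    obtain ⟨z, hzS, hz, hze₀, hze⟩ := exists_iso_not_orth_in hF he₀ he₀S he₀v heS hev
    have h1 := hone _ (by simpa using h0 1) z hzS hz (by
      rw [← hF.herm_symm]; exact pow_ne_zero _ hze₀)
    exact hone _ (by simpa using h1 1) e heS he hze
  have hiso : ∀ e ∈ S, herm q e e = 0 → ∀ c : F, c • e ∈ uFun q M v := by
    intro e heS he c
    by_cases hev : e ∈ F ∙ v
    · obtain ⟨l, rfl⟩ := Submodule.mem_span_singleton.1 hev
      obtain ⟨z, hzS, hz, hzv⟩ : ∃ z ∈ S, herm q z z = 0 ∧ z ∉ F ∙ v := by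
        obtain ⟨C, hC⟩ := Submodule.exists_isCompl (F ∙ v)
        have hd : 2 ≤ finrank F ↥(C ⊓ S) := by
          have h1 := Submodule.finrank_sup_add_finrank_inf_eq C S
          have h2 := Submodule.finrank_le (C ⊔ S)
          have h3 := Submodule.finrank_add_eq_of_isCompl hC
          have h4 : finrank F S = n - 1 := by
            rw [hS, finrank_hperp hF, finrank_span_singleton hv0]
          rw [finrank_span_singleton hv0] at h3
          rw [Module.finrank_pi, Fintype.card_fin] at h2 h3
          omega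
        obtain ⟨z, hz, hz0, hzz⟩ := exists_isotropic_mem hF hd
        refine ⟨z, hz.2, hzz, fun h => hz0 ?_⟩
        have : z ∈ (F ∙ v) ⊓ C := ⟨h, hz.1⟩
        rwa [hC.inf_eq_bot, Submodule.mem_bot] at this
      have hzv' := hSmem hzS
      have hm1 := hspread (z + v) (S.add_mem hzS (hmemS hv)) (by
        rw [herm_add_left, hF.herm_add_right, hF.herm_add_right, hz, hzv',
          Cfsg.Agent.Forms.herm_comm_zero hF hzv', hv]
        ring) (fun h => hzv (by
          simpa using Submodule.sub_mem _ h (Submodule.mem_span_singleton_self v))) (c * l)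
      have hm2 := hspread z hzS hz hzv (c * l)
      have := uFun_add hF hm1 (uFun_neg hF hm2)
      convert this using 1
      module
    · exact hspread e heS he hev c
  intro φ hφ
  obtain ⟨w, hw⟩ := exists_herm_rep hF φ
  have hwS : w ∈ S := hmemS (Cfsg.Agent.Forms.herm_comm_zero hF ((hw v).trans hφ))
  have hfin : ∀ c : F, c • w ∈ uFun q M v := by
    by_cases hwv : w ∈ F ∙ v
    · obtain ⟨l, rfl⟩ := Submodule.mem_span_singleton.1 hwv
      intro c
      rw [smul_smul]
      exact hiso v (hmemS hv) hv _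
    · have hS'dim : ∃ e ∈ S, herm q e e = 0 ∧ e ∉ F ∙ v := by
        obtain ⟨C, hC⟩ := Submodule.exists_isCompl (F ∙ v)
        have hd : 2 ≤ finrank F ↥(C ⊓ S) := by
          have h1 := Submodule.finrank_sup_add_finrank_inf_eq C S
          have h2 := Submodule.finrank_le (C ⊔ S)
          have h3 := Submodule.finrank_add_eq_of_isCompl hC
          have h4 : finrank F S = n - 1 := by
            rw [hS, finrank_hperp hF, finrank_span_singleton hv0]
          rw [finrank_span_singleton hv0] at h3
          rw [Module.finrank_pi, Fintype.card_fin] at h2 h3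
          omega
        obtain ⟨z, hz, hz0, hzz⟩ := exists_isotropic_mem hF hd
        refine ⟨z, hz.2, hzz, fun h => hz0 ?_⟩
        have : z ∈ (F ∙ v) ⊓ C := ⟨h, hz.1⟩
        rwa [hC.inf_eq_bot, Submodule.mem_bot] at this
      obtain ⟨e, heS, he, hev⟩ := hS'dim
      obtain ⟨y, hy, hye⟩ : ∃ y ∈ S, herm q y e ≠ 0 := by
        by_contra hcon
        push Not at hcon
        apply hev
        rw [← hperp_hperp hF (F ∙ v), mem_hperp]
        exact fun y hy => Cfsg.Agent.Forms.herm_comm_zero hF (hcon y hy)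
      obtain ⟨f, hfS, hp⟩ := exists_pair_mem hF heS he ⟨y, hy, hye⟩
      have hspan := le_span_isotropic hF heS hfS hp hwS
      clear hwv hwS hw
      induction hspan using Submodule.span_induction with
      | mem z hz => exact hiso z hz.1 hz.2.1
      | zero => intro c; rw [smul_zero]; exact uFun_zero M hF.q_ne_zero v
      | add a b _ _ ha hb => intro c; rw [smul_add]; exact uFun_add hF (ha c) (hb c)
      | smul l a _ ha => intro c; rw [smul_smul]; exact ha _
  obtain ⟨h, hm⟩ := hfin 1
  convert hm using 1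
  exact gl_ext_mulVec fun x => by simp [hermL_apply, hw]

/-- `GU ∩ SL` up to similarity is maximal in `SL`, for the standard form. -/
theorem herm_similarity_maximal (hn : 5 ≤ n) :
    IsMaximalIn (specialLinear (Fin n) F)
      (similarityGroup (Cfsg.hermForm n F q) ⊓ specialLinear (Fin n) F) := by
  haveI : Nontrivial (Fin n) := Fin.nontrivial_iff_two_le.2 (by omega)
  obtain ⟨ρ, hρ⟩ := hF.exists_trace (c := (1 : F)) (one_pow q)
  obtain ⟨δ, hδ0, hδ⟩ := hF.exists_skew
  have htop : ∀ {e : Fin n → F}, e ≠ 0 → herm q e e = 0 → ∃ f, IsUPair q e f := fun {e} he0 he => by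
    obtain ⟨y, hy⟩ : ∃ y, herm q y e ≠ 0 := by
      by_contra hcon
      push Not at hcon
      exact he0 (hF.eq_zero_of_herm e fun x =>
        by rw [← hF.herm_symm, hcon x, zero_pow hF.q_ne_zero])
    obtain ⟨f, -, hf⟩ := exists_pair_mem hF (Submodule.mem_top (x := e)) he ⟨y, trivial, hy⟩
    exact ⟨f, hf⟩
  obtain ⟨e₀, -, he₀0, he₀⟩ := exists_isotropic_mem hF (S := (⊤ : Submodule F (Fin n → F)))
    (by rw [finrank_top, Module.finrank_pi, Fintype.card_fin]; omega)
  obtain ⟨f₀, hp₀⟩ := htop he₀0 he₀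
  refine ⟨lt_of_le_not_ge inf_le_right fun hle => ?_, fun M hM hMK => ?_⟩
  · obtain ⟨-, hf, hef⟩ := hp₀
    have hfe : herm q f₀ e₀ = 1 := by rw [← hF.herm_symm, hef, one_pow]
    have h0 : hermL q (ρ • e₀) e₀ = 0 := by
      rw [hermL_apply, herm_smul_right, he₀, mul_zero]
    obtain ⟨μ, hμ⟩ := (hle (transv_mem_specialLinear (hermL q (ρ • e₀)) e₀ h0)).1
    have h1 := hμ e₀ f₀
    have h2 := hμ f₀ f₀
    simp only [transv_mulVec, h0, zero_smul, add_zero, hermL_apply] at h1 h2
    change herm q _ _ = _ * herm q _ _ at h1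
    change herm q _ _ = _ * herm q _ _ at h2
    simp only [herm_add_left, hF.herm_add_right, herm_smul_left, herm_smul_right, he₀, hf, hef,
      hfe, mul_zero, mul_one, add_zero, zero_add, hF.pow_pow] at h1 h2
    have : ρ + ρ ^ q = 0 := by linear_combination h2
    rw [hρ] at this
    exact one_ne_zero this
  by_cases hMW : M ≤ similarityGroup (Cfsg.hermForm n F q)
  · exact Or.inl (le_antisymm (le_inf hMW hMK) hM)
  refine Or.inr (le_antisymm hMK ?_)
  have hSU : ∀ k ∈ SUG n F q, ugToGL n F q k ∈ M := fun k hk =>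
    hM ⟨⟨1, fun a b => by
      rw [ugToGL_mulVec, ugToGL_mulVec, Units.val_one, one_mul]; exact UG_app k a b⟩,
      (ugToGL_mem_suGL hk).2⟩
  have htrv : ∀ {e : Fin n → F}, herm q e e = 0 → ∀ {d : F}, d ^ q = -d →
      d ^ q • e ∈ uFun q M e := by
    intro e he d hd
    refine ⟨by rw [hermL_apply, herm_smul_right, he, mul_zero], ?_⟩
    convert hSU _ (det_uni hF ((TrvCond.uniCond hF ⟨he, hd⟩ : UniCond q e 0 d))) using 1
    refine gl_ext_mulVec fun x => ?_
    rw [transv_mulVec, ugToGL_mulVec, uni_apply, hermL_apply, herm_smul_right, hF.pow_pow,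
      hF.herm_zero_right]
    module
  obtain ⟨g, hgM, hgW⟩ := SetLike.not_le_iff_exists.1 hMW
  set G : Matrix (Fin n) (Fin n) F := (g : Matrix (Fin n) (Fin n) F) with hG
  have hconj : ∀ {e : Fin n → F}, ∀ w ∈ uFun q M e,
      ∀ w', (∀ x, herm q x w' = herm q (((g⁻¹ : GL (Fin n) F) : Matrix (Fin n) (Fin n) F) *ᵥ x) w) →
      w' ∈ uFun q M (G *ᵥ e) := by
    intro e w hw w' hw'
    obtain ⟨h, hm⟩ := hw
    have h0 : hermL q w' (G *ᵥ e) = 0 := by
      rw [hermL_apply, hw', Matrix.mulVec_mulVec, hG, ← Units.val_mul, inv_mul_cancel,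
        Units.val_one, Matrix.one_mulVec]
      exact h
    refine ⟨h0, ?_⟩
    convert mul_mem (mul_mem hgM hm) (inv_mem hgM) using 1
    refine gl_ext_mulVec fun x => ?_
    simp only [Units.val_mul, ← Matrix.mulVec_mulVec, transv_mulVec, hermL_apply, hw',
      Matrix.mulVec_add, Matrix.mulVec_smul, ← hG]
    rw [show G *ᵥ (((g⁻¹ : GL (Fin n) F) : Matrix (Fin n) (Fin n) F) *ᵥ x) = x from
      mulVec_inv_cancel g x]
  -- a transvection of `M` outside the unitary group
  obtain ⟨v, w, hv0, hwY, hwv⟩ : ∃ v w, v ≠ 0 ∧ w ∈ uFun q M v ∧ w ∉ F ∙ v := by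
    by_contra hcon
    push Not at hcon
    refine hgW ?_
    have hprop : ∀ e, herm q e e = 0 → ∃ μ, ∀ y, herm q (G *ᵥ y) (G *ᵥ e) = μ * herm q y e := by
      intro e he
      rcases eq_or_ne e 0 with rfl | he0
      · exact ⟨0, fun y => by rw [Matrix.mulVec_zero, hF.herm_zero_right, zero_mul]⟩
      obtain ⟨w', hw'⟩ := exists_herm_rep hF (hermL q (δ ^ q • e) ∘ₗ
        Matrix.toLin' ((g⁻¹ : GL (Fin n) F) : Matrix (Fin n) (Fin n) F))
      have hw'' : ∀ x, herm q x w' = herm q (((g⁻¹ : GL (Fin n) F) : Matrix (Fin n) (Fin n) F) *ᵥ x)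
          (δ ^ q • e) := fun x => by rw [hw' x]; simp [hermL_apply]
      have hval : ∀ y, herm q (G *ᵥ y) w' = δ * herm q y e := fun y => by
        rw [hw'', Matrix.mulVec_mulVec, hG, ← Units.val_mul, inv_mul_cancel, Units.val_one,
          Matrix.one_mulVec, herm_smul_right, hF.pow_pow]
      have hge : G *ᵥ e ≠ 0 := fun h => he0 (mulVec_injective g (by simpa [hG] using h))
      obtain ⟨l, rfl⟩ := Submodule.mem_span_singleton.1
        (hcon _ w' hge (hconj _ (htrv he hδ) w' hw''))
      have hl : l ^ q ≠ 0 := by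
        intro hl
        obtain ⟨f, -, hf, hef⟩ := htop he0 he
        have := hval f
        rw [herm_smul_right, hl, zero_mul, ← hF.herm_symm e f, hef, one_pow, mul_one] at this
        exact hδ0 this.symm
      refine ⟨δ / l ^ q, fun y => ?_⟩
      rw [div_mul_eq_mul_div, eq_div_iff hl, ← hval y, herm_smul_right, mul_comm]
    choose! μ hμ using hprop
    have hflip : ∀ e z, herm q e e = 0 → herm q z z = 0 → herm q z e ≠ 0 → μ e = μ z ^ q := by
      intro e z he hz hze
      have h1 := hμ e he z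
      rw [← hF.herm_symm (G *ᵥ e) (G *ᵥ z), hμ z hz e, mul_pow, hF.herm_symm] at h1
      exact (mul_right_cancel₀ hze h1).symm
    have hconst : ∀ e, e ≠ 0 → herm q e e = 0 → μ e = μ e₀ := by
      intro e he0 he
      obtain ⟨-, hf, hef⟩ := id hp₀
      have hfe : herm q f₀ e₀ = 1 := by rw [← hF.herm_symm, hef, one_pow]
      have hzz : herm q (e₀ + δ • f₀) (e₀ + δ • f₀) = 0 := by
        simp only [herm_add_left, hF.herm_add_right, herm_smul_left, herm_smul_right, he₀, hf,
          hef, hfe, hδ]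
        ring
      have a1 := hflip e₀ _ he₀ hzz (by
        rw [herm_add_left, herm_smul_left, he₀, hfe, zero_add, mul_one]; exact hδ0)
      have a2 := hflip f₀ _ hf hzz (by
        rw [herm_add_left, herm_smul_left, hf, hef, mul_zero, add_zero]; exact one_ne_zero)
      have a3 := hflip e₀ f₀ he₀ hf (by rw [hfe]; exact one_ne_zero)
      have hfix : μ e₀ ^ q = μ e₀ := by rw [a2, ← a1] at a3; exact a3.symm
      by_cases hee : herm q e e₀ = 0
      · obtain ⟨z, hz, h1, h2⟩ := exists_isotropic_not_orth hF he0 he he₀0 hee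
        rw [hflip e z he hz (by rw [← hF.herm_symm]; exact pow_ne_zero _ h1),
          hflip e₀ z he₀ hz (by rw [← hF.herm_symm]; exact pow_ne_zero _ h2)]
      · rw [hflip e e₀ he he₀ (by rw [← hF.herm_symm]; exact pow_ne_zero _ hee), hfix]
    have hall : ∀ y e, herm q (G *ᵥ y) (G *ᵥ e) = μ e₀ * herm q y e := by
      intro y e
      obtain ⟨-, hf, hef⟩ := hp₀
      have hspan := le_span_isotropic hF (S := ⊤) (e := e₀) (f := f₀) trivial trivial
        ⟨he₀, hf, hef⟩ (Submodule.mem_top (x := e))
      induction hspan using Submodule.span_induction with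
      | mem z hz =>
        rw [hμ z hz.2.1, hconst z (fun h => hz.2.2 (by rw [h, herm_zero_left])) hz.2.1]
      | zero => rw [Matrix.mulVec_zero, hF.herm_zero_right, hF.herm_zero_right, mul_zero]
      | add a b _ _ ha hb =>
        rw [Matrix.mulVec_add, hF.herm_add_right, hF.herm_add_right, ha, hb, mul_add]
      | smul c a _ ha =>
        rw [Matrix.mulVec_smul, herm_smul_right, herm_smul_right, ha]; ring
    have hμ0 : μ e₀ ≠ 0 := fun h => he₀0 (by
      refine mulVec_injective g (?_ : G *ᵥ e₀ = G *ᵥ 0)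
      rw [Matrix.mulVec_zero]
      refine hF.eq_zero_of_herm _ fun x => ?_
      obtain ⟨y, rfl⟩ : ∃ y, x = G *ᵥ y := ⟨_, (mulVec_inv_cancel g x).symm⟩
      rw [hall, h, zero_mul])
    exact ⟨Units.mk0 _ hμ0, fun a b => hall a b⟩
  -- an isotropic one
  obtain ⟨v, w, hv0, hv, hwY, hwv⟩ :
      ∃ v w, v ≠ 0 ∧ herm q v v = 0 ∧ w ∈ uFun q M v ∧ w ∉ F ∙ v := by
    by_cases hv : herm q v v = 0
    · exact ⟨v, w, hv0, hv, hwY, hwv⟩
    obtain ⟨hvw0', hm⟩ := id hwY
    have hvw0 : herm q v w = 0 := hvw0'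
    have hwv0 := Cfsg.Agent.Forms.herm_comm_zero hF hvw0
    obtain ⟨φ, hφw, hφv⟩ := exists_functional (p := F ∙ v) hwv
    obtain ⟨a, ha⟩ := exists_herm_rep hF φ
    have haw : herm q a w = 1 := by rw [← hF.herm_symm, ha, hφw, one_pow]
    have hav : herm q a v = 0 := by
      rw [← hF.herm_symm, ha, hφv v (Submodule.mem_span_singleton_self v), zero_pow hF.q_ne_zero]
    obtain ⟨β, hβ⟩ := hF.exists_trace (c := -herm q v v) (by rw [hF.neg_pow, hF.herm_symm])
    obtain ⟨z₀, hz₀⟩ : ∃ x, x = a + (β / herm q v v) • v := ⟨_, rfl⟩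
    have hz₀v : herm q z₀ v = β := by
      rw [hz₀, herm_add_left, herm_smul_left, hav, div_mul_cancel₀ _ hv, zero_add]
    have hz₀w : herm q z₀ w = 1 := by
      rw [hz₀, herm_add_left, herm_smul_left, haw, hvw0, mul_zero, add_zero]
    set K := hperp q (Submodule.span F (Set.range ![v, w, z₀])) with hK
    have hKdim : n - 3 ≤ finrank F K := by
      rw [hK, finrank_hperp hF]
      have := (finrank_range_le_card (R := F) ![v, w, z₀]).trans_eq (Fintype.card_fin 3)
      unfold Set.finrank at this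
      omega
    have hKmem : ∀ {x}, x ∈ K → herm q x v = 0 ∧ herm q x w = 0 ∧ herm q x z₀ = 0 := fun {x} hx =>
      ⟨hx v (Submodule.subset_span ⟨0, rfl⟩), hx w (Submodule.subset_span ⟨1, rfl⟩),
        hx z₀ (Submodule.subset_span ⟨2, rfl⟩)⟩
    obtain ⟨y, hyK, hy, hzind'⟩ : ∃ y ∈ K, herm q y y = -herm q z₀ z₀ ∧
        ∀ a b : F, z₀ + y ≠ a • v + b • w := by
      obtain ⟨e, heK, he0, he⟩ := exists_isotropic_mem hF (S := K) (by omega)
      by_cases hz00 : herm q z₀ z₀ = 0
      · by_cases hne : ∀ a b : F, z₀ + e ≠ a • v + b • w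
        · exact ⟨e, heK, by rw [he, hz00, neg_zero], hne⟩
        push Not at hne
        obtain ⟨a, b, hab⟩ := hne
        refine ⟨0, K.zero_mem, by rw [herm_zero_left, hz00, neg_zero], fun a' b' hab' => he0 ?_⟩
        rw [add_zero] at hab'
        have h1 : herm q (z₀ + e) v = β := by rw [herm_add_left, (hKmem heK).1, hz₀v, add_zero]
        have h2 : herm q (z₀ + e) w = 1 := by rw [herm_add_left, (hKmem heK).2.1, hz₀w, add_zero]
        have h1' := hz₀v
        have h2' := hz₀w
        rw [hab, herm_add_left, herm_smul_left, herm_smul_left, hwv0, mul_zero, add_zero] at h1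
        rw [hab', herm_add_left, herm_smul_left, herm_smul_left, hwv0, mul_zero, add_zero] at h1'
        rw [hab, herm_add_left, herm_smul_left, herm_smul_left, hvw0, mul_zero, zero_add] at h2
        rw [hab', herm_add_left, herm_smul_left, herm_smul_left, hvw0, mul_zero, zero_add] at h2'
        have hww : herm q w w ≠ 0 := fun h => one_ne_zero (α := F) (by rw [← h2, h, mul_zero])
        rw [mul_right_cancel₀ hv (h1'.trans h1.symm), mul_right_cancel₀ hww (h2'.trans h2.symm),
          ← hab] at hab'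
        simpa using hab'
      obtain ⟨f, hfK, hef⟩ : ∃ f ∈ K, herm q e f ≠ 0 ∨ herm q f f ≠ 0 := by
        by_contra hcon
        push Not at hcon
        have hiso : ∀ a ∈ K, ∀ b ∈ K, herm q a b = 0 := by
          intro a ha b hb
          by_contra hab
          have h := (hcon _ (K.add_mem ha (K.smul_mem ((ρ / herm q a b) ^ q) hb))).2
          simp only [herm_add_left, hF.herm_add_right, herm_smul_left, herm_smul_right,
            (hcon a ha).2, (hcon b hb).2, hF.pow_pow, mul_zero, add_zero, zero_add,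
            ← hF.herm_symm a b, ← mul_pow, div_mul_cancel₀ _ hab] at h
          exact one_ne_zero (show (1 : F) = 0 by linear_combination h - hρ)
        have hle : K ≤ hperp q K := fun a ha b hb => hiso a ha b hb
        -- a totally isotropic `K` lies in the radical of the span of `v`, `w`, `z₀`: a line
        obtain ⟨x₀, hx₀⟩ : ∃ x₀ : Fin n → F, ∀ x ∈ K, x ∈ F ∙ x₀ := by
          classical
          refine ⟨if herm q w w = 0 then w else
            (-β / herm q v v) • v + (-1 / herm q w w) • w + z₀, fun x hx => ?_⟩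
          have hxW := hle hx
          rw [hK, hperp_hperp hF, Submodule.mem_span_range_iff_exists_fun] at hxW
          obtain ⟨c, rfl⟩ := hxW
          obtain ⟨hxv, hxw, -⟩ := hKmem hx
          simp only [Fin.sum_univ_three, Matrix.cons_val_zero, Matrix.cons_val_one,
            Matrix.cons_val_two, Matrix.tail_cons, Matrix.head_cons, herm_add_left, herm_smul_left,
            hvw0, hwv0, hz₀v, hz₀w, mul_zero, add_zero, zero_add, mul_one] at hxv hxw
          simp only [Fin.sum_univ_three, Matrix.cons_val_zero, Matrix.cons_val_one,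
            Matrix.cons_val_two, Matrix.tail_cons, Matrix.head_cons]
          split_ifs with hww
          · rw [hww, mul_zero, zero_add] at hxw
            rw [hxw, zero_mul, add_zero, mul_eq_zero] at hxv
            rw [hxw, hxv.resolve_right hv, zero_smul, zero_smul, zero_add, add_zero]
            exact Submodule.smul_mem _ _ (Submodule.mem_span_singleton_self _)
          · refine Submodule.mem_span_singleton.2 ⟨c 2, ?_⟩
            have e0 : c 0 = c 2 * (-β / herm q v v) := by
              field_simp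
              linear_combination hxv
            have e1 : c 1 = c 2 * (-1 / herm q w w) := by
              field_simp
              linear_combination hxw
            rw [e0, e1]
            module
        have hK1 : finrank F K ≤ 1 := by
          refine (Submodule.finrank_mono (show K ≤ F ∙ x₀ from hx₀)).trans ?_
          have := finrank_span_le_card (R := F) ({x₀} : Set (Fin n → F))
          simpa using this
        omega
      obtain ⟨u, huK, hu⟩ : ∃ u ∈ K, herm q u u ≠ 0 := by
        rcases hef with hef | hef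
        · by_cases hff : herm q f f = 0
          · refine ⟨(ρ / herm q e f) • e + f, K.add_mem (K.smul_mem _ heK) hfK, ?_⟩
            simp only [herm_add_left, hF.herm_add_right, herm_smul_left, herm_smul_right, he, hff,
              ← hF.herm_symm e f, mul_zero, add_zero, zero_add, ← mul_pow,
              div_mul_cancel₀ _ hef, hρ]
            exact fun h => one_ne_zero (show (1 : F) = 0 by linear_combination h - hρ)
          · exact ⟨f, hfK, hff⟩
        · exact ⟨f, hfK, hef⟩
      obtain ⟨l, hl⟩ := hF.exists_norm (c := -herm q z₀ z₀ / herm q u u)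
        (by rw [div_pow, hF.neg_pow, hF.herm_symm, hF.herm_symm])
      have hly : ∀ l', l' ^ (q + 1) = -herm q z₀ z₀ / herm q u u →
          herm q (l' • u) (l' • u) = -herm q z₀ z₀ := fun l' hl' => by
        rw [herm_smul_left, herm_smul_right, ← mul_assoc, ← pow_succ', hl', div_mul_cancel₀ _ hu]
      obtain ⟨μ, hμ, hμ1⟩ : ∃ μ : F, μ ^ (q + 1) = 1 ∧ μ ≠ 1 := by
        by_cases h2 : (2 : F) = 0
        · have hρ0 : ρ ≠ 0 := fun h => one_ne_zero (α := F) (by
            rw [← hρ, h, zero_pow hF.q_ne_zero, add_zero])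
          refine ⟨ρ ^ q / ρ, ?_, fun h => ?_⟩
          · rw [div_pow, div_eq_one_iff_eq (pow_ne_zero _ hρ0)]
            calc (ρ ^ q) ^ (q + 1) = (ρ ^ q) ^ q * ρ ^ q := pow_succ _ _
              _ = ρ ^ (q + 1) := by rw [hF.pow_pow, ← pow_succ']
          · rw [div_eq_one_iff_eq hρ0] at h
            rw [h] at hρ
            exact one_ne_zero (α := F) (by linear_combination -hρ + ρ * h2)
        · refine ⟨-1, ?_, fun h => h2 (by linear_combination -h)⟩
          have := hF.neg_pow (1 : F)
          rw [one_pow] at this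
          rw [pow_succ, this]; ring
      by_cases hne : ∀ a b : F, z₀ + l • u ≠ a • v + b • w
      · exact ⟨l • u, K.smul_mem _ huK, hly l hl, hne⟩
      push Not at hne
      obtain ⟨a, b, hab⟩ := hne
      have hl' : (μ * l) ^ (q + 1) = -herm q z₀ z₀ / herm q u u := by rw [mul_pow, hμ, one_mul, hl]
      refine ⟨(μ * l) • u, K.smul_mem _ huK, hly _ hl', fun a' b' hab' => ?_⟩
      have hlv : ∀ r : F, herm q (z₀ + r • u) v = β := fun r => by
        rw [herm_add_left, herm_smul_left, (hKmem huK).1, hz₀v, mul_zero, add_zero]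
      have hlw : ∀ r : F, herm q (z₀ + r • u) w = 1 := fun r => by
        rw [herm_add_left, herm_smul_left, (hKmem huK).2.1, hz₀w, mul_zero, add_zero]
      have h1 := hlv l
      have h1' := hlv (μ * l)
      have h2 := hlw l
      have h2' := hlw (μ * l)
      rw [hab, herm_add_left, herm_smul_left, herm_smul_left, hwv0, mul_zero, add_zero] at h1
      rw [hab', herm_add_left, herm_smul_left, herm_smul_left, hwv0, mul_zero, add_zero] at h1'
      rw [hab, herm_add_left, herm_smul_left, herm_smul_left, hvw0, mul_zero, zero_add] at h2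
      rw [hab', herm_add_left, herm_smul_left, herm_smul_left, hvw0, mul_zero, zero_add] at h2'
      obtain rfl : a' = a := mul_right_cancel₀ hv (h1'.trans h1.symm)
      obtain rfl : b' = b := by
        have hww : herm q w w ≠ 0 := fun h => one_ne_zero (α := F) (by rw [← h2, h, mul_zero])
        exact mul_right_cancel₀ hww (h2'.trans h2.symm)
      have hu0 : u ≠ 0 := fun h => hu (by rw [h, herm_zero_left])
      have h3 : (μ * l) • u = l • u := add_left_cancel (hab'.trans hab.symm)
      have h4 := smul_left_injective F hu0 h3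
      rcases eq_or_ne l 0 with rfl | hl0
      · rw [zero_pow (Nat.succ_ne_zero q), eq_comm, div_eq_zero_iff] at hl
        exact hz00 (neg_eq_zero.1 (hl.resolve_right hu))
      · exact hμ1 ((mul_eq_right₀ hl0).1 h4)
    obtain ⟨hyv, hyw, hyz⟩ := hKmem hyK
    obtain ⟨z, hz⟩ : ∃ x, x = z₀ + y := ⟨_, rfl⟩
    have hzv : herm q z v = β := by rw [hz, herm_add_left, hyv, hz₀v, add_zero]
    have hzw : herm q z w = 1 := by rw [hz, herm_add_left, hyw, hz₀w, add_zero]
    have hzz : herm q z z = 0 := by
      rw [hz, herm_add_left, hF.herm_add_right, hF.herm_add_right, hyz,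
        Cfsg.Agent.Forms.herm_comm_zero hF hyz, hy]
      ring
    have hzind : ∀ a b : F, z ≠ a • v + b • w := fun a b h => hzind' a b (hz ▸ h)
    refine ⟨z + v, δ ^ q • (z - β • w), fun h => ?_, ?_, ?_, fun h => ?_⟩
    · exact hzind (-1) 0 (by linear_combination (norm := module) h)
    · rw [herm_add_left, hF.herm_add_right, hF.herm_add_right, hzz, hzv, ← hF.herm_symm z v, hzv]
      linear_combination hβ
    · obtain ⟨h1, h1m⟩ := htrv hzz hδ
      have h0 : hermL q (δ ^ q • (z - β • w)) (z + v) = 0 := by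
        rw [hermL_apply, herm_smul_right, hF.herm_sub_right, herm_add_left, herm_smul_right,
          herm_add_left, hzz, ← hF.herm_symm z v, hzv, hzw, hvw0]
        ring
      refine ⟨h0, ?_⟩
      convert mul_mem (mul_mem hm h1m) (inv_mem hm) using 1
      rw [eq_mul_inv_iff_mul_eq]
      refine gl_ext_mulVec fun x => ?_
      simp only [Units.val_mul, ← Matrix.mulVec_mulVec, transv_mulVec, hermL_apply, map_add,
        map_smul, herm_smul_right, hF.herm_sub_right, herm_add_left, herm_smul_left, hzw, hvw0,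
        ← hF.herm_symm z v, hzv, hF.pow_pow, Matrix.mulVec_add, Matrix.mulVec_smul, smul_eq_mul]
      module
    · obtain ⟨l, hl⟩ := Submodule.mem_span_singleton.1 h
      rcases eq_or_ne (l - δ ^ q) 0 with hd | hd
      · rw [sub_eq_zero] at hd
        subst hd
        have hq : (-δ) ≠ 0 := neg_ne_zero.2 hδ0
        have h2 : v + β • w = 0 := by
          have := congrArg (fun t => (δ ^ q)⁻¹ • t) hl
          simp only [smul_smul, inv_mul_cancel₀ (hδ ▸ hq), one_smul] at this
          linear_combination (norm := module) this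
        have h3 := congrArg (fun t => herm q t v) h2
        simp only [herm_add_left, herm_smul_left, hwv0, mul_zero, add_zero, herm_zero_left] at h3
        exact hv h3
      · refine hzind (-l / (l - δ ^ q)) (-(δ ^ q * β) / (l - δ ^ q)) ?_
        linear_combination (norm := (match_scalars <;> field_simp <;> ring))
          (l - δ ^ q)⁻¹ • hl
  have hvX : v ∈ centres M := mem_centres_of_uFun hF (by omega) hSU hv0 hv hwY hwv
  have hisoX : ∀ u, herm q u u = 0 → u ∈ centres M := by
    intro u hu
    rcases eq_or_ne u 0 with rfl | hu0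
    · simpa using smul_mem_centres hvX 0
    obtain ⟨k, hk, c, hc, hku⟩ := TG_transitive_lines hF hv0 hv hu0 hu
    have := smul_mem_centres (mulVec_mem_centres hvX (hSU k (TG_le_SUG hF hk))) c⁻¹
    rwa [ugToGL_mulVec, hku, inv_smul_smul₀ hc] at this
  refine specialLinear_le_of_transv_mem fun φ u h => ?_
  suffices hu : u ∈ centres M from hu φ h
  by_cases hu : herm q u u = 0
  · exact hisoX u hu
  obtain ⟨z, hz, hzu⟩ : ∃ z, herm q z z = 0 ∧ herm q u z ≠ 0 := by
    by_contra hcon
    push Not at hcon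
    apply hu
    obtain ⟨-, hf, hef⟩ := hp₀
    have hspan := le_span_isotropic hF (S := ⊤) (e := e₀) (f := f₀) trivial trivial
      ⟨he₀, hf, hef⟩ (Submodule.mem_top (x := u))
    have : ∀ x ∈ Submodule.span F {z | z ∈ (⊤ : Submodule F (Fin n → F)) ∧ herm q z z = 0 ∧
        herm q z e₀ ≠ 0}, herm q u x = 0 := fun x hx => by
      induction hx using Submodule.span_induction with
      | mem z hz => exact hcon z hz.2.1
      | zero => exact hF.herm_zero_right u
      | add a b _ _ ha hb => rw [hF.herm_add_right, ha, hb, add_zero]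
      | smul c a _ ha => rw [herm_smul_right, ha, mul_zero]
    exact this u hspan
  obtain ⟨c, hc⟩ := hF.exists_trace (c := herm q u u) (hF.herm_symm u u)
  set z₁ := (c / herm q u z) ^ q • z with hz₁
  have h1 : herm q u z₁ = c := by
    rw [hz₁, herm_smul_right, hF.pow_pow, div_mul_cancel₀ _ hzu]
  have hz₁z : herm q z₁ z₁ = 0 := by rw [hz₁, herm_smul_left, herm_smul_right, hz]; ring
  have hyy : herm q (u - z₁) (u - z₁) = 0 := by
    rw [herm_sub_left, hF.herm_sub_right, hF.herm_sub_right, hz₁z, h1, ← hF.herm_symm u z₁, h1]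
    linear_combination -hc
  have hind : (u - z₁) ∉ F ∙ z₁ := fun h => hu (by
    obtain ⟨l, hl⟩ := Submodule.mem_span_singleton.1 h
    rw [show u = (l + 1) • z₁ by linear_combination (norm := module) -hl, herm_smul_left,
      herm_smul_right, hz₁z]
    ring)
  obtain ⟨ψ, hψ1, hψ⟩ := exists_functional hind
  have h0 := hψ z₁ (Submodule.mem_span_singleton_self z₁)
  have := mulVec_mem_centres (hisoX _ hyy) (hisoX z₁ hz₁z ψ h0)
  rwa [transv_mulVec, hψ1, one_smul, sub_add_cancel] at this

omit hF in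
/-- The similarity group of a unitary form is maximal in `SL`. -/
theorem unitary_similarity_maximal [Fintype F] (hn : 5 ≤ n) {σ : F ≃+* F}
    {f : (Fin n → F) → (Fin n → F) → F} (hf : IsUnitaryForm σ f) :
    IsMaximalIn (specialLinear (Fin n) F) (similarityGroup f ⊓ specialLinear (Fin n) F) := by
  obtain ⟨q, hF, hσ⟩ := exists_sqField_of_involution hf.involutive hf.ne_refl
  have hJ := unitaryForm_eq_formOf hf
  set J := gramMatrix f with hJdef
  have hherm : starMat σ J = J := formOf_injective fun a b => by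
    rw [formOf_star hf.involutive, ← hJ]; exact (hf.herm a b).symm
  have hJu : IsUnit J := by
    rw [Matrix.isUnit_iff_isUnit_det, isUnit_iff_ne_zero]
    intro hdet
    obtain ⟨x, hx0, hx⟩ := Matrix.exists_mulVec_eq_zero_iff.2 hdet
    obtain ⟨⟨y, hy⟩, -⟩ := hf.nondegenerate (fun i => σ.symm (x i))
      (fun h => hx0 (funext fun i => by simpa using congrFun h i))
    apply hy
    rw [hJ, formOf, show (fun i => σ (σ.symm (x i))) = x by funext i; simp, hx, dotProduct_zero]
  obtain ⟨D, hD⟩ := exists_congr_one hf.involutive hf.ne_refl hJu hherm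
  have hfD : ∀ a b, f ((D : Matrix (Fin n) (Fin n) F) *ᵥ a) ((D : Matrix (Fin n) (Fin n) F) *ᵥ b)
      = herm q a b := fun a b => by
    rw [hJ, formOf_mulVec, hD]
    simp [formOf, dotProduct, Cfsg.hermForm, hσ]
  set j := (MulAut.conj D).toMonoidHom with hj
  have hjS : (specialLinear (Fin n) F).map j = specialLinear (Fin n) F := by
    ext g
    simp only [Subgroup.mem_map]
    constructor
    · rintro ⟨k, hk, rfl⟩
      rw [mem_specialLinear_iff] at hk ⊢
      show ((D * k * D⁻¹ : GL (Fin n) F) : Matrix (Fin n) (Fin n) F).det = 1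
      rw [Units.val_mul, Units.val_mul, Matrix.det_units_conj, hk]
    · intro hg
      refine ⟨D⁻¹ * g * D, ?_, by simp [hj]; group⟩
      rw [mem_specialLinear_iff] at hg ⊢
      rw [Units.val_mul, Units.val_mul, Matrix.det_units_conj', hg]
  have hjP : (similarityGroup (Cfsg.hermForm n F q)).map j = similarityGroup f := by
    ext g
    simp only [Subgroup.mem_map]
    constructor
    · rintro ⟨k, ⟨c, hc⟩, rfl⟩
      refine ⟨c, fun a b => ?_⟩
      obtain ⟨a, rfl⟩ : ∃ a', a = (D : Matrix (Fin n) (Fin n) F) *ᵥ a' :=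
        ⟨_, (mulVec_inv_cancel D a).symm⟩
      obtain ⟨b, rfl⟩ : ∃ b', b = (D : Matrix (Fin n) (Fin n) F) *ᵥ b' :=
        ⟨_, (mulVec_inv_cancel D b).symm⟩
      have e : ∀ x, ((j k : GL (Fin n) F) : Matrix (Fin n) (Fin n) F) *ᵥ
          ((D : Matrix (Fin n) (Fin n) F) *ᵥ x) = (D : Matrix (Fin n) (Fin n) F) *ᵥ
            ((k : Matrix (Fin n) (Fin n) F) *ᵥ x) := fun x => by
        show ((D * k * D⁻¹ : GL (Fin n) F) : Matrix (Fin n) (Fin n) F) *ᵥ _ = _
        rw [Matrix.mulVec_mulVec, Matrix.mulVec_mulVec, ← Units.val_mul, ← Units.val_mul,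
          inv_mul_cancel_right]
      rw [e, e, hfD, hfD]
      exact hc a b
    · rintro ⟨c, hc⟩
      refine ⟨D⁻¹ * g * D, ⟨c, fun a b => ?_⟩, by simp [hj]; group⟩
      show herm q _ _ = _ * herm q _ _
      rw [← hfD, ← hfD]
      simp only [Units.val_mul, ← Matrix.mulVec_mulVec, mulVec_inv_cancel]
      exact hc _ _
  have := isMaximalIn_map (j := j) (MulAut.conj D).injective (herm_similarity_maximal hF hn)
  rwa [Subgroup.map_inf _ _ j (MulAut.conj D).injective, hjS, hjP] at this

end Cfsg.Agent.GeoClasses
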