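import Cfsg.Agent.GeoClasses.SympSubfieldMax
import Cfsg.Agent.GeoClasses.FormDecomp
import Cfsg.Agent.MaxSub.LinearClasses

/-!
Subfield groups of prime index are maximal in the symplectic group.
-/

set_option autoImplicit false

namespace Cfsg.Agent.GeoClasses

open Matrix Cfsg.Geo Cfsg.Agent.Forms Cfsg.Agent.ClassicalMax Module
open scoped MatrixGroups Matrix

universe u

section

variable {ι : Type} [Fintype ι] [DecidableEq ι] {F : Type u} [Field F] {F₀ : Subfield F}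

/-- A matrix which is a scalar multiple of a matrix over the subfield, in the basis `P`. -/
lemma mem_subfieldSubgroup_of_ratio {P g : GL ι F} {a : F} (ha : a ≠ 0)
    (h : ∀ i j, a⁻¹ * ((P⁻¹ * g * P : GL ι F) : Matrix ι ι F) i j ∈ F₀) :
    g ∈ subfieldSubgroup F₀ P := by
  set A : GL ι F := P⁻¹ * g * P with hA
  set A₀ : Matrix ι ι F₀ := fun i j => ⟨a⁻¹ * (A : Matrix ι ι F) i j, h i j⟩
  have hmap : F₀.subtype.mapMatrix A₀ = a⁻¹ • (A : Matrix ι ι F) := rfl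
  have hdet : A₀.det ≠ 0 := fun h0 => by
    have := congrArg F₀.subtype h0
    rw [RingHom.map_det, map_zero, hmap, Matrix.det_smul] at this
    exact mul_ne_zero (pow_ne_zero _ (inv_ne_zero ha))
      ((Matrix.isUnit_iff_isUnit_det _).1 (Units.isUnit A)).ne_zero this
  refine ⟨A, ?_, by rw [hA]; simp [mul_assoc]⟩
  have hAeq : A = Matrix.GeneralLinearGroup.map (F₀.subtype : F₀ →+* F)
      (Matrix.GeneralLinearGroup.mkOfDetNeZero A₀ hdet) *
      Units.map (Matrix.scalar ι : F →+* Matrix ι ι F).toMonoidHom (Units.mk0 a ha) := by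
    refine Units.ext (Matrix.ext fun i j => ?_)
    show _ = (A₀.map F₀.subtype * Matrix.scalar ι a) i j
    rw [Matrix.scalar_apply, Matrix.mul_diagonal, Matrix.map_apply]
    show _ = a⁻¹ * _ * a
    rw [mul_comm a⁻¹, mul_assoc, inv_mul_cancel₀ ha, mul_one]
  rw [hAeq]
  exact mul_mem (Subgroup.mem_sup_left ⟨_, rfl⟩) (Subgroup.mem_sup_right ⟨_, rfl⟩)

lemma mulVec_conj_col (P g : GL ι F) (j : ι) :
    ((P⁻¹ * g * P : GL ι F) : Matrix ι ι F) *ᵥ Pi.single j 1 =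
      ((P⁻¹ : GL ι F) : Matrix ι ι F) *ᵥ
        ((g : Matrix ι ι F) *ᵥ ((P : Matrix ι ι F) *ᵥ Pi.single j 1)) := by
  simp only [Units.val_mul, ← Matrix.mulVec_mulVec]

end

variable {F : Type u} [Field F] {m : ℕ}

/-- The vectors with coordinates in the subfield, in the basis `P`. -/
def ratVecs (F₀ : Subfield F) (P : GL (Fin m ⊕ Fin m) F) : Set (Fin m ⊕ Fin m → F) :=
  {x | ∀ i : Fin m ⊕ Fin m,
    (((P⁻¹ : GL (Fin m ⊕ Fin m) F) : Matrix (Fin m ⊕ Fin m) (Fin m ⊕ Fin m) F) *ᵥ x) i ∈ F₀}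

lemma ratSp_ratVecs {F₀ : Subfield F} {ζ : F} (hζ : ζ ≠ 0) {P : GL (Fin m ⊕ Fin m) F}
    (hP : IsFormRationalStructure (Cfsg.sympForm m F) F₀ ζ P) : RatSp F₀ ζ (ratVecs F₀ P) := by
  classical
  set Q := ((P⁻¹ : GL (Fin m ⊕ Fin m) F) : Matrix (Fin m ⊕ Fin m) (Fin m ⊕ Fin m) F) with hQ
  set Pm := (P : Matrix (Fin m ⊕ Fin m) (Fin m ⊕ Fin m) F) with hPm
  have hPQ : ∀ x, Pm *ᵥ (Q *ᵥ x) = x := gl_mulVec_inv P
  have hQP : ∀ x, Q *ᵥ (Pm *ᵥ x) = x := gl_inv_mulVec P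
  have form : ∀ {x y}, x ∈ ratVecs F₀ P → y ∈ ratVecs F₀ P → ζ * sympBil m F x y ∈ F₀ := by
    intro x y hx hy
    rw [sympBil_apply, ← hPQ x, ← hPQ y]
    exact hP _ _ hx hy
  have hbasis : ∀ j, Pm *ᵥ Pi.single j 1 ∈ ratVecs F₀ P := fun j i => by
    show (Q *ᵥ (Pm *ᵥ Pi.single j 1)) i ∈ F₀
    rw [hQP]
    by_cases h : i = j <;> simp [h]
  have hexp : ∀ x, x = ∑ j, (Q *ᵥ x) j • (Pm *ᵥ Pi.single j 1) := fun x => by
    conv_lhs => rw [← hPQ x, pi_eq_sum_univ' (Q *ᵥ x), Matrix.mulVec_sum]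
    simp only [Matrix.mulVec_smul]
  have span : Submodule.span F (ratVecs F₀ P) = ⊤ := by
    refine eq_top_iff.2 fun x _ => ?_
    rw [hexp x]
    exact Submodule.sum_mem _ fun j _ => Submodule.smul_mem _ _ (Submodule.subset_span (hbasis j))
  refine ⟨hζ, fun i => ?_, fun hx hy i => ?_, fun ha hx i => ?_, form, span, ?_, ?_⟩
  · show (Q *ᵥ 0) i ∈ F₀
    simp
  · show (Q *ᵥ _) i ∈ F₀
    rw [Matrix.mulVec_add, Pi.add_apply]
    exact add_mem (hx i) (hy i)
  · show (Q *ᵥ _) i ∈ F₀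
    rw [Matrix.mulVec_smul, Pi.smul_apply, smul_eq_mul]
    exact mul_mem ha (hx i)
  · -- the Gram matrix over the subfield
    intro x hx
    set G₀ : Matrix (Fin m ⊕ Fin m) (Fin m ⊕ Fin m) F₀ := fun i j =>
      ⟨ζ * sympBil m F (Pm *ᵥ Pi.single i 1) (Pm *ᵥ Pi.single j 1), form (hbasis i) (hbasis j)⟩
    have hvm : ∀ y j, ((Q *ᵥ y) ᵥ* G₀.map F₀.subtype) j =
        ζ * sympBil m F y (Pm *ᵥ Pi.single j 1) := fun y j => by
      conv_rhs => rw [hexp y]
      rw [map_sum, LinearMap.sum_apply, Finset.mul_sum]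
      simp only [Matrix.vecMul, dotProduct, Matrix.map_apply, map_smul, LinearMap.smul_apply,
        smul_eq_mul]
      refine Finset.sum_congr rfl fun i _ => ?_
      show _ * (ζ * _) = _
      ring
    have hunit : IsUnit (G₀.map F₀.subtype) := by
      rw [← Matrix.vecMul_injective_iff_isUnit]
      intro u v huv
      suffices h : ∀ w, w ᵥ* G₀.map F₀.subtype = 0 → w = 0 by
        exact sub_eq_zero.1 (h _ (by rw [Matrix.sub_vecMul]; exact sub_eq_zero.2 huv))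
      intro w hw
      have h0 : Pm *ᵥ w = 0 := sympBil_nondegenerate.1 _ fun y => by
        rw [hexp y, map_sum]
        refine Finset.sum_eq_zero fun j _ => ?_
        have := congrFun hw j
        rw [← hQP w, hvm] at this
        rw [map_smul, (mul_eq_zero.1 this).resolve_left hζ, smul_zero]
      rw [← hQP w, h0, Matrix.mulVec_zero]
    have hdet : IsUnit G₀.det := by
      rw [Matrix.isUnit_iff_isUnit_det, isUnit_iff_ne_zero] at hunit
      rw [isUnit_iff_ne_zero]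
      intro h0
      apply hunit
      show (F₀.subtype.mapMatrix G₀).det = 0
      rw [← RingHom.map_det, h0, map_zero]
    set r : Fin m ⊕ Fin m → F₀ := fun j =>
      ⟨ζ * sympBil m F x (Pm *ᵥ Pi.single j 1), hx _ (hbasis j)⟩
    have key : Q *ᵥ x = fun i => (((r ᵥ* G₀⁻¹) i : F₀) : F) := by
      apply Matrix.vecMul_injective_iff_isUnit.2 hunit
      funext j
      show ((Q *ᵥ x) ᵥ* G₀.map F₀.subtype) j = _
      have h1 := congrFun (show (r ᵥ* G₀⁻¹) ᵥ* G₀ = r by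
        rw [Matrix.vecMul_vecMul, Matrix.nonsing_inv_mul _ hdet, Matrix.vecMul_one]) j
      rw [hvm]
      exact (congrArg F₀.subtype h1).symm.trans (RingHom.map_vecMul F₀.subtype _ _ j)
    intro i
    show (Q *ᵥ x) i ∈ F₀
    rw [key]
    exact SetLike.coe_mem _
  · intro k hk s hs
    let φ : (Fin m ⊕ Fin m → F₀) →ₗ[F₀] (Fin k → F₀) :=
      { toFun := fun u i => ∑ j, u j * ⟨ζ * sympBil m F (Pm *ᵥ Pi.single j 1) (s i),
          form (hbasis j) (hs i)⟩
        map_add' := fun u v => by funext i; simp [add_mul, Finset.sum_add_distrib]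
        map_smul' := fun c u => by
          funext i
          simp only [Pi.smul_apply, smul_eq_mul, RingHom.id_apply, Finset.mul_sum, mul_assoc] }
    have hker : LinearMap.ker φ ≠ ⊥ := by
      intro h
      have := LinearMap.finrank_le_finrank_of_injective (LinearMap.ker_eq_bot.1 h)
      simp at this
      omega
    obtain ⟨u, hu, hu0⟩ := Submodule.exists_mem_ne_zero_of_ne_bot hker
    refine ⟨Pm *ᵥ fun j => (u j : F), fun i => ?_, fun h => hu0 ?_, fun i => ?_⟩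
    · show (Q *ᵥ _) i ∈ F₀
      rw [hQP]
      exact SetLike.coe_mem _
    · have := congrArg (fun v => Q *ᵥ v) h
      simp only [hQP, Matrix.mulVec_zero] at this
      funext j
      exact Subtype.ext (congrFun this j)
    · have h1 := congrArg F₀.subtype (congrFun (LinearMap.mem_ker.1 hu) i)
      simp only [φ, LinearMap.coe_mk, AddHom.coe_mk, map_sum, map_mul, Pi.zero_apply, map_zero] at h1
      rw [hexp (Pm *ᵥ _), map_sum, LinearMap.sum_apply, hQP]
      simp only [map_smul, LinearMap.smul_apply, smul_eq_mul]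
      apply mul_left_cancel₀ hζ
      rw [mul_zero, ← h1, Finset.mul_sum]
      refine Finset.sum_congr rfl fun j _ => ?_
      show _ = (u j : F) * (ζ * _)
      ring

theorem spGL_subfield_maximal [Fintype F] (hm : 4 ≤ m) {F₀ : Subfield F} {r : ℕ} (hr : r.Prime)
    (hcard : Fintype.card F = Nat.card F₀ ^ r) {P : GL (Fin m ⊕ Fin m) F} {ζ : F} (hζ : ζ ≠ 0)
    (hP : IsFormRationalStructure (Cfsg.sympForm m F) F₀ ζ P) :
    IsMaximalIn (Cfsg.spGL m F) (subfieldSubgroup F₀ P ⊓ Cfsg.spGL m F) := by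
  classical
  have hperf := spGL_commutator (F := F) (m := m) (Or.inl (by omega))
  refine ⟨lt_of_le_not_ge inf_le_right fun hle => spGL_not_le_subfieldSubgroup (by omega) hperf
    (MaxSub.subfield_ne_top hr hcard) P (hle.trans inf_le_left), fun M hM hMK => ?_⟩
  have hmid := MaxSub.SubfieldMax.mid_of_prime hr hcard
  have hR := ratSp_ratVecs hζ hP
  set R := ratVecs F₀ P with hRdef
  have hbasis : ∀ j, (P : Matrix (Fin m ⊕ Fin m) (Fin m ⊕ Fin m) F) *ᵥ Pi.single j 1 ∈ R :=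
    fun j i => by
      show (((P⁻¹ : GL (Fin m ⊕ Fin m) F) : Matrix (Fin m ⊕ Fin m) (Fin m ⊕ Fin m) F) *ᵥ _) i ∈ F₀
      rw [gl_inv_mulVec]
      by_cases h : i = j <;> simp [h]
  have hT : ∀ v ∈ R, ∀ a ∈ F₀, spTau v (a * ζ) ∈ M := fun v hv a ha =>
    hM ⟨mem_subfieldSubgroup_of_ratio one_ne_zero fun i j => by
      have h2 := ratTau_map hR hv ha (hbasis j) i
      rw [inv_one, one_mul]
      have h3 : ((P⁻¹ * spTau v (a * ζ) * P : GL (Fin m ⊕ Fin m) F) : Matrix (Fin m ⊕ Fin m) (Fin m ⊕ Fin m) F) i j =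
          (((P⁻¹ : GL (Fin m ⊕ Fin m) F) : Matrix (Fin m ⊕ Fin m) (Fin m ⊕ Fin m) F) *ᵥ
            ((spTau v (a * ζ) : Matrix (Fin m ⊕ Fin m) (Fin m ⊕ Fin m) F) *ᵥ
              ((P : Matrix (Fin m ⊕ Fin m) (Fin m ⊕ Fin m) F) *ᵥ Pi.single j 1))) i := by
        rw [← mulVec_conj_col]; simp
      rw [h3, spTau_apply]
      exact h2, spTau_mem _ _⟩
  by_cases hirr : ∃ g ∈ M, ∃ v ∈ R, ∀ κ : F,
      κ • ((g : Matrix (Fin m ⊕ Fin m) (Fin m ⊕ Fin m) F) *ᵥ v) ∈ R → κ = 0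
  · obtain ⟨g, hg, v, hv, hgv⟩ := hirr
    right
    refine le_antisymm hMK ?_
    obtain ⟨p, hp, hp0, κ, hκ, hκM⟩ := exists_irrational_param hR hMK hT hm hmid hgv
      fun a ha => spTau_conj_mem hMK hg (hT v hv a ha)
    refine spGL_le_of_rat_centres hR ?_ fun z hz =>
      rat_mem_spCentres hR hMK hT hmid hp hp0 hκ hκM hz
    rw [hcard]
    calc 4 = 2 ^ 2 := rfl
      _ ≤ 2 ^ r := Nat.pow_le_pow_right (by norm_num) hr.two_le
      _ ≤ _ := Nat.pow_le_pow_left (Finite.one_lt_card (α := F₀)) r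
  push Not at hirr
  left
  refine le_antisymm (le_inf (fun g hg => ?_) hMK) hM
  have hsc : ∀ v ∈ R, ∃ κ : F, κ ≠ 0 ∧
      κ • ((g : Matrix (Fin m ⊕ Fin m) (Fin m ⊕ Fin m) F) *ᵥ v) ∈ R := fun v hv => by
    obtain ⟨κ, h1, h2⟩ := hirr g hg v hv
    exact ⟨κ, h2, h1⟩
  set e : Fin m ⊕ Fin m → (Fin m ⊕ Fin m → F) :=
    fun j => (P : Matrix (Fin m ⊕ Fin m) (Fin m ⊕ Fin m) F) *ᵥ Pi.single j 1 with he
  choose κ hκ0 hκR using fun j => hsc (e j) (hbasis j)
  set G : (Fin m ⊕ Fin m → F) →ₗ[F] (Fin m ⊕ Fin m → F) :=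
    Matrix.toLin' (g : Matrix (Fin m ⊕ Fin m) (Fin m ⊕ Fin m) F)
  have hG : ∀ v, G v = (g : Matrix (Fin m ⊕ Fin m) (Fin m ⊕ Fin m) F) *ᵥ v := fun v =>
    Matrix.toLin'_apply _ v
  have hratio : ∀ i j, κ i / κ j ∈ F₀ := by
    intro i j
    rcases eq_or_ne i j with rfl | hij
    · rw [div_self (hκ0 i)]; exact one_mem _
    obtain ⟨t, ht0, htR⟩ := hsc (e i + e j) (hR.add (hbasis i) (hbasis j))
    rw [← hG, map_add, smul_add, hG, hG] at htR
    have hndep : ∀ i j, i ≠ j → (g : Matrix (Fin m ⊕ Fin m) (Fin m ⊕ Fin m) F) *ᵥ e j ∉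
        F ∙ (κ i • ((g : Matrix (Fin m ⊕ Fin m) (Fin m ⊕ Fin m) F) *ᵥ e i)) := by
      intro i j hij h
      obtain ⟨c, hc⟩ := Submodule.mem_span_singleton.1 h
      rw [smul_smul, ← Matrix.mulVec_smul] at hc
      have h1 := mulVec_injective (ι := Fin m ⊕ Fin m) g hc
      rw [he, ← Matrix.mulVec_smul] at h1
      have := congrFun (mulVec_injective (ι := Fin m ⊕ Fin m) P h1) j
      simp [Ne.symm hij] at this
    have key : ∀ i j, i ≠ j → t • ((g : Matrix (Fin m ⊕ Fin m) (Fin m ⊕ Fin m) F) *ᵥ e i) +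
        t • ((g : Matrix (Fin m ⊕ Fin m) (Fin m ⊕ Fin m) F) *ᵥ e j) ∈ R → t / κ j ∈ F₀ := by
      intro i j hij htR
      have hi0 : κ i • ((g : Matrix (Fin m ⊕ Fin m) (Fin m ⊕ Fin m) F) *ᵥ e i) ≠ 0 := by
        refine smul_ne_zero (hκ0 i) fun h0 => ?_
        exact hndep j i (Ne.symm hij) (by rw [h0]; exact zero_mem _)
      obtain ⟨z, hz, hzp, hzf⟩ := hR.exists_perp_not_orth (hκR i)
        (f := κ j • ((g : Matrix (Fin m ⊕ Fin m) (Fin m ⊕ Fin m) F) *ᵥ e j))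
        (fun h => hndep i j hij (by
          simpa [hκ0 j] using Submodule.smul_mem _ (κ j)⁻¹ h)) hi0
      have h1 := hR.form htR hz
      have h2 := hR.form (hκR j) hz
      have hne : ζ * sympBil m F (κ j • ((g : Matrix (Fin m ⊕ Fin m) (Fin m ⊕ Fin m) F) *ᵥ e j)) z
          ≠ 0 := mul_ne_zero hζ hzf
      convert div_mem h1 h2 using 1
      have hz' : sympBil m F ((g : Matrix (Fin m ⊕ Fin m) (Fin m ⊕ Fin m) F) *ᵥ e i) z = 0 := by
        rw [map_smul, spB_swap] at hzp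
        simp only [smul_eq_mul] at hzp
        rw [spB_swap]
        have h3 : κ i * sympBil m F z ((g : Matrix (Fin m ⊕ Fin m) (Fin m ⊕ Fin m) F) *ᵥ e i) = 0 :=
          by simpa [spB_swap z] using hzp
        rw [(mul_eq_zero.1 h3).resolve_left (hκ0 i), neg_zero]
      simp only [map_smul, LinearMap.smul_apply, smul_eq_mul] at hne
      simp only [map_add, map_smul, LinearMap.add_apply, LinearMap.smul_apply, smul_eq_mul, hz',
        mul_zero, zero_add]
      have hκj := hκ0 j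
      have hH := right_ne_zero_of_mul (right_ne_zero_of_mul hne)
      rw [← mul_assoc, ← mul_assoc, mul_div_mul_right _ _ hH, mul_div_mul_left _ _ hζ]
    have h1 := key i j hij htR
    have h2 := key j i hij.symm (by rwa [add_comm] at htR)
    have := div_mem h1 h2
    convert this using 1
    field_simp
  obtain ⟨j₀⟩ : Nonempty (Fin m ⊕ Fin m) := ⟨Sum.inl ⟨0, by omega⟩⟩
  refine mem_subfieldSubgroup_of_ratio (a := (κ j₀)⁻¹) (inv_ne_zero (hκ0 j₀)) fun i j => ?_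
  have h3 : ((P⁻¹ * g * P : GL (Fin m ⊕ Fin m) F) : Matrix (Fin m ⊕ Fin m) (Fin m ⊕ Fin m) F) i j =
      (((P⁻¹ : GL (Fin m ⊕ Fin m) F) : Matrix (Fin m ⊕ Fin m) (Fin m ⊕ Fin m) F) *ᵥ ((g : Matrix (Fin m ⊕ Fin m) (Fin m ⊕ Fin m) F) *ᵥ e j)) i := by
    rw [he, ← mulVec_conj_col]; simp
  rw [h3, inv_inv]
  convert mul_mem (hratio j₀ j) (hκR j i) using 1
  rw [Matrix.mulVec_smul, Pi.smul_apply, smul_eq_mul]
  field_simp [hκ0 j]

end Cfsg.Agent.GeoClasses
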