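import Cfsg.Agent.GeoClasses.UnitSubfieldMax
import Cfsg.Agent.GeoClasses.SympSubfield
import Cfsg.Agent.ClassicalMax.UnitaryProper

/-!
Subfield groups of odd prime index are maximal in the special unitary group.
-/

set_option autoImplicit false

namespace Cfsg.Agent.GeoClasses

open Matrix Cfsg.Geo Cfsg.Agent.Classical.U Cfsg.Agent.ClassicalMax Module
open scoped MatrixGroups Matrix

universe u

variable {F : Type u} [Field F] {n q : ℕ} {F₀ : Subfield F}

/-- Subfields between the fixed parts of `F₀` and of `F`. -/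
lemma mid_fixField [Fintype F] (hF : SqField F q) {σ : F} (hσ : σ ∈ F₀) (hne : σ ^ q ≠ σ)
    (hmid : ∀ L : Subfield F, F₀ ≤ L → L = F₀ ∨ L = ⊤)
    (L : Subfield (fixField hF)) (hL : F₀.comap (fixField hF).subtype ≤ L) :
    L = F₀.comap (fixField hF).subtype ∨ L = ⊤ := by
  set L₀ : Subfield F := L.map (fixField hF).subtype
  have hfix : ∀ a ∈ L₀, a ^ q = a := by
    rintro _ ⟨a, -, rfl⟩
    exact (mem_fixField hF).1 a.2
  have hin : ∀ a ∈ F₀, a ^ q = a → a ∈ L₀ := fun a ha haq =>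
    ⟨⟨a, haq⟩, hL (show a ∈ F₀ from ha), rfl⟩
  set s := σ + σ ^ q with hs
  set N := σ * σ ^ q with hN
  have hsL : s ∈ L₀ := hin _ (add_mem hσ (pow_mem hσ q)) (by
    rw [hs, hF.add_pow, hF.pow_pow, add_comm])
  have hNL : N ∈ L₀ := hin _ (mul_mem hσ (pow_mem hσ q)) (by
    rw [hN, mul_pow, hF.pow_pow, mul_comm])
  let L' : Subfield F :=
    { carrier := {z | ∃ a ∈ L₀, ∃ b ∈ L₀, z = a + b * σ}
      one_mem' := ⟨1, one_mem _, 0, zero_mem _, by ring⟩
      zero_mem' := ⟨0, zero_mem _, 0, zero_mem _, by ring⟩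
      add_mem' := by
        rintro _ _ ⟨a, ha, b, hb, rfl⟩ ⟨c, hc, d, hd, rfl⟩
        exact ⟨a + c, add_mem ha hc, b + d, add_mem hb hd, by ring⟩
      neg_mem' := by
        rintro _ ⟨a, ha, b, hb, rfl⟩
        exact ⟨-a, neg_mem ha, -b, neg_mem hb, by ring⟩
      mul_mem' := by
        rintro _ _ ⟨a, ha, b, hb, rfl⟩ ⟨c, hc, d, hd, rfl⟩
        refine ⟨a * c - b * d * N, sub_mem (mul_mem ha hc) (mul_mem (mul_mem hb hd) hNL),
          a * d + b * c + b * d * s,
          add_mem (add_mem (mul_mem ha hd) (mul_mem hb hc)) (mul_mem (mul_mem hb hd) hsL), ?_⟩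
        rw [hs, hN]; ring
      inv_mem' := by
        rintro _ ⟨a, ha, b, hb, rfl⟩
        set D := a * a + a * b * s + b * b * N with hD
        have hDL : D ∈ L₀ := add_mem (add_mem (mul_mem ha ha) (mul_mem (mul_mem ha hb) hsL))
          (mul_mem (mul_mem hb hb) hNL)
        refine ⟨(a + b * s) / D, div_mem (add_mem ha (mul_mem hb hsL)) hDL, -b / D,
          div_mem (neg_mem hb) hDL, ?_⟩
        rcases eq_or_ne (a + b * σ) 0 with h0 | h0
        · have hDq : D = (a + b * σ) * (a + b * σ) ^ q := by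
            rw [hF.add_pow, mul_pow, hfix a ha, hfix b hb, hD, hs, hN]; ring
          rw [hDq, h0, zero_mul, div_zero, div_zero, _root_.inv_zero, zero_mul, add_zero]
        · have hDq : D = (a + b * σ) * (a + b * σ) ^ q := by
            rw [hF.add_pow, mul_pow, hfix a ha, hfix b hb, hD, hs, hN]; ring
          have h1 : (a + b * σ) ^ q = a + b * s - b * σ := by
            rw [hF.add_pow, mul_pow, hfix a ha, hfix b hb, hs]; ring
          rw [div_mul_eq_mul_div, ← add_div, hDq, h1, eq_div_iff]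
          · field_simp
            ring
          · rw [← h1]; exact mul_ne_zero h0 (pow_ne_zero _ h0) }
  have hd : σ - σ ^ q ≠ 0 := sub_ne_zero.2 (Ne.symm hne)
  have hle : F₀ ≤ L' := fun a ha => by
    have hb : ((a - a ^ q) / (σ - σ ^ q)) ^ q = (a - a ^ q) / (σ - σ ^ q) := by
      rw [div_pow, hF.sub_pow, hF.sub_pow, hF.pow_pow, hF.pow_pow, ← neg_div_neg_eq]; simp
    refine ⟨a - (a - a ^ q) / (σ - σ ^ q) * σ, hin _ (sub_mem ha (mul_mem (div_mem
      (sub_mem ha (pow_mem ha q)) (sub_mem hσ (pow_mem hσ q))) hσ)) ?_,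
      _, hin _ (div_mem (sub_mem ha (pow_mem ha q)) (sub_mem hσ (pow_mem hσ q))) hb, by ring⟩
    rw [hF.sub_pow, mul_pow, hb]
    linear_combination (div_mul_cancel₀ (a - a ^ q) hd)
  rcases hmid L' hle with h | h
  · left
    refine le_antisymm (fun a ha => ?_) hL
    show (a : F) ∈ F₀
    rw [← h]
    exact ⟨a, ⟨a, ha, rfl⟩, 0, zero_mem _, by ring⟩
  · right
    refine eq_top_iff.2 fun k _ => ?_
    obtain ⟨a, ha, b, hb, hab⟩ : (k : F) ∈ L' := by rw [h]; trivial
    have hb0 : b = 0 := by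
      have h1 := (mem_fixField hF).1 k.2
      rw [hab, hF.add_pow, mul_pow, hfix a ha, hfix b hb, add_right_inj] at h1
      by_contra hb0
      exact hne (mul_left_cancel₀ hb0 h1)
    obtain ⟨l, hl, hla⟩ := ha
    rw [hb0, zero_mul, add_zero, ← hla] at hab
    rwa [Subtype.ext hab]

/-- A fixed element with rational square is rational, in odd index. -/
lemma mem_of_sq_of_odd [Fintype F] {r : ℕ} (hodd : Odd r)
    (hcard : Fintype.card F = Nat.card F₀ ^ r) {a : F} (ha : a ^ 2 ∈ F₀) : a ∈ F₀ := by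
  by_cases h2 : (2 : F) = 0
  · exact mem_subfield_of_sq h2 ha
  obtain ⟨τ, hτ, hτp⟩ := exists_frobenius_fixedSubfield F₀
  rw [← hτ]
  have h1 : τ a ^ 2 = a ^ 2 := by rw [← map_pow, (hτ _).2 ha]
  rcases sq_eq_sq_iff_eq_or_eq_neg.1 h1 with h | h
  · exact h
  · rcases eq_or_ne a 0 with rfl | hane
    · exact map_zero τ
    exfalso
    have hk : ∀ k, (fun x => τ x)^[k] a = (-1) ^ k * a := by
      intro k
      induction k with
      | zero => simp
      | succ k ih =>
        rw [Function.iterate_succ_apply', ih, map_mul, map_pow, map_neg, map_one, h, pow_succ]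
        ring
    have hpow : ∀ k, (fun x => τ x)^[k] a = a ^ Nat.card F₀ ^ k := by
      intro k
      induction k with
      | zero => simp
      | succ k ih => rw [Function.iterate_succ_apply', ih, hτp, ← pow_mul, ← pow_succ]
    have h3 := (hk r).symm.trans (hpow r)
    rw [hodd.neg_one_pow, ← hcard, FiniteField.pow_card] at h3
    exact hane ((mul_eq_zero.1 (show (2 : F) * a = 0 by linear_combination -h3)).resolve_left h2)

lemma ratU_rationalVecs [Fintype F] (hF : SqField F q) {r : ℕ} (hodd : Odd r)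
    (hcard : Fintype.card F = Nat.card F₀ ^ r) {P : GL (Fin n) F}
    (hP : IsFormRationalStructure (Cfsg.hermForm n F q) F₀ 1 P) :
    RatU q F₀ (rationalVecs F₀ P) where
  set := ratSet_rationalVecs F₀ P
  form := fun {x y} hx hy => by
    have h := hP _ _ hx hy
    rw [one_mul, gl_mulVec_inv, gl_mulVec_inv] at h
    exact h
  moved := by
    obtain ⟨a, ha, hne⟩ := exists_moved_of_odd_index hF hodd
      (by rw [Nat.card_eq_fintype_card, hcard])
    exact ⟨a, ha, by rwa [qConj_apply] at hne⟩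

theorem suGL_oddSubfield_maximal [Fintype F] (hF : SqField F q) (hn : 4 ≤ n) {r : ℕ} (hr : r.Prime)
    (hodd : Odd r) (hcard : Fintype.card F = Nat.card F₀ ^ r) {P : GL (Fin n) F}
    (hP : IsFormRationalStructure (Cfsg.hermForm n F q) F₀ 1 P) :
    IsMaximalIn (suGL n F q) (subfieldSubgroup F₀ P ⊓ suGL n F q) := by
  classical
  have hU := ratU_rationalVecs hF hodd hcard hP
  set R := rationalVecs F₀ P with hRdef
  have hex : ¬ (n = 3 ∧ q = 2) := by omega
  have hperf := suGL_commutator hF (n := n) (by omega) hex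
  refine ⟨lt_of_le_not_ge inf_le_right fun hle =>
    suGL_not_le_subfieldSubgroup hF (by omega) hperf (MaxSub.subfield_ne_top hr hcard) P
      (hle.trans inf_le_left), fun M hM hMK => ?_⟩
  set M' := M.comap (ugToGL n F q) with hM'
  have hbasis : ∀ j, (P : Matrix (Fin n) (Fin n) F) *ᵥ Pi.single j 1 ∈ R := fun j i => by
    show (((P⁻¹ : GL (Fin n) F) : Matrix (Fin n) (Fin n) F) *ᵥ _) i ∈ F₀
    rw [gl_inv_mulVec]
    by_cases h : i = j <;> simp [h]
  have hentry : ∀ (g : UG n F q) i j,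
      ((P⁻¹ * ugToGL n F q g * P : GL (Fin n) F) : Matrix (Fin n) (Fin n) F) i j =
        (((P⁻¹ : GL (Fin n) F) : Matrix (Fin n) (Fin n) F) *ᵥ
          g.1 ((P : Matrix (Fin n) (Fin n) F) *ᵥ Pi.single j 1)) i := fun g i j => by
    rw [← ugToGL_mulVec, ← mulVec_conj_col]; simp
  have hK : ∀ (v y : Fin n → F) (a : F) (h : UniCond q v y a), v ∈ R → y ∈ R → a ∈ F₀ →
      uni hF h ∈ M' := fun v y a h hv hy ha =>
    hM ⟨mem_subfieldSubgroup_of_ratio one_ne_zero fun i j => by
      rw [inv_one, one_mul, hentry, uni_apply]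
      exact (hU.set.add (hU.set.add (hbasis j) (hU.set.smul (hU.form (hbasis j) hv) hy))
        (hU.set.smul (sub_mem (mul_mem ha (hU.form (hbasis j) hv)) (hU.form (hbasis j) hy)) hv)) i,
      ugToGL_mem_suGL (det_uni hF h)⟩
  by_cases hirr : ∃ g ∈ M', ∃ v ∈ R, herm q v v = 0 ∧ ∀ κ : F, κ • g.1 v ∈ R → κ = 0
  · obtain ⟨g, hg, v, hv, hvv, hgv⟩ := hirr
    right
    refine le_antisymm hMK ?_
    have hS : SUG n F q ≤ M' := by
      obtain ⟨δ, hδ, hδ0, hδq⟩ := RatU.exists_skew hF hU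
      have hmid := MaxSub.SubfieldMax.mid_of_prime hr hcard
      obtain ⟨σ, hσ, hne⟩ := hU.moved
      obtain ⟨p₀, hp₀, hp₀0, hp₀p, κ, hκq, hκ, hκM⟩ := RatU.exists_param hF hU hK (by omega)
        (mid_fixField hF hσ hne hmid) (fun a _ h => mem_of_sq_of_odd hodd hcard h) hδ hδ0 hδq
        (show herm q (g.1 v) (g.1 v) = 0 by rw [UG_app]; exact hvv) hgv
        fun c hc hcq => map_mem_trvParams hF hvv hg (RatU.rat_param hF hU hK hv hvv hc hcq) rfl _
      obtain ⟨f, hf, hff, hpf⟩ := RatU.exists_iso_partner hF hU hp₀ hp₀0 hp₀p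
      have hf0 : f ≠ 0 := fun h => by rw [h, hF.herm_zero_right] at hpf; exact zero_ne_one hpf
      have hX : ∀ {p}, p ∈ R → p ≠ 0 → herm q p p = 0 → p ∈ uniCentres hF M' := fun hp hp0 hpp =>
        RatU.rat_mem_uniCentres hF hU hK (by omega) (mid_fixField hF hσ hne hmid) hδ hδ0 hδq hp₀
          hp₀0 hp₀p hκq hκ hκM hp hp0 hpp
      exact SUG_le_of_uniCentre_pair hF (by omega) (hX hp₀ hp₀0 hp₀p) (hX hf hf0 hff)
        (by rw [hpf]; exact one_ne_zero)
    intro g hg
    obtain ⟨k, hk, rfl⟩ := exists_ugToGL_eq hg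
    exact hS hk
  push Not at hirr
  left
  refine le_antisymm (le_inf (fun g hg => ?_) hMK) hM
  obtain ⟨k, -, rfl⟩ := exists_ugToGL_eq (hMK hg)
  have hsc := hirr k hg
  have orth : ∀ a b, a ∈ R → b ∈ R → herm q a a = 0 → herm q b b = 0 → herm q a b = 0 → a ≠ 0 →
      b ∉ F ∙ a → ∀ κa κb : F, κb ≠ 0 → κa • k.1 a ∈ R → κb • k.1 b ∈ R → κa ≠ 0 →
      κa / κb ∈ F₀ := by
    intro a b ha hb haa hbb hab ha0 hnb κa κb hκb hka hkb hκa
    have hba : herm q b a = 0 := by rw [← hF.herm_symm, hab, zero_pow hF.q_ne_zero]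
    obtain ⟨t, htR, ht0⟩ := hsc (a + b) (hU.set.add ha hb)
      (by simp [herm_add_left, hF.herm_add_right, haa, hbb, hab, hba])
    have half : ∀ a b : Fin n → F, a ≠ 0 → b ∉ F ∙ a → ∀ κa κb : F, κa ≠ 0 → κb ≠ 0 →
        κa • k.1 a ∈ R → κb • k.1 b ∈ R → t • k.1 (a + b) ∈ R → t / κb ∈ F₀ := by
      intro a b ha0 hnb κa κb hκa hκb hka hkb htR
      have hka0 : κa • k.1 a ≠ 0 := smul_ne_zero hκa fun h => ha0 (k.1.injective (by rw [h, map_zero]))
      obtain ⟨y, hy, hya, hyb⟩ := RatU.exists_perp_not_orth hF hU hka hka0 hkb fun h => hnb (by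
        obtain ⟨c, hc⟩ := Submodule.mem_span_singleton.1 h
        refine Submodule.mem_span_singleton.2 ⟨κb⁻¹ * (c * κa), k.1.injective ?_⟩
        rw [map_smul, mul_smul, mul_smul, hc, inv_smul_smul₀ hκb])
      have h1 := pow_mem (hU.form hy htR) q
      rw [herm_smul_right, map_add, hF.herm_add_right] at h1
      rw [herm_smul_right] at hya hyb
      rw [(mul_eq_zero.1 hya).resolve_left (pow_ne_zero _ hκa), zero_add, mul_pow, hF.pow_pow] at h1
      convert h1 using 1
      have h2 : κb * herm q y (k.1 b) ^ q = 1 := by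
        rw [← one_pow (M := F) q, ← hyb, mul_pow, hF.pow_pow]
      rw [div_eq_iff hκb]
      linear_combination -t * h2
    have h1 := half a b ha0 hnb κa κb hκa hκb hka hkb htR
    have h2 := half b a (fun h => hnb (h ▸ zero_mem _)) (fun h => hnb (by
      obtain ⟨c, hc⟩ := Submodule.mem_span_singleton.1 h
      have hc0 : c ≠ 0 := fun h0 => ha0 (by rw [← hc, h0, zero_smul])
      exact Submodule.mem_span_singleton.2 ⟨c⁻¹, by rw [← hc, inv_smul_smul₀ hc0]⟩))
      κb κa hκb hκa hkb hka (by rwa [add_comm])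
    convert div_mem h1 h2 using 1
    field_simp
  obtain ⟨e, he, he0, hee, -⟩ :=
    RatU.exists_iso_perp hF hU (k := 0) (by omega) ![] (fun i => i.elim0)
  obtain ⟨f, hf, hff, hef⟩ := RatU.exists_iso_partner hF hU he he0 hee
  obtain ⟨κ₀, hκ₀R, hκ₀0⟩ := hsc e he hee
  have hall : ∀ y ∈ R, κ₀ • k.1 y ∈ R := by
    intro y hy
    refine RatU.iso_induction hF hU (p := 0) (S := fun w => κ₀ • k.1 w ∈ R) he hf hee hff hef
      (hF.herm_zero_right e) (hF.herm_zero_right f)
      (fun a b ha hb => by rw [map_add, smul_add]; exact hU.set.add ha hb)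
      (fun c hc w hw => by rw [map_smul, smul_comm]; exact hU.set.smul hc hw) (fun u hu huu _ => ?_) hy
      (hF.herm_zero_right y)
    rcases eq_or_ne u 0 with rfl | hu0
    · rw [map_zero, smul_zero]; exact hU.set.zero
    obtain ⟨κu, hκuR, hκu0⟩ := hsc u hu huu
    have sym0 : ∀ {a b : Fin n → F}, herm q a b = 0 → herm q b a = 0 := fun h => by
      rw [← hF.herm_symm, h, zero_pow hF.q_ne_zero]
    have hrat : κ₀ / κu ∈ F₀ → κ₀ • k.1 u ∈ R := fun h => by
      convert hU.set.smul h hκuR using 1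
      rw [smul_smul, div_mul_cancel₀ _ hκu0]
    by_cases heu : herm q e u = 0
    · by_cases hue : u ∈ F ∙ e
      · obtain ⟨c, rfl⟩ := Submodule.mem_span_singleton.1 hue
        obtain ⟨ye, hye, hyee⟩ := RatU.dual_single hF hU he he0
        have hc : c ∈ F₀ := by
          have := hU.form hu hye
          rwa [herm_smul_left, eq_one_of_fixed_pair hF hyee, mul_one] at this
        rw [map_smul, smul_comm]
        exact hU.set.smul hc hκ₀R
      · exact hrat (orth e u he hu hee huu heu he0 hue κ₀ κu hκu0 hκ₀R hκuR hκ₀0)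
    obtain ⟨z, hz, hz0, hzz, hzs⟩ := RatU.exists_iso_perp hF hU (k := 2) (by omega) ![e, u]
      (by simp [Fin.forall_fin_two, he, hu])
    obtain ⟨κz, hκzR, hκz0⟩ := hsc z hz hzz
    have hze : herm q z e = 0 := hzs 0
    have hzu : herm q z u = 0 := hzs 1
    have hnz : ∀ d d' : Fin n → F, herm q d d' ≠ 0 → herm q z d' = 0 → z ∉ F ∙ d := by
      intro d d' h2 h3 hmem
      obtain ⟨c, rfl⟩ := Submodule.mem_span_singleton.1 hmem
      rw [herm_smul_left] at h3
      exact hz0 (by rw [(mul_eq_zero.1 h3).resolve_right h2, zero_smul])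
    have h1 := orth e z he hz hee hzz (sym0 hze) he0 (hnz e u heu hzu) κ₀ κz hκz0 hκ₀R hκzR hκ₀0
    have h2 := orth u z hu hz huu hzz (sym0 hzu) hu0
      (hnz u e (fun h => heu (sym0 h)) hze) κu κz hκz0 hκuR hκzR hκu0
    refine hrat ?_
    convert div_mem h1 h2 using 1
    field_simp
  refine mem_subfieldSubgroup_of_ratio (a := κ₀⁻¹) (inv_ne_zero hκ₀0) fun i j => ?_
  rw [hentry, inv_inv]
  have := hall _ (hbasis j) i
  simpa [Matrix.mulVec_smul] using this

end Cfsg.Agent.GeoClasses
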