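import Mathlib
import Cfsg.Prelude.Def_GeometricClasses
import Cfsg.Agent.GeoClasses.Basic
import Cfsg.Agent.GeoClasses.MatrixUnits
import Cfsg.Agent.GeoClasses.Algebra
import Cfsg.Agent.GeoClasses.Forms
import Cfsg.Agent.GeoClasses.Descent
import Cfsg.Agent.GeoClasses.Structure
import Cfsg.Agent.GeoClasses.Polarized
import Cfsg.Agent.GeoClasses.Coords
import Cfsg.Agent.GeoClasses.FormDecomp

/-!
Rational structures, adjoint-closed fields, and two invariant forms.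
-/

set_option autoImplicit false
set_option maxHeartbeats 400000

namespace Cfsg.Agent.GeoClasses

open Matrix Cfsg.Geo
open scoped MatrixGroups Matrix Kronecker

variable {ι κ : Type} [Fintype ι] [DecidableEq ι] [Fintype κ] [DecidableEq κ] {F : Type*} [Field F]

lemma adjForm_coordGL (σ : F ≃+* F) (B : Matrix ι ι F) {L : (κ → F) ≃ₗ[F] (ι → F)} {e : ι ≃ κ}
    {P : GL ι F} (hP : ∀ x : κ → F, (P : Matrix ι ι F) *ᵥ (x ∘ e) = L x) :
    adjForm σ B (P : Matrix ι ι F) = (coordGram σ B L).submatrix e e := by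
  refine formOf_injective (σ := σ) fun u v => ?_
  have hu : ∀ w : ι → F, (P : Matrix ι ι F) *ᵥ w = L (w ∘ e.symm) := fun w => by
    rw [← hP]
    congr 1
    funext i
    simp
  rw [← formOf_mulVec, hu, hu, formOf_coord, formOf_comp_equiv]

lemma scalar_conj_val {z : GL ι F} (hz : z ∈ scalars ι F) (P g : GL ι F) :
    z * P * g * (z * P)⁻¹ = P * g * P⁻¹ := by
  rw [_root_.mul_inv_rev, mul_assoc z P g, mul_assoc z, ← mul_assoc (P * g),
    scalar_mul_comm hz (P * g * P⁻¹ * z⁻¹), mul_assoc (P * g * P⁻¹), inv_mul_cancel, mul_one]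

lemma subfieldSubgroup_scalar_mul (F₀ : Subfield F) {z : GL ι F} (hz : z ∈ scalars ι F)
    (P : GL ι F) : subfieldSubgroup F₀ (z * P) = subfieldSubgroup F₀ P := by
  have h : (MulAut.conj (z * P)).toMonoidHom = (MulAut.conj P).toMonoidHom := by
    ext g : 1
    simp only [MulEquiv.coe_toMonoidHom, MulAut.conj_apply, scalar_conj_val hz]
  rw [subfieldSubgroup, subfieldSubgroup, h]

lemma mem_subfieldSubgroup_of_coord [Nonempty ι] {F₁ : Subfield F} {L : (κ → F) ≃ₗ[F] (ι → F)}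
    {e : ι ≃ κ} {P : GL ι F}
    (hP : ∀ X : Matrix κ κ F, conjMat L X = (P : Matrix ι ι F)
      * Matrix.reindexAlgEquiv F F e.symm X * ((P⁻¹ : GL ι F) : Matrix ι ι F))
    {g : GL ι F} {c : F} {X : Matrix κ κ F} (hX : ∀ i j, X i j ∈ F₁)
    (hg : (g : Matrix ι ι F) = conjMat L (c • X)) : g ∈ subfieldSubgroup F₁ P := by
  classical
  set Y : Matrix ι ι F₁ := fun i j => ⟨X (e i) (e j), hX _ _⟩ with hY
  have hYm : Y.map F₁.subtype = Matrix.reindexAlgEquiv F F e.symm X := by ext i j; rfl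
  have hc : c ≠ 0 := by
    intro h0
    rw [h0, zero_smul, map_zero] at hg
    exact g.ne_zero hg
  have hdet : Y.det ≠ 0 := by
    intro h0
    have hX0 : (Matrix.reindexAlgEquiv F F e.symm X).det = 0 := by
      rw [← hYm, ← RingHom.mapMatrix_apply, ← RingHom.map_det, h0, map_zero]
    have h4 : IsUnit (g : Matrix ι ι F).det := (Matrix.isUnit_iff_isUnit_det _).1 g.isUnit
    rw [hg, hP, map_smul, Matrix.det_mul, Matrix.det_mul, Matrix.det_smul, hX0] at h4
    simp at h4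
  refine ⟨Units.map (Matrix.scalar ι : F →+* Matrix ι ι F).toMonoidHom (Units.mk0 c hc)
    * Matrix.GeneralLinearGroup.map (F₁.subtype : F₁ →+* F)
      (Matrix.GeneralLinearGroup.mkOfDetNeZero Y hdet), ?_, Units.ext ?_⟩
  · exact Subgroup.mul_mem _ (Subgroup.mem_sup_right ⟨_, rfl⟩) (Subgroup.mem_sup_left ⟨_, rfl⟩)
  · rw [gl_conj_val, hg, hP, map_smul, ← hYm, Units.val_mul]
    congr 2
    simp [← Matrix.smul_one_eq_diagonal]

lemma adjForm_map {σ : F ≃+* F} (τ : F ≃+* F) (hcomm : ∀ a, σ (τ a) = τ (σ a))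
    (G X : Matrix ι ι F) :
    (adjForm σ G X).map τ = adjForm σ (G.map τ) (X.map τ) := by
  simp only [adjForm, Matrix.map_mul, Matrix.transpose_map]
  congr 1
  ext i j
  simp [hcomm]

lemma mem_of_subfield_stable [Finite F] (σ : F ≃+* F) (F₁ : Subfield F) {a : F} (ha : a ∈ F₁) :
    σ a ∈ F₁ := by
  obtain ⟨τ, hτ, hτa⟩ := exists_frobenius_fixedSubfield F₁
  rw [← hτ, hτa, ← map_pow, ← hτa, (hτ a).2 ha]

/-- A realisable normal subgroup of similitudes gives a rational form and a subfield group. -/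
theorem exists_rational_form [Nonempty ι] [Finite F] {σ : F ≃+* F} {B : Matrix ι ι F}
    (hB : IsUnit B) {F₁ : Subfield F} {H R : Subgroup (GL ι F)} (hR : spanAlg R = ⊤)
    (hsim : ∀ x ∈ R, ∃ μ ∈ F₁, IsSim σ B x μ) (hnorm : ∀ g ∈ H, ∀ x ∈ R, g * x * g⁻¹ ∈ R)
    {B₀ : GL ι F} (hB₀ : ∀ x ∈ R, conjGL B₀ (x : Matrix ι ι F) ∈ subfieldMatrices F₁) :
    ∃ (P : GL ι F) (b : F) (G : Matrix ι ι F), b ≠ 0 ∧ IsUnit G ∧
      adjForm σ B (P : Matrix ι ι F) = b • G ∧ (∀ i j, G i j ∈ F₁) ∧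
      H ≤ subfieldSubgroup F₁ P ∧
      ∀ x ∈ R, ∃ μ ∈ F₁, adjForm σ G (conjGL B₀ (x : Matrix ι ι F)) = μ • G := by
  classical
  obtain ⟨τ, hτ, hτa⟩ := exists_frobenius_fixedSubfield F₁
  set P : GL ι F := B₀⁻¹ with hP
  set G' := adjForm σ B (P : Matrix ι ι F) with hG'
  have hG'u : IsUnit G' :=
    (((Matrix.isUnit_transpose _).2 P.isUnit).mul hB).mul (P.isUnit.map σ.toRingHom.mapMatrix)
  have hsim' : ∀ x ∈ R, ∃ μ ∈ F₁, adjForm σ G' (conjGL B₀ (x : Matrix ι ι F)) = μ • G' := by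
    intro x hx
    obtain ⟨μ, hμ, hs⟩ := hsim x hx
    refine ⟨μ, hμ, ?_⟩
    have e1 : (P : Matrix ι ι F) * conjGL B₀ (x : Matrix ι ι F)
        = (x : Matrix ι ι F) * (P : Matrix ι ι F) := by
      rw [conjGL_apply, hP, ← mul_assoc, ← mul_assoc, Units.inv_mul, one_mul]
    rw [hG', ← adjForm_mul, e1, adjForm_mul, hs, adjForm_smul_left]
  have hR' : ActsAbsolutelyIrreducibly (matrixSet (conjSub B₀ R)) := by
    refine absIrred_of_spanAlg_top ?_
    rw [spanAlg_conjSub, hR, Algebra.map_top, AlgHom.range_eq_top]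
    exact (conjGL B₀).surjective
  obtain ⟨c, hc⟩ := eq_smul_of_isSim hR' (σ := σ) (B' := G'.map τ) hG'u (by
    rintro _ ⟨x, hx, rfl⟩
    obtain ⟨μ, hμ, hs⟩ := hsim' x hx
    have hval : (((MulAut.conj B₀).toMonoidHom x : GL ι F) : Matrix ι ι F)
        = conjGL B₀ (x : Matrix ι ι F) := gl_conj_val _ _
    have hs1 : IsSim σ G' ((MulAut.conj B₀).toMonoidHom x) μ := by rw [IsSim, hval]; exact hs
    refine ⟨μ, hs1.ne_zero hG'u, hs1, ?_⟩
    have hfix : (conjGL B₀ (x : Matrix ι ι F)).map τ = conjGL B₀ (x : Matrix ι ι F) := by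
      ext i j
      exact (hτ _).2 (mem_subfieldMatrices.1 (hB₀ x hx) i j)
    have h1 := congrArg (fun X : Matrix ι ι F => X.map τ) hs
    rw [adjForm_map τ (fun a => by rw [hτa, hτa, map_pow]), hfix] at h1
    rw [IsSim, hval, h1, Matrix.map_smul' _ _ _ (map_mul τ), (hτ μ).2 hμ])
  obtain ⟨i, j, hij⟩ := exists_entry_ne_zero hG'u.ne_zero
  refine ⟨P, G' i j, (G' i j)⁻¹ • G', hij, ?_, ?_, fun k l => ?_,
    le_subfieldSubgroup hR hnorm hB₀, fun x hx => ?_⟩
  · rw [Matrix.isUnit_iff_isUnit_det, Matrix.det_smul]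
    exact ((inv_ne_zero hij).isUnit.pow _).mul ((Matrix.isUnit_iff_isUnit_det _).1 hG'u)
  · rw [smul_smul, mul_inv_cancel₀ hij, one_smul]
  · refine (hτ _).1 ?_
    have h1 : ∀ k l, τ (G' k l) = c * G' k l := fun k l => congrFun (congrFun hc k) l
    have hc0 : c ≠ 0 := fun h0 => hij (τ.map_eq_zero_iff.1 (by rw [h1, h0, zero_mul]))
    rw [Matrix.smul_apply, smul_eq_mul, map_mul, map_inv₀, h1, h1, mul_inv]
    field_simp
  · obtain ⟨μ, hμ, hs⟩ := hsim' x hx
    exact ⟨μ, hμ, by rw [adjForm_smul_left, hs, smul_comm]⟩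

/-- Two forms of different kinds fixed by an absolutely irreducible group: it descends. -/
theorem realisable_of_two_forms [Nonempty ι] [Finite F] {F₀ : Subfield F} {σ : F ≃+* F}
    (hF₀ : ∀ a, σ a = a ↔ a ∈ F₀) {B B' : Matrix ι ι F} (hB : IsUnit B) (hB' : IsUnit B')
    {R : Subgroup (GL ι F)} (hR : spanAlg R = ⊤) (h1 : ∀ g ∈ R, IsSim σ B g 1)
    (h2 : ∀ g ∈ R, IsSim (RingEquiv.refl F) B' g 1) :
    ∃ B₀ : GL ι F, ∀ g ∈ R, conjGL B₀ (g : Matrix ι ι F) ∈ subfieldMatrices F₀ := by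
  obtain ⟨u, rfl⟩ := hB
  obtain ⟨v, rfl⟩ := hB'
  refine realisable_of_twist hF₀ hR (u⁻¹ * v) fun g hg => ?_
  have e1 : (g : Matrix ι ι F).map σ
      = ((u⁻¹ : GL ι F) : Matrix ι ι F) * ((g⁻¹ : GL ι F) : Matrix ι ι F)ᵀ * (u : Matrix ι ι F) := by
    have h := congrArg (fun X => ((u⁻¹ : GL ι F) : Matrix ι ι F)
      * ((g⁻¹ : GL ι F) : Matrix ι ι F)ᵀ * X) (h1 g hg)
    simp only [adjForm, one_smul] at h
    rw [← h]
    simp only [← mul_assoc]
    rw [mul_assoc _ (((g⁻¹ : GL ι F) : Matrix ι ι F)ᵀ), ← Matrix.transpose_mul, Units.mul_inv,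
      Matrix.transpose_one, mul_one, Units.inv_mul, one_mul]
  have e2 : (g : Matrix ι ι F)
      = ((v⁻¹ : GL ι F) : Matrix ι ι F) * ((g⁻¹ : GL ι F) : Matrix ι ι F)ᵀ * (v : Matrix ι ι F) := by
    have h := congrArg (fun X => ((v⁻¹ : GL ι F) : Matrix ι ι F)
      * ((g⁻¹ : GL ι F) : Matrix ι ι F)ᵀ * X) (h2 g hg)
    simp only [adjForm, one_smul] at h
    rw [show ((g : Matrix ι ι F)).map (RingEquiv.refl F) = (g : Matrix ι ι F) from rfl] at h
    rw [← h]
    simp only [← mul_assoc]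
    rw [mul_assoc _ (((g⁻¹ : GL ι F) : Matrix ι ι F)ᵀ), ← Matrix.transpose_mul, Units.mul_inv,
      Matrix.transpose_one, mul_one, Units.inv_mul, one_mul]
  rw [e1, conjGL_apply]
  conv_rhs => rw [e2]
  simp [mul_assoc]

/-- An adjoint-closed field is self-adjoint or quadratic (bilinear forms). -/
theorem IsPolar.selfAdjoint_or_quadratic [Nonempty ι] [Finite F] {σ : F ≃+* F} {B : Matrix ι ι F}
    {ε : F} (hP : IsPolar σ B ε) (hσ : σ = RingEquiv.refl F) {r : ℕ}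
    {K : Subalgebra F (Matrix ι ι F)} (hr : r.Prime) (hK : IsFieldSubalgebra r K)
    (hs : StarClosed σ B K) : (∀ k ∈ K, adj σ B k = k) ∨ r = 2 := by
  by_cases h : ∀ k ∈ K, adj σ B k = k
  · exact Or.inl h
  refine Or.inr ?_
  push Not at h
  obtain ⟨k, hk, hne⟩ := h
  set d := k - adj σ B k with hd
  have hdK : d ∈ K := sub_mem hk (hs k hk)
  obtain ⟨y, hy, hdy⟩ := hK.inv d hdK (sub_ne_zero.2 (Ne.symm hne))
  have hd' : adj σ B d = -d := by
    rw [hd, sub_eq_add_neg, adj_add, adj_neg, hP.adj_adj]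
    abel
  have hy' : adj σ B y = -y := by
    have h1 := congrArg (adj σ B) hdy
    rw [hP.adj_mul, hd', hP.adj_one, mul_neg, hK.comm _ (hs y hy) d hdK] at h1
    have h2 : adj σ B y = y * (d * adj σ B y) := by
      rw [← mul_assoc, hK.comm y hy d hdK, hdy, one_mul]
    rw [h2, neg_eq_iff_eq_neg.1 h1, mul_neg, mul_one]
  let S : Submodule F (Matrix ι ι F) :=
    { carrier := {x | x ∈ K ∧ adj σ B x = x}
      add_mem' := fun {a b} ha hb => ⟨add_mem ha.1 hb.1, by rw [adj_add, ha.2, hb.2]⟩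
      zero_mem' := ⟨zero_mem K, adj_zero⟩
      smul_mem' := fun c a ha => ⟨K.smul_mem ha.1 c, by
        rw [adj_smul, ha.2, hσ, RingEquiv.refl_apply]⟩ }
  let Φ : S × S →ₗ[F] Matrix ι ι F :=
    { toFun := fun p => (p.1 : Matrix ι ι F) + k * (p.2 : Matrix ι ι F)
      map_add' := fun p q => by simp [mul_add]; abel
      map_smul' := fun c p => by simp [smul_add] }
  have hinj : Function.Injective Φ := by
    refine (injective_iff_map_eq_zero Φ).2 ?_
    rintro ⟨a, b⟩ hab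
    have h1 : (a : Matrix ι ι F) + k * (b : Matrix ι ι F) = 0 := hab
    have h2 := congrArg (adj σ B) h1
    rw [adj_add, hP.adj_mul, a.2.2, b.2.2, adj_zero, hK.comm _ b.2.1 _ (hs k hk)] at h2
    have h3 : d * (b : Matrix ι ι F) = 0 := by
      rw [hd, sub_mul, eq_neg_of_add_eq_zero_right h1, eq_neg_of_add_eq_zero_right h2, sub_self]
    have hb : (b : Matrix ι ι F) = 0 := by
      rw [← one_mul (b : Matrix ι ι F), ← hdy, hK.comm d hdK y hy, mul_assoc, h3, mul_zero]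
    rw [hb, mul_zero, add_zero] at h1
    exact Prod.ext (Subtype.ext h1) (Subtype.ext hb)
  have hrange : LinearMap.range Φ = K.toSubmodule := by
    refine le_antisymm ?_ fun x (hx : x ∈ K) => ?_
    · rintro _ ⟨p, rfl⟩
      show (p.1 : Matrix ι ι F) + k * (p.2 : Matrix ι ι F) ∈ K
      exact add_mem p.1.2.1 (mul_mem hk p.2.2.1)
    set b := (x - adj σ B x) * y with hb
    have hbK : b ∈ K := mul_mem (sub_mem hx (hs x hx)) hy
    have hbfix : adj σ B b = b := by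
      rw [hb, hP.adj_mul, hy', sub_eq_add_neg, adj_add, adj_neg, hP.adj_adj,
        hK.comm (-y) (neg_mem hy) _ (add_mem (hs x hx) (neg_mem hx)), mul_neg, ← neg_mul]
      congr 1
      abel
    have haK : x - k * b ∈ K := sub_mem hx (mul_mem hk hbK)
    have hafix : adj σ B (x - k * b) = x - k * b := by
      have hdb : d * b = x - adj σ B x := by
        rw [hb, ← mul_assoc, hK.comm d hdK _ (sub_mem hx (hs x hx)), mul_assoc, hdy, mul_one]
      rw [hd, sub_mul] at hdb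
      rw [sub_eq_add_neg, adj_add, adj_neg, hP.adj_mul, hbfix, hK.comm b hbK _ (hs k hk)]
      calc adj σ B x + -(adj σ B k * b) = x - (x - adj σ B x) - adj σ B k * b := by abel
        _ = x - (k * b - adj σ B k * b) - adj σ B k * b := by rw [hdb]
        _ = x + -(k * b) := by abel
    exact ⟨(⟨_, haK, hafix⟩, ⟨b, hbK, hbfix⟩), sub_add_cancel x (k * b)⟩
  have h1 := LinearMap.finrank_range_of_inj hinj
  rw [hrange, Module.finrank_prod] at h1
  have h0 : Module.finrank F K.toSubmodule = r := hK.finrank_eq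
  have h2 : r = 2 * Module.finrank F S := by omega
  rcases Nat.prime_mul_iff.1 (h2 ▸ hr) with ⟨-, h3⟩ | ⟨-, h3⟩
  · omega
  · exact absurd h3 (by norm_num)

/-- A commutative adjoint-closed algebra of non-scalars gives a decomposition or a field. -/
theorem IsPolar.comm_cases [Nonempty ι] [Finite F] {σ : F ≃+* F} {B : Matrix ι ι F} {ε : F}
    (hP : IsPolar σ B ε) {H : Subgroup (GL ι F)} (hH : ∀ h ∈ H, IsSim σ B h 1)
    (hirr : ActsIrreducibly (matrixSet H)) {A : Subalgebra F (Matrix ι ι F)} (hA : Normalises H A)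
    (hAs : StarClosed σ B A) (hcomm : ∀ x ∈ A, ∀ y ∈ A, x * y = y * x)
    (hns : ∃ z ∈ A, ∀ c : F, z ≠ c • (1 : Matrix ι ι F)) :
    (∃ (t k : ℕ) (D : Fin t → Submodule F (ι → F)),
      IsNondegenerateMDecomposition (formOf σ B) k D ∧ H ≤ decompositionStabilizer D ∧
      ∀ i j, ∃ g ∈ H, (D i).map (Matrix.toLin' (g : Matrix ι ι F)) = D j) ∨
    (∃ (A' : Subalgebra F (Matrix ι ι F)) (e : Fin 2 → Matrix ι ι F),
      IsBlockSystem H A' e ∧ adj σ B (e 0) = e 1) ∨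
    (∃ (r : ℕ) (K : Subalgebra F (Matrix ι ι F)), r.Prime ∧ IsFieldSubalgebra r K ∧
      StarClosed σ B K ∧ H ≤ subalgebraNormalizer K) := by
  rcases hP.cases hH hirr hA hAs with
    h | ⟨A', e, he⟩ | ⟨r, K, hr, hK, -, hKs, hle⟩ | ⟨a, φ, ha, hinj, hrange⟩
  · exact Or.inl h
  · exact Or.inr <| Or.inl ⟨A', e, he⟩
  · exact Or.inr <| Or.inr ⟨r, K, hr, hK, hKs, hle⟩
  exfalso
  obtain ⟨z, hz, hzc⟩ := hns
  rw [← hrange] at hz
  obtain ⟨Z, rfl⟩ := hz
  rcases Nat.lt_or_ge 1 a with ha2 | ha1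
  · set X : Matrix (Fin a) (Fin a) F := Matrix.single ⟨0, by omega⟩ ⟨1, by omega⟩ 1 with hX
    set Y : Matrix (Fin a) (Fin a) F := Matrix.single ⟨1, by omega⟩ ⟨0, by omega⟩ 1 with hY
    have h2 := hcomm (φ X) (hrange ▸ ⟨_, rfl⟩) (φ Y) (hrange ▸ ⟨_, rfl⟩)
    rw [← map_mul, ← map_mul] at h2
    have h3 := congrFun (congrFun (hinj h2) (⟨0, by omega⟩ : Fin a)) (⟨0, by omega⟩ : Fin a)
    simp [hX, hY] at h3
  · obtain rfl : a = 1 := by omega
    refine hzc (Z 0 0) ?_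
    have hZ : Z = Z 0 0 • (1 : Matrix (Fin 1) (Fin 1) F) := by
      ext i j
      obtain rfl := Subsingleton.elim i 0
      obtain rfl := Subsingleton.elim j 0
      simp
    show φ Z = _
    conv_lhs => rw [hZ]
    rw [map_smul, map_one]

end Cfsg.Agent.GeoClasses
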