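import Mathlib
import Cfsg.Prelude.Def_GeometricClasses
import Cfsg.Agent.GeoClasses.Basic
import Cfsg.Agent.GeoClasses.Algebra
import Cfsg.Agent.GeoClasses.Forms
import Cfsg.Agent.GeoClasses.Structure
import Cfsg.Agent.GeoClasses.Descent

/-!
The group of symplectic type inside an abelian minimal normal subgroup: its order and centre, the
form it fixes, and its realisation over small fields.
-/

set_option autoImplicit false
set_option maxHeartbeats 400000

namespace Cfsg.Agent.GeoClasses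

open Matrix Cfsg.Geo
open scoped MatrixGroups Matrix Kronecker

variable {ι : Type} [Fintype ι] [DecidableEq ι] {F : Type*} [Field F]

/-- The exponent `r · gcd(2, r)`. -/
def sympExp (r : ℕ) : ℕ := r * Nat.gcd 2 r

lemma sympExp_two : sympExp 2 = 4 := rfl

lemma sympExp_odd {r : ℕ} (hr : Odd r) : sympExp r = r := by
  rw [sympExp, Nat.Coprime.gcd_eq_one hr.coprime_two_left, mul_one]

lemma sympExp_pos {r : ℕ} (hr : r.Prime) : 0 < sympExp r := by
  rcases hr.eq_two_or_odd' with rfl | h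
  · decide
  · rw [sympExp_odd h]; exact hr.pos

lemma dvd_sympExp (r : ℕ) : r ∣ sympExp r := dvd_mul_right _ _

lemma sympExp_choose {r : ℕ} (hr : r.Prime) : r ∣ (sympExp r).choose 2 := by
  rcases hr.eq_two_or_odd' with rfl | h
  · decide
  · rw [sympExp_odd h]
    exact hr.dvd_choose_self (by norm_num) (lt_of_le_of_ne hr.two_le fun he => by
      rw [← he] at h; exact absurd h (by decide))

lemma isPGroup_of_pow_sympExp {G : Type*} [Group G] {r : ℕ} (hr : r.Prime)
    (h : ∀ g : G, g ^ sympExp r = 1) : IsPGroup r G := by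
  intro g
  rcases hr.eq_two_or_odd' with rfl | hodd
  · exact ⟨2, by simpa [sympExp_two] using h g⟩
  · exact ⟨1, by simpa [sympExp_odd hodd] using h g⟩

variable {N : Subgroup (GL ι F)} {r k : ℕ} {x : Fin k → GL ι F}

lemma scalar_pow_eq {z : GL ι F} {c : F}
    (hc : (z : Matrix ι ι F) = c • (1 : Matrix ι ι F)) (m : ℕ) :
    ((z ^ m : GL ι F) : Matrix ι ι F) = c ^ m • (1 : Matrix ι ι F) := by
  rw [Units.val_pow_eq_pow_val, hc, smul_pow, one_pow]

lemma smul_one_injective [Nonempty ι] {c d : F}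
    (h : c • (1 : Matrix ι ι F) = d • (1 : Matrix ι ι F)) : c = d := by
  have := congrFun (congrFun h (Classical.arbitrary ι)) (Classical.arbitrary ι)
  simpa using this

/-- The elements of exponent dividing `sympExp r` of an abelian minimal normal subgroup. -/
def sympGroup (hS : IsSympTypeSystem N r x) : Subgroup (GL ι F) where
  carrier := {g | g ∈ N ∧ g ^ sympExp r = 1}
  mul_mem' {a b} ha hb := by
    refine ⟨N.mul_mem ha.1 hb.1, Units.ext ?_⟩
    obtain ⟨c, hc, hcomm⟩ := hS.commutator_eq b hb.1 a ha.1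
    obtain ⟨q, hq⟩ := sympExp_choose hS.prime
    have h1 : (a : Matrix ι ι F) ^ sympExp r = 1 := by
      simpa using congrArg Units.val ha.2
    have h2 : (b : Matrix ι ι F) ^ sympExp r = 1 := by
      simpa using congrArg Units.val hb.2
    rw [Units.val_pow_eq_pow_val, Units.val_mul, mul_pow_scalar_comm hcomm, hq, pow_mul, hc, h1, h2]
    simp
  one_mem' := ⟨N.one_mem, one_pow _⟩
  inv_mem' {a} ha := ⟨N.inv_mem ha.1, by rw [inv_pow, ha.2, inv_one]⟩

variable (hS : IsSympTypeSystem N r x)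
include hS

lemma mem_sympGroup {g : GL ι F} : g ∈ sympGroup hS ↔ g ∈ N ∧ g ^ sympExp r = 1 := Iff.rfl

lemma sympGroup_normal {G : Subgroup (GL ι F)} (hN : IsMinNormal G N) :
    ∀ g ∈ G, ∀ y ∈ sympGroup hS, g * y * g⁻¹ ∈ sympGroup hS := fun g hg y hy =>
  ⟨hN.normal g hg y hy.1, by rw [conj_pow, hy.2, mul_one, mul_inv_cancel]⟩

lemma sympGroup_isPGroup : IsPGroup r (sympGroup hS) :=
  isPGroup_of_pow_sympExp hS.prime fun g => Subtype.ext g.2.2

/-- Every coset of the scalars in `N` meets the group. -/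
def CosetsCovered : Prop := ∀ g ∈ N, ∃ z ∈ scalars ι F, z * g ∈ sympGroup hS

lemma cover_of_roots [Nonempty ι] [Finite F] {G : Subgroup (GL ι F)} (hN : IsMinNormal G N)
    (hsq : r = 2 → ∃ i : F, i * i = -1) : CosetsCovered hS := by
  intro g hg
  obtain ⟨z, hz, h⟩ := hS.exists_root_rep hN hsq g hg
  refine ⟨z, hz, N.mul_mem (hN.scalars_le hz) hg, ?_⟩
  obtain ⟨q, hq⟩ := dvd_sympExp r
  rw [hq, pow_mul, h, one_pow]

lemma cover_of_nonsquare [Nonempty ι] [Finite F] {G : Subgroup (GL ι F)} (hN : IsMinNormal G N)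
    (hr2 : r = 2) (hns : ¬ ∃ i : F, i * i = -1) : CosetsCovered hS := by
  classical
  haveI : Fintype F := Fintype.ofFinite F
  obtain ⟨c₀, hc₀, hc₀1⟩ := hS.exists_root
  set S := (powMonoidHom 2 : Fˣ →* Fˣ).range with hSdef
  have hidx : S.index = 2 := by
    rw [Subgroup.index_eq_card]
    subst hr2
    exact natCard_units_quotient_powers Nat.prime_two hc₀ hc₀1
  intro g hg
  obtain ⟨s, hs⟩ := (mem_scalars_iff _).1 (hS.pow_mem g hg)
  have hneg : (-1 : Fˣ) ∉ S := by
    rintro ⟨i, hi⟩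
    exact hns ⟨i, by simpa [pow_two] using congrArg Units.val hi⟩
  obtain ⟨d, ε, hε, hd⟩ : ∃ (d : Fˣ) (ε : F), (ε = 1 ∨ ε = -1) ∧ (s : F) = ε * (d : F) ^ 2 := by
    by_cases hsS : s ∈ S
    · obtain ⟨d, rfl⟩ := hsS
      exact ⟨d, 1, Or.inl rfl, by simp⟩
    · obtain ⟨d, hd⟩ : -1 * s ∈ S := by
        rw [Subgroup.mul_mem_iff_of_index_two hidx]
        exact iff_of_false hneg hsS
      refine ⟨d, -1, Or.inr rfl, ?_⟩
      have := congrArg Units.val hd
      simp only [powMonoidHom_apply, Units.val_pow_eq_pow_val, Units.val_mul, Units.val_neg,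
        Units.val_one] at this
      rw [this]
      ring
  let z : GL ι F := (Units.map (Matrix.scalar ι : F →+* Matrix ι ι F).toMonoidHom) d⁻¹
  have hzv : (z : Matrix ι ι F) = ((d : F))⁻¹ • (1 : Matrix ι ι F) := by
    simp [z, Matrix.smul_one_eq_diagonal]
  have hzmem : z ∈ scalars ι F := ⟨d⁻¹, rfl⟩
  refine ⟨z, hzmem, N.mul_mem (hN.scalars_le hzmem) hg, ?_⟩
  apply Units.ext
  rw [Units.val_pow_eq_pow_val, Units.val_mul, hzv, Matrix.smul_mul, one_mul, hr2, sympExp_two,
    smul_pow, show (g : Matrix ι ι F) ^ 4 = ((g : Matrix ι ι F) ^ 2) ^ 2 from by rw [← pow_mul],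
    ← Units.val_pow_eq_pow_val g]
  subst hr2
  rw [hs, hd, smul_pow, one_pow, smul_smul, Units.val_one]
  rcases hε with rfl | rfl <;>
  · rw [show ((d : F))⁻¹ ^ 4 * (_ * (d : F) ^ 2) ^ 2 = 1 from by
      field_simp, one_smul]

lemma sympGroup_sup_scalars {G : Subgroup (GL ι F)} (hN : IsMinNormal G N)
    (hc : CosetsCovered hS) : sympGroup hS ⊔ scalars ι F = N := by
  refine le_antisymm (sup_le (fun g hg => hg.1) hN.scalars_le) fun g hg => ?_
  obtain ⟨z, hz, h⟩ := hc g hg
  exact mem_sup_scalars.2 ⟨z⁻¹, (scalars ι F).inv_mem hz, _, h, by group⟩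

lemma spanAlg_sympGroup [Finite F] {G : Subgroup (GL ι F)} (hN : IsMinNormal G N)
    (hc : CosetsCovered hS) : spanAlg (sympGroup hS) = spanAlg N := by
  rw [← spanAlg_sup_scalars (sympGroup hS), sympGroup_sup_scalars hS hN hc]

lemma scalar_pow_one [Nonempty ι] {g : GL ι F} {c : F} (hg : g ∈ sympGroup hS)
    (hc : (g : Matrix ι ι F) = c • (1 : Matrix ι ι F)) : c ^ sympExp r = 1 := by
  apply smul_one_injective (ι := ι)
  rw [one_smul, ← scalar_pow_eq hc, hg.2, Units.val_one]

lemma scalar_mem_sympGroup [Nonempty ι] {G : Subgroup (GL ι F)} (hN : IsMinNormal G N) {g : GL ι F} {c : F}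
    (hc : (g : Matrix ι ι F) = c • (1 : Matrix ι ι F)) (hc1 : c ^ sympExp r = 1) :
    g ∈ sympGroup hS := by
  refine ⟨hN.scalars_le (scalar_mem_of_val (c := c) (fun h0 => g.ne_zero ?_) hc), Units.ext ?_⟩
  · rw [hc, h0, zero_smul]
  · rw [scalar_pow_eq hc, hc1, one_smul, Units.val_one]

lemma center_sympGroup [Nonempty ι] {G : Subgroup (GL ι F)} (hirr : spanAlg (sympGroup hS) = ⊤)
    (hN : IsMinNormal G N) :
    Nat.card (Subgroup.center (sympGroup hS)) = Nat.card (rootsOfUnity (sympExp r) F) := by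
  haveI : NeZero (sympExp r) := ⟨(sympExp_pos hS.prime).ne'⟩
  have key : ∀ g : sympGroup hS, g ∈ Subgroup.center (sympGroup hS) → ∃ c : rootsOfUnity (sympExp r) F,
      ((g : GL ι F) : Matrix ι ι F) = ((c : Fˣ) : F) • (1 : Matrix ι ι F) := by
    intro g hg
    have hz : (g : GL ι F) ∈ scalars ι F := mem_scalars_of_commute_all fun X =>
      commute_all_of_span hirr (fun y hy =>
        congrArg (fun u : sympGroup hS => ((u : GL ι F) : Matrix ι ι F))
          (Subgroup.mem_center_iff.1 hg ⟨y, hy⟩).symm) X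
    obtain ⟨c, hc⟩ := (mem_scalars_iff _).1 hz
    exact ⟨⟨c, (mem_rootsOfUnity' _ _).2 (scalar_pow_one hS g.2 hc)⟩, hc⟩
  choose f hf using key
  refine Nat.card_congr (Equiv.ofBijective (fun g => f g.1 g.2) ⟨fun a b hab => ?_, fun c => ?_⟩)
  · apply Subtype.ext; apply Subtype.ext; apply Units.ext
    rw [hf a.1 a.2, hf b.1 b.2]
    exact congrArg (fun u : rootsOfUnity (sympExp r) F => ((u : Fˣ) : F) • (1 : Matrix ι ι F)) hab
  · let z : GL ι F := (Units.map (Matrix.scalar ι : F →+* Matrix ι ι F).toMonoidHom) c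
    have hzv : (z : Matrix ι ι F) = ((c : Fˣ) : F) • (1 : Matrix ι ι F) := by
      simp [z, Matrix.smul_one_eq_diagonal]
    have hz : z ∈ sympGroup hS := scalar_mem_sympGroup hS hN hzv ((mem_rootsOfUnity' _ _).1 c.2)
    refine ⟨⟨⟨z, hz⟩, Subgroup.mem_center_iff.2 fun y =>
      Subtype.ext (scalar_mul_comm (⟨_, rfl⟩ : z ∈ scalars ι F) y).symm⟩, ?_⟩
    exact Subtype.ext (Units.ext (smul_one_injective (ι := ι) ((hf _ _).symm.trans hzv)))

/-- Representatives inside the group: they form a basis of the matrix algebra. -/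
lemma exists_group_basis [Nonempty ι] {G : Subgroup (GL ι F)} (hN : IsMinNormal G N)
    (hc : CosetsCovered hS) :
    ∃ (y : Fin k → GL ι F) (b : Module.Basis (Fin k) F (Matrix ι ι F)),
      (∀ i, y i ∈ sympGroup hS) ∧ (∀ i, b i = (y i : Matrix ι ι F)) ∧
      ∀ g ∈ sympGroup hS, ∃! p : rootsOfUnity (sympExp r) F × Fin k,
        (g : Matrix ι ι F) = ((p.1 : Fˣ) : F) • (y p.2 : Matrix ι ι F) := by
  classical
  haveI : NeZero (sympExp r) := ⟨(sympExp_pos hS.prime).ne'⟩
  choose z hz hzy using fun i => hc (x i) (hS.mem i)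
  choose u hu using fun i => (mem_scalars_iff _).1 (hz i)
  have hval : ∀ i, ((z i * x i : GL ι F) : Matrix ι ι F) = (u i : F) • (x i : Matrix ι ι F) :=
    fun i => by rw [Units.val_mul, hu, Matrix.smul_mul, one_mul]
  have hli : LinearIndependent F fun i => ((z i * x i : GL ι F) : Matrix ι ι F) := by
    rw [funext hval]
    exact hS.li.units_smul u
  haveI : Nonempty (Fin k) := ⟨⟨0, by rw [hS.card_eq]; exact Nat.mul_pos Fintype.card_pos Fintype.card_pos⟩⟩
  let b := basisOfLinearIndependentOfCardEqFinrank hli (by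
    rw [Module.finrank_matrix, Module.finrank_self, mul_one, Fintype.card_fin, hS.card_eq])
  refine ⟨fun i => z i * x i, b, hzy, fun i => by simp [b], fun g hg => ?_⟩
  obtain ⟨i, w, hw, rfl⟩ := hS.decomp g hg.1
  have hfac : w * x i = (w * (z i)⁻¹) * (z i * x i) := by group
  obtain ⟨c, hcw⟩ := (mem_scalars_iff _).1 ((scalars ι F).mul_mem hw ((scalars ι F).inv_mem (hz i)))
  have hmem : w * (z i)⁻¹ ∈ sympGroup hS := by
    have h1 := (sympGroup hS).mul_mem hg ((sympGroup hS).inv_mem (hzy i))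
    rwa [hfac, mul_inv_cancel_right] at h1
  refine ⟨(⟨c, (mem_rootsOfUnity' _ _).2 (scalar_pow_one hS hmem hcw)⟩, i), ?_, ?_⟩
  · show ((w * x i : GL ι F) : Matrix ι ι F) = _
    rw [hfac, Units.val_mul, hcw, Matrix.smul_mul, one_mul]
  · rintro ⟨c', j⟩ hj
    have hi' : ((w * x i : GL ι F) : Matrix ι ι F) = (c : F) • b i := by
      rw [hfac, Units.val_mul, hcw, Matrix.smul_mul, one_mul]
      simp [b]
    have hj' : ((w * x i : GL ι F) : Matrix ι ι F) = ((c' : Fˣ) : F) • b j := by
      rw [hj]; simp [b]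
    have h := congrArg b.repr (hj'.symm.trans hi')
    simp only [map_smul, Module.Basis.repr_self, Finsupp.smul_single, smul_eq_mul, mul_one] at h
    rcases (Finsupp.single_eq_single_iff _ _ _ _).1 h with ⟨h1, h2⟩ | ⟨h1, -⟩
    · exact Prod.ext (Subtype.ext (Units.ext h2)) h1
    · exact absurd h1 (c' : Fˣ).ne_zero

lemma card_sympGroup [Nonempty ι] {G : Subgroup (GL ι F)} (hN : IsMinNormal G N)
    (hc : CosetsCovered hS) :
    Nat.card (sympGroup hS) = Nat.card (rootsOfUnity (sympExp r) F) * k := by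
  haveI : NeZero (sympExp r) := ⟨(sympExp_pos hS.prime).ne'⟩
  obtain ⟨y, b, hy, -, huniq⟩ := exists_group_basis hS hN hc
  have hmem : ∀ p : rootsOfUnity (sympExp r) F × Fin k,
      (Units.map (Matrix.scalar ι : F →+* Matrix ι ι F).toMonoidHom) p.1 * y p.2 ∈ sympGroup hS :=
    fun p => (sympGroup hS).mul_mem (scalar_mem_sympGroup hS hN (c := ((p.1 : Fˣ) : F))
      (by simp [Matrix.smul_one_eq_diagonal]) ((mem_rootsOfUnity' _ _).1 p.1.2)) (hy _)
  have hval : ∀ p : rootsOfUnity (sympExp r) F × Fin k,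
      (((Units.map (Matrix.scalar ι : F →+* Matrix ι ι F).toMonoidHom) p.1 * y p.2 : GL ι F)
        : Matrix ι ι F) = ((p.1 : Fˣ) : F) • (y p.2 : Matrix ι ι F) := fun p => by
    rw [Units.val_mul]
    simp [← Matrix.smul_one_eq_diagonal, Matrix.smul_mul]
  refine Eq.trans (Nat.card_congr (Equiv.ofBijective (fun p => (⟨_, hmem p⟩ : sympGroup hS))
    ⟨fun p q h => ?_, fun g => ?_⟩)).symm (by rw [Nat.card_prod, Nat.card_fin])
  · have h' := congrArg (fun u : sympGroup hS => ((u : GL ι F) : Matrix ι ι F)) h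
    simp only [hval] at h'
    exact (huniq _ (hmem p)).unique (hval p) ((hval p).trans h')
  · obtain ⟨p, hp, -⟩ := huniq g g.2
    exact ⟨p, Subtype.ext (Units.ext ((hval p).trans hp.symm))⟩

lemma cyclic_of_characteristic [Nonempty ι] [Finite F] {G : Subgroup (GL ι F)}
    (hN : IsMinNormal G N) (habs : spanAlg N = ⊤) :
    ∀ A : Subgroup (sympGroup hS), A.Characteristic → IsMulCommutative A → IsCyclic A := by
  intro A hA hAc
  set A' := A.map (sympGroup hS).subtype with hA'
  have hA'le : A' ≤ N := fun g hg => (Subgroup.map_subtype_le A hg).1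
  have hnorm : ∀ g ∈ G, ∀ y ∈ A', g * y * g⁻¹ ∈ A' := by
    rintro g hg _ ⟨y, hy, rfl⟩
    let e : sympGroup hS ≃* sympGroup hS :=
      { toFun := fun u => ⟨g * u * g⁻¹, sympGroup_normal hS hN g hg u u.2⟩
        invFun := fun u => ⟨g⁻¹ * u * g, by
          simpa using sympGroup_normal hS hN g⁻¹ (G.inv_mem hg) u u.2⟩
        left_inv := fun u => Subtype.ext (by simp [mul_assoc])
        right_inv := fun u => Subtype.ext (by simp [mul_assoc])
        map_mul' := fun u v => Subtype.ext (by simp [mul_assoc]) }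
    exact ⟨e y, by
      have : A.map e.toMonoidHom = A := Subgroup.characteristic_iff_map_eq.1 hA e
      rw [← this]; exact ⟨y, hy, rfl⟩, rfl⟩
  have hle : A' ≤ scalars ι F := by
    by_contra hle
    have hAN : A' ⊔ scalars ι F = N := hN.minimal _ le_sup_right (sup_le hA'le hN.scalars_le)
      (sup_scalars_normal hnorm) fun h => hle (le_sup_left.trans h)
    apply hN.not_le
    intro g hg
    apply mem_scalars_of_commute_all
    refine commute_all_of_span habs fun h hh => ?_
    rw [← hAN] at hg hh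
    obtain ⟨z, hz, a, ⟨a', ha', rfl⟩, rfl⟩ := mem_sup_scalars.1 hg
    obtain ⟨w, hw, b, ⟨b', hb', rfl⟩, rfl⟩ := mem_sup_scalars.1 hh
    have hab : (a' : GL ι F) * (b' : GL ι F) = (b' : GL ι F) * (a' : GL ι F) :=
      congrArg (fun u : A => ((u : sympGroup hS) : GL ι F))
        (hAc.is_comm.comm ⟨a', ha'⟩ ⟨b', hb'⟩)
    rw [← Units.val_mul, ← Units.val_mul]
    congr 1
    show z * (a' : GL ι F) * (w * (b' : GL ι F)) = w * (b' : GL ι F) * (z * (a' : GL ι F))
    calc z * (a' : GL ι F) * (w * b') = z * ((a' : GL ι F) * w) * b' := by group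
      _ = z * (w * a') * b' := by rw [← scalar_mul_comm hw]
      _ = z * w * ((a' : GL ι F) * b') := by group
      _ = z * w * ((b' : GL ι F) * a') := by rw [hab]
      _ = w * z * ((b' : GL ι F) * a') := by rw [scalar_mul_comm hz w]
      _ = w * (z * b') * a' := by group
      _ = w * (b' * z) * a' := by rw [scalar_mul_comm hz (b' : GL ι F)]
      _ = _ := by group
  let f : A →* F :=
    { toFun := fun u => (((u : sympGroup hS) : GL ι F) : Matrix ι ι F)
        (Classical.arbitrary ι) (Classical.arbitrary ι)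
      map_one' := by simp
      map_mul' := fun u v => by
        obtain ⟨c, hc⟩ := (mem_scalars_iff _).1 (hle ⟨(u : sympGroup hS), u.2, rfl⟩)
        have hc' : (((u : sympGroup hS) : GL ι F) : Matrix ι ι F) = (c : F) • 1 := hc
        rw [Subgroup.coe_mul, Subgroup.coe_mul, Units.val_mul, hc', Matrix.smul_mul, one_mul]
        simp }
  refine isCyclic_of_injective_ringHom f fun u v huv => ?_
  obtain ⟨c, hc⟩ := (mem_scalars_iff _).1 (hle ⟨(u : sympGroup hS), u.2, rfl⟩)
  obtain ⟨d, hd⟩ := (mem_scalars_iff _).1 (hle ⟨(v : sympGroup hS), v.2, rfl⟩)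
  apply Subtype.ext; apply Subtype.ext; apply Units.ext
  have hcd : (c : F) = d := by
    have h1 : (((u : sympGroup hS) : GL ι F) : Matrix ι ι F) = (c : F) • 1 := hc
    have h2 : (((v : sympGroup hS) : GL ι F) : Matrix ι ι F) = (d : F) • 1 := hd
    simp only [f, MonoidHom.coe_mk, OneHom.coe_mk, h1, h2] at huv
    simpa using huv
  show (((u : sympGroup hS) : GL ι F) : Matrix ι ι F) = _
  rw [show (((u : sympGroup hS) : GL ι F) : Matrix ι ι F) = (c : F) • 1 from hc, hcd]
  exact hd.symm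

lemma exponent_sympGroup [Nonempty ι] {G : Subgroup (GL ι F)} (hN : IsMinNormal G N)
    (hc : CosetsCovered hS) (habs : spanAlg N = ⊤) [Finite F] :
    Monoid.exponent (sympGroup hS) = sympExp r := by
  have hdvd : Monoid.exponent (sympGroup hS) ∣ sympExp r :=
    Monoid.exponent_dvd_of_forall_pow_eq_one fun g => Subtype.ext g.2.2
  have hspan : spanAlg (sympGroup hS) = ⊤ := (spanAlg_sympGroup hS hN hc).trans habs
  have hnc : ¬ ∀ a b : sympGroup hS, a * b = b * a := fun h => by
    apply hN.not_le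
    rw [← sympGroup_sup_scalars hS hN hc]
    exact sup_le (fun g hg => mem_scalars_of_commute_all fun X => commute_all_of_span hspan
      (fun y hy => congrArg (fun u : sympGroup hS => ((u : GL ι F) : Matrix ι ι F))
        (h ⟨g, hg⟩ ⟨y, hy⟩)) X) le_rfl
  rcases hS.prime.eq_two_or_odd' with hr | hodd
  · subst hr
    rw [sympExp_two] at hdvd ⊢
    obtain ⟨e, he, hee⟩ := (Nat.dvd_prime_pow Nat.prime_two).1 (by simpa using hdvd :
      Monoid.exponent (sympGroup hS) ∣ 2 ^ 2)
    interval_cases e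
    · exfalso
      apply hnc
      intro a b
      have h2 : ∀ u : sympGroup hS, u = 1 := fun u => by
        have := Monoid.pow_exponent_eq_one u
        rw [hee] at this
        simpa using this
      rw [h2 a, h2 b]
    · exfalso
      apply hnc
      intro a b
      exact mul_comm_of_exponent_two (by rw [hee]; norm_num) a b
    · rw [hee]; norm_num
  · rw [sympExp_odd hodd] at hdvd ⊢
    rcases (Nat.dvd_prime hS.prime).1 hdvd with h | h
    · exfalso
      apply hnc
      intro a b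
      have h2 : ∀ u : sympGroup hS, u = 1 := fun u => by
        have := Monoid.pow_exponent_eq_one u
        rw [h] at this
        simpa using this
      rw [h2 a, h2 b]
    · exact h

/-- The group is realisable over any subfield containing its scalars. -/
theorem sympGroup_realisable [Nonempty ι] [Finite F] {G : Subgroup (GL ι F)}
    (hN : IsMinNormal G N) (hc : CosetsCovered hS) (habs : spanAlg N = ⊤) {F₀ : Subfield F}
    (hF₀ : ∀ c : F, c ^ sympExp r = 1 → c ∈ F₀) :
    ∃ B : GL ι F, ∀ g ∈ sympGroup hS, conjGL B (g : Matrix ι ι F) ∈ subfieldMatrices F₀ := by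
  classical
  haveI : NeZero (sympExp r) := ⟨(sympExp_pos hS.prime).ne'⟩
  obtain ⟨y, b, hy, hb, huniq⟩ := exists_group_basis hS hN hc
  refine realisable_of_coords ((spanAlg_sympGroup hS hN hc).trans habs) y hy
    (by rw [Fintype.card_fin, hS.card_eq]) fun g hg => ?_
  obtain ⟨⟨c, i⟩, hp, -⟩ := huniq g hg
  refine ⟨Pi.single i ⟨((c : Fˣ) : F), hF₀ _ ((mem_rootsOfUnity' _ _).1 c.2)⟩, ?_⟩
  rw [hp, Finset.sum_eq_single i]
  · simp
  · intro j _ hj; simp [Pi.single_eq_of_ne hj]
  · simp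

/-- The form fixed by the group when the scalars in it are inverted by `σ`. -/
theorem sympGroup_exists_form [Nonempty ι] [Finite F] {G : Subgroup (GL ι F)}
    (hN : IsMinNormal G N) (hc : CosetsCovered hS) (σ : F ≃+* F)
    (hσ : ∀ c : F, c ^ sympExp r = 1 → σ c * c = 1) :
    ∃ B : Matrix ι ι F, IsUnit B ∧ ∀ g ∈ sympGroup hS, IsSim σ B g 1 := by
  classical
  haveI : NeZero (sympExp r) := ⟨(sympExp_pos hS.prime).ne'⟩
  obtain ⟨y, b, hy, hb, huniq⟩ := exists_group_basis hS hN hc
  let ρ : GL ι F → Matrix ι ι F := fun g => starMat σ ((g⁻¹ : GL ι F) : Matrix ι ι F)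
  let Φ : Matrix ι ι F →ₗ[F] Matrix ι ι F := b.constr F fun i => ρ (y i)
  have hΦ : ∀ g ∈ sympGroup hS, Φ (g : Matrix ι ι F) = ρ g := by
    intro g hg
    obtain ⟨⟨c, i⟩, hp, -⟩ := huniq g hg
    simp only at hp
    rw [hp, map_smul, ← hb i, Module.Basis.constr_basis]
    have hginv : ((g⁻¹ : GL ι F) : Matrix ι ι F)
        = ((c : Fˣ) : F)⁻¹ • (((y i)⁻¹ : GL ι F) : Matrix ι ι F) := by
      apply (Units.mul_right_inj g).1
      rw [Units.mul_inv, hp, Matrix.smul_mul, Matrix.mul_smul, Units.mul_inv, smul_smul,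
        mul_inv_cancel₀ (c : Fˣ).ne_zero, one_smul]
    show ((c : Fˣ) : F) • ρ (y i) = ρ g
    simp only [ρ, hginv]
    rw [show starMat σ (((c : Fˣ) : F)⁻¹ • (((y i)⁻¹ : GL ι F) : Matrix ι ι F))
      = σ ((c : Fˣ) : F)⁻¹ • starMat σ (((y i)⁻¹ : GL ι F) : Matrix ι ι F) by
        simp [starMat, Matrix.map_smul']]
    congr 1
    rw [map_inv₀]
    exact (inv_eq_of_mul_eq_one_right (hσ _ ((mem_rootsOfUnity' _ _).1 c.2))).symm
  have hρmul : ∀ g h : GL ι F, ρ (g * h) = ρ g * ρ h := fun g h => by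
    simp only [ρ, starMat, _root_.mul_inv_rev, Units.val_mul, Matrix.map_mul, Matrix.transpose_mul]
  have hmul : ∀ X Y, Φ (X * Y) = Φ X * Φ Y := by
    have h1 : (LinearMap.mul F (Matrix ι ι F)).compr₂ Φ
        = (LinearMap.mul F (Matrix ι ι F)).compl₁₂ Φ Φ := by
      refine b.ext fun i => b.ext fun j => ?_
      simp only [LinearMap.compr₂_apply, LinearMap.mul_apply', LinearMap.compl₁₂_apply, hb]
      rw [hΦ _ (hy i), hΦ _ (hy j), ← Units.val_mul, hΦ _ ((sympGroup hS).mul_mem (hy i) (hy j)),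
        hρmul]
    intro X Y
    exact LinearMap.congr_fun (LinearMap.congr_fun h1 X) Y
  have hone : Φ 1 = 1 := by
    have := hΦ 1 (sympGroup hS).one_mem
    simpa [ρ, starMat, Matrix.map_one] using this
  obtain ⟨B, hB⟩ := exists_conj_of_algHom (AlgHom.ofLinearMap Φ hone hmul)
    (AlgHom.id F (Matrix ι ι F))
  refine ⟨(B : Matrix ι ι F)ᵀ, (Matrix.isUnit_transpose _).2 B.isUnit, fun g hg => ?_⟩
  have h1 : ρ g = (B : Matrix ι ι F) * (g : Matrix ι ι F) * ((B⁻¹ : GL ι F) : Matrix ι ι F) := by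
    rw [← hΦ g hg]; exact hB _
  unfold IsSim
  rw [one_smul]
  have h2 : starMat σ (g : Matrix ι ι F) * ρ g = 1 := by
    simp only [ρ, starMat]
    rw [← Matrix.transpose_mul, ← Matrix.map_mul, Units.inv_mul]
    simp [Matrix.map_one]
  have h3 : starMat σ (g : Matrix ι ι F) * (B : Matrix ι ι F) * (g : Matrix ι ι F)
      = (B : Matrix ι ι F) := by
    have := congrArg (· * (B : Matrix ι ι F)) h2
    simp only [one_mul] at this
    rw [h1] at this
    simpa [mul_assoc] using this
  have h4 := congrArg Matrix.transpose h3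
  simpa [adjForm, starMat, Matrix.transpose_mul, mul_assoc] using h4

end Cfsg.Agent.GeoClasses
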