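import Mathlib
import Cfsg.Prelude.Def_GeometricClasses
import Cfsg.Agent.GeoClasses.Basic
import Cfsg.Agent.GeoClasses.MatrixUnits
import Cfsg.Agent.GeoClasses.Algebra
import Cfsg.Agent.GeoClasses.Tensor
import Cfsg.Agent.GeoClasses.Forms
import Cfsg.Agent.GeoClasses.FormsMore
import Cfsg.Agent.GeoClasses.Descent
import Cfsg.Agent.GeoClasses.Structure
import Cfsg.Agent.GeoClasses.SympType
import Cfsg.Agent.GeoClasses.Blocks
import Cfsg.Agent.GeoClasses.FieldFacts

/-!
The geometric-class dichotomy for subgroups of `GL_n(q)`, `n ≥ 3`.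
-/

set_option autoImplicit false
set_option maxHeartbeats 400000

namespace Cfsg.Agent.GeoClasses

open Matrix Cfsg.Geo
open scoped MatrixGroups Matrix Kronecker commutatorElement

section General

variable {ι : Type} [Fintype ι] [DecidableEq ι] {F : Type*} [Field F]

lemma exists_invariant_of_not_irreducible {H : Subgroup (GL ι F)}
    (h : ¬ ActsIrreducibly (matrixSet H)) :
    ∃ W : Submodule F (ι → F), W ≠ ⊥ ∧ W ≠ ⊤ ∧ H ≤ subspaceStabilizer W := by
  simp only [ActsIrreducibly, not_forall, not_or] at h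
  obtain ⟨W, hW, hb, ht⟩ := h
  exact ⟨W, hb, ht, fun g hg => mem_subspaceStabilizer_of_le fun v hv =>
    hW _ ⟨g, hg, rfl⟩ ⟨v, hv, Matrix.toLin'_apply _ _⟩⟩

/-- An irreducible group is absolutely irreducible or normalises a field of prime degree. -/
theorem absIrred_or_field [Finite F] [Nonempty ι] {H : Subgroup (GL ι F)}
    (hirr : ActsIrreducibly (matrixSet H)) :
    (∃ (r : ℕ) (K : Subalgebra F (Matrix ι ι F)), r.Prime ∧ IsFieldSubalgebra r K ∧
      K ≤ Subalgebra.centralizer F (matrixSet H) ∧ H ≤ subalgebraNormalizer K) ∨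
    ActsAbsolutelyIrreducibly (matrixSet H) := by
  set C := Subalgebra.centralizer F (matrixSet H) with hC
  have hfix : ∀ g ∈ H, ∀ c ∈ C, conjGL g c = c := fun g hg c hc =>
    (conjGL_eq_self_iff g c).2 ((Subalgebra.mem_centralizer_iff (R := F)).1 hc _ ⟨g, hg, rfl⟩)
  have hnorm : Normalises H C := fun g hg c hc => by rw [hfix g hg c hc]; exact hc
  rcases normalised_subalgebra_cases hirr hnorm with
    ⟨t, e, he⟩ | ⟨r, K, hr, hK, hKZ, hle, -⟩ | ⟨a, φ, ha, hinj, hrange⟩
  · exfalso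
    have ht := he.two_le
    have h01 : (⟨0, by omega⟩ : Fin t) ≠ ⟨1, by omega⟩ := by simp
    have hone : ∀ i, e i = 1 := fun i =>
      (idempotent_eq_zero_or_one hirr (he.idem i)
        (fun g hg => hfix g hg _ (mem_centerIn.1 (he.mem i)).1)).resolve_left (he.ne_zero i)
    have ho := he.orth _ _ h01
    rw [hone, hone, one_mul] at ho
    exact one_ne_zero ho
  · exact Or.inl ⟨r, K, hr, hK, fun k hk => (mem_centerIn.1 (hKZ hk)).1, hle⟩
  · right
    refine ⟨hirr, fun M hM => ?_⟩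
    have hMC : M ∈ C := (Subalgebra.mem_centralizer_iff (R := F)).2 fun s hs => (hM s hs).symm
    rw [← hrange] at hMC
    obtain ⟨Y, rfl⟩ := hMC
    have ha1 : a = 1 := by
      by_contra ha1
      set z := φ (Matrix.single (⟨0, ha⟩ : Fin a) ⟨0, ha⟩ 1) with hz
      have hzC : z ∈ C := hrange ▸ ⟨_, rfl⟩
      have hzz : z * z = z := by rw [hz, ← map_mul]; simp
      rcases idempotent_eq_zero_or_one hirr hzz (fun g hg => hfix g hg z hzC) with h | h
      · have h1 := hinj (h.trans (map_zero φ).symm)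
        simpa using congrFun (congrFun h1 ⟨0, ha⟩) ⟨0, ha⟩
      · have h1 := hinj (h.trans (map_one φ).symm)
        have h2 := congrFun (congrFun h1 ⟨1, by omega⟩) ⟨1, by omega⟩
        simp at h2
    subst ha1
    refine ⟨Y 0 0, ?_⟩
    show φ Y = _
    have hY : Y = Y 0 0 • (1 : Matrix (Fin 1) (Fin 1) F) := by
      ext i j
      obtain rfl := Subsingleton.elim i 0
      obtain rfl := Subsingleton.elim j 0
      simp
    conv_lhs => rw [hY]
    rw [map_smul, map_one]

lemma absIrred_mono {R S : Subgroup (GL ι F)} (hle : R ≤ S)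
    (h : ActsAbsolutelyIrreducibly (matrixSet R)) : ActsAbsolutelyIrreducibly (matrixSet S) :=
  ⟨fun W hW => h.1 W fun s hs => hW s (Set.image_mono hle hs),
    fun M hM => h.2 M fun s hs => hM s (Set.image_mono hle hs)⟩

/-- Coordinates turning `M_a ⊗ M_a` into pure tensors indexed by functions. -/
noncomputable def pairCoords {a : ℕ} (L : (Fin a × Fin a → F) ≃ₗ[F] (ι → F)) :
    ((Fin 2 → Fin a) → F) ≃ₗ[F] (ι → F) :=
  (LinearEquiv.funCongrLeft F F (piFinTwoEquiv fun _ => Fin a).symm).trans L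

lemma conjMat_pairCoords {a : ℕ} (L : (Fin a × Fin a → F) ≃ₗ[F] (ι → F))
    (c d : Matrix (Fin a) (Fin a) F) :
    conjMat L (c ⊗ₖ d) = conjMat (pairCoords L) (pureMat ![c, d]) := by
  apply mat_ext_mulVec
  intro v
  rw [conjMat_mulVec, conjMat_mulVec, pairCoords, LinearEquiv.trans_apply]
  congr 1
  ext ⟨i, j⟩
  simp only [LinearEquiv.funCongrLeft_apply, LinearMap.funLeft, LinearMap.coe_mk, AddHom.coe_mk,
    Function.comp_apply, LinearEquiv.trans_symm, Matrix.mulVec, dotProduct, Matrix.kroneckerMap_apply]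
  refine (Fintype.sum_equiv (piFinTwoEquiv fun _ => Fin a).symm _ _ fun p => ?_)
  obtain ⟨k, l⟩ := p
  simp [pureMat, Fin.prod_univ_two, LinearEquiv.funCongrLeft_symm, LinearEquiv.funCongrLeft_apply,
    LinearMap.funLeft]

end General

variable {n : ℕ} {F : Type*} [Field F] [Fintype F]

/-- A group of similarities of a symmetric or skew form lies in class 8. -/
theorem linear_class_of_bilinear (hn : 3 ≤ n) {G : Subgroup (GL (Fin n) F)}
    (hirr : ActsIrreducibly (matrixSet G)) {B : Matrix (Fin n) (Fin n) F} (hB : IsUnit B) {c : F}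
    (hc : Bᵀ = c • B) (hc1 : c * c = 1)
    (hG : ∀ g ∈ G, ∃ μ : F, IsSim (RingEquiv.refl F) B g μ) :
    ∃ M, InLinearClass n F M ∧ G ≤ M := by
  haveI : Nonempty (Fin n) := ⟨⟨0, by omega⟩⟩
  have hle : G ≤ similarityGroup (formOf (RingEquiv.refl F) B) := fun g hg => by
    obtain ⟨μ, hμ⟩ := hG g hg
    exact mem_similarityGroup_of_isSim hB hμ
  have hsymp : Bᵀ = -B → (∀ i, B i i = 0) → ∃ M, InLinearClass n F M ∧ G ≤ M := by
    intro hskew hdiag
    have hev : Even n := by simpa using even_card_of_alternating hB hskew hdiag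
    refine ⟨_, ?_, hle⟩
    exact Or.inr <| Or.inr <| Or.inr <| Or.inr <| Or.inr <| Or.inr <| Or.inr <| Or.inr <| Or.inr <|
      Or.inl ⟨_, isSymplecticForm_formOf hB hskew hdiag, hev,
        by obtain ⟨k, hk⟩ := hev; omega, rfl⟩
  have hc' : c = 1 ∨ c = -1 := mul_self_eq_one_iff.1 hc1
  by_cases h2 : (2 : F) = 0
  · have hneg : (-1 : F) = 1 := by linear_combination -h2
    have hc11 : c = 1 := by rcases hc' with h | h <;> simp [h, hneg]
    rw [hc11, one_smul] at hc
    refine hsymp ?_ (diag_eq_zero_of_irreducible hirr h2 (by simpa using by omega) hc hG)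
    rw [hc, ← neg_one_smul F B, hneg, one_smul]
  rcases hc' with rfl | rfl
  · rw [one_smul] at hc
    refine ⟨quadSimilarityGroup (fun x => formOf (RingEquiv.refl F) B x x), ?_, fun g hg => ?_⟩
    · exact Or.inr <| Or.inr <| Or.inr <| Or.inr <| Or.inr <| Or.inr <| Or.inr <| Or.inr <|
        Or.inr <| Or.inr <| Or.inr ⟨_, isNondegenerateQuadraticForm_formOf hB hc h2,
          two_ne_zero_iff_odd_card.1 h2, hn, rfl⟩
    · obtain ⟨μ, hμ⟩ := hG g hg
      exact mem_quadSimilarityGroup_of_isSim hB hμ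
  · rw [neg_one_smul] at hc
    refine hsymp hc fun i => ?_
    have h1 : B i i = -B i i := congrFun (congrFun hc i) i
    have h3 : (2 : F) * B i i = 0 := by linear_combination h1
    exact (mul_eq_zero.1 h3).resolve_left h2

/-- A group of similarities of a hermitian form lies in class 8. -/
theorem linear_class_of_hermitian (hn : 3 ≤ n) {G : Subgroup (GL (Fin n) F)} {σ : F ≃+* F}
    (hne : σ ≠ RingEquiv.refl F) (hσ : ∀ a, σ (σ a) = a) {B : Matrix (Fin n) (Fin n) F}
    (hB : IsUnit B) {c : F} (hc : starMat σ B = c • B) (hc1 : σ c * c = 1)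
    (hG : ∀ g ∈ G, ∃ μ : F, IsSim σ B g μ) : ∃ M, InLinearClass n F M ∧ G ≤ M := by
  haveI : Nonempty (Fin n) := ⟨⟨0, by omega⟩⟩
  obtain ⟨d, hd0, hd⟩ := exists_hermitian_scalar hσ hne hc1
  have hB' : IsUnit (d • B) := by
    rw [Matrix.isUnit_iff_isUnit_det, Matrix.det_smul]
    exact (hd0.isUnit.pow _).mul ((Matrix.isUnit_iff_isUnit_det B).1 hB)
  refine ⟨similarityGroup (formOf σ (d • B)), ?_, fun g hg => ?_⟩
  · exact Or.inr <| Or.inr <| Or.inr <| Or.inr <| Or.inr <| Or.inr <| Or.inr <| Or.inr <|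
      Or.inr <| Or.inr <| Or.inl ⟨σ, _, isUnitaryForm_formOf hne hσ hB' (hermitian_smul hc hd),
        hn, rfl⟩
  · obtain ⟨μ, hμ⟩ := hG g hg
    refine mem_similarityGroup_of_isSim hB' (μ := μ) ?_
    unfold IsSim
    rw [adjForm_smul_left, hμ, smul_comm]

/-- Class 5 from realisability of a normalised absolutely irreducible subgroup. -/
theorem linear_class_of_realisable (hn : 3 ≤ n) {G R : Subgroup (GL (Fin n) F)}
    (hR : spanAlg R = ⊤) (hnorm : ∀ g ∈ G, ∀ x ∈ R, g * x * g⁻¹ ∈ R) {F₀ : Subfield F}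
    (hF₀ : F₀ ≠ ⊤) {B : GL (Fin n) F}
    (hB : ∀ x ∈ R, conjGL B (x : Matrix (Fin n) (Fin n) F) ∈ subfieldMatrices F₀) :
    ∃ M, InLinearClass n F M ∧ G ≤ M := by
  haveI : Nonempty (Fin n) := ⟨⟨0, by omega⟩⟩
  obtain ⟨F₁, r, hr, hle, hcard⟩ := exists_subfield_prime_index hF₀
  refine ⟨subfieldSubgroup F₁ B⁻¹, ?_, le_subfieldSubgroup hR hnorm fun x hx =>
    mem_subfieldMatrices.2 fun i j => hle (mem_subfieldMatrices.1 (hB x hx) i j)⟩
  exact Or.inr <| Or.inr <| Or.inr <| Or.inr <| Or.inr <| Or.inr <| Or.inl ⟨F₁, r, B⁻¹, hr,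
    by rw [← Nat.card_eq_fintype_card, hcard], rfl⟩

/-- A group of pure tensors and factor permutations lies in class 7 or 8. -/
theorem linear_class_of_wreath (hn : 3 ≤ n) {G : Subgroup (GL (Fin n) F)}
    (hirr : ActsIrreducibly (matrixSet G)) {a t : ℕ} (ha : 2 ≤ a) (ht : 2 ≤ t)
    {L : ((Fin t → Fin a) → F) ≃ₗ[F] (Fin n → F)}
    (hG : ∀ g ∈ G, ∃ (cs : Fin t → GL (Fin a) F) (π : Equiv.Perm (Fin t)),
      (g : Matrix (Fin n) (Fin n) F)
        = conjMat L (pureMat (fun i => (cs i : Matrix (Fin a) (Fin a) F)) * factorPerm a π)) :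
    ∃ M, InLinearClass n F M ∧ G ≤ M := by
  have hcard : Fintype.card (Fin n) = Fintype.card (Fin t → Fin a) := by
    simpa using L.finrank_eq.symm
  let e := Fintype.equivOfCardEq hcard
  obtain ⟨P, hP⟩ := exists_conj_reindex L e
  rcases Nat.lt_or_ge a 3 with ha3 | ha3
  · obtain rfl : a = 2 := by omega
    obtain ⟨B, hB, hBt, -, hBG⟩ := exists_form_wreath_two hP (by omega)
    exact linear_class_of_bilinear hn hirr hB hBt
      (by rw [← mul_pow, neg_one_mul, neg_neg, one_pow]) fun g hg => hBG g (hG g hg)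
  · refine ⟨tensorWreathSubgroup a t e P, ?_, fun g hg => ?_⟩
    · exact Or.inr <| Or.inr <| Or.inr <| Or.inr <| Or.inr <| Or.inr <| Or.inr <| Or.inr <|
        Or.inl ⟨a, t, e, P, ha3, ht, rfl⟩
    · obtain ⟨cs, π, hcs⟩ := hG g hg
      exact mem_tensorWreathSubgroup hP cs π hcs

/-- A group normalising `M_a ⊗ 1` with both factors non-trivial lies in class 4, 7 or 8. -/
theorem linear_class_of_tensor (hn : 3 ≤ n) {G : Subgroup (GL (Fin n) F)}
    (hirr : ActsIrreducibly (matrixSet G)) {a b : ℕ} (ha : 2 ≤ a) (hb : 2 ≤ b)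
    {L : (Fin a × Fin b → F) ≃ₗ[F] (Fin n → F)}
    (hG : ∀ g ∈ G, ∃ (c : GL (Fin a) F) (d : GL (Fin b) F), (g : Matrix (Fin n) (Fin n) F)
      = conjMat L ((c : Matrix (Fin a) (Fin a) F) ⊗ₖ (d : Matrix (Fin b) (Fin b) F))) :
    ∃ M, InLinearClass n F M ∧ G ≤ M := by
  rcases lt_trichotomy a b with hlt | heq | hgt
  · have hcard : Fintype.card (Fin n) = Fintype.card (Fin a × Fin b) := by
      simpa using L.finrank_eq.symm
    let e := Fintype.equivOfCardEq hcard
    obtain ⟨P, hP⟩ := exists_conj_reindex L e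
    refine ⟨tensorProductSubgroup a b e P, ?_, fun g hg => ?_⟩
    · exact Or.inr <| Or.inr <| Or.inr <| Or.inr <| Or.inr <| Or.inl ⟨a, b, e, P, ha, hlt, rfl⟩
    · obtain ⟨c, d, hcd⟩ := hG g hg
      exact mem_tensorProductSubgroup hP c d hcd
  · subst heq
    refine linear_class_of_wreath hn hirr ha (le_refl 2) (L := pairCoords L) fun g hg => ?_
    obtain ⟨c, d, hcd⟩ := hG g hg
    refine ⟨![c, d], 1, ?_⟩
    rw [hcd, conjMat_pairCoords, factorPerm_one, mul_one]
    congr 2
  · let L' : (Fin b × Fin a → F) ≃ₗ[F] (Fin n → F) :=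
      (LinearEquiv.funCongrLeft F F (Equiv.prodComm (Fin a) (Fin b))).trans L
    have hswap : ∀ (c : Matrix (Fin a) (Fin a) F) (d : Matrix (Fin b) (Fin b) F),
        conjMat L (c ⊗ₖ d) = conjMat L' (d ⊗ₖ c) := by
      intro c d
      apply mat_ext_mulVec
      intro v
      rw [conjMat_mulVec, conjMat_mulVec, LinearEquiv.trans_apply]
      congr 1
      ext ⟨i, j⟩
      simp only [LinearEquiv.funCongrLeft_apply, LinearMap.funLeft, LinearMap.coe_mk,
        AddHom.coe_mk, Function.comp_apply, Matrix.mulVec, dotProduct]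
      refine Fintype.sum_equiv (Equiv.prodComm (Fin a) (Fin b)) _ _ fun p => ?_
      obtain ⟨k, l⟩ := p
      simp [L', LinearEquiv.funCongrLeft_symm, LinearEquiv.funCongrLeft_apply, LinearMap.funLeft,
        mul_comm]
    have hcard : Fintype.card (Fin n) = Fintype.card (Fin b × Fin a) := by
      simpa using L'.finrank_eq.symm
    let e := Fintype.equivOfCardEq hcard
    obtain ⟨P, hP⟩ := exists_conj_reindex L' e
    refine ⟨tensorProductSubgroup b a e P, ?_, fun g hg => ?_⟩
    · exact Or.inr <| Or.inr <| Or.inr <| Or.inr <| Or.inr <| Or.inl ⟨b, a, e, P, hb, hgt, rfl⟩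
    · obtain ⟨c, d, hcd⟩ := hG g hg
      exact mem_tensorProductSubgroup hP d c (hcd.trans (hswap _ _))

/-- An abelian minimal normal subgroup puts the group in class 5, 6 or 8. -/
theorem linear_class_of_sympType (hn : 3 ≤ n) {G N : Subgroup (GL (Fin n) F)}
    (hN : IsMinNormal G N) (hmod : ModComm N) (hNtop : spanAlg N = ⊤) :
    ∃ M, InLinearClass n F M ∧ G ≤ M := by
  classical
  haveI : Nonempty (Fin n) := ⟨⟨0, by omega⟩⟩
  obtain ⟨r, k, x, hS⟩ := exists_sympTypeSystem hN hmod hNtop (by simpa using by omega)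
  have hNirr := absIrred_of_spanAlg_top hNtop
  have hGirr : ActsIrreducibly (matrixSet G) := (absIrred_mono hN.le hNirr).1
  -- once a fixed form exists the group consists of similarities
  have hform : ∀ (hc : CosetsCovered hS) (σ : F ≃+* F), (∀ a, σ (σ a) = a) →
      (∀ c : F, c ^ sympExp r = 1 → σ c * c = 1) →
      ∃ (B : Matrix (Fin n) (Fin n) F) (c : F), IsUnit B ∧ starMat σ B = c • B ∧ σ c * c = 1 ∧
        ∀ g ∈ G, ∃ μ : F, IsSim σ B g μ := by
    intro hc σ hσ2 hσ
    obtain ⟨B, hB, hfix⟩ := sympGroup_exists_form hS hN hc σ hσ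
    have hRirr := absIrred_of_spanAlg_top ((spanAlg_sympGroup hS hN hc).trans hNtop)
    obtain ⟨c, hc', hc1⟩ := starMat_eq_smul hRirr hσ2 hB
      fun g hg => ⟨1, one_ne_zero, map_one σ, hfix g hg⟩
    refine ⟨B, c, hB, hc', hc1, fun g hg => ?_⟩
    obtain ⟨μ, -, hμ⟩ := isSim_of_normalises hRirr hB hfix (h := g)
      (fun y hy => sympGroup_normal hS hN g hg y hy)
    exact ⟨μ, hμ⟩
  by_cases hB2 : r = 2 ∧ ¬ ∃ i : F, i * i = -1
  · obtain ⟨rfl, hns⟩ := hB2
    have hroot : ∀ c : F, c ^ sympExp 2 = 1 → (RingEquiv.refl F) c * c = 1 := by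
      intro c hc
      rw [sympExp_two] at hc
      show c * c = 1
      have h : (c * c - 1) * (c * c + 1) = 0 := by linear_combination hc
      rcases mul_eq_zero.1 h with h | h
      · exact sub_eq_zero.1 h
      · exact absurd ⟨c, eq_neg_of_add_eq_zero_left h⟩ hns
    obtain ⟨B, c, hB, hc, hc1, hG⟩ := hform (cover_of_nonsquare hS hN rfl hns)
      (RingEquiv.refl F) (fun _ => rfl) hroot
    exact linear_class_of_bilinear hn hGirr hB hc hc1 hG
  push Not at hB2
  have hcov : CosetsCovered hS := cover_of_roots hS hN hB2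
  have hspanR : spanAlg (sympGroup hS) = ⊤ := (spanAlg_sympGroup hS hN hcov).trans hNtop
  obtain ⟨ζ, hζ⟩ : ∃ ζ : F, IsPrimitiveRoot ζ (sympExp r) := by
    rcases hS.prime.eq_two_or_odd' with rfl | hodd
    · obtain ⟨i, hi⟩ := hB2 rfl
      refine ⟨i, sympExp_two ▸ IsPrimitiveRoot.mk_of_lt i (by norm_num) (by
        rw [show i ^ 4 = (i * i) * (i * i) by ring, hi]; ring) fun l hl hl4 hpow => ?_⟩
      have h2 : (2 : F) ≠ 0 := by simpa using hS.char_ne
      interval_cases l
      · rw [pow_one] at hpow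
        rw [hpow, mul_one] at hi
        exact h2 (by linear_combination hi)
      · rw [pow_two, hi] at hpow
        exact h2 (by linear_combination -hpow)
      · rw [show i ^ 3 = (i * i) * i by ring, hi] at hpow
        have : i = -1 := by linear_combination -hpow
        rw [this] at hi
        exact h2 (by linear_combination hi)
    · obtain ⟨c, hc, hc1⟩ := hS.exists_root
      rw [sympExp_odd hodd]
      haveI : Fact r.Prime := ⟨hS.prime⟩
      exact ⟨c, (orderOf_eq_prime hc hc1) ▸ IsPrimitiveRoot.orderOf c⟩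
  haveI : NeZero (sympExp r) := ⟨(sympExp_pos hS.prime).ne'⟩
  set F₀ := Subfield.closure {ζ} with hF₀
  have hmu : ∀ c : F, c ^ sympExp r = 1 → c ∈ F₀ := by
    intro c hc
    obtain ⟨i, -, rfl⟩ := hζ.eq_pow_of_pow_eq_one hc
    exact pow_mem (show ζ ∈ F₀ from Subfield.subset_closure (Set.mem_singleton ζ)) i
  by_cases hF₀top : F₀ = ⊤
  swap
  · obtain ⟨B, hB⟩ := sympGroup_realisable hS hN hcov hNtop hmu
    exact linear_class_of_realisable hn hspanR (sympGroup_normal hS hN) hF₀top hB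
  set p := ringChar F with hp
  haveI hpchar : CharP F p := ringChar.charP F
  obtain ⟨e, hpp, he⟩ := FiniteField.card F p
  haveI : Fact p.Prime := ⟨hpp⟩
  have hzcase : (sympExp r).Prime ∨ sympExp r = 4 := by
    rcases hS.prime.eq_two_or_odd' with rfl | hodd
    · exact Or.inr sympExp_two
    · exact Or.inl ((sympExp_odd hodd).symm ▸ hS.prime)
  by_cases hev : Even (e : ℕ)
  · obtain ⟨σ, hσne, hσ2, hσ⟩ := exists_inverting_automorphism hev e.pos he hζ hzcase hF₀top
    obtain ⟨B, c, hB, hc, hc1, hG⟩ := hform hcov σ hσ2 hσ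
    exact linear_class_of_hermitian hn hσne hσ2 hB hc hc1 hG
  -- class 6
  have hodde : Odd (e : ℕ) := Nat.not_even_iff_odd.1 hev
  refine ⟨subgroupNormalizer (sympGroup hS), Or.inr <| Or.inr <| Or.inr <| Or.inr <| Or.inr <|
    Or.inr <| Or.inr <| Or.inl ⟨r, sympGroup hS, ⟨⟨hS.prime, sympGroup_isPGroup hS,
      cyclic_of_characteristic hS hN hNtop, exponent_sympGroup hS hN hcov hNtop⟩,
      absIrred_of_spanAlg_top hspanR, p, e, ?_, ?_, ?_⟩, rfl⟩, fun g hg => ?_⟩
  · intro hrp
    exact hS.char_ne (by rw [hrp]; exact CharP.cast_eq_zero F p)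
  · rw [center_sympGroup hS hspanR hN, hζ.card_rootsOfUnity]
    refine ⟨hpp, hpchar, he, he ▸ dvd_card_sub_one_of_primitive hζ (sympExp_pos hS.prime).ne',
      fun d hd hde hdvd => ?_⟩
    have h1 := pow_fixed_of_dvd hζ (pow_pos hpp.pos d) hdvd
    exact absurd (le_of_generator_fixed he hd hF₀top h1) (not_le.2 hde)
  · obtain ⟨m, hm, hnm⟩ := hS.card_pow
    have hcardR : Nat.card (sympGroup hS) = sympExp r * r ^ (2 * m) := by
      rw [card_sympGroup hS hN hcov, hζ.card_rootsOfUnity, hS.card_eq, hnm, ← pow_add, two_mul]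
    rw [center_sympGroup hS hspanR hN, hζ.card_rootsOfUnity]
    rcases hS.prime.eq_two_or_odd' with hr | hodd
    · subst hr
      refine Or.inr (Or.inl ⟨rfl, ?_, sympExp_two, ?_, m, ?_⟩)
      · -- `4 ∣ p ^ 2 - 1`, so the degree is at most two
        have hp2 : p ≠ 2 := fun h2 => hS.char_ne (by
          rw [← h2]; exact CharP.cast_eq_zero F p)
        have hpodd : p % 2 = 1 := Nat.odd_iff.1 (hpp.odd_of_ne_two hp2)
        have h4 : sympExp 2 ∣ p ^ 2 - 1 := by
          rw [sympExp_two]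
          obtain ⟨q, hq⟩ : ∃ q, p = 2 * q + 1 := ⟨p / 2, by omega⟩
          refine ⟨q * q + q, ?_⟩
          rw [hq]; ring_nf; omega
        have h1 := pow_fixed_of_dvd hζ (pow_pos hpp.pos 2) h4
        have hle := le_of_generator_fixed he (by norm_num : 0 < 2) hF₀top h1
        obtain ⟨q, hq⟩ := hodde
        omega
      · rw [hnm]
        have : 2 ≤ m := by
          by_contra hlt
          have hm1 : m = 1 := by omega
          rw [hm1] at hnm
          simp at hnm
          omega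
        calc 4 = 2 ^ 2 := rfl
          _ ≤ 2 ^ m := Nat.pow_le_pow_right (by norm_num) this
      · rw [hcardR, sympExp_two, pow_add]
        norm_num
    · refine Or.inl ⟨hodd, hodde, sympExp_odd hodd, m, hm, ?_⟩
      rw [hcardR, sympExp_odd hodd, pow_add, pow_one]
  · rw [subgroupNormalizer, Subgroup.mem_normalizer_iff]
    refine fun y => ⟨fun hy => sympGroup_normal hS hN g hg y hy, fun hy => ?_⟩
    have := sympGroup_normal hS hN g⁻¹ (G.inv_mem hg) _ hy
    simpa [mul_assoc] using this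

/-- The almost simple case. -/
theorem linear_class_or_residual_of_simple (hn : 3 ≤ n) {H N : Subgroup (GL (Fin n) F)}
    (hN : IsMinNormal (H ⊔ scalars (Fin n) F) N) (hna : ¬ ModComm N) (hNtop : spanAlg N = ⊤)
    {M : Fin 1 → Subgroup (GL (Fin n) F)} (hM : IsComponentSystem (H ⊔ scalars (Fin n) F) N M) :
    (∃ M, InLinearClass n F M ∧ H ≤ M) ∨ InLinearResidualClass H := by
  classical
  haveI : Nonempty (Fin n) := ⟨⟨0, by omega⟩⟩
  set G := H ⊔ scalars (Fin n) F with hG
  set P : Subgroup (GL (Fin n) F) := ⁅N, N⁆ with hP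
  have hPtop : spanAlg P = ⊤ := (hN.spanAlg_commutator hna).trans hNtop
  have hPirr := absIrred_of_spanAlg_top hPtop
  have hHG : H ≤ G := le_sup_left
  have hGirr : ActsIrreducibly (matrixSet G) := (absIrred_mono
    ((le_sup_left.trans (hN.commutator_sup hna).le).trans hN.le) hPirr).1
  have hPG : ∀ g ∈ G, ∀ x ∈ P, g * x * g⁻¹ ∈ P := normal_commutator hN.normal
  have hPH : P ≤ H := by
    rw [hP]
    refine (Subgroup.commutator_mono hN.le hN.le).trans ?_
    rw [hG, commutator_sup_scalars]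
    exact Subgroup.commutator_le.2 fun a ha b hb =>
      H.mul_mem (H.mul_mem (H.mul_mem ha hb) (H.inv_mem ha)) (H.inv_mem hb)
  by_cases hreal : ∃ F₀ : Subfield F, F₀ ≠ ⊤ ∧ RealisableOver F₀ (matrixSet P)
  · left
    obtain ⟨F₀, hF₀, B, hB⟩ := hreal
    obtain ⟨M', hM', hle⟩ := linear_class_of_realisable hn hPtop hPG hF₀ (B := B)
      fun x hx => mem_subfieldMatrices.2 fun i j => hB _ ⟨x, hx, rfl⟩ i j
    exact ⟨M', hM', hHG.trans hle⟩
  by_cases hQ : ∃ Q : (Fin n → F) → F, IsNondegenerateQuadraticForm Q ∧ FixesQuadForm (matrixSet P) Q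
  · left
    obtain ⟨Q, hQ, hfix⟩ := hQ
    set B := gramMatrix (QuadraticMap.polar Q) with hB
    have hpol := bilinearForm_eq_formOf hQ.polar_bilinear
    have hBunit : IsUnit B :=
      isUnit_of_isNondegenerateForm (σ := RingEquiv.refl F) (hpol ▸ hQ.nondegenerate)
    have hBt : Bᵀ = B := by
      ext i j
      simp only [hB, gramMatrix, Matrix.transpose_apply, QuadraticMap.polar_comm]
    have hPfix : ∀ g ∈ P, IsSim (RingEquiv.refl F) B g 1 := fun g hg =>
      isSim_of_formOf fun u v => by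
        rw [← hpol, one_mul]
        simp only [QuadraticMap.polar, ← Matrix.mulVec_add, hfix _ ⟨g, hg, rfl⟩]
    obtain ⟨M', hM', hle⟩ := linear_class_of_bilinear hn hGirr hBunit (c := 1)
      (by rw [one_smul, hBt]) (one_mul 1) (fun g hg => by
        obtain ⟨μ, -, hμ⟩ := isSim_of_normalises hPirr hBunit hPfix (h := g) (hPG g hg)
        exact ⟨μ, hμ⟩)
    exact ⟨M', hM', hHG.trans hle⟩
  by_cases hf : ∃ f : (Fin n → F) → (Fin n → F) → F, IsSymplecticForm f ∧ FixesForm (matrixSet P) f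
  · left
    obtain ⟨f, hf, hfix⟩ := hf
    have hpol := bilinearForm_eq_formOf hf.bilinear
    obtain ⟨hBunit, hskew, -⟩ := symplecticForm_gram hf
    have hPfix : ∀ g ∈ P, IsSim (RingEquiv.refl F) (gramMatrix f) g 1 := fun g hg =>
      isSim_of_formOf fun u v => by rw [← hpol, one_mul]; exact hfix _ ⟨g, hg, rfl⟩ u v
    obtain ⟨M', hM', hle⟩ := linear_class_of_bilinear hn hGirr hBunit (c := -1)
      (by rw [neg_one_smul, hskew]) (by ring) (fun g hg => by
        obtain ⟨μ, -, hμ⟩ := isSim_of_normalises hPirr hBunit hPfix (h := g) (hPG g hg)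
        exact ⟨μ, hμ⟩)
    exact ⟨M', hM', hHG.trans hle⟩
  by_cases hu : ∃ (σ : F ≃+* F) (f : (Fin n → F) → (Fin n → F) → F),
      IsUnitaryForm σ f ∧ FixesForm (matrixSet P) f
  · left
    obtain ⟨σ, f, hf, hfix⟩ := hu
    have hpol := unitaryForm_eq_formOf hf
    have hBunit : IsUnit (gramMatrix f) :=
      isUnit_of_isNondegenerateForm (σ := σ) (hpol ▸ hf.nondegenerate)
    have hPfix : ∀ g ∈ P, IsSim σ (gramMatrix f) g 1 := fun g hg =>
      isSim_of_formOf fun u v => by rw [← hpol, one_mul]; exact hfix _ ⟨g, hg, rfl⟩ u v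
    have hherm : starMat σ (gramMatrix f) = (1 : F) • gramMatrix f := by
      rw [one_smul]
      ext i j
      simp only [starMat, Matrix.transpose_apply, Matrix.map_apply, gramMatrix]
      rw [hf.herm (Pi.single i 1)]
    obtain ⟨M', hM', hle⟩ := linear_class_of_hermitian hn hf.ne_refl hf.involutive hBunit hherm
      (by rw [map_one, one_mul]) (fun g hg => by
        obtain ⟨μ, -, hμ⟩ := isSim_of_normalises hPirr hBunit hPfix (h := g) (hPG g hg)
        exact ⟨μ, hμ⟩)
    exact ⟨M', hM', hHG.trans hle⟩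
  right
  obtain ⟨hsimp, hnab⟩ := simple_of_one_component hN hna hM
  refine ⟨P, ⟨hPH, fun h hh => hPG h (hHG hh), hN.perfect hna, hsimp, hnab,
    fun h _ hcent => mem_scalars_of_commute_all fun X => commute_all_of_span hPtop (fun y hy =>
      congrArg Units.val (commute_of_perfect (hN.perfect hna) hcent y hy)) X,
    hPirr, fun F₀ hF₀ hr => hreal ⟨F₀, hF₀, hr⟩⟩, hQ, hf, hu⟩

/-- Aschbacher's dichotomy for `GL_n(q)`, `n ≥ 3`. -/
theorem linear_dichotomy (hn : 3 ≤ n) (H : Subgroup (GL (Fin n) F)) :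
    (∃ M, InLinearClass n F M ∧ H ≤ M) ∨ InLinearResidualClass H := by
  classical
  haveI : Nonempty (Fin n) := ⟨⟨0, by omega⟩⟩
  by_cases hirr : ActsIrreducibly (matrixSet H)
  swap
  · left
    obtain ⟨W, hb, ht, hle⟩ := exists_invariant_of_not_irreducible hirr
    exact ⟨_, Or.inl ⟨W, hb, ht, rfl⟩, hle⟩
  rcases absIrred_or_field hirr with ⟨r, K, hr, hK, -, hle⟩ | habs
  · exact Or.inl ⟨_, Or.inr <| Or.inr <| Or.inr <| Or.inr <| Or.inl ⟨r, K, hr, hK, rfl⟩, hle⟩
  set G := H ⊔ scalars (Fin n) F with hG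
  have hHG : H ≤ G := le_sup_left
  have hGabs := absIrred_mono hHG habs
  obtain ⟨N, hN⟩ := exists_isMinNormal (le_sup_right : scalars (Fin n) F ≤ G)
    (not_le_scalars hGabs (by simpa using by omega))
  have fin : ∀ {M}, InLinearClass n F M → G ≤ M →
      (∃ M, InLinearClass n F M ∧ H ≤ M) ∨ InLinearResidualClass H :=
    fun hM hle => Or.inl ⟨_, hM, hHG.trans hle⟩
  rcases normalised_subalgebra_cases hGabs.1 (normalises_spanAlg hN.normal) with
    ⟨t, e, he⟩ | ⟨r, K, hr, hK, -, hle, -⟩ | ⟨a, φ, ha, hinj, hrange⟩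
  · obtain ⟨m, hD, hle⟩ := he.decomposition
    exact fin (Or.inr <| Or.inr <| Or.inr <| Or.inl ⟨t, m, _, hD, rfl⟩) hle
  · exact fin (Or.inr <| Or.inr <| Or.inr <| Or.inr <| Or.inl ⟨r, K, hr, hK, rfl⟩) hle
  obtain ⟨b, L, hb, hab, hL⟩ := exists_coords ha φ
  have ha2 : 2 ≤ a := by
    by_contra hlt
    obtain rfl : a = 1 := by omega
    apply hN.not_le
    intro g hg
    obtain ⟨Y, hY⟩ : (g : Matrix (Fin n) (Fin n) F) ∈ φ.range :=
      hrange ▸ Algebra.subset_adjoin ⟨g, hg, rfl⟩
    have hY1 : Y = Y 0 0 • (1 : Matrix (Fin 1) (Fin 1) F) := by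
      ext i j
      obtain rfl := Subsingleton.elim i 0
      obtain rfl := Subsingleton.elim j 0
      simp
    refine mem_scalars_of_commute_all fun X => ?_
    rw [← hY]
    show φ Y * X = X * φ Y
    rw [hY1, map_smul, map_one]
    simp
  rcases Nat.lt_or_ge 1 b with hb2 | hb1
  · obtain ⟨M, hM, hle⟩ := linear_class_of_tensor hn hGabs.1 ha2 (show 2 ≤ b by omega) (L := L)
      fun g hg => normaliser_kronecker ha hb hL hinj fun y hy => by
        rw [hrange] at hy ⊢
        exact normalises_spanAlg hN.normal g hg y hy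
    exact fin hM hle
  have hNtop : spanAlg N = ⊤ := by
    obtain rfl : b = 1 := by omega
    rw [← hrange, eq_top_iff]
    intro X _
    let Y : Matrix (Fin a) (Fin a) F := fun i j => (conjMat L).symm X (i, 0) (j, 0)
    refine ⟨Y, ?_⟩
    show φ Y = X
    rw [hL Y]
    conv_rhs => rw [← (conjMat L).apply_symm_apply X]
    congr 1
    ext ⟨i, s⟩ ⟨j, u⟩
    obtain rfl := Subsingleton.elim s 0
    obtain rfl := Subsingleton.elim u 0
    exact mul_one _
  by_cases hmod : ModComm N
  · obtain ⟨M, hM, hle⟩ := linear_class_of_sympType hn hN hmod hNtop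
    exact fin hM hle
  obtain ⟨t, M, hM⟩ := exists_componentSystem hN hmod
  rcases Nat.lt_or_ge 1 t with ht | ht
  · obtain ⟨a', L', φ', ha', -, -, -, -, hG'⟩ := exists_tensor_of_components hNtop hN.le hM
    obtain ⟨M', hM', hle⟩ := linear_class_of_wreath hn hGabs.1 ha' (show 2 ≤ t by omega) hG'
    exact fin hM' hle
  · obtain rfl : t = 1 := by have := hM.pos; omega
    exact linear_class_or_residual_of_simple hn hN hmod hNtop hM

end Cfsg.Agent.GeoClasses
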