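import Mathlib
import Cfsg.Prelude.Def_GeometricClasses
import Cfsg.Agent.GeoClasses.Basic
import Cfsg.Agent.GeoClasses.MatrixUnits
import Cfsg.Agent.GeoClasses.Algebra
import Cfsg.Agent.GeoClasses.Tensor
import Cfsg.Agent.GeoClasses.Forms
import Cfsg.Agent.GeoClasses.Structure
import Cfsg.Agent.GeoClasses.Polarized
import Cfsg.Agent.GeoClasses.Coords
import Cfsg.Agent.GeoClasses.FormDecomp
import Cfsg.Agent.GeoClasses.Linear

/-!
The cases for an irreducible group of isometries of a reflexive form.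
-/

set_option autoImplicit false
set_option maxHeartbeats 400000

namespace Cfsg.Agent.GeoClasses

open Matrix Cfsg.Geo
open scoped MatrixGroups Matrix Kronecker commutatorElement

variable {ι : Type} [Fintype ι] [DecidableEq ι] {F : Type*} [Field F]

lemma map_eq_eq_eq {σ : F ≃+* F} (hσ : ∀ a, σ (σ a) = a) (c : F) : σ (c * σ c) = c * σ c := by
  rw [map_mul, hσ, mul_comm]

lemma IsPolar.exists_isSim_of_mem_sup_scalars {σ : F ≃+* F} {B : Matrix ι ι F} {ε : F}
    (hP : IsPolar σ B ε) {H : Subgroup (GL ι F)} (hH : ∀ h ∈ H, IsSim σ B h 1) {g : GL ι F}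
    (hg : g ∈ H ⊔ scalars ι F) : ∃ μ : F, σ μ = μ ∧ IsSim σ B g μ := by
  obtain ⟨z, hz, h, hh, rfl⟩ := mem_sup_scalars.1 hg
  obtain ⟨c, hc⟩ := (mem_scalars_iff z).1 hz
  refine ⟨(c : F) * σ (c : F), map_eq_eq_eq hP.invol _, ?_⟩
  unfold IsSim
  rw [Units.val_mul, hc, Matrix.smul_mul, one_mul, adjForm_smul_right, hH h hh, one_smul]

lemma conjGL_scalar_mul {z : GL ι F} (hz : z ∈ scalars ι F) (g : GL ι F) (X : Matrix ι ι F) :
    conjGL (z * g) X = conjGL g X := by
  obtain ⟨c, hc⟩ := (mem_scalars_iff z).1 hz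
  rw [conjGL_mul]
  exact (conjGL_eq_self_iff z _).2 (by simp [hc])

/-- The part of the residual conditions obtained from the structure alone. -/
structure IsSimpleData (σ : F ≃+* F) (B : Matrix ι ι F) (H P : Subgroup (GL ι F)) : Prop where
  span : spanAlg P = ⊤
  perfect : ⁅P, P⁆ = P
  normal : ∀ h ∈ H, ∀ x ∈ P, h * x * h⁻¹ ∈ P
  isometry : ∀ x ∈ P, IsSim σ B x 1
  core : (∀ F₀ : Subfield F, F₀ ≠ ⊤ → ¬ RealisableOver F₀ (matrixSet P)) → IsResidualCore H P

/-- A non-solvable group of similarities on one factor. -/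
def HasNonsolvableFactor {a : ℕ} (σ : F ≃+* F) (J : Matrix (Fin a) (Fin a) F) : Prop :=
  ∃ S : Subgroup (GL (Fin a) F), ¬ Group.IsSolvable S ∧ ∀ Y ∈ S, ∃ μ, IsSim σ J Y μ

lemma eq_bot_of_perfect_of_solvable {G : Type*} [Group G] {M K : Subgroup G}
    [Group.IsSolvable M] (hKM : K ≤ M) (hK : ⁅K, K⁆ = K) : K = ⊥ := by
  by_contra hne
  have hne' : K.subgroupOf M ≠ ⊥ := by
    rw [Ne, Subgroup.subgroupOf_eq_bot]
    intro hd
    exact hne (disjoint_self.1 (hd.mono_right hKM))
  have hlt := Group.IsSolvable.commutator_lt_of_ne_bot hne'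
  refine hlt.ne ?_
  apply Subgroup.map_injective M.subtype_injective
  rw [Subgroup.map_commutator, Subgroup.map_subgroupOf_eq_of_le hKM, hK]

lemma IsComponentSystem.not_solvable [Finite F] {G N : Subgroup (GL ι F)}
    {t : ℕ} {M : Fin t → Subgroup (GL ι F)} (hM : IsComponentSystem G N M) (hna : ¬ ModComm N)
    (i₀ : Fin t) : ¬ Group.IsSolvable (M i₀) := by
  intro hsol
  by_cases hle : ⁅M i₀, M i₀⁆ ≤ scalars ι F
  · apply hna
    have hcomm : ∀ i, ∀ x ∈ M i, ∀ j, ∀ y ∈ M j, x * y * x⁻¹ * y⁻¹ ∈ scalars ι F := by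
      intro i x hx j y hy
      by_cases hij : i = j
      · subst hij
        obtain ⟨g, -, hg⟩ := hM.trans i₀ i
        rw [← hg] at hx hy
        obtain ⟨x', hx', rfl⟩ := hx
        obtain ⟨y', hy', rfl⟩ := hy
        have h1 := hle (Subgroup.commutator_mem_commutator hx' hy')
        have h2 := Subgroup.Normal.conj_mem (inferInstance : (scalars ι F).Normal) _ h1 g
        simpa [commutatorElement_def, mul_assoc] using h2
      · rw [hM.comm i j hij x hx y hy]
        simp
    set f := QuotientGroup.mk' (scalars ι F)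
    have hf : ∀ x y, x * y * x⁻¹ * y⁻¹ ∈ scalars ι F ↔ f x * f y = f y * f x := fun x y => by
      rw [← QuotientGroup.eq_one_iff]
      show f _ = 1 ↔ _
      rw [map_mul, map_mul, map_mul, map_inv, map_inv, mul_inv_eq_one, mul_inv_eq_iff_eq_mul]
    have h1 : ∀ x ∈ N, ∀ j, ∀ y ∈ M j, f x * f y = f y * f x := by
      intro x hx j y hy
      have hle1 : N ≤ (Subgroup.centralizer {f y}).comap f := by
        rw [← hM.iSup_eq]
        refine iSup_le fun i x' hx' => ?_
        rw [Subgroup.mem_comap, Subgroup.mem_centralizer_singleton_iff]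
        exact (hf _ _).1 (hcomm i x' hx' j y hy)
      exact Subgroup.mem_centralizer_singleton_iff.1 (hle1 hx)
    intro x hx y hy
    have hle2 : N ≤ (Subgroup.centralizer {f x}).comap f := by
      rw [← hM.iSup_eq]
      refine iSup_le fun j y' hy' => ?_
      rw [Subgroup.mem_comap, Subgroup.mem_centralizer_singleton_iff]
      exact (h1 x hx j y' hy').symm
    exact (hf _ _).2 (Subgroup.mem_centralizer_singleton_iff.1 (hle2 hy)).symm
  · have hKle : ⁅M i₀, M i₀⁆ ≤ M i₀ := Subgroup.commutator_le.2 fun a ha b hb =>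
      (M i₀).mul_mem ((M i₀).mul_mem ((M i₀).mul_mem ha hb) ((M i₀).inv_mem ha))
        ((M i₀).inv_mem hb)
    have hsup : ⁅M i₀, M i₀⁆ ⊔ scalars ι F = M i₀ :=
      hM.minimal i₀ _ le_sup_right (sup_le hKle (hM.scalars_le i₀))
        (sup_scalars_normal (normal_commutator (hM.normal i₀))) fun h => hle (le_sup_left.trans h)
    have hperf : ⁅(⁅M i₀, M i₀⁆ : Subgroup (GL ι F)), (⁅M i₀, M i₀⁆ : Subgroup (GL ι F))⁆
        = ⁅M i₀, M i₀⁆ := by
      conv_rhs => rw [← hsup, commutator_sup_scalars]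
    exact hle (by rw [eq_bot_of_perfect_of_solvable hKle hperf]; exact bot_le)

/-- The cases for an irreducible group of isometries. -/
theorem IsPolar.isometry_cases [Nonempty ι] [Finite F] {σ : F ≃+* F} {B : Matrix ι ι F} {ε : F}
    (hP : IsPolar σ B ε) {H : Subgroup (GL ι F)} (hH : ∀ h ∈ H, IsSim σ B h 1)
    (hirr : ActsIrreducibly (matrixSet H)) (hn : 2 ≤ Fintype.card ι) :
    (∃ (t k : ℕ) (D : Fin t → Submodule F (ι → F)),
      IsNondegenerateMDecomposition (formOf σ B) k D ∧ H ≤ decompositionStabilizer D ∧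
      ∀ i j, ∃ g ∈ H, (D i).map (Matrix.toLin' (g : Matrix ι ι F)) = D j) ∨
    (∃ (A : Subalgebra F (Matrix ι ι F)) (e : Fin 2 → Matrix ι ι F),
      IsBlockSystem H A e ∧ adj σ B (e 0) = e 1) ∨
    (∃ (r : ℕ) (K : Subalgebra F (Matrix ι ι F)), r.Prime ∧ IsFieldSubalgebra r K ∧
      StarClosed σ B K ∧ H ≤ subalgebraNormalizer K) ∨
    (∃ (a b : ℕ) (L : (Fin a × Fin b → F) ≃ₗ[F] (ι → F)) (J₁ : Matrix (Fin a) (Fin a) F)
      (J₂ : Matrix (Fin b) (Fin b) F), IsTensorData σ B ε H L J₁ J₂) ∨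
    (∃ (a t : ℕ) (L : ((Fin t → Fin a) → F) ≃ₗ[F] (ι → F)) (J : Matrix (Fin a) (Fin a) F)
      (s : F), IsWreathData σ B ε H L J s ∧ HasNonsolvableFactor σ J) ∨
    (ActsAbsolutelyIrreducibly (matrixSet H) ∧ ∃ N, IsMinNormal (H ⊔ scalars ι F) N ∧
      ModComm N ∧ spanAlg N = ⊤) ∨
    (ActsAbsolutelyIrreducibly (matrixSet H) ∧ ∃ P, IsSimpleData σ B H P) := by
  classical
  -- the centraliser
  set C := Subalgebra.centralizer F (matrixSet H) with hC
  have hfix : ∀ g ∈ H, ∀ c ∈ C, conjGL g c = c := fun g hg c hc =>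
    (conjGL_eq_self_iff g c).2 ((Subalgebra.mem_centralizer_iff (R := F)).1 hc _ ⟨g, hg, rfl⟩)
  have hnormC : Normalises H C := fun g hg c hc => by rw [hfix g hg c hc]; exact hc
  rcases hP.cases hH hirr hnormC (hP.starClosed_centralizer hH) with
    h | ⟨A, e, he⟩ | ⟨r, K, hr, hK, -, hKs, hle⟩ | ⟨a, φ, ha, hinj, hrange⟩
  · exact Or.inl h
  · exact Or.inr <| Or.inl ⟨A, e, he⟩
  · exact Or.inr <| Or.inr <| Or.inl ⟨r, K, hr, hK, hKs, hle⟩
  have habs : ActsAbsolutelyIrreducibly (matrixSet H) := by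
    refine ⟨hirr, fun M hM => ?_⟩
    have hMC : M ∈ C := (Subalgebra.mem_centralizer_iff (R := F)).2 fun s hs => (hM s hs).symm
    rw [← hrange] at hMC
    obtain ⟨Y, rfl⟩ := hMC
    have ha1 : a = 1 := by
      by_contra ha1
      set z := φ (Matrix.single (⟨0, ha⟩ : Fin a) ⟨0, ha⟩ 1) with hz
      have hzC : z ∈ C := hrange ▸ ⟨_, rfl⟩
      have hzz : z * z = z := by rw [hz, ← map_mul]; simp
      rcases idempotent_eq_zero_or_one hirr hzz (fun g hg => hfix g hg z hzC) with h | h
      · have h1 := hinj (h.trans (map_zero φ).symm)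
        simpa using congrFun (congrFun h1 ⟨0, ha⟩) ⟨0, ha⟩
      · have h1 := hinj (h.trans (map_one φ).symm)
        have h2 := congrFun (congrFun h1 ⟨1, by omega⟩) ⟨1, by omega⟩
        simp at h2
    subst ha1
    refine ⟨Y 0 0, ?_⟩
    have hY : Y = Y 0 0 • (1 : Matrix (Fin 1) (Fin 1) F) := by
      ext i j
      obtain rfl := Subsingleton.elim i 0
      obtain rfl := Subsingleton.elim j 0
      simp
    show φ Y = _
    conv_lhs => rw [hY]
    rw [map_smul, map_one]
  set G := H ⊔ scalars ι F with hG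
  have hHG : H ≤ G := le_sup_left
  have hGsim : ∀ g ∈ G, ∃ μ : F, IsSim σ B g μ := fun g hg => by
    obtain ⟨μ, -, hμ⟩ := hP.exists_isSim_of_mem_sup_scalars hH hg
    exact ⟨μ, hμ⟩
  obtain ⟨N, hN⟩ := exists_isMinNormal (le_sup_right : scalars ι F ≤ G)
    (not_le_scalars (absIrred_mono hHG habs) hn)
  have hnormN : Normalises H (spanAlg N) := fun g hg =>
    normalises_spanAlg hN.normal g (hHG hg)
  rcases hP.cases hH hirr hnormN (hP.starClosed_spanAlg fun g hg => hGsim g (hN.le hg)) with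
    h | ⟨A, e, he⟩ | ⟨r, K, hr, hK, -, hKs, hle⟩ | ⟨a, φ, ha, hinj, hrange⟩
  · exact Or.inl h
  · exact Or.inr <| Or.inl ⟨A, e, he⟩
  · exact Or.inr <| Or.inr <| Or.inl ⟨r, K, hr, hK, hKs, hle⟩
  obtain ⟨b, L, hb, hab, hL⟩ := exists_coords ha φ
  have ha2 : 2 ≤ a := by
    by_contra hlt
    obtain rfl : a = 1 := by omega
    apply hN.not_le
    intro g hg
    obtain ⟨Y, hY⟩ : (g : Matrix ι ι F) ∈ φ.range :=
      hrange ▸ Algebra.subset_adjoin ⟨g, hg, rfl⟩
    have hY1 : Y = Y 0 0 • (1 : Matrix (Fin 1) (Fin 1) F) := by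
      ext i j
      obtain rfl := Subsingleton.elim i 0
      obtain rfl := Subsingleton.elim j 0
      simp
    refine mem_scalars_of_commute_all fun X => ?_
    rw [← hY]
    show φ Y * X = X * φ Y
    rw [hY1, map_smul, map_one]
    simp
  rcases Nat.lt_or_ge 1 b with hb2 | hb1
  · obtain ⟨J₁, J₂, h⟩ := exists_tensor_forms hP hH ha2 (by omega : 2 ≤ b) hL hinj
      (hrange ▸ hP.starClosed_spanAlg fun g hg => hGsim g (hN.le hg)) (hrange ▸ hnormN)
    exact Or.inr <| Or.inr <| Or.inr <| Or.inl ⟨a, b, L, J₁, J₂, h⟩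
  have hNtop : spanAlg N = ⊤ := by
    obtain rfl : b = 1 := by omega
    rw [← hrange, eq_top_iff]
    intro X _
    let Y : Matrix (Fin a) (Fin a) F := fun i j => (conjMat L).symm X (i, 0) (j, 0)
    refine ⟨Y, ?_⟩
    show φ Y = X
    rw [hL Y]
    conv_rhs => rw [← (conjMat L).apply_symm_apply X]
    congr 1
    ext ⟨i, s⟩ ⟨j, u⟩
    obtain rfl := Subsingleton.elim s 0
    obtain rfl := Subsingleton.elim u 0
    exact mul_one _
  by_cases hmod : ModComm N
  · exact Or.inr <| Or.inr <| Or.inr <| Or.inr <| Or.inr <| Or.inl ⟨habs, N, hN, hmod, hNtop⟩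
  obtain ⟨t, M, hM⟩ := exists_componentSystem hN hmod
  rcases Nat.lt_or_ge 1 t with ht | ht
  · obtain ⟨a', L', φ', ha', hinj', hrange', hL', hgen, hmem⟩ :=
      exists_tensor_of_components hNtop hN.le hM
    have htrans : ∀ i j, ∃ g ∈ H, ∀ x ∈ (φ' i).range, conjGL g x ∈ (φ' j).range := by
      intro i j
      obtain ⟨g, hg, hgM⟩ := hM.trans i j
      obtain ⟨z, hz, h, hh, rfl⟩ := mem_sup_scalars.1 hg
      refine ⟨h, hh, fun x hx => ?_⟩
      rw [hrange'] at hx ⊢
      rw [← hgM, spanAlg_conjSub]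
      exact ⟨x, hx, conjGL_scalar_mul hz h x⟩
    obtain ⟨L'', J, s, hW, hr''⟩ := exists_wreath_forms hP hH ha' (by omega : 2 ≤ t) hL' hinj' hgen
      (fun i => by
        rw [hrange']
        exact hP.starClosed_spanAlg fun g hg => hGsim g (hN.le (hM.le i hg)))
      (fun g hg => hmem g (hHG hg)) htrans
    refine Or.inr <| Or.inr <| Or.inr <| Or.inr <| Or.inl ⟨a', t, L'', J, s, hW, ?_⟩
    haveI : NeZero t := ⟨by omega⟩
    haveI : NeZero a' := ⟨by omega⟩
    let Θ : GL (Fin a') F →* GL ι F :=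
      { toFun := fun Y => glConjMat L'' (glPure (Function.update 1 0 Y))
        map_one' := Units.ext (by
          show conjMat L'' (pureMat _) = 1
          simp only [Function.update_eq_self_iff.2 (Pi.one_apply (0 : Fin t)).symm]
          simp [pureMat_one])
        map_mul' := fun X Y => Units.ext (by
          show conjMat L'' (pureMat _) = conjMat L'' (pureMat _) * conjMat L'' (pureMat _)
          rw [← map_mul, pureMat_mul]
          congr 2
          funext j
          by_cases hj : j = 0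
          · subst hj; simp
          · simp [Function.update_of_ne hj]) }
    have hΘ : ∀ Y : GL (Fin a') F, ((Θ Y : GL ι F) : Matrix ι ι F) = conjMat L''
        (pureMat (Function.update 1 0 (Y : Matrix (Fin a') (Fin a') F))) := fun Y => by
      show conjMat L'' (pureMat _) = _
      congr 2
      funext j
      by_cases hj : j = 0
      · subst hj; simp
      · simp [Function.update_of_ne hj]
    refine ⟨(M 0).comap Θ, fun hsol => hM.not_solvable hmod 0 ?_, fun Y hY => ?_⟩
    · have hΦ : ∀ x : GL ι F, x ∈ M 0 → ∃ Y : GL (Fin a') F, Θ Y = x := by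
        intro x hx
        have hmemA : ∀ y ∈ M 0, ∃ Y : Matrix (Fin a') (Fin a') F,
            conjMat L'' (pureMat (Function.update 1 0 Y)) = (y : Matrix ι ι F) := by
          intro y hy
          obtain ⟨X, hX⟩ : (y : Matrix ι ι F) ∈ (φ' 0).range :=
            (hrange' 0) ▸ Algebra.subset_adjoin ⟨y, hy, rfl⟩
          obtain ⟨D, hD⟩ : ∃ Y, conjMat L'' (pureMat (Function.update 1 0 Y)) = φ' 0 X := by
            have hmem' : φ' 0 X ∈ ((conjMat L'').toAlgHom.comp
                ((conjMat L').symm.toAlgHom.comp (φ' 0))).range := hr'' 0 ▸ ⟨X, rfl⟩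
            obtain ⟨Z, hZ⟩ := hmem'
            refine ⟨Z, ?_⟩
            rw [← hZ]
            show _ = conjMat L'' ((conjMat L').symm (φ' 0 Z))
            rw [hL', AlgEquiv.symm_apply_apply]
          exact ⟨D, hD.trans hX⟩
        obtain ⟨Y, hY⟩ := hmemA x hx
        obtain ⟨Y', hY'⟩ := hmemA x⁻¹ ((M 0).inv_mem hx)
        have h1 : Y * Y' = 1 := by
          have h2 : conjMat L'' (pureMat (Function.update 1 0 (Y * Y'))) = 1 := by
            rw [show pureMat (Function.update (1 : Fin t → _) 0 (Y * Y'))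
              = pureMat (Function.update 1 0 Y) * pureMat (Function.update 1 0 Y') by
                rw [pureMat_mul]
                congr 1
                funext j
                by_cases hj : j = 0
                · subst hj; simp
                · simp [Function.update_of_ne hj],
              map_mul, hY, hY', Units.mul_inv]
          rw [← map_one (conjMat L'')] at h2
          ext p q
          have h3 := congrFun (congrFun ((conjMat L'').injective h2) (Function.update 0 0 p))
            (Function.update 0 0 q)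
          simp only [pureMat] at h3
          rw [← Finset.mul_prod_erase Finset.univ _ (Finset.mem_univ (0 : Fin t)),
            Finset.prod_eq_one fun j hj => by
              rw [Function.update_of_ne (Finset.ne_of_mem_erase hj),
                Function.update_of_ne (Finset.ne_of_mem_erase hj),
                Function.update_of_ne (Finset.ne_of_mem_erase hj)]
              simp] at h3
          simpa [Matrix.one_apply, (Function.update_injective (0 : Fin t → Fin a') 0).eq_iff] using h3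
        refine ⟨⟨Y, Y', h1, mul_eq_one_comm.1 h1⟩, Units.ext ?_⟩
        rw [hΘ]
        exact hY
      let g : (M 0).comap Θ →* M 0 :=
        (Θ.comp ((M 0).comap Θ).subtype).codRestrict _ fun Y => Y.2
      haveI := hsol
      exact Group.isSolvable_of_surjective (f := g) fun x => by
        obtain ⟨Y, hY⟩ := hΦ x x.2
        exact ⟨⟨Y, by show Θ Y ∈ M 0; rw [hY]; exact x.2⟩, Subtype.ext hY⟩
    · obtain ⟨μ, hμ⟩ := hGsim _ (hN.le (hM.le 0 hY))
      have h1 := (isSim_coord_iff (hΘ Y)).1 hμ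
      rw [hW.gram, adjForm_smul_left, adjForm_pureMat, smul_comm] at h1
      have h2 := smul_right_injective _ hW.ne_zero h1
      have hμ0 : μ ≠ 0 := hμ.ne_zero hP.unit
      obtain ⟨ν, -, hν⟩ := pureMat_eq_smul_pureMat h2 hμ0 (fun _ => hW.unit.ne_zero) 0
      refine ⟨ν, ?_⟩
      rw [Function.update_self] at hν
      exact hν
  · obtain rfl : t = 1 := by have := hM.pos; omega
    refine Or.inr <| Or.inr <| Or.inr <| Or.inr <| Or.inr <| Or.inr ⟨habs, ⁅N, N⁆, ?_⟩
    set P : Subgroup (GL ι F) := ⁅N, N⁆ with hPdef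
    have hPtop : spanAlg P = ⊤ := (hN.spanAlg_commutator hmod).trans hNtop
    have hPG : ∀ g ∈ G, ∀ x ∈ P, g * x * g⁻¹ ∈ P := normal_commutator hN.normal
    have hPH : P ≤ H := by
      rw [hPdef]
      refine (Subgroup.commutator_mono hN.le hN.le).trans ?_
      rw [commutator_sup_scalars]
      exact Subgroup.commutator_le.2 fun a ha b hb =>
        H.mul_mem (H.mul_mem (H.mul_mem ha hb) (H.inv_mem ha)) (H.inv_mem hb)
    obtain ⟨hsimp, hnab⟩ := simple_of_one_component hN hmod hM
    refine ⟨hPtop, hN.perfect hmod, fun h hh => hPG h (hHG hh), fun x hx => hH x (hPH hx),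
      fun hreal => ⟨hPH, fun h hh => hPG h (hHG hh), hN.perfect hmod, hsimp, hnab, ?_,
        absIrred_of_spanAlg_top hPtop, hreal⟩⟩
    exact fun h _ hcent => mem_scalars_of_commute_all fun X => commute_all_of_span hPtop
      (fun y hy => congrArg Units.val (commute_of_perfect (hN.perfect hmod) hcent y hy)) X

end Cfsg.Agent.GeoClasses
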