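import Mathlib
import Cfsg.Prelude.Def_GeometricClasses
import Cfsg.Agent.GeoClasses.Tensor
import Cfsg.Agent.GeoClasses.Forms
import Cfsg.Agent.GeoClasses.FormDecomp

/-!
Quadratic forms in characteristic two attached to decompositions of an alternating form.
-/

set_option autoImplicit false
set_option maxHeartbeats 400000

namespace Cfsg.Agent.GeoClasses

open Matrix Cfsg.Geo
open scoped MatrixGroups Matrix Kronecker

variable {ι κ : Type} [Fintype ι] [DecidableEq ι] [Fintype κ] [DecidableEq κ] {F : Type*} [Field F]

/-- An additive quadratic map vanishing on a basis vanishes. -/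
lemma eq_zero_of_additive_basis {D : (ι → F) → F} (hadd : ∀ x y, D (x + y) = D x + D y)
    (hsmul : ∀ (c : F) x, D (c • x) = c ^ 2 * D x) (hb : ∀ i, D (Pi.single i 1) = 0)
    (x : ι → F) : D x = 0 := by
  have h0 : D 0 = 0 := by simpa using hadd 0 0
  rw [pi_eq_sum_univ' x]
  refine Finset.sum_induction _ (fun v => D v = 0) (fun a b ha hb' => by rw [hadd, ha, hb', add_zero])
    h0 fun i _ => ?_
  rw [hsmul]
  exact mul_eq_zero_of_right _ (hb i)

/-- An invariant additive quadratic map of an irreducible group vanishes in characteristic two. -/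
lemma eq_zero_of_additive_irreducible [Finite F] {R : Subgroup (GL ι F)}
    (hR : ActsIrreducibly (matrixSet R)) (h2 : (2 : F) = 0) (hn : 2 ≤ Fintype.card ι)
    {D : (ι → F) → F} (hadd : ∀ x y, D (x + y) = D x + D y)
    (hsmul : ∀ (c : F) x, D (c • x) = c ^ 2 * D x)
    (hinv : ∀ g ∈ R, ∀ v, D ((g : Matrix ι ι F) *ᵥ v) = D v) : ∀ x, D x = 0 := by
  haveI : CharP F 2 := CharTwo.of_one_ne_zero_of_two_eq_zero one_ne_zero h2
  have h0 : D 0 = 0 := by simpa using hadd 0 0
  let W : Submodule F (ι → F) :=
    { carrier := {v | D v = 0}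
      add_mem' := fun {a b} (ha : D a = 0) (hb : D b = 0) => by
        show D (a + b) = 0
        rw [hadd, ha, hb, add_zero]
      zero_mem' := h0
      smul_mem' := fun c {a} (ha : D a = 0) => by
        show D (c • a) = 0
        rw [hsmul, ha, mul_zero] }
  have hW : W = ⊤ := by
    refine (hR W ?_).resolve_left ?_
    · rintro s ⟨g, hg, rfl⟩ v ⟨w, hw, rfl⟩
      show D _ = 0
      rw [Matrix.toLin'_apply, hinv g hg]
      exact hw
    · intro hbot
      have hWmem : ∀ v, D v = 0 → v = 0 := fun v hv => by
        have : v ∈ W := hv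
        rw [hbot] at this
        simpa using this
      obtain ⟨i, j, hij⟩ : ∃ i j : ι, i ≠ j := Fintype.exists_pair_of_one_lt_card (by omega)
      set u := (Pi.single i 1 : ι → F) with hu
      set v := (Pi.single j 1 : ι → F) with hv
      have hv0 : D v ≠ 0 := fun h => by simpa [hv] using congrFun (hWmem v h) j
      obtain ⟨c, hc'⟩ := FiniteField.isSquare_of_char_two (F := F) (ringChar.eq F 2) (D u / D v)
      have hmem : D (u + c • v) = 0 := by
        rw [hadd, hsmul, pow_two, ← hc', div_mul_cancel₀ _ hv0]
        exact CharTwo.add_self_eq_zero _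
      simpa [hu, hv, hij] using congrFun (hWmem _ hmem) i
  intro x
  exact (hW ▸ Submodule.mem_top : x ∈ W)

/-- An alternating Gram matrix in characteristic two polarises a quadratic form vanishing on the
basis. -/
lemma exists_upper {G : Matrix ι ι F} (h2 : (2 : F) = 0) (hsymm : Gᵀ = G)
    (hdiag : ∀ i, G i i = 0) : ∃ U : Matrix ι ι F, U + Uᵀ = G ∧ ∀ i, U i i = 0 := by
  classical
  let e := Fintype.equivFin ι
  refine ⟨Matrix.of fun i j => if e i < e j then G i j else 0, ?_, fun i => by simp⟩
  ext i j
  have hs : G j i = G i j := congrFun (congrFun hsymm i) j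
  rcases lt_trichotomy (e i) (e j) with h | h | h
  · simp [h, h.asymm]
  · obtain rfl := e.injective h
    simp [hdiag]
  · simp [h, h.asymm, hs]

/-- The quadratic form of an upper triangular matrix. -/
def quadOf (U : Matrix ι ι F) (x : ι → F) : F := formOf (RingEquiv.refl F) U x x

lemma quadOf_smul (U : Matrix ι ι F) (c : F) (x : ι → F) : quadOf U (c • x) = c ^ 2 * quadOf U x := by
  rw [quadOf, formOf_smul_left, formOf_smul_right, RingEquiv.refl_apply, quadOf]
  ring

lemma quadOf_add (U : Matrix ι ι F) (x y : ι → F) :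
    quadOf U (x + y) = quadOf U x + quadOf U y + formOf (RingEquiv.refl F) (U + Uᵀ) x y := by
  rw [← polar_formOf_diag]
  simp only [quadOf, QuadraticMap.polar]
  ring

lemma quadOf_single (U : Matrix ι ι F) (i : ι) : quadOf U (Pi.single i 1) = U i i :=
  formOf_single _ U i i

/-- An isometry of the polar form respects the quadratic form as soon as it does so on a basis. -/
lemma quadOf_mulVec {G U X : Matrix ι ι F} (hU : U + Uᵀ = G) (hdiag : ∀ i, U i i = 0)
    (hX : adjForm (RingEquiv.refl F) G X = G) (hb : ∀ i, quadOf U (X *ᵥ Pi.single i 1) = 0)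
    (x : ι → F) : quadOf U (X *ᵥ x) = quadOf U x := by
  rw [← sub_eq_zero]
  refine eq_zero_of_additive_basis (D := fun x => quadOf U (X *ᵥ x) - quadOf U x)
    (fun x y => ?_) (fun c x => ?_) (fun i => ?_) x
  · simp only [Matrix.mulVec_add, quadOf_add, hU]
    rw [formOf_mulVec, hX]
    ring
  · simp only [Matrix.mulVec_smul, quadOf_smul]
    ring
  · simp only [hb, quadOf_single, hdiag, sub_self]

/-- The vector of a pure tensor of two vectors. -/
def tensorVec {a b : ℕ} (u : Fin a → F) (w : Fin b → F) : Fin a × Fin b → F := fun p => u p.1 * w p.2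

lemma formOf_tensorVec {a b : ℕ} (σ : F ≃+* F) (J₁ : Matrix (Fin a) (Fin a) F)
    (J₂ : Matrix (Fin b) (Fin b) F) (u u' : Fin a → F) (w w' : Fin b → F) :
    formOf σ (J₁ ⊗ₖ J₂) (tensorVec u w) (tensorVec u' w') = formOf σ J₁ u u' * formOf σ J₂ w w' := by
  have h1 : (fun p => σ (tensorVec u' w' p)) = tensorVec (fun i => σ (u' i)) (fun j => σ (w' j)) :=
    funext fun p => map_mul σ _ _
  have h2 : ∀ (x : Fin a → F) (y : Fin b → F),
      (J₁ ⊗ₖ J₂) *ᵥ tensorVec x y = tensorVec (J₁ *ᵥ x) (J₂ *ᵥ y) := fun x y => by
    ext ⟨i, j⟩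
    simp only [Matrix.mulVec, dotProduct, tensorVec, Matrix.kroneckerMap_apply,
      Fintype.sum_prod_type, Finset.sum_mul_sum]
    exact Finset.sum_congr rfl fun k _ => Finset.sum_congr rfl fun l _ => by ring
  simp only [formOf, h1, h2]
  simp only [dotProduct, tensorVec, Fintype.sum_prod_type, Finset.sum_mul_sum]
  exact Finset.sum_congr rfl fun k _ => Finset.sum_congr rfl fun l _ => by ring

lemma mulVec_single_kronecker {a b : ℕ} (c : Matrix (Fin a) (Fin a) F) (d : Matrix (Fin b) (Fin b) F)
    (p : Fin a × Fin b) :
    (c ⊗ₖ d) *ᵥ Pi.single p 1 = tensorVec (fun i => c i p.1) fun j => d j p.2 := by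
  ext ⟨i, j⟩
  simp [tensorVec, Matrix.kroneckerMap_apply]

/-- The quadratic form vanishes on pure tensors when both factors are alternating. -/
lemma quadOf_tensorVec {a b : ℕ} {J₁ : Matrix (Fin a) (Fin a) F} {J₂ : Matrix (Fin b) (Fin b) F}
    {U : Matrix (Fin a × Fin b) (Fin a × Fin b) F} (hU : U + Uᵀ = J₁ ⊗ₖ J₂)
    (hdiag : ∀ p, U p p = 0) (h1 : ∀ v, formOf (RingEquiv.refl F) J₁ v v = 0)
    (h2 : ∀ v, formOf (RingEquiv.refl F) J₂ v v = 0) (u : Fin a → F) (w : Fin b → F) :
    quadOf U (tensorVec u w) = 0 := by
  have hbasis : ∀ j, ∀ u : Fin a → F, quadOf U (tensorVec u (Pi.single j 1)) = 0 := fun j u => by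
    refine eq_zero_of_additive_basis (D := fun u => quadOf U (tensorVec u (Pi.single j 1)))
      (fun x y => ?_) (fun c x => ?_) (fun i => ?_) u
    · rw [show tensorVec (x + y) (Pi.single j (1 : F))
        = tensorVec x (Pi.single j 1) + tensorVec y (Pi.single j 1) from
          funext fun p => by simp [tensorVec, add_mul], quadOf_add, hU, formOf_tensorVec, h2,
        mul_zero, add_zero]
    · rw [show tensorVec (c • x) (Pi.single j (1 : F)) = c • tensorVec x (Pi.single j 1) from
        funext fun p => by simp [tensorVec, mul_assoc], quadOf_smul]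
    · rw [show tensorVec (Pi.single i (1 : F)) (Pi.single j 1) = Pi.single (i, j) 1 from
        funext fun p => by
          obtain ⟨k, l⟩ := p
          by_cases hk : k = i <;> by_cases hl : l = j <;> simp [tensorVec, hk, hl, Pi.single_apply],
        quadOf_single, hdiag]
  refine eq_zero_of_additive_basis (D := fun w => quadOf U (tensorVec u w))
    (fun x y => ?_) (fun c x => ?_) (fun j => hbasis j u) w
  · rw [show tensorVec u (x + y) = tensorVec u x + tensorVec u y from
      funext fun p => by simp [tensorVec, mul_add], quadOf_add, hU, formOf_tensorVec, h1,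
      zero_mul, add_zero]
  · rw [show tensorVec u (c • x) = c • tensorVec u x from
      funext fun p => by simp [tensorVec, mul_left_comm], quadOf_smul]

/-- The vector of a pure tensor of a family of vectors. -/
def pureVec {a t : ℕ} (u : Fin t → (Fin a → F)) : (Fin t → Fin a) → F := fun x => ∏ i, u i (x i)

lemma formOf_pureVec {a t : ℕ} (σ : F ≃+* F) (J : Fin t → Matrix (Fin a) (Fin a) F)
    (u v : Fin t → (Fin a → F)) :
    formOf σ (pureMat J) (pureVec u) (pureVec v) = ∏ i, formOf σ (J i) (u i) (v i) := by
  simp only [formOf, dotProduct, Matrix.mulVec, pureVec, pureMat, map_prod]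
  rw [Fintype.prod_sum fun i (k : Fin a) => u i k * ∑ l, J i k l * σ (v i l)]
  refine Finset.sum_congr rfl fun x _ => ?_
  rw [Finset.prod_mul_distrib, Fintype.prod_sum fun i (l : Fin a) => J i (x i) l * σ (v i l)]
  congr 1
  exact Finset.sum_congr rfl fun y _ => by rw [Finset.prod_mul_distrib]

lemma pureMat_mul_factorPerm_single {a t : ℕ} (cs : Fin t → Matrix (Fin a) (Fin a) F)
    (π : Equiv.Perm (Fin t)) (z : Fin t → Fin a) :
    (pureMat cs * factorPerm a π) *ᵥ Pi.single z 1 = pureVec fun i k => cs i k (z (π.symm i)) := by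
  ext x
  rw [Matrix.mulVec_single_one]
  simp only [Matrix.col_apply, Matrix.mul_apply, factorPerm, mul_ite, mul_one, mul_zero]
  rw [Finset.sum_eq_single (z ∘ π.symm)]
  · rw [if_pos (by funext i; simp)]
    rfl
  · intro y _ hy
    rw [if_neg]
    rintro rfl
    exact hy (by funext i; simp)
  · simp

/-- The quadratic form vanishes on pure tensors when every factor is alternating. -/
lemma quadOf_pureVec {a t : ℕ} (ht : 2 ≤ t) {J : Matrix (Fin a) (Fin a) F} {s : F}
    {U : Matrix (Fin t → Fin a) (Fin t → Fin a) F} (hU : U + Uᵀ = s • pureMat fun _ : Fin t => J)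
    (hdiag : ∀ x, U x x = 0) (hJ : ∀ v, formOf (RingEquiv.refl F) J v v = 0) :
    ∀ u : Fin t → (Fin a → F), quadOf U (pureVec u) = 0 := by
  classical
  have key : ∀ T : Finset (Fin t), ∀ u : Fin t → (Fin a → F),
      (∀ i ∉ T, ∃ k, u i = Pi.single k 1) → quadOf U (pureVec u) = 0 := by
    intro T
    induction T using Finset.induction_on with
    | empty =>
      intro u hu
      choose z hz using fun i => hu i (Finset.notMem_empty i)
      rw [show pureVec u = Pi.single z 1 from funext fun x => by
        by_cases hx : x = z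
        · subst hx; simp [pureVec, hz]
        · obtain ⟨i, hi⟩ := Function.ne_iff.1 hx
          rw [Pi.single_eq_of_ne hx]
          exact Finset.prod_eq_zero (Finset.mem_univ i) (by rw [hz, Pi.single_eq_of_ne hi]),
        quadOf_single, hdiag]
    | insert j T hj ih =>
      intro u hu
      have hupd : ∀ (v : Fin a → F) (x : Fin t → Fin a),
          pureVec (Function.update u j v) x = v (x j) * ∏ i ∈ Finset.univ.erase j, u i (x i) := by
        intro v x
        rw [pureVec, ← Finset.mul_prod_erase Finset.univ _ (Finset.mem_univ j), Function.update_self]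
        congr 1
        exact Finset.prod_congr rfl fun i hi => by rw [Function.update_of_ne (Finset.ne_of_mem_erase hi)]
      have h0 := eq_zero_of_additive_basis (D := fun v => quadOf U (pureVec (Function.update u j v)))
        (fun v w => ?_) (fun c v => ?_) (fun k => ih _ fun i hi => ?_) (u j)
      · rwa [Function.update_eq_self] at h0
      · rw [show pureVec (Function.update u j (v + w))
          = pureVec (Function.update u j v) + pureVec (Function.update u j w) from funext fun x => by
            rw [Pi.add_apply, hupd, hupd, hupd, Pi.add_apply, add_mul], quadOf_add, hU, formOf_smul,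
          formOf_pureVec]
        obtain ⟨i, hij⟩ : ∃ i : Fin t, i ≠ j :=
          Fintype.exists_ne_of_one_lt_card (by rw [Fintype.card_fin]; omega) j
        rw [Finset.prod_eq_zero (Finset.mem_univ i) (by
          rw [Function.update_of_ne hij, Function.update_of_ne hij]; exact hJ _), mul_zero, add_zero]
      · rw [show pureVec (Function.update u j (c • v)) = c • pureVec (Function.update u j v) from
          funext fun x => by
            rw [Pi.smul_apply, hupd, hupd, Pi.smul_apply, smul_eq_mul, smul_eq_mul, mul_assoc],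
          quadOf_smul]
      · by_cases hij : i = j
        · subst hij
          exact ⟨k, Function.update_self _ _ _⟩
        · rw [Function.update_of_ne hij]
          exact hu i (by simp [hij, hi])
  exact fun u => key Finset.univ u fun i hi => absurd (Finset.mem_univ i) hi

end Cfsg.Agent.GeoClasses
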