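import Mathlib
import Cfsg.Prelude.Def_GeometricClasses
import Cfsg.Agent.GeoClasses.Basic
import Cfsg.Agent.GeoClasses.MatrixUnits
import Cfsg.Agent.GeoClasses.Algebra
import Cfsg.Agent.GeoClasses.Forms
import Cfsg.Agent.GeoClasses.Descent
import Cfsg.Agent.GeoClasses.Structure
import Cfsg.Agent.GeoClasses.SympType
import Cfsg.Agent.GeoClasses.FieldFacts
import Cfsg.Agent.GeoClasses.Polarized
import Cfsg.Agent.GeoClasses.Coords
import Cfsg.Agent.GeoClasses.ClassTools
import Cfsg.Agent.GeoClasses.IsometryCases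

/-!
The isometries inside an abelian minimal normal subgroup of symplectic similitudes.
-/

set_option autoImplicit false
set_option maxHeartbeats 400000

namespace Cfsg.Agent.GeoClasses

open Matrix Cfsg.Geo
open scoped MatrixGroups Matrix Kronecker

variable {ι : Type} [Fintype ι] [DecidableEq ι] {F : Type*} [Field F]

lemma exists_noncomm_of_span [Nonempty ι] {G N : Subgroup (GL ι F)} (hN : IsMinNormal G N)
    (htop : spanAlg N = ⊤) : ∃ g ∈ N, ∃ h ∈ N, g * h ≠ h * g := by
  by_contra hc
  push Not at hc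
  exact hN.not_le fun g hg => mem_scalars_of_commute_all fun X =>
    commute_all_of_span htop (fun h hh => congrArg Units.val (hc g hg h hh)) X

/-- Commutator scalars of similitudes of a bilinear form are signs; they force `r = 2`. -/
lemma IsPolar.sympType_two [Nonempty ι] [Finite F] {B : Matrix ι ι F} {ε : F}
    (hP : IsPolar (RingEquiv.refl F) B ε) {H N : Subgroup (GL ι F)}
    (hH : ∀ h ∈ H, IsSim (RingEquiv.refl F) B h 1) (hN : IsMinNormal (H ⊔ scalars ι F) N)
    {r k : ℕ} {x : Fin k → GL ι F} (hS : IsSympTypeSystem N r x) (htop : spanAlg N = ⊤) :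
    r = 2 ∧ (2 : F) ≠ 0 := by
  obtain ⟨g, hg, h, hh, hne⟩ := exists_noncomm_of_span hN htop
  obtain ⟨c, hcr, hc⟩ := hS.commutator_eq g hg h hh
  obtain ⟨μ, -, hμ⟩ := hP.exists_isSim_of_mem_sup_scalars hH (hN.le hg)
  obtain ⟨ν, -, hν⟩ := hP.exists_isSim_of_mem_sup_scalars hH (hN.le hh)
  have h1 := hμ.mul hν
  have h2 := hν.mul hμ
  unfold IsSim at h1 h2
  rw [Units.val_mul, hc, adjForm_smul_right, ← Units.val_mul, h2, smul_smul,
    RingEquiv.refl_apply] at h1
  have h3 := smul_left_injective F hP.unit.ne_zero h1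
  have hμν : μ * ν ≠ 0 := mul_ne_zero (hμ.ne_zero hP.unit) (hν.ne_zero hP.unit)
  have hcc : c * c = 1 := mul_right_cancel₀ hμν (by linear_combination h3)
  have hc1 : c ≠ 1 := by
    rintro rfl
    exact hne (Units.ext (by simpa using hc))
  have hc2 : c = -1 := (mul_self_eq_one_iff.1 hcc).resolve_left hc1
  have h20 : (2 : F) ≠ 0 := fun h0 => hc1 (by rw [hc2]; linear_combination -h0)
  refine ⟨?_, h20⟩
  rcases hS.prime.eq_two_or_odd' with hr | hodd
  · exact hr
  · exfalso
    rw [hc2, hodd.neg_one_pow] at hcr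
    exact h20 (by linear_combination -hcr)

/-- What the class of symplectic-type normalisers asks of the isometries inside `N`. -/
structure IsSignGroup (B : Matrix ι ι F) (H R : Subgroup (GL ι F)) (d : ℕ) : Prop where
  span : spanAlg R = ⊤
  isometry : ∀ g ∈ R, IsSim (RingEquiv.refl F) B g 1
  normal : ∀ g ∈ H, ∀ y ∈ R, g * y * g⁻¹ ∈ R
  symplecticType : IsSymplecticTypeGroup 2 R
  card : Nat.card R = 2 ^ (1 + 2 * d)
  center : Nat.card (Subgroup.center R) = 2
  minus : IsOfMinusType d R
  coords : ∃ y : Fin (Fintype.card ι * Fintype.card ι) → GL ι F, (∀ i, y i ∈ R) ∧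
    ∀ g ∈ R, ∃ i, (g : Matrix ι ι F) = (y i : Matrix ι ι F) ∨
      (g : Matrix ι ι F) = -(y i : Matrix ι ι F)

lemma finrank_le_half {B : Matrix ι ι F} (hB : IsUnit B) {W : Submodule F (ι → F)}
    (hW : ∀ u ∈ W, ∀ v ∈ W, formOf (RingEquiv.refl F) B u v = 0) :
    2 * Module.finrank F W ≤ Fintype.card ι := by
  let Φ : W →ₗ[F] Module.Dual F (ι → F) :=
    { toFun := fun w =>
        { toFun := fun v => formOf (RingEquiv.refl F) B v w
          map_add' := fun a b => formOf_add_left _ _ _ _ _
          map_smul' := fun c a => formOf_smul_left _ _ _ _ _ }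
      map_add' := fun a b => LinearMap.ext fun v => formOf_add_right _ _ _ _ _
      map_smul' := fun c a => LinearMap.ext fun v => formOf_smul_right _ _ _ _ _ }
  have hinj : Function.Injective Φ := by
    refine (injective_iff_map_eq_zero Φ).2 fun w hw => ?_
    by_contra h0
    obtain ⟨⟨x, hx⟩, -⟩ := isNondegenerateForm_formOf (RingEquiv.refl F) hB (w : ι → F)
      (fun h => h0 (Subtype.ext h))
    exact hx (LinearMap.congr_fun hw x)
  have h1 : LinearMap.range Φ ≤ W.dualAnnihilator := by
    rintro _ ⟨w, rfl⟩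
    rw [Submodule.mem_dualAnnihilator]
    exact fun v hv => hW v hv w w.2
  have h2 := Submodule.finrank_mono h1
  rw [LinearMap.finrank_range_of_inj hinj] at h2
  have h3 := Subspace.finrank_add_finrank_dualAnnihilator_eq W
  rw [Module.finrank_fintype_fun_eq_card] at h3
  omega

lemma spanAlg_comm {S : Subgroup (GL ι F)}
    (h : ∀ a ∈ S, ∀ b ∈ S, a * b = b * a) :
    ∀ X ∈ spanAlg S, ∀ Y ∈ spanAlg S, X * Y = Y * X := by
  have h1 : spanAlg S ≤ Subalgebra.centralizer F (matrixSet S) := Algebra.adjoin_le (by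
    rintro _ ⟨a, ha, rfl⟩
    rw [SetLike.mem_coe, Subalgebra.mem_centralizer_iff]
    rintro _ ⟨b, hb, rfl⟩
    exact congrArg Units.val (h b hb a ha))
  intro X hX Y hY
  have h2 : spanAlg S ≤ Subalgebra.centralizer F {Y} := Algebra.adjoin_le (by
    rintro _ ⟨a, ha, rfl⟩
    rw [SetLike.mem_coe, Subalgebra.mem_centralizer_iff]
    rintro _ rfl
    exact ((Subalgebra.mem_centralizer_iff (R := F)).1 (h1 hY) _ ⟨a, ha, rfl⟩).symm)
  exact ((Subalgebra.mem_centralizer_iff (R := F)).1 (h2 hX) Y rfl).symm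

/-- Commuting self-adjoint involutions span an algebra of dimension at most half the size. -/
lemma IsPolar.finrank_involutions [Finite F] [Nonempty ι] {B : Matrix ι ι F}
    (hP : IsPolar (RingEquiv.refl F) B (-1)) (h2 : (2 : F) ≠ 0) {S : Subgroup (GL ι F)}
    (hcomm : ∀ a ∈ S, ∀ b ∈ S, a * b = b * a) (hsq : ∀ a ∈ S, a * a = 1)
    (hiso : ∀ a ∈ S, IsSim (RingEquiv.refl F) B a 1) :
    2 * Module.finrank F (spanAlg S) ≤ Fintype.card ι := by
  classical
  haveI : Fintype F := Fintype.ofFinite F
  obtain ⟨p, hpc⟩ := CharP.exists F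
  haveI := hpc
  obtain ⟨e, hp, he⟩ := FiniteField.card F p
  haveI : Fact p.Prime := ⟨hp⟩
  haveI : CharP (Matrix ι ι F) p := inferInstance
  set q := Fintype.card F with hq
  have hqodd : Odd q := two_ne_zero_iff_odd_card.1 h2
  have hC := spanAlg_comm hcomm
  have hpow : ∀ X ∈ spanAlg S, X ^ q = X := by
    intro X hX
    induction hX using Algebra.adjoin_induction with
    | mem x hx =>
      obtain ⟨a, ha, rfl⟩ := hx
      obtain ⟨l, hl⟩ := hqodd
      have h1 : (a : Matrix ι ι F) * (a : Matrix ι ι F) = 1 := by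
        rw [← Units.val_mul, hsq a ha, Units.val_one]
      rw [hl, pow_succ, pow_mul, pow_two, h1, one_pow, one_mul]
    | algebraMap c => rw [← map_pow, FiniteField.pow_card]
    | add x y hx hy ihx ihy =>
      conv_rhs => rw [← ihx, ← ihy]
      rw [he]
      exact add_pow_char_pow_of_commute _ _ (hC x hx y hy)
    | mul x y hx hy ihx ihy =>
      rw [Commute.mul_pow (hC x hx y hy), ihx, ihy]
  have hadj : ∀ X ∈ spanAlg S, adj (RingEquiv.refl F) B X = X := by
    intro X hX
    induction hX using Algebra.adjoin_induction with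
    | mem x hx =>
      obtain ⟨a, ha, rfl⟩ := hx
      rw [hP.adj_sim (hiso a ha), map_one, one_smul, inv_eq_of_mul_eq_one_right (hsq a ha)]
    | algebraMap c =>
      rw [Algebra.algebraMap_eq_smul_one, adj_smul, hP.adj_one, RingEquiv.refl_apply]
    | add x y hx hy ihx ihy => rw [adj_add, ihx, ihy]
    | mul x y hx hy ihx ihy => rw [hP.adj_mul, ihx, ihy, hC y hy x hx]
  -- a vector with trivial annihilator
  obtain ⟨v, hv⟩ : ∃ v : ι → F, ∀ X ∈ spanAlg S, X *ᵥ v = 0 → X = 0 := by
    obtain ⟨v, hmin⟩ := Finite.exists_min fun v : ι → F =>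
      {X : spanAlg S | (X : Matrix ι ι F) *ᵥ v = 0}.ncard
    refine ⟨v, fun X hX hXv => ?_⟩
    by_contra hX0
    obtain ⟨w, hw⟩ : ∃ w, X *ᵥ w ≠ 0 := by
      by_contra h
      push Not at h
      exact hX0 (mat_ext_mulVec fun w => by rw [h, Matrix.zero_mulVec])
    obtain ⟨l, hl⟩ : ∃ l, q = l + 2 := ⟨q - 2, by
      have := Fintype.one_lt_card (α := F)
      omega⟩
    set E := X ^ (l + 1) with hE
    have hEX : X * E = X := by rw [hE, ← pow_succ', show l + 1 + 1 = q by omega, hpow X hX]
    have hEE : E * E = E := by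
      rw [hE, ← pow_add, show l + 1 + (l + 1) = q + l by omega, pow_add, hpow X hX, ← pow_succ']
    have hEv : E *ᵥ v = 0 := by
      rw [hE, pow_succ, ← Matrix.mulVec_mulVec, hXv, Matrix.mulVec_zero]
    have hsub : {Y : spanAlg S | (Y : Matrix ι ι F) *ᵥ (v + E *ᵥ w) = 0}
        ⊂ {Y : spanAlg S | (Y : Matrix ι ι F) *ᵥ v = 0} := by
      refine (Set.ssubset_iff_of_subset fun Y hY => ?_).2 ⟨⟨X, hX⟩, hXv, fun h => hw ?_⟩
      · have h1 : (Y : Matrix ι ι F) *ᵥ v + (Y : Matrix ι ι F) *ᵥ (E *ᵥ w) = 0 := by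
          rw [← Matrix.mulVec_add]; exact hY
        have hc : (Y : Matrix ι ι F) * E = E * (Y : Matrix ι ι F) :=
          hC _ Y.2 E (pow_mem hX _)
        have h2' := congrArg (E *ᵥ ·) h1
        simp only [Matrix.mulVec_add, Matrix.mulVec_mulVec, Matrix.mulVec_zero] at h2'
        rw [← hc, ← Matrix.mulVec_mulVec v, hEv, Matrix.mulVec_zero, zero_add, ← mul_assoc,
          ← hc] at h2'
        rw [Matrix.mulVec_mulVec] at h1
        rw [mul_assoc _ E E, hEE] at h2'
        rw [h2', add_zero] at h1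
        exact h1
      · have h1 : X *ᵥ (v + E *ᵥ w) = 0 := h
        rwa [Matrix.mulVec_add, hXv, zero_add, Matrix.mulVec_mulVec, hEX] at h1
    exact absurd (Set.ncard_lt_ncard hsub (Set.toFinite _)) (not_lt.2 (hmin _))
  let ev : spanAlg S →ₗ[F] (ι → F) :=
    { toFun := fun X => (X : Matrix ι ι F) *ᵥ v
      map_add' := fun X Y => by simp [Matrix.add_mulVec]
      map_smul' := fun c X => by simp [Matrix.smul_mulVec] }
  have hinj : Function.Injective ev := (injective_iff_map_eq_zero ev).2 fun X hX =>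
    Subtype.ext (hv _ X.2 hX)
  rw [← LinearMap.finrank_range_of_inj hinj]
  refine finrank_le_half hP.unit ?_
  rintro _ ⟨X, rfl⟩ _ ⟨Y, rfl⟩
  show formOf _ B ((X : Matrix ι ι F) *ᵥ v) ((Y : Matrix ι ι F) *ᵥ v) = 0
  rw [hP.formOf_adj, hadj _ X.2, Matrix.mulVec_mulVec]
  set Z := (X : Matrix ι ι F) * (Y : Matrix ι ι F)
  have hZ : Z ∈ spanAlg S := mul_mem X.2 Y.2
  have h3 := hP.map_formOf v (Z *ᵥ v)
  rw [RingEquiv.refl_apply, hP.formOf_adj, hadj Z hZ] at h3
  have h4 : (2 : F) * formOf (RingEquiv.refl F) B v (Z *ᵥ v) = 0 := by linear_combination h3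
  exact (mul_eq_zero.1 h4).resolve_left h2

/-- The isometries inside `N` form a group of symplectic type of minus type. -/
theorem IsPolar.exists_signGroup [Nonempty ι] [Finite F] {B : Matrix ι ι F}
    (hP : IsPolar (RingEquiv.refl F) B (-1)) {H N : Subgroup (GL ι F)}
    (hH : ∀ h ∈ H, IsSim (RingEquiv.refl F) B h 1) (hN : IsMinNormal (H ⊔ scalars ι F) N)
    {r k : ℕ} {x : Fin k → GL ι F} (hS : IsSympTypeSystem N r x) (htop : spanAlg N = ⊤)
    (h2 : (2 : F) ≠ 0) (hr : r = 2) : ∃ R d, IsSignGroup B H R d := by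
  classical
  haveI : Fintype F := Fintype.ofFinite F
  subst hr
  let I : Subgroup (GL ι F) :=
    { carrier := {g | IsSim (RingEquiv.refl F) B g 1}
      mul_mem' := fun ha hb => by simpa using ha.mul hb
      one_mem' := IsSim.one _ B
      inv_mem' := fun ha => by simpa using ha.inv one_ne_zero }
  set R := N ⊓ I with hRdef
  have hscal : ∀ g ∈ R, ∀ c : F, (g : Matrix ι ι F) = c • (1 : Matrix ι ι F) → c = 1 ∨ c = -1 := by
    intro g hg c hc
    have h1 : IsSim (RingEquiv.refl F) B g 1 := hg.2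
    unfold IsSim at h1
    rw [hc, adjForm_smul_right, adjForm_one, RingEquiv.refl_apply] at h1
    exact mul_self_eq_one_iff.1 (smul_left_injective F hP.unit.ne_zero h1)
  have hrep : ∀ i, ∃ y ∈ R, ∃ u : Fˣ, (y : Matrix ι ι F) = (u : F) • (x i : Matrix ι ι F) := by
    intro i
    obtain ⟨z, hz, h, hh, hzh⟩ := mem_sup_scalars.1 (hN.le (hS.mem i))
    have hhN : h ∈ N := by
      rw [show h = z⁻¹ * x i by rw [← hzh]; group]
      exact N.mul_mem (N.inv_mem (hN.scalars_le hz)) (hS.mem i)
    obtain ⟨u, hu⟩ := (mem_scalars_iff _).1 ((scalars ι F).inv_mem hz)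
    refine ⟨h, ⟨hhN, hH h hh⟩, u, ?_⟩
    rw [show h = z⁻¹ * x i by rw [← hzh]; group, Units.val_mul, hu, Matrix.smul_mul, one_mul]
  choose y hy u hu using hrep
  have hdec : ∀ g ∈ R, ∃ i, ∃ s : Bool, (g : Matrix ι ι F)
      = (if s then (-1 : F) else 1) • (y i : Matrix ι ι F) := by
    intro g hg
    obtain ⟨i, w, hw, hgw⟩ := hS.decomp g hg.1
    obtain ⟨c, hc⟩ := (mem_scalars_iff w).1 hw
    have h1 : ((g * (y i)⁻¹ : GL ι F) : Matrix ι ι F) = ((c : F) / (u i : F)) • 1 := by
      have hgy : (g : Matrix ι ι F) = ((c : F) / (u i : F)) • (y i : Matrix ι ι F) := by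
        rw [hgw, Units.val_mul, hc, Matrix.smul_mul, one_mul, hu, smul_smul,
          div_mul_cancel₀ _ (u i).ne_zero]
      rw [Units.val_mul, hgy, Matrix.smul_mul, Units.mul_inv]
    have h3 : (g : Matrix ι ι F) = ((c : F) / (u i : F)) • (y i : Matrix ι ι F) := by
      rw [show g = g * (y i)⁻¹ * y i by group, Units.val_mul, h1, Matrix.smul_mul, one_mul]
    rcases hscal _ (R.mul_mem hg (R.inv_mem (hy i))) _ h1 with h | h
    · exact ⟨i, false, by simpa [h] using h3⟩
    · exact ⟨i, true, by simpa [h] using h3⟩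
  have hli : LinearIndependent F fun i => (y i : Matrix ι ι F) := by
    rw [funext hu]
    exact hS.li.units_smul u
  have hspan : spanAlg R = ⊤ := by
    rw [← htop, ← spanAlg_sup_scalars R]
    congr 1
    refine le_antisymm (sup_le inf_le_left hN.scalars_le) fun g hg => ?_
    obtain ⟨i, w, hw, rfl⟩ := hS.decomp g hg
    obtain ⟨z, hz, h, hh, hzh⟩ := mem_sup_scalars.1 (hN.le (hS.mem i))
    refine mem_sup_scalars.2 ⟨w * z, (scalars ι F).mul_mem hw hz, h, ⟨?_, hH h hh⟩, by
      rw [mul_assoc, hzh]⟩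
    rw [show h = z⁻¹ * x i by rw [← hzh]; group]
    exact N.mul_mem (N.inv_mem (hN.scalars_le hz)) (hS.mem i)
  have hnormG : ∀ g ∈ H ⊔ scalars ι F, ∀ a ∈ R, g * a * g⁻¹ ∈ R := fun g hg a ha => by
    refine ⟨hN.normal g hg a ha.1, ?_⟩
    obtain ⟨μ, -, hμ⟩ := hP.exists_isSim_of_mem_sup_scalars hH hg
    have h0 := hμ.ne_zero hP.unit
    show IsSim (RingEquiv.refl F) B (g * a * g⁻¹) 1
    have := (hμ.mul ha.2).mul (hμ.inv h0)
    rwa [mul_one, mul_inv_cancel₀ h0] at this
  have hnegval : ((-1 : GL ι F) : Matrix ι ι F) = (-1 : F) • 1 := by simp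
  have hneg : (-1 : GL ι F) ∈ R :=
    ⟨hN.scalars_le (scalar_mem_of_val (c := (-1 : F)) (by simp) hnegval), by
      show IsSim _ B _ 1
      rw [IsSim, hnegval, adjForm_smul_right, adjForm_one, RingEquiv.refl_apply]
      simp⟩
  have hne1 : (-1 : F) ≠ 1 := fun h => h2 (by linear_combination -h)
  obtain ⟨d, hd, hnd⟩ := hS.card_pow
  have hk : k = Fintype.card ι * Fintype.card ι := hS.card_eq
  have hcard : Nat.card R = 2 ^ (1 + 2 * d) := by
    let f : Bool × Fin k → R := fun p => ⟨(if p.1 then -1 else 1) * y p.2,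
      R.mul_mem (by split <;> [exact hneg; exact R.one_mem]) (hy _)⟩
    have hf : ∀ p : Bool × Fin k, ((f p : GL ι F) : Matrix ι ι F)
        = (if p.1 then (-1 : F) else 1) • (y p.2 : Matrix ι ι F) := fun p => by
      obtain ⟨s, i⟩ := p
      cases s <;> simp [f]
    have hbij : Function.Bijective f := by
      refine ⟨fun p p' hpp => ?_, fun g => ?_⟩
      · have h1 := hf p
        rw [hpp, hf p'] at h1
        obtain ⟨s, i⟩ := p
        obtain ⟨s', i'⟩ := p'
        have hij : i' = i := by
          by_contra hne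
          have h4 := hli
          rw [linearIndependent_iff'] at h4
          have h5 := h4 {i', i} (fun j => if j = i' then (if s' then (-1 : F) else 1)
            else -(if s then (-1 : F) else 1)) (by
              rw [Finset.sum_pair hne, if_pos rfl, if_neg (Ne.symm hne), h1, neg_smul, add_neg_cancel])
            i' (by simp)
          rw [if_pos rfl] at h5
          cases s' <;> simp at h5
        subst hij
        have h6 := smul_left_injective F (Units.ne_zero (y i')) h1
        cases s <;> cases s' <;> simp_all [hne1.symm]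
      · obtain ⟨i, s, hs⟩ := hdec g g.2
        exact ⟨(s, i), Subtype.ext (Units.ext ((hf _).trans hs.symm))⟩
    rw [← Nat.card_congr (Equiv.ofBijective f hbij), Nat.card_prod, Nat.card_fin, hk, hnd,
      Nat.card_eq_fintype_card, Fintype.card_bool]
    ring
  have hcen : ∀ g ∈ R, (∀ a ∈ R, g * a = a * g) → g = 1 ∨ g = -1 := fun g hg hc => by
    obtain ⟨c, hc'⟩ := (mem_scalars_iff g).1 (mem_scalars_of_commute_all fun X =>
      commute_all_of_span hspan (fun a ha => congrArg Units.val (hc a ha)) X)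
    rcases hscal g hg c hc' with h | h
    · left; apply Units.ext; rw [hc', h, one_smul, Units.val_one]
    · right; apply Units.ext; rw [hc', h, hnegval]
  have hcenter : Nat.card (Subgroup.center R) = 2 := by
    have hz : ∀ z : GL ι F, z = 1 ∨ z = -1 → ∀ hzR : z ∈ R,
        (⟨z, hzR⟩ : R) ∈ Subgroup.center R := by
      intro z hz hzR
      rw [Subgroup.mem_center_iff]
      intro a
      apply Subtype.ext
      show (a : GL ι F) * z = z * a
      rcases hz with rfl | rfl <;> simp
    let f : Bool → Subgroup.center R := fun s => ⟨⟨if s then -1 else 1,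
      by split <;> [exact hneg; exact R.one_mem]⟩, hz _ (by cases s <;> simp) _⟩
    have hbij : Function.Bijective f := by
      refine ⟨fun s s' h => ?_, fun g => ?_⟩
      · have h1 : (if s then (-1 : GL ι F) else 1) = if s' then -1 else 1 :=
          congrArg (fun u : Subgroup.center R => ((u : R) : GL ι F)) h
        have hne : (-1 : GL ι F) ≠ 1 := fun h0 => by
          have h7 := congrArg (fun u : GL ι F => (u : Matrix ι ι F)) h0
          simp only [hnegval, Units.val_one] at h7
          exact hne1 (smul_one_injective (ι := ι) (h7.trans (one_smul F 1).symm))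
        cases s <;> cases s' <;> simp_all [hne.symm]
      · rcases hcen _ (g : R).2 fun a ha => congrArg Subtype.val
          (Subgroup.mem_center_iff.1 g.2 ⟨a, ha⟩).symm with h | h
        · exact ⟨false, Subtype.ext (Subtype.ext h.symm)⟩
        · exact ⟨true, Subtype.ext (Subtype.ext h.symm)⟩
    rw [← Nat.card_congr (Equiv.ofBijective f hbij), Nat.card_eq_fintype_card, Fintype.card_bool]
  have hpow4 : ∀ g : R, g ^ 4 = 1 := fun g => by
    obtain ⟨c, hc⟩ := (mem_scalars_iff _).1 (hS.pow_mem _ g.2.1)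
    have hcc : (c : F) * c = 1 := by
      rcases hscal _ (R.pow_mem g.2 2) c hc with h | h <;> simp [h]
    apply Subtype.ext; apply Units.ext
    rw [Subgroup.coe_pow, show 4 = 2 * 2 from rfl, pow_mul, Units.val_pow_eq_pow_val, hc, smul_pow,
      one_pow, pow_two, hcc, one_smul]
    rfl
  refine ⟨R, d, hspan, fun g hg => hg.2, fun g hg => hnormG g (le_sup_left (α := Subgroup _) hg),
    ⟨Nat.prime_two, fun g => ⟨2, by simpa using hpow4 g⟩, fun A hA hAc => ?_, ?_⟩, hcard, hcenter,
    fun A hAc hA2 => ?_, ?_⟩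
  · -- characteristic abelian subgroups
    set A' := A.map R.subtype with hA'
    have hA'le : A' ≤ N := fun g hg => (Subgroup.map_subtype_le A hg).1
    have hnorm : ∀ g ∈ H ⊔ scalars ι F, ∀ a ∈ A', g * a * g⁻¹ ∈ A' := by
      rintro g hg _ ⟨a, ha, rfl⟩
      let e : R ≃* R :=
        { toFun := fun w => ⟨g * w * g⁻¹, hnormG g hg w w.2⟩
          invFun := fun w => ⟨g⁻¹ * w * g, by
            simpa using hnormG g⁻¹ ((H ⊔ scalars ι F).inv_mem hg) w w.2⟩
          left_inv := fun w => Subtype.ext (by simp [mul_assoc])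
          right_inv := fun w => Subtype.ext (by simp [mul_assoc])
          map_mul' := fun w w' => Subtype.ext (by simp [mul_assoc]) }
      exact ⟨e a, by
        have : A.map e.toMonoidHom = A := Subgroup.characteristic_iff_map_eq.1 hA e
        rw [← this]; exact ⟨a, ha, rfl⟩, rfl⟩
    have hle : A' ≤ scalars ι F := by
      by_contra hle
      have hAN : A' ⊔ scalars ι F = N := hN.minimal _ le_sup_right (sup_le hA'le hN.scalars_le)
        (sup_scalars_normal hnorm) fun h => hle (le_sup_left.trans h)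
      have hcomm : ∀ a ∈ A', ∀ b ∈ A', a * b = b * a := by
        rintro _ ⟨a, ha, rfl⟩ _ ⟨b, hb, rfl⟩
        exact congrArg (fun w : A => ((w : R) : GL ι F)) (hAc.is_comm.comm ⟨a, ha⟩ ⟨b, hb⟩)
      obtain ⟨g, hg, h, hh, hne⟩ := exists_noncomm_of_span hN htop
      rw [← hAN] at hg hh
      obtain ⟨z, hz, a, ha, rfl⟩ := mem_sup_scalars.1 hg
      obtain ⟨w, hw, b, hb, rfl⟩ := mem_sup_scalars.1 hh
      apply hne
      calc z * a * (w * b) = z * (a * w) * b := by group
        _ = z * (w * a) * b := by rw [← scalar_mul_comm hw]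
        _ = z * w * (a * b) := by group
        _ = w * z * (b * a) := by rw [hcomm a ha b hb, scalar_mul_comm hz w]
        _ = w * (z * b) * a := by group
        _ = w * (b * z) * a := by rw [scalar_mul_comm hz b]
        _ = _ := by group
    have hA'sub : ∀ a : A, ((a : R) : GL ι F) = 1 ∨ ((a : R) : GL ι F) = -1 := fun a =>
      hcen _ (a : R).2 fun b _ => scalar_mul_comm (hle ⟨(a : R), a.2, rfl⟩) b
    by_cases hall : ∀ a : A, a = 1
    · exact isCyclic_of_orderOf_eq_card (1 : A) (by
        haveI : Subsingleton A := ⟨fun a b => by rw [hall a, hall b]⟩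
        rw [orderOf_one, Nat.card_unique])
    · push Not at hall
      obtain ⟨a₀, ha₀⟩ := hall
      refine ⟨⟨a₀, fun a => ?_⟩⟩
      have key : ∀ a : A, a ≠ 1 → ((a : R) : GL ι F) = -1 := fun a ha =>
        (hA'sub a).resolve_left fun h => ha (Subtype.ext (Subtype.ext h))
      by_cases ha : a = 1
      · exact ⟨0, by simp [ha]⟩
      · exact ⟨1, by simpa using Subtype.ext (Subtype.ext ((key a₀ ha₀).trans (key a ha).symm))⟩
  · -- exponent
    have hdvd : Monoid.exponent R ∣ 2 ^ 2 := Monoid.exponent_dvd_of_forall_pow_eq_one hpow4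
    obtain ⟨e, he, hee⟩ := (Nat.dvd_prime_pow Nat.prime_two).1 hdvd
    have hnc : ¬ ∀ a b : R, a * b = b * a := fun h => by
      apply hN.not_le
      intro g hg
      refine mem_scalars_of_commute_all fun X => commute_all_of_span htop (fun b hb => ?_) X
      obtain ⟨i, w, hw, rfl⟩ := hS.decomp g hg
      obtain ⟨j, w', hw', rfl⟩ := hS.decomp b hb
      obtain ⟨c, hc⟩ := (mem_scalars_iff w).1 hw
      obtain ⟨c', hc'⟩ := (mem_scalars_iff w').1 hw'
      have h1 : (y i : Matrix ι ι F) * y j = y j * y i :=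
        congrArg (fun v : R => ((v : GL ι F) : Matrix ι ι F)) (h ⟨_, hy i⟩ ⟨_, hy j⟩)
      rw [hu, hu, Matrix.smul_mul, Matrix.mul_smul, Matrix.smul_mul, Matrix.mul_smul,
        smul_comm (u j : F)] at h1
      have h7 := smul_right_injective _ (u j).ne_zero (smul_right_injective _ (u i).ne_zero h1)
      rw [Units.val_mul, Units.val_mul, hc, hc']
      simp only [Matrix.smul_mul, Matrix.mul_smul, one_mul]
      rw [h7, smul_comm]
    interval_cases e
    · exact absurd (fun a b => by
        have h0 : ∀ v : R, v = 1 := fun v => by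
          have := Monoid.pow_exponent_eq_one v
          rwa [hee, pow_zero, pow_one] at this
        rw [h0 a, h0 b]) hnc
    · exact absurd (mul_comm_of_exponent_two (by rw [hee]; norm_num)) hnc
    · rw [hee]; rfl
  · -- minus type
    by_contra hlt
    push Not at hlt
    set S := A.map R.subtype with hSdef
    have hScomm : ∀ a ∈ S, ∀ b ∈ S, a * b = b * a := by
      rintro _ ⟨a, ha, rfl⟩ _ ⟨b, hb, rfl⟩
      exact congrArg (fun w : A => ((w : R) : GL ι F)) (hAc.is_comm.comm ⟨a, ha⟩ ⟨b, hb⟩)
    have hSsq : ∀ a ∈ S, a * a = 1 := by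
      rintro _ ⟨a, ha, rfl⟩
      exact congrArg Subtype.val (hA2 a ha)
    have hbound := hP.finrank_involutions h2 hScomm hSsq (fun a ha => by
      obtain ⟨a, -, rfl⟩ := ha
      exact a.2.2)
    choose idx sgn hidx using fun a : A => hdec _ (a : R).2
    let f : A → Bool × Finset.univ.image idx := fun a => (sgn a, ⟨idx a, Finset.mem_image_of_mem _ (Finset.mem_univ a)⟩)
    have hfinj : Function.Injective f := fun a b h => by
      simp only [f, Prod.mk.injEq, Subtype.mk.injEq] at h
      apply Subtype.ext; apply Subtype.ext; apply Units.ext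
      rw [hidx a, hidx b, h.1, h.2]
    have h8 := Nat.card_le_card_of_injective f hfinj
    simp only [Nat.card_eq_fintype_card, Fintype.card_prod, Fintype.card_bool, Fintype.card_coe] at h8
    have hmemC : ∀ i ∈ Finset.univ.image idx, (y i : Matrix ι ι F) ∈ spanAlg S := by
      intro i hi
      obtain ⟨a, -, rfl⟩ := Finset.mem_image.1 hi
      have hm : (((a : R) : GL ι F) : Matrix ι ι F) ∈ spanAlg S :=
        Algebra.subset_adjoin ⟨_, ⟨(a : R), a.2, rfl⟩, rfl⟩
      have h9 := hidx a
      cases h10 : sgn a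
      · rw [h10] at h9
        simp only [Bool.false_eq_true, if_false, one_smul] at h9
        rwa [h9] at hm
      · rw [h10] at h9
        simp only [if_true, neg_smul, one_smul] at h9
        rw [h9] at hm
        simpa using neg_mem hm
    let g : Finset.univ.image idx → spanAlg S := fun i => ⟨y i, hmemC i i.2⟩
    have hgli : LinearIndependent F g :=
      LinearIndependent.of_comp (spanAlg S).val.toLinearMap (hli.comp _ Subtype.val_injective)
    have h11 := hgli.fintype_card_le_finrank
    rw [Fintype.card_coe] at h11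
    rw [Nat.card_eq_fintype_card] at hlt
    rw [hnd] at hbound
    rw [pow_succ] at hlt
    have := Nat.two_pow_pos d
    omega
  · subst hk
    refine ⟨y, hy, fun g hg => ?_⟩
    obtain ⟨i, s, hs⟩ := hdec g hg
    refine ⟨i, ?_⟩
    cases s
    · left; simpa using hs
    · right; simpa using hs

end Cfsg.Agent.GeoClasses
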