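import Mathlib
import Cfsg.Prelude.Def_GeometricClasses
import Cfsg.Agent.GeoClasses.Basic
import Cfsg.Agent.GeoClasses.MatrixUnits
import Cfsg.Agent.GeoClasses.Algebra
import Cfsg.Agent.GeoClasses.Tensor
import Cfsg.Agent.GeoClasses.Forms
import Cfsg.Agent.GeoClasses.FormsMore
import Cfsg.Agent.GeoClasses.Descent
import Cfsg.Agent.GeoClasses.Structure
import Cfsg.Agent.GeoClasses.Blocks
import Cfsg.Agent.GeoClasses.FieldFacts
import Cfsg.Agent.GeoClasses.Polarized
import Cfsg.Agent.GeoClasses.Coords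
import Cfsg.Agent.GeoClasses.FormDecomp
import Cfsg.Agent.GeoClasses.IsometryCases
import Cfsg.Agent.GeoClasses.ClassTools
import Cfsg.Agent.GeoClasses.QuadCharTwo
import Cfsg.Agent.GeoClasses.SympExtraspecial
import Cfsg.Agent.Char.Burnside

/-!
The geometric-class dichotomy for subgroups of `Sp_2m(q)`.
-/

set_option autoImplicit false
set_option maxHeartbeats 400000

namespace Cfsg.Agent.GeoClasses

open Matrix Cfsg.Geo
open scoped MatrixGroups Matrix Kronecker

section Lemmas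

variable {ι : Type} [Fintype ι] [DecidableEq ι] {F : Type*} [Field F]

lemma formOf_mem (F₁ : Subfield F) {σ : F ≃+* F} {G : Matrix ι ι F} (hG : ∀ i j, G i j ∈ F₁)
    {u v : ι → F} (hu : ∀ i, u i ∈ F₁) (hv : ∀ i, σ (v i) ∈ F₁) : formOf σ G u v ∈ F₁ := by
  simp only [formOf, dotProduct, Matrix.mulVec]
  exact sum_mem fun i _ => mul_mem (hu i) (sum_mem fun j _ => mul_mem (hG i j) (hv j))

lemma realisableOver_of_conjGL {F₀ : Subfield F} {R : Subgroup (GL ι F)} {B : GL ι F}
    (h : ∀ x ∈ R, conjGL B (x : Matrix ι ι F) ∈ subfieldMatrices F₀) :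
    RealisableOver F₀ (matrixSet R) :=
  ⟨B, by rintro _ ⟨x, hx, rfl⟩ i j; exact mem_subfieldMatrices.1 (h x hx) i j⟩

lemma conjGL_of_realisableOver {F₀ : Subfield F} {R : Subgroup (GL ι F)}
    (h : RealisableOver F₀ (matrixSet R)) :
    ∃ B : GL ι F, ∀ x ∈ R, conjGL B (x : Matrix ι ι F) ∈ subfieldMatrices F₀ := by
  obtain ⟨B, hB⟩ := h
  exact ⟨B, fun x hx => mem_subfieldMatrices.2 fun i j => hB _ ⟨x, hx, rfl⟩ i j⟩

lemma adj_eq_of_mul {σ : F ≃+* F} {B : Matrix ι ι F} {ε : F} (hP : IsPolar σ B ε)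
    {X Y : Matrix ι ι F} (h : Xᵀ * B = B * Y.map σ) : adj σ B X = Y :=
  hP.adj_eq fun u v => by rw [formOf_mulVec_left, formOf_mulVec_right, h]

lemma sq_eq_one_of_star {B : Matrix ι ι F} (hB : B ≠ 0) {c : F}
    (h : starMat (RingEquiv.refl F) B = c • B) : c * c = 1 := by
  have h2 : starMat (RingEquiv.refl F) (starMat (RingEquiv.refl F) B) = B := by
    ext i j; simp [starMat]
  rw [h, starMat_smul, h, smul_smul, RingEquiv.refl_apply] at h2
  exact smul_left_injective F hB (h2.trans (one_smul F B).symm)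

/-- The first factor of a tensor decomposition of an irreducible group acts irreducibly. -/
lemma exists_irreducible_factor {a b : ℕ} [NeZero b] {L : (Fin a × Fin b → F) ≃ₗ[F] (ι → F)}
    {H : Subgroup (GL ι F)} (hirr : ActsIrreducibly (matrixSet H))
    (hH : ∀ h ∈ H, ∃ (c : GL (Fin a) F) (d : GL (Fin b) F), (h : Matrix ι ι F)
      = conjMat L ((c : Matrix (Fin a) (Fin a) F) ⊗ₖ (d : Matrix (Fin b) (Fin b) F))) :
    ∃ R : Subgroup (GL (Fin a) F), ActsIrreducibly (matrixSet R) ∧ ∀ c ∈ R, ∃ d : GL (Fin b) F,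
      ∃ h ∈ H, (h : Matrix ι ι F)
        = conjMat L ((c : Matrix (Fin a) (Fin a) F) ⊗ₖ (d : Matrix (Fin b) (Fin b) F)) := by
  let R : Subgroup (GL (Fin a) F) :=
    { carrier := {c | ∃ d : GL (Fin b) F, ∃ h ∈ H, (h : Matrix ι ι F)
        = conjMat L ((c : Matrix (Fin a) (Fin a) F) ⊗ₖ (d : Matrix (Fin b) (Fin b) F))}
      mul_mem' := by
        rintro c c' ⟨d, h, hh, e⟩ ⟨d', h', hh', e'⟩
        exact ⟨d * d', h * h', H.mul_mem hh hh', by
          rw [Units.val_mul, e, e', ← map_mul, ← Matrix.mul_kronecker_mul]; rfl⟩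
      one_mem' := ⟨1, 1, H.one_mem, by simp⟩
      inv_mem' := by
        rintro c ⟨d, h, hh, e⟩
        refine ⟨d⁻¹, h⁻¹, H.inv_mem hh, ?_⟩
        have h1 : h = glConjMat L (glKron c d) := Units.ext e
        rw [h1]
        rfl }
  refine ⟨R, fun W hW => ?_, fun c hc => hc⟩
  let U : Submodule F (ι → F) := Submodule.map L.toLinearMap
    { carrier := {x | ∀ j, (fun i => x (i, j)) ∈ W}
      add_mem' := fun {x y} hx hy j => W.add_mem (hx j) (hy j)
      zero_mem' := fun j => W.zero_mem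
      smul_mem' := fun c x hx j => W.smul_mem c (hx j) }
  rcases hirr U (by
    rintro s ⟨h, hh, rfl⟩ _ ⟨_, ⟨x, hx, rfl⟩, rfl⟩
    obtain ⟨c, d, e⟩ := hH h hh
    refine ⟨((c : Matrix (Fin a) (Fin a) F) ⊗ₖ (d : Matrix (Fin b) (Fin b) F)) *ᵥ x, fun j => ?_, ?_⟩
    · have h2 : (fun i => (((c : Matrix (Fin a) (Fin a) F) ⊗ₖ (d : Matrix (Fin b) (Fin b) F)) *ᵥ x) (i, j))
          = ∑ l, (d : Matrix (Fin b) (Fin b) F) j l •
            ((c : Matrix (Fin a) (Fin a) F) *ᵥ fun i => x (i, l)) := by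
        funext i
        simp only [Matrix.mulVec, dotProduct, Fintype.sum_prod_type, Matrix.kroneckerMap_apply,
          Finset.sum_apply, Pi.smul_apply, smul_eq_mul, Finset.mul_sum]
        rw [Finset.sum_comm]
        exact Finset.sum_congr rfl fun l _ => Finset.sum_congr rfl fun k _ => by ring
      rw [h2]
      exact Submodule.sum_mem _ fun l _ => W.smul_mem _
        (hW _ ⟨c, ⟨d, h, hh, e⟩, rfl⟩ ⟨_, hx l, Matrix.toLin'_apply _ _⟩)
    · show L _ = Matrix.toLin' (h : Matrix ι ι F) (L x)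
      rw [Matrix.toLin'_apply, e, conjMat_mulVec_apply]) with h | h
  · left
    rw [Submodule.eq_bot_iff]
    intro w hw
    have hmem : L (fun p => if p.2 = 0 then w p.1 else 0) ∈ U := by
      refine ⟨_, fun j => ?_, rfl⟩
      by_cases hj : j = 0
      · simpa [hj] using hw
      · simp [hj, W.zero_mem]
        exact W.zero_mem
    rw [h, Submodule.mem_bot, ← L.map_zero] at hmem
    funext i
    simpa using congrFun (L.injective hmem) (i, 0)
  · right
    rw [eq_top_iff]
    intro w _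
    obtain ⟨x, hx, hxe⟩ := (h ▸ Submodule.mem_top : L (fun p => w p.1) ∈ U)
    have h2 := hx 0
    rw [L.injective hxe] at h2
    exact h2

end Lemmas

variable {F : Type*} [Field F] [Fintype F] {m : ℕ}

lemma sympForm_eq_formOf :
    Cfsg.sympForm m F = formOf (RingEquiv.refl F) (Matrix.J (Fin m) F) := rfl

lemma isPolar_J : IsPolar (RingEquiv.refl F) (Matrix.J (Fin m) F) (-1) where
  invol _ := rfl
  unit := by
    refine ⟨⟨Matrix.J (Fin m) F, -Matrix.J (Fin m) F, ?_, ?_⟩, rfl⟩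
    · rw [mul_neg, Matrix.J_squared, neg_neg]
    · rw [neg_mul, Matrix.J_squared, neg_neg]
  star := by
    rw [starMat, show (Matrix.J (Fin m) F).map (RingEquiv.refl F) = Matrix.J (Fin m) F from rfl,
      Matrix.J_transpose, neg_one_smul]

lemma J_diag (i : Fin m ⊕ Fin m) : Matrix.J (Fin m) F i i = 0 := by
  cases i <;> simp [Matrix.J]

lemma isSim_of_mem_spGL {g : GL (Fin m ⊕ Fin m) F} (hg : g ∈ Cfsg.spGL m F) :
    IsSim (RingEquiv.refl F) (Matrix.J (Fin m) F) g 1 :=
  isSim_of_formOf fun u v => by rw [one_mul]; exact hg u v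

/-- Class 8. -/
lemma symp_class_quad (h2 : (2 : F) = 0) {H : Subgroup (GL (Fin m ⊕ Fin m) F)}
    (hH : H ≤ Cfsg.spGL m F) {Q : (Fin m ⊕ Fin m → F) → F}
    (hsmul : ∀ (c : F) v, Q (c • v) = c ^ 2 * Q v)
    (hpol : ∀ u v, QuadraticMap.polar Q u v
      = formOf (RingEquiv.refl F) (Matrix.J (Fin m) F) u v)
    (hQ : ∀ h ∈ H, ∀ v, Q ((h : Matrix (Fin m ⊕ Fin m) (Fin m ⊕ Fin m) F) *ᵥ v) = Q v) :
    ∃ M, InSymplecticClass m F M ∧ H ≤ M := by
  have hp : QuadraticMap.polar Q = formOf (RingEquiv.refl F) (Matrix.J (Fin m) F) :=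
    funext fun u => funext fun v => hpol u v
  refine ⟨quadSimilarityGroup Q ⊓ Cfsg.spGL m F, Or.inl <| Or.inr <| Or.inr <| Or.inr <| Or.inr <|
    Or.inr <| Or.inr ⟨Q, ?_, ⟨hsmul, ?_, ?_⟩, fun u v => by rw [hpol, sympForm_eq_formOf], rfl⟩,
    le_inf (fun h hh => ⟨1, fun v => by rw [hQ h hh, Units.val_one, one_mul]⟩) hH⟩
  · exact fun hodd => (two_ne_zero_iff_odd_card.2 hodd) h2
  · rw [hp]
    exact ⟨formOf_add_left _ _, formOf_smul_left _ _, formOf_add_right _ _,
      fun c v x => formOf_smul_right _ _ c v x⟩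
  · rw [hp]
    exact isNondegenerateForm_formOf _ isPolar_J.unit

lemma neg_eq_self_of_two (h2 : (2 : F) = 0) (a : F) : -a = a := by linear_combination -a * h2

/-- Class 2, totally singular pairs, or class 8. -/
lemma symp_class_of_pair (hm : 0 < m) {H : Subgroup (GL (Fin m ⊕ Fin m) F)}
    (hH : H ≤ Cfsg.spGL m F) {A : Subalgebra F (Matrix (Fin m ⊕ Fin m) (Fin m ⊕ Fin m) F)}
    {e : Fin 2 → Matrix (Fin m ⊕ Fin m) (Fin m ⊕ Fin m) F} (he : IsBlockSystem H A e)
    (h01 : adj (RingEquiv.refl F) (Matrix.J (Fin m) F) (e 0) = e 1) :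
    ∃ M, InSymplecticClass m F M ∧ H ≤ M := by
  haveI : Nonempty (Fin m ⊕ Fin m) := ⟨Sum.inl ⟨0, hm⟩⟩
  have hP := isPolar_J (F := F) (m := m)
  obtain ⟨k, hk, hle⟩ := he.decomposition
  by_cases h2 : (2 : F) = 0
  swap
  · have hkm : k = m := by
      have := card_eq_of_decomposition hk
      simp at this
      omega
    subst hkm
    exact ⟨_, Or.inl <| Or.inr <| Or.inr <| Or.inr <| Or.inl ⟨blockSpaces e,
      two_ne_zero_iff_odd_card.1 h2, hk, fun i => hP.singular_pair he h01 i, rfl⟩, le_inf hle hH⟩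
  have h10 : adj (RingEquiv.refl F) (Matrix.J (Fin m) F) (e 1) = e 0 := by rw [← h01, hP.adj_adj]
  set f := formOf (RingEquiv.refl F) (Matrix.J (Fin m) F) with hf
  have hswap : ∀ u v, f u v = f v u := fun u v => by
    have h := hP.map_formOf u v
    rw [RingEquiv.refl_apply, neg_one_mul, neg_eq_self_of_two h2] at h
    exact h.symm
  refine symp_class_quad h2 hH (Q := fun v => f (e 0 *ᵥ v) (e 1 *ᵥ v)) (fun c v => ?_)
    (fun u v => ?_) (fun h hh v => ?_)
  · show f _ _ = _
    rw [Matrix.mulVec_smul, Matrix.mulVec_smul, hf, formOf_smul_left, formOf_smul_right,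
      RingEquiv.refl_apply]
    ring
  · have hsum : ∀ w, e 0 *ᵥ w + e 1 *ᵥ w = w := fun w => by
      rw [← Matrix.add_mulVec, show e 0 + e 1 = 1 by rw [← he.sum_eq, Fin.sum_univ_two],
        Matrix.one_mulVec]
    have hzero : ∀ (i : Fin 2) x y, f (e i *ᵥ x) (e i *ᵥ y) = 0 := fun i x y =>
      hP.singular_pair he h01 i _ ⟨x, Matrix.toLin'_apply _ _⟩ _ ⟨y, Matrix.toLin'_apply _ _⟩
    conv_rhs => rw [← hsum u, ← hsum v]
    rw [← hf]
    simp only [QuadraticMap.polar, Matrix.mulVec_add, hf, formOf_add_left, formOf_add_right]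
    simp only [← hf, hzero, hswap (e 1 *ᵥ u) (e 0 *ᵥ v)]
    ring
  · obtain ⟨ρ, hρ⟩ := he.exists_perm hh
    have hc : ∀ i, e (ρ i) *ᵥ ((h : Matrix (Fin m ⊕ Fin m) (Fin m ⊕ Fin m) F) *ᵥ v)
        = (h : Matrix (Fin m ⊕ Fin m) (Fin m ⊕ Fin m) F) *ᵥ (e i *ᵥ v) := fun i => by
      rw [← hρ i, conjGL_apply, Matrix.mulVec_mulVec, Matrix.mulVec_mulVec]
      simp [mul_assoc]
    have hiso : ∀ x y, f ((h : Matrix (Fin m ⊕ Fin m) (Fin m ⊕ Fin m) F) *ᵥ x)
        ((h : Matrix (Fin m ⊕ Fin m) (Fin m ⊕ Fin m) F) *ᵥ y) = f x y := fun x y => by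
      rw [hf, formOf_eq_of_isSim (isSim_of_mem_spGL (hH hh)), one_mul]
    show f _ _ = f _ _
    have h0 := hc 0
    have h1 := hc 1
    rcases (show ρ 0 = 0 ∧ ρ 1 = 1 ∨ ρ 0 = 1 ∧ ρ 1 = 0 by
      have hne : ρ 0 ≠ ρ 1 := fun h => absurd (ρ.injective h) (by decide)
      omega) with ⟨e0, e1⟩ | ⟨e0, e1⟩ <;> rw [e0] at h0 <;> rw [e1] at h1 <;> rw [h0, h1, hiso]
    exact hswap _ _

/-- Class 3, or class 8 in characteristic two. -/
lemma symp_class_of_field (hm : 0 < m) {H : Subgroup (GL (Fin m ⊕ Fin m) F)}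
    (hH : H ≤ Cfsg.spGL m F) {r : ℕ}
    {K : Subalgebra F (Matrix (Fin m ⊕ Fin m) (Fin m ⊕ Fin m) F)} (hr : r.Prime)
    (hK : IsFieldSubalgebra r K) (hs : StarClosed (RingEquiv.refl F) (Matrix.J (Fin m) F) K)
    (hle : H ≤ subalgebraNormalizer K) : ∃ M, InSymplecticClass m F M ∧ H ≤ M := by
  haveI : Nonempty (Fin m ⊕ Fin m) := ⟨Sum.inl ⟨0, hm⟩⟩
  have hP := isPolar_J (F := F) (m := m)
  set f := formOf (RingEquiv.refl F) (Matrix.J (Fin m) F) with hf
  by_cases hsa : ∀ k ∈ K, adj (RingEquiv.refl F) (Matrix.J (Fin m) F) k = k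
  · have hadj : IsSelfAdjointFor (Cfsg.sympForm m F) K := fun k hk u v => by
      rw [sympForm_eq_formOf, hP.formOf_adj, hsa k hk]
    refine ⟨_, Or.inr <| Or.inl ⟨r, K, hr, hK, hadj, fun k hk v => ?_, rfl⟩, le_inf hle hH⟩
    rw [sympForm_eq_formOf]
    by_cases h2 : (2 : F) = 0
    · -- squares exhaust the field
      have hsurj : Function.Surjective fun l : K => l * l := by
        refine Finite.surjective_of_injective fun a b hab => ?_
        have h1 : (a.1 - b.1) * (a.1 - b.1) = 0 := by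
          have hab' : a.1 * a.1 = b.1 * b.1 := congrArg Subtype.val hab
          have hadd : ∀ X : Matrix (Fin m ⊕ Fin m) (Fin m ⊕ Fin m) F, X + X = 0 := fun X => by
            rw [← two_smul F X, h2, zero_smul]
          rw [sub_mul, mul_sub, mul_sub, hK.comm _ b.2 _ a.2, hab']
          have := hadd (b.1 * b.1 - a.1 * b.1)
          rw [← this]
          abel
        by_contra hne
        obtain ⟨y, hy, hy1⟩ := hK.inv _ (sub_mem a.2 b.2)
          (sub_ne_zero.2 fun h => hne (Subtype.ext h))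
        have h3 : (a.1 - b.1) * ((a.1 - b.1) * y) = 0 := by
          rw [← mul_assoc, h1, zero_mul]
        rw [hy1, mul_one] at h3
        exact hne (Subtype.ext (sub_eq_zero.1 h3))
      obtain ⟨l, hl⟩ := hsurj ⟨k, hk⟩
      have hkl : k = l.1 * l.1 := (congrArg Subtype.val hl).symm
      rw [hkl, ← Matrix.mulVec_mulVec, hP.formOf_adj, hsa _ l.2]
      exact formOf_self_eq_zero (B := Matrix.J (Fin m) F) (Matrix.J_transpose _ _) J_diag _
    · have h1 := hP.map_formOf v (k *ᵥ v)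
      rw [RingEquiv.refl_apply, hP.formOf_adj, hsa k hk] at h1
      rw [hP.formOf_adj, hsa k hk]
      have h3 : (2 : F) * f v (k *ᵥ v) = 0 := by linear_combination h1
      exact (mul_eq_zero.1 h3).resolve_left h2
  obtain rfl : r = 2 := (hP.selfAdjoint_or_quadratic rfl hr hK hs).resolve_left hsa
  by_cases h2 : (2 : F) = 0
  swap
  · refine ⟨_, Or.inr <| Or.inr <| Or.inl ⟨K, two_ne_zero_iff_odd_card.1 h2, hK,
      fun k hk => ⟨_, hs k hk, fun u v => by rw [sympForm_eq_formOf, hP.formOf_adj]⟩,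
      fun h => hsa fun k hk => hP.adj_eq fun u v => ?_, rfl⟩, le_inf hle hH⟩
    rw [← sympForm_eq_formOf]
    exact h k hk u v
  push Not at hsa
  obtain ⟨k, hk, hkne⟩ := hsa
  set ad := adj (RingEquiv.refl F) (Matrix.J (Fin m) F) with had
  have hadd : ∀ X : Matrix (Fin m ⊕ Fin m) (Fin m ⊕ Fin m) F, X + X = 0 := fun X => by
    rw [← two_smul F X, h2, zero_smul]
  have hd : k + ad k ≠ 0 := fun h => hkne (by
    have h1 := hadd k
    rw [← h] at h1
    exact (add_left_cancel h1).symm)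
  obtain ⟨y, hy, hdy⟩ := hK.inv _ (add_mem hk (hs k hk)) hd
  have hyfix : ad y = y := by
    have h1 := congrArg ad hdy
    rw [had, hP.adj_mul, adj_add, hP.adj_adj, hP.adj_one, add_comm, ← had,
      hK.comm _ (hs y hy) _ (add_mem hk (hs k hk))] at h1
    calc ad y = y * ((k + ad k) * ad y) := by
          rw [← mul_assoc, hK.comm y hy _ (add_mem hk (hs k hk)), hdy, one_mul]
      _ = y := by rw [h1, mul_one]
  set ω := k * y with hω
  have hωK : ω ∈ K := mul_mem hk hy
  have hω1 : ω + ad ω = 1 := by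
    rw [hω, had, hP.adj_mul, ← had, hyfix, hK.comm y hy _ (hs k hk), ← add_mul, hdy]
  have hωad : ad ω = ω + 1 := by
    rw [← hω1, ← add_assoc, hadd, zero_add]
  have hωne : ∀ c : F, ω ≠ c • 1 := fun c hc => by
    rw [hc, had, adj_smul, hP.adj_one, RingEquiv.refl_apply] at hωad
    exact one_ne_zero (α := Matrix (Fin m ⊕ Fin m) (Fin m ⊕ Fin m) F)
      (add_left_cancel (hωad.symm.trans (add_zero _).symm))
  -- the fixed elements of the field are scalars
  have hfixscal : ∀ x ∈ K, ad x = x → ∃ c : F, x = c • 1 := by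
    intro x hx hxfix
    let Φ : (Fin 2 → F) →ₗ[F] Matrix (Fin m ⊕ Fin m) (Fin m ⊕ Fin m) F :=
      Fintype.linearCombination F ![1, ω]
    have hΦ : ∀ c, Φ c = c 0 • 1 + c 1 • ω := fun c => by
      simp [Φ, Fintype.linearCombination_apply, Fin.sum_univ_two]
    have hinj : Function.Injective Φ := (injective_iff_map_eq_zero Φ).2 fun c hc => by
      rw [hΦ] at hc
      have h1 : c 1 = 0 := by
        by_contra h1
        apply hωne (-(c 0) / c 1)
        rw [div_eq_inv_mul, mul_smul, neg_smul, ← eq_neg_of_add_eq_zero_right hc,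
          inv_smul_smul₀ h1]
      rw [h1, zero_smul, add_zero, smul_eq_zero] at hc
      ext i
      fin_cases i
      · exact hc.resolve_right one_ne_zero
      · exact h1
    have hr' : LinearMap.range Φ = K.toSubmodule := by
      refine Submodule.eq_of_le_of_finrank_le ?_ ?_
      · rintro _ ⟨c, rfl⟩
        show Φ c ∈ K
        rw [hΦ]
        exact add_mem (K.smul_mem K.one_mem _) (K.smul_mem hωK _)
      · rw [LinearMap.finrank_range_of_inj hinj, Module.finrank_fin_fun]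
        exact le_of_eq hK.finrank_eq
    obtain ⟨c, rfl⟩ : x ∈ LinearMap.range Φ := by rw [hr']; exact hx
    rw [hΦ] at hxfix ⊢
    refine ⟨c 0, ?_⟩
    rw [had, adj_add, adj_smul, adj_smul, hP.adj_one, ← had, hωad, RingEquiv.refl_apply,
      RingEquiv.refl_apply, smul_add, add_right_inj, add_eq_left, smul_eq_zero] at hxfix
    rw [hxfix.resolve_right one_ne_zero, zero_smul, add_zero]
  refine symp_class_quad h2 hH (Q := fun v => f (ω *ᵥ v) v) (fun c v => ?_) (fun u v => ?_)
    (fun h hh v => ?_)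
  · show f _ _ = _
    rw [Matrix.mulVec_smul, hf, formOf_smul_left, formOf_smul_right, RingEquiv.refl_apply]
    ring
  · have h1 := hP.map_formOf u (ω *ᵥ v)
    rw [RingEquiv.refl_apply, neg_one_mul, neg_eq_self_of_two h2, hP.formOf_adj' ω u v, ← had,
      hωad, Matrix.add_mulVec, Matrix.one_mulVec, formOf_add_left] at h1
    rw [← hf] at h1
    show _ = f u v
    simp only [QuadraticMap.polar, Matrix.mulVec_add, hf, formOf_add_left, formOf_add_right]
    rw [← hf, h1]
    linear_combination f (ω *ᵥ u) v * h2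
  · have hi := isSim_of_mem_spGL (hH hh)
    set w := conjGL h⁻¹ ω with hw
    have hwK : w ∈ K := (hle (H.inv_mem hh) ω).1 hωK
    have hwad : ad w = conjGL h⁻¹ (ad ω) :=
      hP.adj_conj (by simpa using hi.inv one_ne_zero : IsSim _ _ h⁻¹ 1) ω
    obtain ⟨a, ha⟩ := hfixscal (w + ω) (add_mem hwK hωK) (by
      rw [had, adj_add, ← had, hwad, hωad, map_add, map_one, ← hw]
      calc w + 1 + (ω + 1) = w + ω + (1 + 1) := by abel
        _ = w + ω := by rw [hadd 1, add_zero])
    have hwω : w = ω + a • 1 := by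
      rw [← ha, add_comm w, ← add_assoc, hadd, zero_add]
    obtain ⟨N, hN⟩ := hfixscal (ω * ad ω) (mul_mem hωK (hs ω hωK)) (by
      rw [had, hP.adj_mul, hP.adj_adj])
    have hN' : w * ad w = N • 1 := by
      rw [hwad, hw, ← map_mul, hN, map_smul, map_one]
    rw [hwω, had, adj_add, adj_smul, hP.adj_one, ← had, RingEquiv.refl_apply, add_mul, mul_add,
      mul_add, hN, Matrix.mul_smul, mul_one, Matrix.smul_mul, Matrix.smul_mul, one_mul, one_mul,
      smul_smul, hωad, smul_add, add_assoc, add_eq_left] at hN'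
    have ha2 : (a + a * a) • (1 : Matrix (Fin m ⊕ Fin m) (Fin m ⊕ Fin m) F) = 0 := by
      rw [add_smul, ← hN']
      have := hadd (a • ω)
      calc a • (1 : Matrix (Fin m ⊕ Fin m) (Fin m ⊕ Fin m) F) + (a * a) • 1
          = (a • ω + a • ω) + (a • 1 + (a * a) • 1) := by rw [this, zero_add]
        _ = _ := by abel
    have ha3 : a * (1 + a) = 0 := by
      rw [mul_add, mul_one]
      exact (smul_eq_zero.1 ha2).resolve_right one_ne_zero
    have hhw : f (ω *ᵥ ((h : Matrix _ _ F) *ᵥ v)) ((h : Matrix _ _ F) *ᵥ v) = f (w *ᵥ v) v := by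
      have h3 : ω *ᵥ ((h : Matrix _ _ F) *ᵥ v) = (h : Matrix _ _ F) *ᵥ (w *ᵥ v) := by
        rw [Matrix.mulVec_mulVec, Matrix.mulVec_mulVec, hw, conjGL_apply, inv_inv]
        simp [← mul_assoc]
      rw [h3, hf, formOf_eq_of_isSim hi, one_mul]
    show f _ _ = f _ _
    rw [hhw, hwω, Matrix.add_mulVec, hf, formOf_add_left]
    rcases mul_eq_zero.1 ha3 with h4 | h4
    · simp [h4, formOf_zero_left]
    · rw [Matrix.smul_mulVec, Matrix.one_mulVec, formOf_smul_left,
        formOf_self_eq_zero (B := Matrix.J (Fin m) F) (Matrix.J_transpose _ _) J_diag]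
      simp

/-- The class of a rational structure. -/
lemma symp_class_of_rational {H : Subgroup (GL (Fin m ⊕ Fin m) F)} (hH : H ≤ Cfsg.spGL m F)
    {F₁ : Subfield F} {r : ℕ} (hr : r.Prime) (hcard : Fintype.card F = Nat.card F₁ ^ r)
    {P : GL (Fin m ⊕ Fin m) F} {b : F} {G : Matrix (Fin m ⊕ Fin m) (Fin m ⊕ Fin m) F} (hb : b ≠ 0)
    (hG : adjForm (RingEquiv.refl F) (Matrix.J (Fin m) F) (P : Matrix _ _ F) = b • G)
    (hent : ∀ i j, G i j ∈ F₁) (hle : H ≤ subfieldSubgroup F₁ P) :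
    ∃ M, InSymplecticClass m F M ∧ H ≤ M := by
  refine ⟨_, Or.inl <| Or.inr <| Or.inr <| Or.inr <| Or.inr <| Or.inl
    ⟨F₁, r, P, b⁻¹, hr, hcard, inv_ne_zero hb, fun u v hu hv => ?_, rfl⟩, le_inf hle hH⟩
  rw [sympForm_eq_formOf, formOf_mulVec, hG, formOf_smul, inv_mul_cancel_left₀ hb]
  exact formOf_mem F₁ hent hu hv

/-- Class 5 from a realisable normal absolutely irreducible group of isometries. -/
lemma symp_class_of_realisable (hm : 0 < m) {H R : Subgroup (GL (Fin m ⊕ Fin m) F)}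
    (hH : H ≤ Cfsg.spGL m F) (hR : spanAlg R = ⊤)
    (hsim : ∀ x ∈ R, IsSim (RingEquiv.refl F) (Matrix.J (Fin m) F) x 1)
    (hnorm : ∀ g ∈ H, ∀ x ∈ R, g * x * g⁻¹ ∈ R) {F₀ : Subfield F} (hF₀ : F₀ ≠ ⊤)
    (hreal : RealisableOver F₀ (matrixSet R)) : ∃ M, InSymplecticClass m F M ∧ H ≤ M := by
  haveI : Nonempty (Fin m ⊕ Fin m) := ⟨Sum.inl ⟨0, hm⟩⟩
  obtain ⟨B₀, hB₀⟩ := conjGL_of_realisableOver hreal
  obtain ⟨F₁, r, hr, hle, hcard⟩ := exists_subfield_prime_index hF₀
  obtain ⟨P, b, G, hb, -, hG, hent, hHle, -⟩ := exists_rational_form (σ := RingEquiv.refl F)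
    isPolar_J.unit (F₁ := F₁) hR (fun x hx => ⟨1, one_mem _, hsim x hx⟩) hnorm (B₀ := B₀)
    (fun x hx => mem_subfieldMatrices.2 fun i j => hle (mem_subfieldMatrices.1 (hB₀ x hx) i j))
  exact symp_class_of_rational hH hr (by rw [← Nat.card_eq_fintype_card, hcard]) hb hG hent hHle

/-- Classes 4 and 8, with the reduction for a symmetric factor of size two. -/
lemma symp_class_of_tensor (hm : 0 < m) {H : Subgroup (GL (Fin m ⊕ Fin m) F)}
    (hH : H ≤ Cfsg.spGL m F) (hirr : ActsIrreducibly (matrixSet H)) {a b : ℕ}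
    {L : (Fin a × Fin b → F) ≃ₗ[F] (Fin m ⊕ Fin m → F)} {J₁ : Matrix (Fin a) (Fin a) F}
    {J₂ : Matrix (Fin b) (Fin b) F}
    (hT : IsTensorData (RingEquiv.refl F) (Matrix.J (Fin m) F) (-1) H L J₁ J₂) :
    ∃ M, InSymplecticClass m F M ∧ H ≤ M := by
  haveI : Nonempty (Fin m ⊕ Fin m) := ⟨Sum.inl ⟨0, hm⟩⟩
  have hP := isPolar_J (F := F) (m := m)
  have hH' : ∀ h ∈ H, IsSim (RingEquiv.refl F) (Matrix.J (Fin m) F) h 1 := fun h hh =>
    isSim_of_mem_spGL (hH hh)
  by_cases h2 : (2 : F) = 0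
  · -- characteristic two
    have hneg : (-1 : F) = 1 := neg_eq_self_of_two h2 1
    have hzero : ∀ {a b : ℕ} {L : (Fin a × Fin b → F) ≃ₗ[F] (Fin m ⊕ Fin m → F)}
        {J₁ : Matrix (Fin a) (Fin a) F} {J₂ : Matrix (Fin b) (Fin b) F},
        IsTensorData (RingEquiv.refl F) (Matrix.J (Fin m) F) (-1) H L J₁ J₂ →
        J₁ᵀ = J₁ ∧ ∀ v, formOf (RingEquiv.refl F) J₁ v v = 0 := by
      intro a b L J₁ J₂ hT
      haveI : NeZero a := ⟨by have := hT.left_two_le; omega⟩
      haveI : NeZero b := ⟨by have := hT.right_two_le; omega⟩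
      obtain ⟨c₁, c₂, -, h1, -⟩ := hT.star
      have hc : c₁ = 1 := by
        rcases mul_self_eq_one_iff.1 (sq_eq_one_of_star hT.unit₁.ne_zero h1) with h | h
        · exact h
        · rw [h, hneg]
      rw [hc, one_smul] at h1
      have hsym : J₁ᵀ = J₁ := h1
      obtain ⟨R, hRirr, hR⟩ := exists_irreducible_factor (L := L) hirr fun h hh => by
        obtain ⟨c, d, μ, ν, hcd, -, -⟩ := hT.mem h hh
        exact ⟨c, d, hcd⟩
      have hdiag := diag_eq_zero_of_irreducible hRirr h2 (by simpa using hT.left_two_le) hsym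
        fun c hc => by
          obtain ⟨d, h, hh, hcd⟩ := hR c hc
          have h3 := (isSim_coord_iff hcd).1 (hH' h hh)
          rw [hT.gram, adjForm_kronecker, one_smul] at h3
          obtain ⟨μ, ν, -, hμ, -⟩ := kronecker_eq_kronecker h3 hT.unit₁.ne_zero hT.unit₂.ne_zero
          exact ⟨μ, hμ⟩
      exact ⟨hsym, formOf_self_eq_zero (by rw [hsym, ← neg_one_smul F J₁, hneg, one_smul]) hdiag⟩
    obtain ⟨hs1, ha1⟩ := hzero hT
    obtain ⟨hs2, ha2⟩ := hzero hT.swap
    have hd : ∀ p, (J₁ ⊗ₖ J₂) p p = 0 := fun p => by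
      rw [Matrix.kroneckerMap_apply, ← formOf_single (RingEquiv.refl F) J₁ p.1 p.1, ha1, zero_mul]
    obtain ⟨U, hU, hUd⟩ := exists_upper h2 (G := J₁ ⊗ₖ J₂) (by
      ext ⟨i, j⟩ ⟨k, l⟩
      simp only [Matrix.transpose_apply, Matrix.kroneckerMap_apply]
      rw [show J₁ k i = J₁ i k from congrFun (congrFun hs1 i) k,
        show J₂ l j = J₂ j l from congrFun (congrFun hs2 j) l]) hd
    refine symp_class_quad h2 hH (Q := fun v => quadOf U (L.symm v)) (fun c v => by
      simp only [map_smul, quadOf_smul]) (fun u v => ?_) (fun h hh v => ?_)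
    · simp only [QuadraticMap.polar, map_add, quadOf_add, hU]
      conv_rhs => rw [← L.apply_symm_apply u, ← L.apply_symm_apply v, formOf_coord, hT.gram]
      ring
    · obtain ⟨c, d, μ, ν, hcd, -, -⟩ := hT.mem h hh
      have hX := (isSim_coord_iff hcd).1 (hH' h hh)
      rw [one_smul, hT.gram] at hX
      show quadOf U (L.symm _) = quadOf U (L.symm v)
      rw [hcd, conjMat_mulVec, L.symm_apply_apply, quadOf_mulVec hU hUd hX]
      intro p
      rw [mulVec_single_kronecker]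
      exact quadOf_tensorVec hU hUd ha1 ha2 _ _
  -- odd characteristic
  haveI : NeZero a := ⟨by have := hT.left_two_le; omega⟩
  obtain ⟨c₁, c₂, hcc, h1, h2'⟩ := hT.star
  have key : ∀ {a b : ℕ} {L : (Fin a × Fin b → F) ≃ₗ[F] (Fin m ⊕ Fin m → F)}
      {J₁ : Matrix (Fin a) (Fin a) F} {J₂ : Matrix (Fin b) (Fin b) F},
      IsTensorData (RingEquiv.refl F) (Matrix.J (Fin m) F) (-1) H L J₁ J₂ →
      J₁ᵀ = -J₁ → J₂ᵀ = J₂ → ∃ M, InSymplecticClass m F M ∧ H ≤ M := by
    intro a b L J₁ J₂ hT hJ₁ hJ₂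
    have hd1 : ∀ i, J₁ i i = 0 := fun i => by
      have h3 : J₁ i i = -J₁ i i := congrFun (congrFun hJ₁ i) i
      have h4 : (2 : F) * J₁ i i = 0 := by linear_combination h3
      exact (mul_eq_zero.1 h4).resolve_left h2
    rcases Nat.lt_or_ge b 3 with hb | hb
    · obtain rfl : b = 2 := by have := hT.right_two_le; omega
      obtain ⟨u₂, hu₂⟩ := hT.unit₂
      obtain ⟨W, hJW⟩ : ∃ W, J₂ * W = altTwo F :=
        ⟨((u₂⁻¹ : GL (Fin 2) F) : Matrix (Fin 2) (Fin 2) F) * altTwo F, by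
          rw [← mul_assoc, ← hu₂, Units.mul_inv, one_mul]⟩
      set ω := conjMat L ((1 : Matrix (Fin a) (Fin a) F) ⊗ₖ W) with hω
      set A' := Algebra.adjoin F ({ω} : Set (Matrix (Fin m ⊕ Fin m) (Fin m ⊕ Fin m) F)) with hA'
      have hadjω : adj (RingEquiv.refl F) (Matrix.J (Fin m) F) ω = -ω := by
        rw [hω, hP.adj_conjMat, ← map_neg]
        congr 1
        refine adj_eq_of_mul (hP.coord L) ?_
        rw [hT.gram]
        have hWt : Wᵀ * J₂ = -(J₂ * W) := by
          have h0 : Wᵀ * J₂ = (J₂ * W)ᵀ := by rw [Matrix.transpose_mul, hJ₂]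
          rw [h0, hJW, altTwo_transpose]
        have ht : ((1 : Matrix (Fin a) (Fin a) F) ⊗ₖ W)ᵀ = (1 : Matrix (Fin a) (Fin a) F) ⊗ₖ Wᵀ := by
          ext ⟨i, j⟩ ⟨k, l⟩
          simp [Matrix.kroneckerMap_apply, Matrix.one_apply, eq_comm]
        rw [ht, ← Matrix.mul_kronecker_mul, one_mul, hWt,
          show (-((1 : Matrix (Fin a) (Fin a) F) ⊗ₖ W)).map (RingEquiv.refl F)
            = -((1 : Matrix (Fin a) (Fin a) F) ⊗ₖ W) from rfl,
          mul_neg, ← Matrix.mul_kronecker_mul, mul_one]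
        ext ⟨i, j⟩ ⟨k, l⟩
        simp [Matrix.kroneckerMap_apply]
      have hs : StarClosed (RingEquiv.refl F) (Matrix.J (Fin m) F) A' := by
        intro X hX
        induction hX using Algebra.adjoin_induction with
        | mem x hx =>
          rw [Set.mem_singleton_iff] at hx
          subst hx
          rw [hadjω]
          exact neg_mem (Algebra.subset_adjoin rfl)
        | algebraMap c =>
          rw [Algebra.algebraMap_eq_smul_one, adj_smul, hP.adj_one]
          exact A'.smul_mem A'.one_mem _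
        | add x y _ _ hx hy => rw [adj_add]; exact add_mem hx hy
        | mul x y _ _ hx hy => rw [hP.adj_mul]; exact mul_mem hy hx
      have hn : Normalises H A' := by
        intro g hg X hX
        have hle : A' ≤ A'.comap (conjGL g).toAlgHom := Algebra.adjoin_le (by
          rintro x hx
          rw [Set.mem_singleton_iff] at hx
          subst hx
          show conjGL g ω ∈ A'
          obtain ⟨c, d, μ, ν, hcd, -, hd⟩ := hT.mem g hg
          have hd' : (d : Matrix (Fin 2) (Fin 2) F)ᵀ * J₂ * (d : Matrix (Fin 2) (Fin 2) F)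
              = ν • J₂ := hd
          have hν0 : ν ≠ 0 := hd.ne_zero hT.unit₂
          have hdW : ν • (W * (d : Matrix (Fin 2) (Fin 2) F))
              = (d : Matrix (Fin 2) (Fin 2) F).det • ((d : Matrix (Fin 2) (Fin 2) F) * W) := by
            apply ((((Matrix.isUnit_transpose _).2 d.isUnit).mul hT.unit₂)).mul_left_cancel
            rw [Matrix.mul_smul, Matrix.mul_smul, mul_assoc, mul_assoc, ← mul_assoc J₂ W, hJW,
              ← mul_assoc _ (altTwo F), altTwo_adj, ← mul_assoc, ← mul_assoc, hd',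
              Matrix.smul_mul, hJW, smul_comm]
          have hdet : (d : Matrix (Fin 2) (Fin 2) F).det ≠ 0 :=
            ((Matrix.isUnit_iff_isUnit_det _).1 d.isUnit).ne_zero
          have hgω : conjGL g ω = (ν / (d : Matrix (Fin 2) (Fin 2) F).det) • ω := by
            refine conjGL_eq_of_mul_eq ?_
            rw [hω, hcd, ← map_smul, ← map_mul, ← map_mul]
            congr 1
            rw [Matrix.smul_mul, ← Matrix.mul_kronecker_mul, ← Matrix.mul_kronecker_mul, one_mul,
              mul_one, ← Matrix.kronecker_smul, div_eq_inv_mul, mul_smul, hdW, inv_smul_smul₀ hdet]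
          rw [hgω]
          exact A'.smul_mem (Algebra.subset_adjoin rfl) _)
        exact hle hX
      have hcomm : ∀ x ∈ A', ∀ y ∈ A', x * y = y * x := by
        intro x hx y hy
        rw [hA', Algebra.adjoin_singleton_eq_range_aeval] at hx hy
        obtain ⟨p, rfl⟩ := hx
        obtain ⟨p', rfl⟩ := hy
        rw [← map_mul, ← map_mul, mul_comm]
      have hns : ∃ z ∈ A', ∀ c : F, z ≠ c • (1 : Matrix (Fin m ⊕ Fin m) (Fin m ⊕ Fin m) F) := by
        refine ⟨ω, Algebra.subset_adjoin rfl, fun c hc => ?_⟩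
        rw [hω, ← map_one (conjMat L), ← map_smul] at hc
        haveI : NeZero a := ⟨by have := hT.left_two_le; omega⟩
        have hWc : W = c • (1 : Matrix (Fin 2) (Fin 2) F) := by
          ext i j
          simpa [Matrix.kroneckerMap_apply, Matrix.one_apply] using
            congrFun (congrFun ((conjMat L).injective hc) (0, i)) (0, j)
        rw [hWc, Matrix.mul_smul, mul_one] at hJW
        have h5 : (altTwo F)ᵀ = altTwo F := by rw [← hJW, Matrix.transpose_smul, hJ₂]
        rw [altTwo_transpose] at h5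
        have h6 := congrFun (congrFun h5 0) 1
        simp [altTwo] at h6
        exact h2 (by linear_combination -h6)
      rcases hP.comm_cases hH' hirr hn hs hcomm hns with
        ⟨t, k, D, hD, hle, -⟩ | ⟨A'', e, he, h01⟩ | ⟨r, K, hr, hK, hKs, hle⟩
      · exact ⟨_, Or.inl <| Or.inr <| Or.inr <| Or.inl ⟨t, k, D, hD, rfl⟩, le_inf hle hH⟩
      · exact symp_class_of_pair hm hH he h01
      · exact symp_class_of_field hm hH hr hK hKs hle
    · have hcardι : Fintype.card (Fin m ⊕ Fin m) = Fintype.card (Fin a × Fin b) := by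
        simpa using L.finrank_eq.symm
      let e := Fintype.equivOfCardEq hcardι
      obtain ⟨P, hPv, hPX⟩ := exists_coordGL L e
      refine ⟨tensorProductSubgroup a b e P ⊓ Cfsg.spGL m F, Or.inr <| Or.inr <| Or.inr <| Or.inl
        ⟨a, b, e, P, formOf (RingEquiv.refl F) J₁, formOf (RingEquiv.refl F) J₂,
          two_ne_zero_iff_odd_card.1 h2, hb, isSymplecticForm_formOf hT.unit₁ hJ₁ hd1,
          ⟨⟨formOf_add_left _ _, formOf_smul_left _ _, formOf_add_right _ _,
            fun c v x => formOf_smul_right _ _ c v x⟩, fun u v => ?_,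
            isNondegenerateForm_formOf _ hT.unit₂⟩,
          tensorFormStructure (σ := RingEquiv.refl F) hPv one_ne_zero (by rw [one_smul, hT.gram]),
          rfl⟩, le_inf (fun h hh => ?_) hH⟩
      · have h3 := formOf_star (σ := RingEquiv.refl F) (fun _ => rfl) J₂ u v
        rw [show starMat (RingEquiv.refl F) J₂ = J₂ from hJ₂, RingEquiv.refl_apply] at h3
        exact h3
      · obtain ⟨c, d, μ, ν, hcd, -, -⟩ := hT.mem h hh
        exact mem_tensorProductSubgroup hPX c d hcd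
  rcases mul_self_eq_one_iff.1 (sq_eq_one_of_star hT.unit₁.ne_zero h1) with hc1 | hc1
  · rw [hc1, one_mul] at hcc
    rw [hcc, neg_one_smul] at h2'
    rw [hc1, one_smul] at h1
    exact key hT.swap h2' h1
  · rw [hc1] at hcc
    have hc2 : c₂ = 1 := by linear_combination -hcc
    rw [hc2, one_smul] at h2'
    rw [hc1, neg_one_smul] at h1
    exact key hT h1 h2'

/-- Classes 7 and 8. -/
lemma symp_class_of_wreath (hm : 0 < m) {H : Subgroup (GL (Fin m ⊕ Fin m) F)}
    (hH : H ≤ Cfsg.spGL m F) {a t : ℕ}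
    {L : ((Fin t → Fin a) → F) ≃ₗ[F] (Fin m ⊕ Fin m → F)} {J : Matrix (Fin a) (Fin a) F} {s : F}
    (hW : IsWreathData (RingEquiv.refl F) (Matrix.J (Fin m) F) (-1) H L J s)
    (hns : HasNonsolvableFactor (RingEquiv.refl F) J) :
    ∃ M, InSymplecticClass m F M ∧ H ≤ M := by
  haveI : Nonempty (Fin m ⊕ Fin m) := ⟨Sum.inl ⟨0, hm⟩⟩
  have hH' : ∀ h ∈ H, IsSim (RingEquiv.refl F) (Matrix.J (Fin m) F) h 1 := fun h hh =>
    isSim_of_mem_spGL (hH hh)
  haveI : NeZero a := ⟨by have := hW.two_le; omega⟩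
  obtain ⟨c, hc, hct⟩ := hW.star
  rw [RingEquiv.refl_apply] at hct
  have hct' : c ^ t = -1 := mul_left_cancel₀ hW.ne_zero (hct.trans (mul_comm _ _))
  have hcc := mul_self_eq_one_iff.1 (sq_eq_one_of_star hW.unit.ne_zero hc)
  by_cases h2 : (2 : F) = 0
  · have hneg : (-1 : F) = 1 := neg_eq_self_of_two h2 1
    have hc1 : c = 1 := by rcases hcc with h | h; exacts [h, h.trans hneg]
    rw [hc1, one_smul] at hc
    have hsym : Jᵀ = J := hc
    have hdiag : ∀ k, J k k = 0 := fun k => by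
      have h1 := formOf_single (RingEquiv.refl F) (coordGram (RingEquiv.refl F)
        (Matrix.J (Fin m) F) L) (fun _ : Fin t => k) fun _ => k
      rw [← formOf_coord, formOf_self_eq_zero (B := Matrix.J (Fin m) F) (Matrix.J_transpose _ _)
        J_diag, hW.gram] at h1
      simp only [Matrix.smul_apply, pureMat, Finset.prod_const, smul_eq_mul] at h1
      exact eq_zero_of_pow_eq_zero ((mul_eq_zero.1 h1.symm).resolve_left hW.ne_zero)
    have hJv := formOf_self_eq_zero (B := J) (by rw [hsym, ← neg_one_smul F J, hneg, one_smul]) hdiag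
    have ht0 : 0 < t := by have := hW.card_two_le; omega
    obtain ⟨U, hU, hUd⟩ := exists_upper h2 (G := s • pureMat fun _ : Fin t => J)
      (by rw [Matrix.transpose_smul, pureMat_transpose, hsym])
      (fun x => by
        rw [Matrix.smul_apply, pureMat, Finset.prod_eq_zero (Finset.mem_univ (⟨0, ht0⟩ : Fin t))
          (hdiag _), smul_zero])
    refine symp_class_quad h2 hH (Q := fun v => quadOf U (L.symm v)) (fun c v => by
      simp only [map_smul, quadOf_smul]) (fun u v => ?_) (fun h hh v => ?_)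
    · simp only [QuadraticMap.polar, map_add, quadOf_add, hU]
      conv_rhs => rw [← L.apply_symm_apply u, ← L.apply_symm_apply v, formOf_coord, hW.gram]
      ring
    · obtain ⟨cs, π, hd, -⟩ := hW.mem h hh
      have hX := (isSim_coord_iff hd).1 (hH' h hh)
      rw [one_smul, hW.gram] at hX
      show quadOf U (L.symm _) = quadOf U (L.symm v)
      rw [hd, conjMat_mulVec, L.symm_apply_apply, quadOf_mulVec hU hUd hX]
      intro z
      rw [pureMat_mul_factorPerm_single]
      exact quadOf_pureVec hW.card_two_le hU hUd hJv _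
  have hne1 : (1 : F) ≠ -1 := fun h => h2 (by linear_combination h)
  have hc1 : c = -1 := hcc.resolve_left fun h => hne1 (by rwa [h, one_pow] at hct')
  rw [hc1, neg_one_smul] at hc
  have hskew : Jᵀ = -J := hc
  have htodd : Odd t := by
    rcases Nat.even_or_odd t with h | h
    · rw [hc1, h.neg_one_pow] at hct'
      exact absurd hct' hne1
    · exact h
  have hdiag : ∀ i, J i i = 0 := fun i => by
    have h3 : J i i = -J i i := congrFun (congrFun hskew i) i
    have h4 : (2 : F) * J i i = 0 := by linear_combination h3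
    exact (mul_eq_zero.1 h4).resolve_left h2
  have hexc : ¬ (Fintype.card F = 3 ∧ a = 2) := by
    rintro ⟨hq, rfl⟩
    obtain ⟨S, hS, -⟩ := hns
    haveI : Group.IsSolvable (GL (Fin 2) F) :=
      Char.solvable_of_card_eq_pow_mul_pow 2 3 Nat.prime_two Nat.prime_three 48
        (by rw [Matrix.card_GL_field, hq]; rfl) fun r hr hdvd => by
          have hle := Nat.le_of_dvd (by norm_num) hdvd
          interval_cases r <;> first | omega | (norm_num at hr) | (norm_num at hdvd)
    exact hS inferInstance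
  have hcardι : Fintype.card (Fin m ⊕ Fin m) = Fintype.card (Fin t → Fin a) := by
    simpa using L.finrank_eq.symm
  let e := Fintype.equivOfCardEq hcardι
  obtain ⟨P, hPv, hPX⟩ := exists_coordGL L e
  refine ⟨tensorWreathSubgroup a t e P ⊓ Cfsg.spGL m F, Or.inr <| Or.inr <| Or.inr <| Or.inr
    ⟨a, t, e, P, formOf (RingEquiv.refl F) J, two_ne_zero_iff_odd_card.1 h2, htodd,
      by obtain ⟨l, hl⟩ := htodd; have := hW.card_two_le; omega, hexc,
      isSymplecticForm_formOf hW.unit hskew hdiag,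
      tensorPowerFormStructure (σ := RingEquiv.refl F) hPv hW.ne_zero hW.gram, rfl⟩,
    le_inf (fun h hh => ?_) hH⟩
  obtain ⟨cs, π, hd, -⟩ := hW.mem h hh
  exact mem_tensorWreathSubgroup hPX cs π hd

/-- Classes 5 and 6. -/
lemma symp_class_of_abelian (hm : 0 < m) {H N : Subgroup (GL (Fin m ⊕ Fin m) F)}
    (hH : H ≤ Cfsg.spGL m F) (hN : IsMinNormal (H ⊔ scalars (Fin m ⊕ Fin m) F) N)
    (hmod : ModComm N) (htop : spanAlg N = ⊤) : ∃ M, InSymplecticClass m F M ∧ H ≤ M := by
  classical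
  haveI : Nonempty (Fin m ⊕ Fin m) := ⟨Sum.inl ⟨0, hm⟩⟩
  have hP := isPolar_J (F := F) (m := m)
  have hH' : ∀ h ∈ H, IsSim (RingEquiv.refl F) (Matrix.J (Fin m) F) h 1 := fun h hh =>
    isSim_of_mem_spGL (hH hh)
  obtain ⟨r, k, x, hS⟩ := exists_sympTypeSystem hN hmod htop (by simp; omega)
  obtain ⟨hr, h2⟩ := hP.sympType_two hH' hN hS htop
  obtain ⟨R, d, hR⟩ := hP.exists_signGroup hH' hN hS htop h2 hr
  obtain ⟨p, hpc⟩ := CharP.exists F
  haveI := hpc
  obtain ⟨e, hp, he⟩ := FiniteField.card F p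
  haveI : Fact p.Prime := ⟨hp⟩
  by_cases hqp : Fintype.card F = p
  · have hpodd : Odd p := hqp ▸ two_ne_zero_iff_odd_card.1 h2
    refine ⟨_, Or.inl <| Or.inr <| Or.inr <| Or.inr <| Or.inr <| Or.inr <| Or.inl
      ⟨R, p, d, hR.symplecticType, absIrred_of_spanAlg_top hR.span, fun g hg => ?_, hp, hpodd,
        hqp, hR.card, hR.center, hR.minus, rfl⟩, le_inf (fun g hg => ?_) hH⟩
    · rw [sympForm_eq_formOf]
      exact mem_similarityGroup_of_isSim hP.unit (hR.isometry g hg)
    · rw [subgroupNormalizer, Subgroup.mem_normalizer_iff]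
      refine fun y => ⟨fun hy => hR.normal g hg y hy, fun hy => ?_⟩
      have := hR.normal g⁻¹ (H.inv_mem hg) _ hy
      simpa [mul_assoc] using this
  set F₀ : Subfield F := RingHom.eqLocusField (frobenius F p) (RingHom.id F) with hF₀
  have hF₀top : F₀ ≠ ⊤ := by
    intro h
    have hall : ∀ z : F, z ^ p = z := fun z => by
      have hz : z ∈ F₀ := h ▸ Subfield.mem_top z
      exact hz
    have h1 := card_le_of_forall_pow_eq hp.one_lt hall
    apply hqp
    rw [he] at h1 ⊢
    exact le_antisymm h1 (Nat.le_self_pow e.pos.ne' p)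
  obtain ⟨y, hy, hcoord⟩ := hR.coords
  obtain ⟨B, hB⟩ := realisable_of_coords (F₀ := F₀) hR.span y hy (by simp) fun g hg => by
    obtain ⟨i, hi | hi⟩ := hcoord g hg
    · exact ⟨Pi.single i 1, by rw [hi, Finset.sum_eq_single i] <;> simp +contextual⟩
    · exact ⟨Pi.single i (-1), by rw [hi, Finset.sum_eq_single i] <;> simp +contextual⟩
  exact symp_class_of_realisable hm hH hR.span hR.isometry hR.normal hF₀top
    (realisableOver_of_conjGL hB)

/-- The almost simple case. -/
lemma symp_class_or_residual (hm : 0 < m) {H P : Subgroup (GL (Fin m ⊕ Fin m) F)}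
    (hH : H ≤ Cfsg.spGL m F)
    (hP : IsSimpleData (RingEquiv.refl F) (Matrix.J (Fin m) F) H P) :
    (∃ M, InSymplecticClass m F M ∧ H ≤ M) ∨ InSymplecticResidualClass H := by
  haveI : Nonempty (Fin m ⊕ Fin m) := ⟨Sum.inl ⟨0, hm⟩⟩
  have hpol := isPolar_J (F := F) (m := m)
  have hirr := absIrred_of_spanAlg_top hP.span
  by_cases hreal : ∃ F₀ : Subfield F, F₀ ≠ ⊤ ∧ RealisableOver F₀ (matrixSet P)
  · obtain ⟨F₀, hF₀, hr⟩ := hreal
    exact Or.inl (symp_class_of_realisable hm hH hP.span hP.isometry hP.normal hF₀ hr)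
  by_cases hQ : ∃ Q : (Fin m ⊕ Fin m → F) → F, IsNondegenerateQuadraticForm Q ∧
      FixesQuadForm (matrixSet P) Q
  · obtain ⟨Q, hQ, hfix⟩ := hQ
    set B := gramMatrix (QuadraticMap.polar Q) with hBdef
    have hf := bilinearForm_eq_formOf hQ.polar_bilinear
    have hBu : IsUnit B :=
      isUnit_of_isNondegenerateForm (σ := RingEquiv.refl F) (hf ▸ hQ.nondegenerate)
    have hPfix : ∀ g ∈ P, IsSim (RingEquiv.refl F) B g 1 := fun g hg =>
      isSim_of_formOf fun u v => by
        rw [← hf, one_mul]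
        simp only [QuadraticMap.polar, ← Matrix.mulVec_add, hfix _ ⟨g, hg, rfl⟩]
    obtain ⟨c, hc⟩ := eq_smul_of_isSim hirr (σ := RingEquiv.refl F)
      (B := Matrix.J (Fin m) F) (B' := B) hpol.unit
      fun g hg => ⟨1, one_ne_zero, hP.isometry g hg, hPfix g hg⟩
    have hc0 : c ≠ 0 := fun h0 => hBu.ne_zero (by rw [hc, h0, zero_smul])
    have hBt : Bᵀ = B := by
      ext i j
      simp only [hBdef, gramMatrix, Matrix.transpose_apply, QuadraticMap.polar_comm]
    by_cases h2 : (2 : F) = 0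
    swap
    · exfalso
      rw [hc, Matrix.transpose_smul, Matrix.J_transpose, smul_neg] at hBt
      have h4 : (2 * c) • Matrix.J (Fin m) F = 0 := by
        rw [two_mul, add_smul]
        nth_rewrite 1 [← hBt]
        exact neg_add_cancel _
      exact mul_ne_zero h2 hc0 ((smul_eq_zero.1 h4).resolve_right hpol.unit.ne_zero)
    refine Or.inl (symp_class_quad h2 hH (Q := fun v => c⁻¹ * Q v) (fun a v => ?_) (fun u v => ?_)
      fun h hh v => ?_)
    · simp only [hQ.smul]; ring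
    · have h5 : QuadraticMap.polar Q u v = c * formOf (RingEquiv.refl F) (Matrix.J (Fin m) F) u v := by
        rw [hf, ← hBdef, hc, formOf_smul]
      simp only [QuadraticMap.polar, ← mul_sub] at h5 ⊢
      rw [h5, inv_mul_cancel_left₀ hc0]
    · have hD := eq_zero_of_additive_irreducible hirr.1 h2 (by simp; omega)
        (D := fun v => c⁻¹ * Q ((h : Matrix _ _ F) *ᵥ v) - c⁻¹ * Q v) (fun u w => ?_)
        (fun a w => ?_) (fun g hg w => ?_) v
      · exact sub_eq_zero.1 hD
      · have hQadd : ∀ a b, Q (a + b) = Q a + Q b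
            + c * formOf (RingEquiv.refl F) (Matrix.J (Fin m) F) a b := fun a b => by
          have h5 : QuadraticMap.polar Q a b
              = c * formOf (RingEquiv.refl F) (Matrix.J (Fin m) F) a b := by
            rw [hf, ← hBdef, hc, formOf_smul]
          simp only [QuadraticMap.polar] at h5
          linear_combination h5
        rw [Matrix.mulVec_add, hQadd, hQadd,
          formOf_eq_of_isSim (isSim_of_mem_spGL (hH hh))]
        ring
      · rw [Matrix.mulVec_smul, hQ.smul, hQ.smul]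
        ring
      · have h6 : (h : Matrix (Fin m ⊕ Fin m) (Fin m ⊕ Fin m) F)
              *ᵥ ((g : Matrix (Fin m ⊕ Fin m) (Fin m ⊕ Fin m) F) *ᵥ w)
            = ((h * g * h⁻¹ : GL (Fin m ⊕ Fin m) F) : Matrix (Fin m ⊕ Fin m) (Fin m ⊕ Fin m) F)
              *ᵥ ((h : Matrix (Fin m ⊕ Fin m) (Fin m ⊕ Fin m) F) *ᵥ w) := by
          rw [Matrix.mulVec_mulVec, Matrix.mulVec_mulVec, ← Units.val_mul, ← Units.val_mul,
            inv_mul_cancel_right]
        show c⁻¹ * Q _ - c⁻¹ * Q _ = _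
        rw [h6, hfix _ ⟨_, hP.normal h hh g hg, rfl⟩, hfix _ ⟨g, hg, rfl⟩]
  by_cases hu : ∃ (σ : F ≃+* F) (f : (Fin m ⊕ Fin m → F) → (Fin m ⊕ Fin m → F) → F),
      IsUnitaryForm σ f ∧ FixesForm (matrixSet P) f
  · exfalso
    obtain ⟨σ, f, hf, hfix⟩ := hu
    have hform := unitaryForm_eq_formOf hf
    have hBu : IsUnit (gramMatrix f) :=
      isUnit_of_isNondegenerateForm (σ := σ) (hform ▸ hf.nondegenerate)
    set F₀ : Subfield F := RingHom.eqLocusField σ.toRingHom (RingHom.id F) with hF₀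
    obtain ⟨B₀, hB₀⟩ := realisable_of_two_forms (F₀ := F₀) (σ := σ) (fun a => Iff.rfl) hBu hpol.unit
      hP.span (fun g hg => isSim_of_formOf fun u v => by
        rw [← hform, one_mul]; exact hfix _ ⟨g, hg, rfl⟩ u v) hP.isometry
    refine hreal ⟨F₀, fun htop => hf.ne_refl (RingEquiv.ext fun a => ?_),
      realisableOver_of_conjGL hB₀⟩
    have ha : a ∈ F₀ := htop ▸ Subfield.mem_top a
    exact ha
  exact Or.inr ⟨P, hP.core fun F₀ h0 hr => hreal ⟨F₀, h0, hr⟩, hQ, hu⟩

/-- Aschbacher's dichotomy for `Sp_2m(q)`. -/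
theorem symplectic_dichotomy (hm : 2 ≤ m) {H : Subgroup (GL (Fin m ⊕ Fin m) F)}
    (hH : H ≤ Cfsg.spGL m F) :
    (∃ M, InSymplecticClass m F M ∧ H ≤ M) ∨ InSymplecticResidualClass H := by
  classical
  have hm0 : 0 < m := by omega
  haveI : Nonempty (Fin m ⊕ Fin m) := ⟨Sum.inl ⟨0, hm0⟩⟩
  have hP := isPolar_J (F := F) (m := m)
  have hH' : ∀ h ∈ H, IsSim (RingEquiv.refl F) (Matrix.J (Fin m) F) h 1 := fun h hh =>
    isSim_of_mem_spGL (hH hh)
  by_cases hirr : ActsIrreducibly (matrixSet H)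
  swap
  · left
    rcases hP.reducible_cases hH' hirr with
      ⟨W, hW, hs, hle⟩ | ⟨W, hW, -, hnd, hlt, hle⟩ | ⟨k, D, hk, hD, hle⟩
    · exact ⟨_, Or.inl <| Or.inl ⟨W, hW, hs, rfl⟩, le_inf hle hH⟩
    · exact ⟨_, Or.inl <| Or.inr <| Or.inl ⟨W, hW, hnd, by simp at hlt; omega, rfl⟩, le_inf hle hH⟩
    · exact ⟨_, Or.inl <| Or.inr <| Or.inr <| Or.inl ⟨2, k, D, hD, rfl⟩, le_inf hle hH⟩
  rcases hP.isometry_cases hH' hirr (by simp; omega) with
    ⟨t, k, D, hD, hle, -⟩ | ⟨A, e, he, h01⟩ | ⟨r, K, hr, hK, hKs, hle⟩ | ⟨a, b, L, J₁, J₂, hT⟩ |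
    ⟨a, t, L, J, s, hW, hns⟩ | ⟨-, N, hN, hmod, htop⟩ | ⟨-, P, hPd⟩
  · exact Or.inl ⟨_, Or.inl <| Or.inr <| Or.inr <| Or.inl ⟨t, k, D, hD, rfl⟩, le_inf hle hH⟩
  · exact Or.inl (symp_class_of_pair hm0 hH he h01)
  · exact Or.inl (symp_class_of_field hm0 hH hr hK hKs hle)
  · exact Or.inl (symp_class_of_tensor hm0 hH hirr hT)
  · exact Or.inl (symp_class_of_wreath hm0 hH hW hns)
  · exact Or.inl (symp_class_of_abelian hm0 hH hN hmod htop)
  · exact symp_class_or_residual hm0 hH hPd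

end Cfsg.Agent.GeoClasses
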