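import Mathlib
import Cfsg.Prelude.Def_GeometricClasses
import Cfsg.Agent.Forms25.Disc
import Cfsg.Agent.GeoClasses.Basic
import Cfsg.Agent.GeoClasses.MatrixUnits
import Cfsg.Agent.GeoClasses.Algebra
import Cfsg.Agent.GeoClasses.Tensor
import Cfsg.Agent.GeoClasses.Forms
import Cfsg.Agent.GeoClasses.FormsMore
import Cfsg.Agent.GeoClasses.Polarized
import Cfsg.Agent.GeoClasses.Coords
import Cfsg.Agent.GeoClasses.ClassTools
import Cfsg.Agent.GeoClasses.Symplectic

/-!
The standard quadratic form in odd dimension and its rational structures.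
-/

set_option autoImplicit false
set_option maxHeartbeats 400000

namespace Cfsg.Agent.GeoClasses

open Matrix Cfsg.Geo
open scoped MatrixGroups Matrix Kronecker

variable {F : Type*} [Field F] {m : ℕ}

/-- The index type of the odd-dimensional form. -/
abbrev OddIx (m : ℕ) : Type := Unit ⊕ (Fin m ⊕ Fin m)

/-- The Gram matrix of the polar form of `x₀² + Σ x_i y_i`. -/
def oddGram (m : ℕ) (F : Type*) [Field F] : Matrix (OddIx m) (OddIx m) F :=
  Matrix.fromBlocks (Matrix.of fun _ _ => (2 : F)) 0 0 (Matrix.fromBlocks 0 1 1 0)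

lemma oddGram_symm : (oddGram m F)ᵀ = oddGram m F := by
  simp [oddGram, Matrix.fromBlocks_transpose]
  ext i j
  rfl

lemma det_oddGram : (oddGram m F).det = 2 * (-1) ^ m := by
  rw [oddGram, Matrix.det_fromBlocks_zero₂₁, Forms25.det_fromBlocks_antidiag, Matrix.det_unique]
  rfl

lemma formOf_oddGram (u v : OddIx m → F) :
    formOf (RingEquiv.refl F) (oddGram m F) u v = 2 * (u (.inl ()) * v (.inl ()))
      + ∑ i : Fin m, (u (.inr (.inl i)) * v (.inr (.inr i))
        + u (.inr (.inr i)) * v (.inr (.inl i))) := by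
  simp only [formOf, oddGram, RingEquiv.refl_apply, dotProduct, Matrix.mulVec, Fintype.sum_sum_type,
    Matrix.fromBlocks_apply₁₁, Matrix.fromBlocks_apply₁₂, Matrix.fromBlocks_apply₂₁,
    Matrix.fromBlocks_apply₂₂, Matrix.zero_apply, Matrix.one_apply, Finset.univ_unique,
    Finset.sum_singleton, Finset.sum_add_distrib]
  simp
  ring

lemma polar_quadFormOdd :
    QuadraticMap.polar (Cfsg.quadFormOdd m F) = formOf (RingEquiv.refl F) (oddGram m F) := by
  funext u v
  rw [formOf_oddGram]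
  have hswap : ∑ i : Fin m, v (.inr (.inl i)) * u (.inr (.inr i))
      = ∑ i : Fin m, u (.inr (.inr i)) * v (.inr (.inl i)) :=
    Finset.sum_congr rfl fun i _ => mul_comm _ _
  simp only [QuadraticMap.polar, Cfsg.quadFormOdd, Pi.add_apply, add_mul, mul_add,
    Finset.sum_add_distrib, hswap]
  ring

lemma formOf_oddGram_self (v : OddIx m → F) :
    formOf (RingEquiv.refl F) (oddGram m F) v v = 2 * Cfsg.quadFormOdd m F v := by
  rw [formOf_oddGram, Cfsg.quadFormOdd, Finset.sum_add_distrib]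
  simp only [mul_comm (v (.inr (.inr _)))]
  ring

lemma quadFormOdd_smul (c : F) (v : OddIx m → F) :
    Cfsg.quadFormOdd m F (c • v) = c ^ 2 * Cfsg.quadFormOdd m F v := by
  simp only [Cfsg.quadFormOdd, Pi.smul_apply, smul_eq_mul, mul_add, Finset.mul_sum]
  congr 1
  · ring
  · exact Finset.sum_congr rfl fun i _ => by ring

lemma isPolar_oddGram (h2 : (2 : F) ≠ 0) :
    IsPolar (RingEquiv.refl F) (oddGram m F) 1 where
  invol _ := rfl
  unit := by
    rw [Matrix.isUnit_iff_isUnit_det, det_oddGram]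
    exact (mul_ne_zero h2 (pow_ne_zero _ (neg_ne_zero.2 one_ne_zero))).isUnit
  star := by
    rw [one_smul, starMat,
      show (oddGram m F).map (RingEquiv.refl F) = oddGram m F from rfl, oddGram_symm]

lemma isometry_of_mem_omegaGL {g : GL (OddIx m) F}
    (hg : g ∈ omegaGL (Cfsg.quadFormOdd m F)) :
    g ∈ Cfsg.isometryGroup F (Cfsg.quadFormOdd m F) ∧
      (g : Matrix (OddIx m) (OddIx m) F).det = 1 := by
  obtain ⟨x, hx, rfl⟩ := hg
  refine ⟨x.2, ?_⟩
  let d : Cfsg.isometryGroup F (Cfsg.quadFormOdd m F) →* Fˣ :=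
    Matrix.GeneralLinearGroup.det.comp (Subgroup.subtype _)
  have h1 : x ∈ d.ker := Abelianization.commutator_subset_ker d hx
  exact congrArg Units.val (MonoidHom.mem_ker.1 h1)

lemma quad_apply_of_mem {g : GL (OddIx m) F}
    (hg : g ∈ Cfsg.isometryGroup F (Cfsg.quadFormOdd m F)) (v : OddIx m → F) :
    Cfsg.quadFormOdd m F ((g : Matrix (OddIx m) (OddIx m) F) *ᵥ v) = Cfsg.quadFormOdd m F v :=
  hg v v

lemma isSim_of_mem_isometryGroup {g : GL (OddIx m) F}
    (hg : g ∈ Cfsg.isometryGroup F (Cfsg.quadFormOdd m F)) :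
    IsSim (RingEquiv.refl F) (oddGram m F) g 1 :=
  isSim_of_formOf fun u v => by
    rw [one_mul, ← polar_quadFormOdd]
    simp only [QuadraticMap.polar, ← Matrix.mulVec_add, quad_apply_of_mem hg]

lemma card_oddIx : Fintype.card (OddIx m) = 2 * m + 1 := by simp; omega

lemma isSymmetricForm_formOf {ι : Type} [Fintype ι] [DecidableEq ι] {J : Matrix ι ι F}
    (hJ : IsUnit J) (hsym : Jᵀ = J) : IsSymmetricForm (formOf (RingEquiv.refl F) J) where
  bilinear := ⟨formOf_add_left _ _, formOf_smul_left _ _, formOf_add_right _ _,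
    fun c v x => formOf_smul_right _ _ c v x⟩
  symm u v := by
    have h3 := formOf_star (σ := RingEquiv.refl F) (fun _ => rfl) J u v
    rw [show starMat (RingEquiv.refl F) J = J from hsym, RingEquiv.refl_apply] at h3
    exact h3
  nondegenerate := isNondegenerateForm_formOf _ hJ

/-- Symmetric forms with discriminants differing by a square are congruent. -/
lemma exists_congr_of_det [Finite F] (h2 : (2 : F) ≠ 0) {k : ℕ}
    {J J' : Matrix (Fin k) (Fin k) F} (hJ : IsUnit J) (hJ' : IsUnit J') (hs : Jᵀ = J)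
    (hs' : J'ᵀ = J') (hsq : IsSquare (J.det * J'.det)) :
    ∃ D : GL (Fin k) F, adjForm (RingEquiv.refl F) J' (D : Matrix (Fin k) (Fin k) F) = J := by
  have hsymm : ∀ {M : Matrix (Fin k) (Fin k) F}, Mᵀ = M → (Matrix.toBilin' M).IsSymm :=
    fun hM => ⟨fun x y => by
      simp only [Matrix.toBilin'_apply']
      rw [Matrix.dotProduct_mulVec, ← Matrix.mulVec_transpose, hM, dotProduct_comm]⟩
  have hmat : ∀ M : Matrix (Fin k) (Fin k) F,
      LinearMap.BilinForm.toMatrix (Pi.basisFun F (Fin k)) (Matrix.toBilin' M) = M := fun M => by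
    ext i j
    rw [LinearMap.BilinForm.toMatrix_apply, Pi.basisFun_apply, Pi.basisFun_apply,
      Matrix.toBilin'_single]
  have hnd : ∀ {M : Matrix (Fin k) (Fin k) F}, IsUnit M → (Matrix.toBilin' M).Nondegenerate :=
    fun {M} hM => (LinearMap.BilinForm.nondegenerate_iff_det_ne_zero (Pi.basisFun F (Fin k))).2 (by
      rw [hmat]; exact ((Matrix.isUnit_iff_isUnit_det M).1 hM).ne_zero)
  obtain ⟨E, hE⟩ := Forms25.equiv_of_det h2 (hsymm hs) (hsymm hs') (hnd hJ) (hnd hJ')
    (Pi.basisFun F (Fin k)) (Pi.basisFun F (Fin k)) rfl (by rw [hmat, hmat]; exact hsq)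
  refine ⟨glOfEquiv E, formOf_injective (σ := RingEquiv.refl F) fun u v => ?_⟩
  rw [← formOf_mulVec, glOfEquiv_mulVec, glOfEquiv_mulVec]
  have h := hE u v
  simp only [Matrix.toBilin'_apply'] at h
  exact h

variable [Fintype F]

/-- Class 5 from a rational structure of the bilinear form. -/
lemma orth_odd_class_of_rational (h2 : (2 : F) ≠ 0) {H : Subgroup (GL (OddIx m) F)}
    (hH : H ≤ Cfsg.isometryGroup F (Cfsg.quadFormOdd m F)) {F₁ : Subfield F} {r : ℕ}
    (hr : r.Prime) (hcard : Fintype.card F = Nat.card F₁ ^ r) {P : GL (OddIx m) F} {b : F}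
    {G : Matrix (OddIx m) (OddIx m) F} (hb : b ≠ 0) (hG0 : IsUnit G)
    (hG : adjForm (RingEquiv.refl F) (oddGram m F) (P : Matrix _ _ F) = b • G)
    (hent : ∀ i j, G i j ∈ F₁) (hle : H ≤ subfieldSubgroup F₁ P) :
    ∃ M, InOrthogonalOddClass m F M ∧ H ≤ M := by
  set δ := (oddGram m F).det with hδdef
  set p := (P : Matrix (OddIx m) (OddIx m) F).det with hpdef
  have hdG : G.det ≠ 0 := ((Matrix.isUnit_iff_isUnit_det G).1 hG0).ne_zero
  have hp : p ≠ 0 := ((Matrix.isUnit_iff_isUnit_det _).1 P.isUnit).ne_zero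
  have hdet : p * δ * p = b ^ (2 * m + 1) * G.det := by
    have h1 := congrArg Matrix.det hG
    rw [adjForm, show (P : Matrix (OddIx m) (OddIx m) F).map (RingEquiv.refl F) = (P : Matrix _ _ F)
      from rfl, Matrix.det_mul, Matrix.det_mul, Matrix.det_transpose, Matrix.det_smul,
      card_oddIx] at h1
    exact h1
  have hδF : δ ∈ F₁ := by
    rw [hδdef, det_oddGram, show (2 : F) = 1 + 1 by norm_num]
    exact mul_mem (add_mem (one_mem _) (one_mem _)) (pow_mem (neg_mem (one_mem _)) _)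
  have hGF : G.det ∈ F₁ := by
    rw [Matrix.det_apply]
    exact sum_mem fun s _ => zsmul_mem (prod_mem fun i _ => hent _ _) _
  set l := b ^ m / p with hldef
  have hl0 : l ≠ 0 := div_ne_zero (pow_ne_zero _ hb) hp
  set z : GL (OddIx m) F :=
    Units.map (Matrix.scalar (OddIx m) : F →+* Matrix (OddIx m) (OddIx m) F).toMonoidHom
      (Units.mk0 l hl0) with hz
  have hzv : (z : Matrix (OddIx m) (OddIx m) F) = l • 1 := by
    simp [hz, Matrix.smul_one_eq_diagonal]
  have hc : l * l * b = δ / G.det := by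
    rw [hldef]
    field_simp
    linear_combination -hdet
  have hP' : adjForm (RingEquiv.refl F) (oddGram m F) ((z * P : GL (OddIx m) F) : Matrix _ _ F)
      = (δ / G.det) • G := by
    rw [Units.val_mul, hzv, Matrix.smul_mul, one_mul, adjForm_smul_right, hG, smul_smul,
      RingEquiv.refl_apply, hc]
  refine ⟨_, Or.inr <| Or.inr <| Or.inr <| Or.inr <| Or.inr <| Or.inr <| Or.inl
    ⟨F₁, r, z * P, hr, hcard, fun u hu => ?_, rfl⟩, le_inf ?_ hH⟩
  · have h1 := formOf_oddGram_self (((z * P : GL (OddIx m) F) : Matrix (OddIx m) (OddIx m) F) *ᵥ u)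
    rw [formOf_mulVec, hP'] at h1
    rw [← mul_div_cancel_left₀ (Cfsg.quadFormOdd m F _) h2, ← h1, formOf_smul]
    refine div_mem (mul_mem (div_mem hδF hGF) (formOf_mem F₁ hent hu hu)) ?_
    rw [show (2 : F) = 1 + 1 by norm_num]
    exact add_mem (one_mem _) (one_mem _)
  · rwa [subfieldSubgroup_scalar_mul F₁ ⟨_, rfl⟩]

end Cfsg.Agent.GeoClasses
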