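import Cfsg.Agent.GeoClasses.TransvGen

/-!
Decompositions into two summands and their stabilisers.
-/

set_option autoImplicit false

namespace Cfsg.Agent.GeoClasses

open Matrix Cfsg.Geo Module
open scoped MatrixGroups Matrix

variable {ι : Type} [Fintype ι] [DecidableEq ι] {F : Type*} [Field F]

lemma mdecomp_isCompl {k : ℕ} {D : Fin 2 → Submodule F (ι → F)} (hD : IsMDecomposition k D) :
    IsCompl (D 0) (D 1) := by
  refine ⟨hD.indep.pairwiseDisjoint (by decide), ?_⟩
  rw [codisjoint_iff_le_sup, ← hD.iSup_eq_top]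
  refine iSup_le fun i => ?_
  fin_cases i
  · exact le_sup_left
  · exact le_sup_right

/-- Membership in the stabiliser of a decomposition into two summands of the same dimension. -/
lemma mem_decompositionStabilizer_two {k : ℕ} {D : Fin 2 → Submodule F (ι → F)}
    (hD : IsMDecomposition k D) {g : GL ι F} (σ : Equiv.Perm (Fin 2))
    (h : ∀ i, ∀ x ∈ D i, (g : Matrix ι ι F) *ᵥ x ∈ D (σ i)) :
    g ∈ decompositionStabilizer D := by
  refine ⟨σ, fun i => Submodule.eq_of_le_of_finrank_eq ?_ ?_⟩
  · rintro _ ⟨x, hx, rfl⟩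
    simpa using h i x hx
  · rw [← (Submodule.equivMapOfInjective _ (fun u v huv => mulVec_injective g (by simpa using huv))
      (D i)).finrank_eq, hD.finrank_eq, hD.finrank_eq]

end Cfsg.Agent.GeoClasses
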