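import Cfsg.Agent.GeoClasses.OrthNondeg
import Cfsg.Agent.GeoClasses.DecompTwo

/-!
The stabiliser of two orthogonal halves that are not isometric is maximal in `Ω(Q)`.
-/

set_option autoImplicit false

namespace Cfsg.Agent.GeoClasses

open QuadraticMap Module Cfsg.Agent.Classical Cfsg.Geo

variable {F : Type*} [Field F] [Finite F] {ι : Type} [Fintype ι] [DecidableEq ι]

theorem omegaGL_nonisometric_halves_maximal {Q : (ι → F) → F}
    (hQ : IsNondegenerateQuadraticForm Q) {k : ℕ} (hk : 5 ≤ k) (hdim : 2 * k = Fintype.card ι)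
    {D : Fin 2 → Submodule F (ι → F)}
    (hD : IsNondegenerateMDecomposition (QuadraticMap.polar Q) k D)
    (hni : ¬ AreIsometricFor Q (D 0) (D 1)) :
    IsMaximalIn (omegaGL Q) (decompositionStabilizer D ⊓ omegaGL Q) := by
  set Qf := toQF hQ with hQf
  have hB : BNondeg Qf := bNondeg_toQF hQ
  have hV : finrank F (ι → F) = Fintype.card ι := finrank_pi F
  have hd0 := hD.decomp.finrank_eq 0
  have hd1 := hD.decomp.finrank_eq 1
  have hperp : OrthGen.perpSub Qf (D 0) = D 1 := by
    refine (Submodule.eq_of_le_of_finrank_eq (fun y hy x hx => ?_) ?_).symm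
    · exact hD.orthogonal 0 1 (by decide) x hx y hy
    · rw [OrthGen.finrank_orthogonal_polar hB, hd0, hd1, hV]; omega
  -- no isometry carries one half to the other
  have hno : ∀ g : OQ Qf, (D 0).map g.1.toLinearMap ≠ D 1 := fun g h => hni
    ⟨(g.1.submoduleMap (D 0)).trans (LinearEquiv.ofEq _ _ h), fun w => g.2 (w : ι → F)⟩
  have hW0 : D 0 ≠ ⊥ := fun h => by rw [h, finrank_bot] at hd0; omega
  have hmax := orth_nondeg_maximal hB hW0
    (fun w hw hw0 => (hD.nondegenerate 0 w hw hw0).2) (by rw [hd0, hV]; omega)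
    (by rw [hd0, hV]; omega) (fun g => by rw [hperp]; exact hno g) (fun h => absurd (hd0 ▸ h) (by omega))
  have := isMaximalIn_map (oqToGL_injective Qf) hmax
  rw [map_oqToGL_stabSub, map_oqToGL_commutator] at this
  have heq : subspaceStabilizer (D 0) ⊓ omegaGL ⇑Qf = decompositionStabilizer D ⊓ omegaGL Q := by
    ext g
    simp only [Subgroup.mem_inf, hQf, coe_toQF]
    constructor
    · rintro ⟨hg, hgΩ⟩
      refine ⟨?_, hgΩ⟩
      obtain ⟨p, hp, rfl⟩ : g ∈ (commutator (OQ Qf)).map (oqToGL Qf) := by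
        rw [map_oqToGL_commutator]; exact hgΩ
      refine mem_decompositionStabilizer_two hD.decomp 1 ?_
      rw [Fin.forall_fin_two]
      refine ⟨fun x hx => (mem_subspaceStabilizer_iff.1 hg x).1 hx, fun x hx => ?_⟩
      show _ ∈ D 1
      rw [← hperp] at hx ⊢
      intro y hy
      obtain ⟨y', rfl⟩ : ∃ y', y = p.1 y' := ⟨p.1.symm y, (LinearEquiv.apply_symm_apply _ _).symm⟩
      show polar Qf (p.1 y') _ = 0
      rw [oqToGL_mulVec, OQ_polar]
      refine hx y' ((mem_subspaceStabilizer_iff.1 hg y').2 ?_)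
      rwa [oqToGL_mulVec]
    · rintro ⟨⟨σ, hσ⟩, hgΩ⟩
      obtain ⟨p, hp, rfl⟩ : g ∈ (commutator (OQ Qf)).map (oqToGL Qf) := by
        rw [map_oqToGL_commutator]; exact hgΩ
      refine ⟨?_, hgΩ⟩
      have hmap : (D 0).map p.1.toLinearMap = D (σ 0) := by
        rw [← hσ 0]
        congr 1
        refine LinearMap.ext fun x => ?_
        exact (((Matrix.toLin'_apply _ x).trans (oqToGL_mulVec Qf p x))).symm
      have hs : σ 0 = 0 := by
        generalize hs : σ 0 = j at hmap
        fin_cases j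
        · rfl
        · exact absurd hmap (hno p)
      rw [hs] at hmap
      exact mem_subspaceStabilizer_of_le fun x hx => by
        rw [oqToGL_mulVec]; exact hmap.le ⟨x, hx, rfl⟩
  rwa [heq, coe_toQF] at this

end Cfsg.Agent.GeoClasses
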