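import Cfsg.Agent.GeoClasses.OrthNondeg
import Cfsg.Agent.Forms25.Disc

/-!
The non-degenerate case of class one for orthogonal groups, in matrix form.
-/

set_option autoImplicit false

namespace Cfsg.Agent.GeoClasses

open QuadraticMap Module Cfsg.Agent.Classical

universe u v

variable {F : Type u} [Field F] [Finite F] {V : Type v} [AddCommGroup V] [Module F V]
  [FiniteDimensional F V] {Q : QuadraticForm F V}

omit [Finite F] [FiniteDimensional F V] in
/-- The restriction of the polar form. -/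
lemma exists_polar_restrict (Q : QuadraticForm F V) (W : Submodule F V) :
    ∃ B : LinearMap.BilinForm F W, ∀ a b : W, B a b = polar Q (a : V) (b : V) :=
  ⟨(polarBilin Q).compl₁₂ W.subtype W.subtype, fun a b => rfl⟩

/-- An even-dimensional space isometric to its orthogonal gives a totally singular half. -/
lemma exists_half_of_swap (hB : BNondeg Q) {W : Submodule F V}
    (hW : ∀ w ∈ W, w ≠ 0 → ∃ x ∈ W, polar Q w x ≠ 0) (hev : Even (finrank F W))
    (hn : 2 * finrank F W = finrank F V) {g : OQ Q}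
    (hg : W.map g.1.toLinearMap = OrthGen.perpSub Q W) :
    ∃ S : Submodule F V, (∀ s ∈ S, Q s = 0) ∧ 2 * finrank F S = finrank F V := by
  haveI : Finite V := Module.finite_of_finite F
  obtain ⟨ψ, hψ⟩ : ∃ ψ : W ≃ₗ[F] W, ∀ w : W, Q (ψ w : V) = - Q (w : V) := by
    by_cases h2 : (2 : F) = 0
    · exact ⟨LinearEquiv.refl F W, fun w => by
        have h1 : (1 : F) + 1 = 0 := by rw [one_add_one_eq_two, h2]
        simp only [LinearEquiv.refl_apply]
        linear_combination (Q (w : V)) * h1⟩
    obtain ⟨B, hBa⟩ := exists_polar_restrict Q W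
    have hS : B.IsSymm := ⟨fun a b => by rw [hBa, hBa, polar_comm]⟩
    have hS' : (-B).IsSymm := ⟨fun a b => by
      simp only [LinearMap.neg_apply, hBa, polar_comm Q (a : V) (b : V)]⟩
    have hnd : B.Nondegenerate := by
      refine ⟨fun a ha => ?_, fun a ha => ?_⟩ <;> (
        by_contra ha0
        obtain ⟨x, hx, h⟩ := hW a a.2 (fun h => ha0 (Subtype.ext h)))
      · exact h (by rw [← hBa a ⟨x, hx⟩]; exact ha ⟨x, hx⟩)
      · exact h (by rw [polar_comm, ← hBa ⟨x, hx⟩ a]; exact ha ⟨x, hx⟩)
    have hnd' : (-B).Nondegenerate := by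
      refine ⟨fun a ha => hnd.1 a fun x => ?_, fun a ha => hnd.2 a fun x => ?_⟩
      · simpa using ha x
      · simpa using ha x
    obtain ⟨E, hE⟩ := Forms25.equiv_of_det h2 hS hS' hnd hnd'
      (Module.finBasis F W) (Module.finBasis F W) rfl (by
        have hneg : LinearMap.BilinForm.toMatrix (Module.finBasis F W) (-B) =
            -LinearMap.BilinForm.toMatrix (Module.finBasis F W) B := by
          ext i j
          simp [LinearMap.BilinForm.toMatrix_apply]
        rw [hneg, Matrix.det_neg, Fintype.card_fin, hev.neg_one_pow, one_mul]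
        exact ⟨_, rfl⟩)
    refine ⟨E, fun w => ?_⟩
    have h := hE w w
    rw [LinearMap.neg_apply, LinearMap.neg_apply, hBa, hBa, polar_self, polar_self] at h
    have h' : (2 : F) * (Q (E w : V) + Q (w : V)) = 0 := by
      simp only [nsmul_eq_mul, Nat.cast_ofNat] at h
      linear_combination -h
    linear_combination (mul_eq_zero.1 h').resolve_left h2
  let φ : W →ₗ[F] V := W.subtype + g.1.toLinearMap ∘ₗ W.subtype ∘ₗ ψ.toLinearMap
  have hperp : ∀ w : W, g.1 (ψ w : V) ∈ OrthGen.perpSub Q W := fun w =>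
    hg ▸ ⟨_, (ψ w).2, rfl⟩
  have hdisj : ∀ z, z ∈ W → z ∈ OrthGen.perpSub Q W → z = 0 := fun z hz hzU => by
    by_contra h
    obtain ⟨x, hx, hzx⟩ := hW z hz h
    exact hzx (by rw [polar_comm]; exact hzU x hx)
  have hφ : Function.Injective φ := by
    rw [← LinearMap.ker_eq_bot, LinearMap.ker_eq_bot']
    intro w hw
    have hw' : (w : V) = -g.1 (ψ w : V) := eq_neg_of_add_eq_zero_left hw
    apply Subtype.ext
    exact hdisj _ w.2 (hw' ▸ (OrthGen.perpSub Q W).neg_mem (hperp w))
  refine ⟨LinearMap.range φ, ?_, ?_⟩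
  · rintro _ ⟨w, rfl⟩
    show Q ((w : V) + g.1 (ψ w : V)) = 0
    have e : polar Q (w : V) (g.1 (ψ w : V)) = 0 := hperp w _ w.2
    rw [qf_add, OQ_map_app, hψ, e]
    ring
  · rw [LinearMap.finrank_range_of_inj hφ, hn]

/-- Stabilisers of non-degenerate subspaces are maximal in `Ω`. -/
theorem orth_nondeg_maximal_all (hB : BNondeg Q) (hn : 10 ≤ finrank F V) {W : Submodule F V}
    (hW0 : W ≠ ⊥) (hW1 : W ≠ ⊤) (hW : ∀ w ∈ W, w ≠ 0 → ∃ x ∈ W, polar Q w x ≠ 0)
    (hne : 2 * finrank F W ≠ finrank F V ∨ (Even (finrank F W) ∧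
      ¬ ∃ S : Submodule F V, (∀ s ∈ S, Q s = 0) ∧ 2 * finrank F S = finrank F V))
    (hex : ∀ U : Submodule F V, (U = W ∨ U = OrthGen.perpSub Q W) → finrank F U = 2 →
      (∀ w ∈ U, w ≠ 0 → ∃ x ∈ U, polar Q w x ≠ 0) →
      (∃ v ∈ U, v ≠ 0 ∧ Q v = 0) → ∃ c : F, c ≠ 0 ∧ c ^ 2 ≠ 1) :
    Cfsg.Geo.IsMaximalIn (commutator (OQ Q)) (Forms.stabSub Q W ⊓ commutator (OQ Q)) := by
  have hnd : (polarBilin Q).Nondegenerate :=
    ⟨fun a ha => hB a ha, fun a ha => hB a fun y => (polar_comm Q a y).trans (ha y)⟩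
  have hrefl : LinearMap.BilinForm.IsRefl (polarBilin Q) := fun a b h => by
    simpa [polar_comm Q b a] using h
  set U := OrthGen.perpSub Q W with hUdef
  have hdimU : finrank F U = finrank F V - finrank F W := OrthGen.finrank_orthogonal_polar hB W
  have hUU : OrthGen.perpSub Q U = W := LinearMap.BilinForm.orthogonal_orthogonal hnd hrefl W
  rcases le_or_gt (2 * finrank F W) (finrank F V) with hk | hk
  · refine orth_nondeg_maximal hB hW0 hW (by omega) hk (fun g hg => ?_)
      (fun h1 h2 => hex W (Or.inl rfl) h1 hW h2)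
    rcases hne with h | ⟨hev, h⟩
    · have := congrArg (fun S : Submodule F V => finrank F S) hg
      simp only [LinearEquiv.finrank_map_eq] at this
      have h' := OrthGen.finrank_orthogonal_polar hB W
      omega
    · have hdim : 2 * finrank F W = finrank F V := by
        have := congrArg (fun S : Submodule F V => finrank F S) hg
        simp only [LinearEquiv.finrank_map_eq] at this
        have h' := OrthGen.finrank_orthogonal_polar hB W
        omega
      exact h (exists_half_of_swap hB hW hev hdim hg)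
  · have hdisj : ∀ z, z ∈ W → z ∈ U → z = 0 := fun z hz hzU => by
      by_contra h
      obtain ⟨x, hx, hzx⟩ := hW z hz h
      exact hzx (by rw [polar_comm]; exact hzU x hx)
    have hUnd : ∀ w ∈ U, w ≠ 0 → ∃ x ∈ U, polar Q w x ≠ 0 := by
      intro w hw hw0
      by_contra hcon
      push Not at hcon
      have hwW : w ∈ OrthGen.perpSub Q U := fun x hx =>
        (polar_comm Q x w).trans (hcon x hx)
      exact hw0 (hdisj w (hUU ▸ hwW) hw)
    have hU0 : U ≠ ⊥ := fun h => by
      have hlt : finrank F W < finrank F V := Submodule.finrank_lt hW1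
      rw [h, finrank_bot] at hdimU
      omega
    have key : Forms.stabSub Q U = Forms.stabSub Q W := by
      have one : ∀ (A : Submodule F V) (g : OQ Q), g ∈ Forms.stabSub Q A →
          g ∈ Forms.stabSub Q (OrthGen.perpSub Q A) := by
        intro A g hg
        refine Forms.mem_stabSub_of_le fun z hz a ha => ?_
        obtain ⟨a', ha', rfl⟩ : a ∈ A.map g.1.toLinearMap :=
          (show A.map g.1.toLinearMap = A from hg).symm ▸ ha
        show polar Q (g.1 a') (g.1 z) = 0
        rw [OQ_polar]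
        exact hz a' ha'
      ext g
      exact ⟨fun h => hUU ▸ one U g h, one W g⟩
    rw [← key]
    refine orth_nondeg_maximal hB hU0 hUnd (by omega) (by omega) (fun g hg => ?_)
      (fun h1 h2 => hex U (Or.inr rfl) h1 hUnd h2)
    have := congrArg (fun S : Submodule F V => finrank F S) hg
    simp only [LinearEquiv.finrank_map_eq, OrthGen.finrank_orthogonal_polar hB U, hdimU] at this
    omega

section Matrices

open Cfsg.Geo

variable {K : Type u} [Field K] [Fintype K] {ι : Type} [Fintype ι] [DecidableEq ι]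

omit [DecidableEq ι] in
/-- A field with at least four elements has an element of square neither zero nor one. -/
lemma exists_sq_ne_one (h : ¬ Fintype.card K ≤ 3) : ∃ c : K, c ≠ 0 ∧ c ^ 2 ≠ 1 := by
  classical
  by_contra hcon
  push Not at hcon
  refine h ((Finset.card_le_card (s := Finset.univ) (t := {0, 1, -1}) fun c _ => ?_).trans
    Finset.card_le_three)
  rcases eq_or_ne c 0 with rfl | hc
  · simp
  · rcases sq_eq_one_iff.1 (hcon c hc) with rfl | rfl <;> simp

/-- Matrix form of `orth_nondeg_maximal_all`. -/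
theorem omegaGL_nondeg_maximal {Q : (ι → K) → K} (hQ : IsNondegenerateQuadraticForm Q)
    (hn : 10 ≤ Fintype.card ι) {W : Submodule K (ι → K)} (hW0 : W ≠ ⊥) (hW1 : W ≠ ⊤)
    (hW : IsNondegenerateOn (QuadraticMap.polar Q) W)
    (hne : 2 * finrank K W ≠ Fintype.card ι ∨ (Even (finrank K W) ∧ ¬ IsPlusTypeOn Q ⊤))
    (hex : ¬ (Fintype.card K ≤ 3 ∧ ∃ U : Submodule K (ι → K), finrank K U = 2 ∧
      IsNondegenerateOn (QuadraticMap.polar Q) U ∧ IsPlusTypeOn Q U ∧
      (U = W ∨ (AreOrthogonalFor (QuadraticMap.polar Q) U W ∧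
        finrank K U + finrank K W = Fintype.card ι)))) :
    IsMaximalIn (omegaGL Q) (subspaceStabilizer W ⊓ omegaGL Q) := by
  have hfr : finrank K (ι → K) = Fintype.card ι := finrank_pi K
  have hB := bNondeg_toQF hQ
  have hmax := orth_nondeg_maximal_all (Q := toQF hQ) hB (by omega) hW0 hW1
    (fun w hw hw0 => (hW w hw hw0).2)
    (hne.imp (fun h => by rwa [hfr]) (And.imp_right fun h hS => h <| by
      obtain ⟨S, hS, hd⟩ := hS
      exact ⟨S, le_top, hS, by rw [finrank_top]; exact hd⟩)) ?_
  · have := isMaximalIn_map (oqToGL_injective (toQF hQ)) hmax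
    rwa [map_oqToGL_stabSub, map_oqToGL_commutator, coe_toQF] at this
  intro U hU hU2 hUnd hsing
  refine exists_sq_ne_one fun hq => hex ⟨hq, U, hU2, fun w hw hw0 => ?_, ?_, ?_⟩
  · obtain ⟨x, hx, h⟩ := hUnd w hw hw0
    exact ⟨⟨x, hx, by rw [polar_comm]; exact h⟩, x, hx, h⟩
  · obtain ⟨v, hv, hv0, hvQ⟩ := hsing
    refine ⟨K ∙ v, (Submodule.span_singleton_le_iff_mem _ _).2 hv, fun w hw => ?_, ?_⟩
    · obtain ⟨c, rfl⟩ := Submodule.mem_span_singleton.1 hw
      rw [hQ.smul, show Q v = 0 from hvQ, mul_zero]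
    · rw [hU2, finrank_span_singleton hv0]
  · refine hU.imp_right fun h => ⟨fun u hu w hw => ?_, ?_⟩
    · rw [h] at hu
      rw [polar_comm]
      exact hu w hw
    · rw [h, OrthGen.finrank_orthogonal_polar hB]
      have := W.finrank_le
      omega

end Matrices

end Cfsg.Agent.GeoClasses
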