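import Cfsg.Agent.GeoClasses.OrthNondegApp
import Cfsg.Agent.Classical.OrthForms

/-!
Stabilisers of non-degenerate subspaces in odd characteristic: the orthogonal only needs dimension
four.
-/

set_option autoImplicit false

namespace Cfsg.Agent.GeoClasses.OddNondeg

open QuadraticMap Module Cfsg.Agent.Classical Cfsg.Agent.GeoClasses

universe u v

variable {F : Type u} [Field F] {V : Type v} [AddCommGroup V] [Module F V]
  {Q : QuadraticForm F V}

/-- A singular vector of a non-degenerate space lies in a hyperbolic pair. -/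
lemma exists_pair (hB : BNondeg Q) {u : V} (hu0 : u ≠ 0) (hu : Q u = 0) :
    ∃ f, IsPair Q u f := by
  obtain ⟨y, hy⟩ := not_forall.1 fun h => hu0 (hB u h)
  obtain ⟨z, huz⟩ : ∃ z, polar Q u z = 1 :=
    ⟨(polar Q u y)⁻¹ • y, by rw [polar_smul_right, smul_eq_mul, inv_mul_cancel₀ hy]⟩
  refine ⟨z - Q z • u, hu, ?_, ?_⟩
  · rw [qf_sub, QuadraticMap.map_smul, hu, polar_smul_right, polar_comm Q z u, huz]; simp
  · rw [polar_sub_right, polar_smul_right, huz, polar_self, hu]; simp

/-- A singular vector not orthogonal to either of two orthogonal singular vectors. -/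
lemma exists_singular_not_orth_pair (hB : BNondeg Q) {e z : V} (he0 : e ≠ 0) (hz0 : z ≠ 0)
    (hz : Q z = 0) (hze : polar Q z e = 0) :
    ∃ y, Q y = 0 ∧ polar Q e y ≠ 0 ∧ polar Q z y ≠ 0 := by
  obtain ⟨f, -, hf, hzf⟩ := exists_pair hB hz0 hz
  by_cases hef : polar Q e f = 0
  · obtain ⟨g, hg, -, hge⟩ := exists_singular_polar_ne (x := e) ⟨hz, hf, hzf⟩
      fun h => he0 (hB e h)
    by_cases hgz : polar Q z g = 0
    · refine ⟨g + f + (-polar Q g f) • z, ?_, ?_, ?_⟩
      · rw [qf_add, qf_add, QuadraticMap.map_smul, hg, hf, hz, polar_smul_right, polar_add_left,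
          polar_comm Q g z, polar_comm Q f z, hgz, hzf]
        simp
      · rw [polar_add_right, polar_add_right, polar_smul_right, polar_comm Q e g, hef,
          polar_comm Q e z, hze]
        simpa using hge
      · rw [polar_add_right, polar_add_right, polar_smul_right, hgz, hzf, polar_self, hz]
        simp
    · exact ⟨g, hg, by rwa [polar_comm], hgz⟩
  · exact ⟨f, hf, hef, by rw [hzf]; exact one_ne_zero⟩

variable [Finite F] [FiniteDimensional F V]

omit [Finite F] in
/-- Orthogonality to a subspace costs at most its dimension. -/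
lemma finrank_inf_perp (hB : BNondeg Q) (X Y : Submodule F V) :
    finrank F X ≤ finrank F ↥(X ⊓ OrthGen.perpSub Q Y) + finrank F Y := by
  have h1 := OrthGen.finrank_orthogonal_polar hB Y
  have h2 := Submodule.finrank_sup_add_finrank_inf_eq X (OrthGen.perpSub Q Y)
  have h3 := Submodule.finrank_le (X ⊔ OrthGen.perpSub Q Y)
  have h4 := Submodule.finrank_le Y
  omega

/-- A subspace of dimension two on which the form is non-degenerate represents every value. -/
lemma exists_perp_value (h2 : (2 : F) ≠ 0) (hB : BNondeg Q) (hn : 4 ≤ finrank F V) {e f : V}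
    (h : IsPair Q e f) {c : F} (hc : c ≠ 0) :
    ∃ y, y ≠ 0 ∧ polar Q e y = 0 ∧ polar Q f y = 0 ∧ Q y = c := by
  obtain ⟨he, hf, hef⟩ := h
  have hee : polar Q e e = 0 := by rw [polar_self, he, smul_zero]
  have hff : polar Q f f = 0 := by rw [polar_self, hf, smul_zero]
  have key : ∀ T : Submodule F V, (∀ x ∈ T, x ≠ 0 → ∃ y ∈ T, polar Q x y ≠ 0) → T ≠ ⊥ →
      ∃ x ∈ T, Q x ≠ 0 := by
    intro T hT hT0
    obtain ⟨x, hx, hx0⟩ := T.exists_mem_ne_zero_of_ne_bot hT0
    obtain ⟨y, hy, hxy⟩ := hT x hx hx0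
    by_contra hcon
    push Not at hcon
    exact hxy (Forms.polar_eq_zero_of_totallySingular hcon hx hy)
  set S := OrthGen.perpSub Q (Submodule.span F {e, f}) with hS
  have hmem : ∀ y, y ∈ S ↔ polar Q e y = 0 ∧ polar Q f y = 0 := by
    intro y
    refine ⟨fun h => ⟨h e (Submodule.subset_span (by simp)),
      h f (Submodule.subset_span (by simp))⟩, fun h x hx => ?_⟩
    obtain ⟨s, t, rfl⟩ := Submodule.mem_span_pair.1 hx
    show polar Q (s • e + t • f) y = 0
    rw [polar_add_left, polar_smul_left, polar_smul_left, h.1, h.2]; simp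
  have hSn : ∀ x ∈ S, x ≠ 0 → ∃ y ∈ S, polar Q x y ≠ 0 := by
    intro x hx hx0
    obtain ⟨y, hy⟩ := not_forall.1 fun h => hx0 (hB x h)
    obtain ⟨h1, h2⟩ := (hmem x).1 hx
    refine ⟨y - polar Q f y • e - polar Q e y • f, (hmem _).2 ⟨?_, ?_⟩, ?_⟩
    · simp only [polar_sub_right, polar_smul_right, hee, hef, smul_eq_mul]; ring
    · simp only [polar_sub_right, polar_smul_right, hff, polar_comm Q f e, hef, smul_eq_mul]; ring
    · simpa [polar_sub_right, polar_smul_right, polar_comm Q x e, polar_comm Q x f, h1, h2] using hy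
  have hSd : 2 ≤ finrank F S := by
    rw [hS, OrthGen.finrank_orthogonal_polar hB]
    have : finrank F (Submodule.span F (Set.range ![e, f])) ≤ 2 :=
      (finrank_range_le_card (R := F) ![e, f]).trans_eq (Fintype.card_fin 2)
    rw [Matrix.range_cons_cons_empty] at this
    omega
  obtain ⟨y₁, hy₁, hQ₁⟩ := key S hSn fun h => by rw [h, finrank_bot] at hSd; omega
  have hy₁y : polar Q y₁ y₁ = 2 * Q y₁ := by rw [polar_self, two_smul, two_mul]
  set T := S ⊓ OrthGen.perpSub Q (F ∙ y₁) with hT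
  have hTn : ∀ x ∈ T, x ≠ 0 → ∃ y ∈ T, polar Q x y ≠ 0 := by
    intro x hx hx0
    obtain ⟨y, hy, hxy⟩ := hSn x hx.1 hx0
    have hxy₁ : polar Q y₁ x = 0 := hx.2 y₁ (Submodule.mem_span_singleton_self _)
    refine ⟨y - (polar Q y₁ y / (2 * Q y₁)) • y₁,
      ⟨S.sub_mem hy (S.smul_mem _ hy₁), fun a ha => ?_⟩, ?_⟩
    · obtain ⟨s, rfl⟩ := Submodule.mem_span_singleton.1 ha
      show polar Q (s • y₁) _ = 0
      rw [polar_smul_left, polar_sub_right, polar_smul_right, hy₁y, smul_eq_mul, smul_eq_mul,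
        div_mul_cancel₀ _ (mul_ne_zero h2 hQ₁), sub_self, mul_zero]
    · rw [polar_sub_right, polar_smul_right, polar_comm Q x y₁, hxy₁, smul_zero, sub_zero]
      exact hxy
  obtain ⟨y₂, hy₂, hQ₂⟩ := key T hTn fun h => by
    have := finrank_inf_perp hB S (F ∙ y₁)
    rw [← hT, h, finrank_bot, finrank_span_singleton (fun h0 => hQ₁ (by simp [h0]))] at this
    omega
  obtain ⟨a, b, hab⟩ := Forms.exists_mul_sq_add_mul_sq_eq hQ₁ hQ₂ c
  have hyS : a • y₁ + b • y₂ ∈ S := S.add_mem (S.smul_mem _ hy₁) (S.smul_mem _ hy₂.1)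
  have hQy : Q (a • y₁ + b • y₂) = c := by
    rw [qf_add, QuadraticMap.map_smul, QuadraticMap.map_smul, polar_smul_left, polar_smul_right,
      show polar Q y₁ y₂ = 0 from hy₂.2 y₁ (Submodule.mem_span_singleton_self _)]
    simp only [smul_eq_mul]
    linear_combination hab
  exact ⟨_, fun h0 => hc (by rw [← hQy, h0, QuadraticMap.map_zero]), ((hmem _).1 hyS).1,
    ((hmem _).1 hyS).2, hQy⟩

/-- A root element moving `W` yields an element moving `W` which fixes a singular vector of the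
orthogonal. -/
lemma exists_moved_of_root (h2 : (2 : F) ≠ 0) (hB : BNondeg Q) (hn : 5 ≤ finrank F V)
    {W : Submodule F V} (hW : ∀ w ∈ W, w ≠ 0 → ∃ x ∈ W, polar Q w x ≠ 0)
    (hU4 : 4 ≤ finrank F (OrthGen.perpSub Q W)) {M : Subgroup (OQ Q)}
    (hM : Forms.stabSub Q W ⊓ commutator (OQ Q) ≤ M) {p b : V} (hp : Q p = 0)
    (hpb : polar Q p b = 0) (hr : siegel Q hp hpb ∈ M)
    (hrW : siegel Q hp hpb ∉ Forms.stabSub Q W) :
    ∃ g ∈ M, g ∉ Forms.stabSub Q W ∧
      ∃ e ∈ OrthGen.perpSub Q W, e ≠ 0 ∧ Q e = 0 ∧ g.1 e = e := by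
  have hC := commutator_eq_EQ hB hn
  set U := OrthGen.perpSub Q W with hU
  have hWU : ∀ {w u}, w ∈ W → u ∈ U → polar Q w u = 0 := fun hw hu => hu _ hw
  have hUW : ∀ {w u}, w ∈ W → u ∈ U → polar Q u w = 0 := fun hw hu => by
    rw [polar_comm]; exact hu _ hw
  have hdisj : ∀ z, z ∈ W → z ∈ U → z = 0 := fun z hz hzU => by
    by_contra h
    obtain ⟨x, hx, hzx⟩ := hW z hz h
    exact hzx (by rw [polar_comm]; exact hzU x hx)
  have hcompl : W ⊔ U = ⊤ := by
    refine Submodule.eq_top_of_finrank_eq ?_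
    have h := Submodule.finrank_sup_add_finrank_inf_eq W U
    rw [show W ⊓ U = ⊥ from eq_bot_iff.2 fun z hz => hdisj z hz.1 hz.2, finrank_bot,
      OrthGen.finrank_orthogonal_polar hB] at h
    have := Submodule.finrank_le W
    omega
  obtain ⟨a, ha, u, hu, hau⟩ := Submodule.mem_sup.1 (hcompl ▸ Submodule.mem_top : p ∈ W ⊔ U)
  obtain ⟨a₂, ha₂, u₂, hu₂, hau₂⟩ :=
    Submodule.mem_sup.1 (hcompl ▸ Submodule.mem_top : b ∈ W ⊔ U)
  obtain ⟨e, he', he0, hQe, hcase⟩ : ∃ e ∈ U, e ≠ 0 ∧ Q e = 0 ∧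
      (polar Q u e = 0 ∧ (Q u = 0 → u ∈ F ∙ e)) := by
    by_cases hcase : Q u = 0 ∧ u ≠ 0
    · exact ⟨u, hu, hcase.2, hcase.1, by rw [polar_self, hcase.1, smul_zero],
        fun _ => Submodule.mem_span_singleton_self u⟩
    · obtain ⟨e, he, he0, hQe⟩ := Forms.exists_singular_vector_of_three_le Q
        (S := U ⊓ OrthGen.perpSub Q (F ∙ u)) (by
          have := finrank_inf_perp hB U (F ∙ u)
          have h1 := finrank_range_le_card (R := F) ![u]
          rw [Matrix.range_cons, Matrix.range_empty, Set.union_empty, Set.finrank,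
            Fintype.card_fin] at h1
          omega)
      refine ⟨e, he.1, he0, hQe, he.2 u (Submodule.mem_span_singleton_self u), fun hQu => ?_⟩
      rw [show u = 0 from by_contra fun h => hcase ⟨hQu, h⟩]
      exact zero_mem _
  obtain ⟨hue, hspan⟩ := hcase
  have hpe : polar Q p e = 0 := by rw [← hau, polar_add_left, hWU ha he', hue, add_zero]
  by_cases hk : polar Q u₂ e = 0
  · exact ⟨_, hr, hrW, e, he', he0, hQe, siegel_fix Q hp hpb hpe
      (by rw [← hau₂, polar_add_left, hWU ha₂ he', hk, add_zero])⟩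
  obtain ⟨c, hc, hce⟩ : ∃ c ∈ U ⊓ OrthGen.perpSub Q (Submodule.span F {u, e}), c ∉ F ∙ e := by
    by_contra hcon
    push Not at hcon
    have h1 := Submodule.finrank_mono (show _ ≤ F ∙ e from hcon)
    rw [finrank_span_singleton he0] at h1
    have h3 := finrank_inf_perp hB U (Submodule.span F {u, e})
    have h4 : finrank F (Submodule.span F (Set.range ![u, e])) ≤ 2 :=
      (finrank_range_le_card (R := F) ![u, e]).trans_eq (Fintype.card_fin 2)
    rw [Matrix.range_cons_cons_empty] at h4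
    omega
  have hcu : polar Q u c = 0 := hc.2 u (Submodule.subset_span (by simp))
  have hec : polar Q e c = 0 := hc.2 e (Submodule.subset_span (by simp))
  set T := siegel Q hQe hec with hT
  set x := T.1 u₂ - u₂ with hx
  have hxU : x ∈ U := by
    rw [hx, hT, siegel_apply]
    exact U.sub_mem (U.sub_mem (U.sub_mem (U.add_mem hu₂ (U.smul_mem _ hc.1))
      (U.smul_mem _ he')) (U.smul_mem _ he')) hu₂
  have hTp : T.1 p = p := siegel_fix Q hQe hec (by rw [polar_comm]; exact hpe)
    (by rw [← hau, polar_add_right, hUW ha hc.1, polar_comm, hcu, add_zero])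
  have hTa₂ : T.1 a₂ = a₂ := siegel_fix Q hQe hec (hUW ha₂ he') (hUW ha₂ hc.1)
  have hTM : T ∈ M := hM ⟨Forms.mem_stabSub_of_le fun w hw => by
    rw [hT, siegel_fix Q hQe hec (hUW hw he') (hUW hw hc.1)]; exact hw,
    hC ▸ siegel_mem_EQ Q hQe hec⟩
  have hxb : x = T.1 b + -b := by rw [hx, ← hau₂, map_add, hTa₂]; abel
  have hpx : polar Q p x = 0 := by
    rw [hxb, polar_add_right, polar_neg_right, hpb]
    conv_lhs => arg 1; rw [← hTp]
    rw [OQ_polar, hpb, neg_zero, add_zero]
  have hrM : siegel Q hp hpx ∈ M := by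
    have := mul_mem (mul_mem (mul_mem hTM hr) (inv_mem hTM)) (inv_mem hr)
    rw [siegel_conj, siegel_congr Q _ _ hp
      (show polar Q p (T.1 b) = 0 by
        conv_lhs => rw [← hTp]
        rw [OQ_polar, hpb]) hTp rfl, siegel_inv, siegel_mul] at this
    convert this using 1
    exact siegel_congr Q _ _ _ _ rfl hxb
  have hee : polar Q e e = 0 := by rw [polar_self, hQe, smul_zero]
  have hxe : polar Q x e = 0 := by
    rw [hx, polar_sub_left, hT, siegel_apply]
    simp [polar_sub_left, polar_add_left, polar_smul_left, hee, polar_comm Q c e, hec]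
  refine ⟨_, hrM, fun hst => ?_, e, he', he0, hQe, siegel_fix Q hp hpx hpe hxe⟩
  have ha0 : a ≠ 0 := by
    intro ha0
    rw [ha0, zero_add] at hau
    have hu0 : u ≠ 0 := fun h0 => hrW (Forms.mem_stabSub_of_le fun w hw => by
      rw [siegel_apply, ← hau, h0]
      simpa using hw)
    obtain ⟨l, hl⟩ := Submodule.mem_span_singleton.1 (hspan (by rw [hau]; exact hp))
    have hl0 : l ≠ 0 := fun h => hu0 (by rw [← hl, h, zero_smul])
    rw [← hau, ← hau₂, polar_add_right, hUW ha₂ hu, zero_add, ← hl, polar_smul_left,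
      polar_comm Q e u₂, smul_eq_mul] at hpb
    exact mul_ne_zero hl0 hk hpb
  obtain ⟨w₀, hw₀, haw₀⟩ := hW a ha ha0
  set w := (polar Q a w₀)⁻¹ • w₀ with hwdef
  have hw : w ∈ W := W.smul_mem _ hw₀
  have haw : polar Q p w = 1 := by
    rw [← hau, polar_add_left, hUW hw hu, add_zero, hwdef, polar_smul_right, smul_eq_mul,
      inv_mul_cancel₀ haw₀]
  have himg : (siegel Q hp hpx).1 w ∈ W :=
    (show W.map (siegel Q hp hpx).1.toLinearMap = W from hst) ▸ Submodule.mem_map_of_mem hw
  rw [siegel_apply, haw, hUW hw hxU] at himg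
  have h0 : x - Q x • u ∈ W := by
    have h' := W.add_mem (W.sub_mem himg hw) (W.smul_mem (Q x) ha)
    convert h' using 1
    rw [← hau]
    module
  have hxz := hdisj _ h0 (U.sub_mem hxU (U.smul_mem _ hu))
  rw [sub_eq_zero] at hxz
  rw [hx, hT, siegel_apply, polar_comm Q e u₂] at hxz
  -- the coefficient of `c`
  have hcspan : c ∈ Submodule.span F {u, e} := by
    set k := polar Q u₂ e with hkdef
    have hkc : k • c ∈ Submodule.span F {u, e} := by
      have he2 : e ∈ Submodule.span F {u, e} := Submodule.subset_span (by simp)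
      have hu2 : u ∈ Submodule.span F {u, e} := Submodule.subset_span (by simp)
      obtain ⟨q, hq⟩ : ∃ q, q = Q (u₂ + k • c - polar Q c u₂ • e - (Q c * k) • e - u₂) := ⟨_, rfl⟩
      rw [← hq] at hxz
      have : k • c = q • u + (polar Q c u₂ • e + (Q c * k) • e) := by
        rw [← hxz]; module
      rw [this]
      exact add_mem (Submodule.smul_mem _ _ hu2)
        (add_mem (Submodule.smul_mem _ _ he2) (Submodule.smul_mem _ _ he2))
    simpa [hk] using Submodule.smul_mem _ k⁻¹ hkc
  obtain ⟨s, t, hst'⟩ := Submodule.mem_span_pair.1 hcspan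
  apply hce
  by_cases hQu : Q u = 0
  · rw [← hst']
    exact add_mem (Submodule.smul_mem _ _ (hspan hQu))
      (Submodule.smul_mem _ _ (Submodule.mem_span_singleton_self e))
  · have hs : s = 0 := by
      have : (2 * s) * Q u = 0 := by
        rw [← hst', polar_add_right, polar_smul_right, polar_smul_right, hue, polar_self,
          two_smul] at hcu
        simp only [smul_eq_mul] at hcu
        linear_combination hcu
      simpa [h2, hQu] using this
    rw [← hst', hs, zero_smul, zero_add]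
    exact Submodule.smul_mem _ _ (Submodule.mem_span_singleton_self e)

/-- Stabilisers of non-degenerate subspaces are maximal in `Ω` in odd characteristic, when the
orthogonal has dimension at least four and no isometry interchanges the two. -/
theorem orth_nondeg_maximal_odd (h2 : (2 : F) ≠ 0) (hB : BNondeg Q) (hn : 5 ≤ finrank F V)
    {W : Submodule F V} (hW0 : W ≠ ⊥)
    (hW : ∀ w ∈ W, w ≠ 0 → ∃ x ∈ W, polar Q w x ≠ 0)
    (hU4 : 4 ≤ finrank F (OrthGen.perpSub Q W))
    (hk2 : 2 * finrank F W ≤ finrank F V)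
    (hswap : ∀ g : OQ Q, W.map g.1.toLinearMap ≠ OrthGen.perpSub Q W)
    (hex : finrank F W = 2 → (∃ v ∈ W, v ≠ 0 ∧ Q v = 0) →
      ∃ c : F, c ≠ 0 ∧ c ^ 2 ≠ 1) :
    Cfsg.Geo.IsMaximalIn (commutator (OQ Q)) (Forms.stabSub Q W ⊓ commutator (OQ Q)) := by
  have hC := commutator_eq_EQ hB hn
  have hp := OrthGen.hasTwoPairs_of_five_le hB hn
  have hnd : (polarBilin Q).Nondegenerate :=
    ⟨fun a ha => hB a ha, fun a ha => hB a fun y => (polar_comm Q a y).trans (ha y)⟩
  have hrefl : LinearMap.BilinForm.IsRefl (polarBilin Q) := fun a b h => by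
    simpa [polar_comm Q b a] using h
  set U := OrthGen.perpSub Q W with hUdef
  have hWU : ∀ {w u}, w ∈ W → u ∈ U → polar Q w u = 0 := fun hw hu => hu _ hw
  have hUW : ∀ {w u}, w ∈ W → u ∈ U → polar Q u w = 0 := fun hw hu => by
    rw [polar_comm]; exact hu _ hw
  have hdimU : finrank F U = finrank F V - finrank F W := OrthGen.finrank_orthogonal_polar hB W
  have hdisj : ∀ z, z ∈ W → z ∈ U → z = 0 := fun z hz hzU => by
    by_contra h
    obtain ⟨x, hx, hzx⟩ := hW z hz h
    exact hzx (by rw [polar_comm]; exact hzU x hx)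
  have hcompl : W ⊔ U = ⊤ := by
    refine Submodule.eq_top_of_finrank_eq ?_
    have h := Submodule.finrank_sup_add_finrank_inf_eq W U
    rw [show W ⊓ U = ⊥ from eq_bot_iff.2 fun z hz => hdisj z hz.1 hz.2, finrank_bot, hdimU] at h
    omega
  have hsplit : ∀ z : V, ∃ x ∈ W, ∃ u ∈ U, x + u = z := fun z =>
    Submodule.mem_sup.1 (hcompl ▸ Submodule.mem_top)
  -- the restricted form on the orthogonal
  set QU : QuadraticForm F U := Q.comp U.subtype with hQU
  have hQUa : ∀ u : U, QU u = Q u := fun u => rfl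
  have hQUp : ∀ u u' : U, polar QU u u' = polar Q (u : V) (u' : V) := fun u u' => rfl
  have hBU : BNondeg QU := fun u hu => by
    apply Subtype.ext
    refine hB _ fun z => ?_
    obtain ⟨x, hx, y, hy, rfl⟩ := hsplit z
    rw [polar_add_right, hUW hx u.2, ← hQUp u ⟨y, hy⟩, hu, add_zero]
  have hnU : 4 ≤ finrank F U := hU4
  have hstab : ∀ {k : OQ Q}, k ∈ Forms.stabSub Q W → ∀ w ∈ W, k.1 w ∈ W := by
    intro k hk w hw
    have : k.1 w ∈ W.map k.1.toLinearMap := ⟨w, hw, rfl⟩
    rwa [show W.map k.1.toLinearMap = W from hk] at this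
  obtain ⟨es, hesU, hes0, hesQ⟩ :=
    Forms.exists_singular_vector_of_three_le Q (S := U) (by omega)
  obtain ⟨e₀, f₀, hq₀⟩ : ∃ e f : U, IsPair QU e f := by
    obtain ⟨f, hf⟩ := exists_pair hBU (u := ⟨es, hesU⟩)
      (fun h => hes0 (congrArg Subtype.val h)) hesQ
    exact ⟨_, f, hf⟩
  refine ⟨lt_of_le_not_ge inf_le_right fun hle => ?_, fun M hM hMK => ?_⟩
  · obtain ⟨x, hx, hx0⟩ := W.exists_mem_ne_zero_of_ne_bot hW0
    obtain ⟨x', hx', hxx⟩ := hW x hx hx0
    have he : Q (e₀ : V) = 0 := hq₀.1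
    have := hstab (hle (hC ▸ siegel_mem_EQ Q he (hUW hx e₀.2))).1 x' hx'
    rw [siegel_apply, hUW hx' e₀.2] at this
    simp only [zero_smul, add_zero, mul_zero, sub_zero] at this
    have h2 := W.smul_mem (polar Q x x')⁻¹ (W.sub_mem hx' this)
    rw [sub_sub_cancel, inv_smul_smul₀ hxx] at h2
    exact hq₀.ne_zero (Subtype.ext (hdisj _ h2 e₀.2))
  by_cases hMW : M ≤ Forms.stabSub Q W
  · exact Or.inl (le_antisymm (le_inf hMW hMK) hM)
  refine Or.inr (le_antisymm hMK ?_)
  have hmemP : ∀ {p : OQ Q}, p ∈ commutator (OQ Q) → (∀ w ∈ W, p.1 w ∈ W) → p ∈ M :=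
    fun hp' h => hM ⟨Forms.mem_stabSub_of_le h, hp'⟩
  have hTU : ∀ {e b : V} (he : Q e = 0) (hb : polar Q e b = 0), e ∈ U → b ∈ U →
      siegel Q he hb ∈ M ∧ ∀ w ∈ W, (siegel Q he hb).1 w = w := by
    intro e b he hb heU hbU
    have hfix : ∀ w ∈ W, (siegel Q he hb).1 w = w := fun w hw =>
      siegel_fix Q he hb (hUW hw heU) (hUW hw hbU)
    exact ⟨hmemP (hC ▸ siegel_mem_EQ Q he hb) fun w hw => by rw [hfix w hw]; exact hw, hfix⟩
  -- a subspace invariant under `Ω(U)` with a component in `U` contains `U`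
  have hirr : ∀ Z : Submodule F V,
      (∀ (e b : V) (he : Q e = 0) (hb : polar Q e b = 0), e ∈ U → b ∈ U →
        ∀ z ∈ Z, (siegel Q he hb).1 z ∈ Z) →
      ∀ x ∈ W, ∀ u ∈ U, u ≠ 0 → x + u ∈ Z → U ≤ Z := by
    intro Z hZ x hx u hu hu0 hxu
    have key : ∀ (e : U), e ≠ 0 → QU e = 0 → ∀ (z : V), z ∈ Z → polar Q (e : V) z ≠ 0 →
        (e : V) ∈ Z := by
      intro e he0 he z hz hez
      obtain ⟨f, hf⟩ := exists_pair hBU he0 he
      obtain ⟨y, hy, hey, -, hQy⟩ := exists_perp_value (Q := QU) h2 hBU hnU hf one_ne_zero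
      replace hQy : Q (y : V) = 1 := hQy
      have he' : Q (e : V) = 0 := he
      have hy' : polar Q (e : V) (y : V) = 0 := hey
      have hee : polar Q (e : V) (e : V) = 0 := by rw [polar_self, he', smul_zero]
      have hyy : polar Q (y : V) (y : V) = 2 := by rw [polar_self, hQy, two_smul, one_add_one_eq_two]
      have hT := hZ _ _ he' hy' e.2 y.2
      have h1 := Z.add_mem (Z.sub_mem (Z.sub_mem (hT _ (hT z hz)) (hT z hz)) (hT z hz)) hz
      have h2' : (-(2 * polar Q (e : V) z)) • (e : V) ∈ Z := by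
        convert h1 using 1
        simp only [siegel_apply, polar_sub_right, polar_add_right, polar_smul_right, hee, hy',
          polar_comm Q (y : V) (e : V), hyy, hQy, smul_eq_mul]
        module
      have h3 := Z.smul_mem (-(2 * polar Q (e : V) z))⁻¹ h2'
      rwa [smul_smul, inv_mul_cancel₀ (neg_ne_zero.2 (mul_ne_zero h2 hez)), one_smul] at h3
    have hyne : ¬ ∀ y : U, polar QU ⟨u, hu⟩ y = 0 := fun h =>
      hu0 (congrArg Subtype.val (hBU ⟨u, hu⟩ h))
    obtain ⟨z₁, hz₁, hz₁0, hz₁u⟩ := exists_singular_polar_ne hq₀ hyne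
    have hz₁Z : (z₁ : V) ∈ Z := key z₁ hz₁0 hz₁ _ hxu (by
      rw [polar_add_right, hUW hx z₁.2, zero_add]; exact hz₁u)
    have hsing : ∀ e : U, QU e = 0 → (e : V) ∈ Z := by
      intro e he
      rcases eq_or_ne e 0 with rfl | he0
      · exact Z.zero_mem
      by_cases hez : polar QU z₁ e = 0
      · obtain ⟨z₂, hz₂, h1, h2'⟩ := exists_singular_not_orth_pair hBU he0 hz₁0 hz₁ hez
        have hz₂0 : z₂ ≠ 0 := fun h => h1 (by simp [h])
        exact key e he0 he _ (key z₂ hz₂0 hz₂ _ hz₁Z (by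
          rw [← hQUp, polar_comm]; exact h2')) h1
      · exact key e he0 he _ hz₁Z (by rw [← hQUp, polar_comm]; exact hez)
    intro w hw
    exact singular_induction hq₀ (P := fun y : U => (y : V) ∈ Z)
      (fun a b ha hb => Z.add_mem ha hb) hsing ⟨w, hw⟩
  -- a root element of `M` moving `W`
  obtain ⟨g, hgM, hgW⟩ := SetLike.not_le_iff_exists.1 hMW
  obtain ⟨p₁, q₁, hp₁, hpq₁, hroot, hrootW⟩ : ∃ (p q : V) (hp : Q p = 0)
      (hpq : polar Q p q = 0), siegel Q hp hpq ∈ M ∧
        siegel Q hp hpq ∉ Forms.stabSub Q W := by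
    by_contra hcon
    push Not at hcon
    have hinv : ∀ (e b : V) (he : Q e = 0) (hb : polar Q e b = 0), e ∈ U → b ∈ U →
        ∀ z ∈ W.map (g⁻¹ : OQ Q).1.toLinearMap,
          (siegel Q he hb).1 z ∈ W.map (g⁻¹ : OQ Q).1.toLinearMap := by
      intro e b he hb heU hbU z hz
      obtain ⟨w, hw, rfl⟩ := hz
      have hge : Q (g.1 e) = 0 := by rw [OQ_map_app, he]
      have hgb : polar Q (g.1 e) (g.1 b) = 0 := by rw [OQ_polar, hb]
      have hc : g * siegel Q he hb * g⁻¹ = siegel Q hge hgb := siegel_conj Q g he hb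
      have hmem : g * siegel Q he hb * g⁻¹ ∈ M :=
        mul_mem (mul_mem hgM (hTU he hb heU hbU).1) (inv_mem hgM)
      have hs : g * siegel Q he hb * g⁻¹ ∈ Forms.stabSub Q W := by
        rw [hc] at hmem ⊢
        exact hcon _ _ hge hgb hmem
      refine ⟨_, hstab hs w hw, ?_⟩
      simp [Subgroup.coe_mul]
    apply hgW
    by_cases hsub : W.map (g⁻¹ : OQ Q).1.toLinearMap ≤ W
    · have : g⁻¹ ∈ Forms.stabSub Q W := Forms.mem_stabSub_of_le fun w hw => hsub ⟨w, hw, rfl⟩
      simpa using inv_mem this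
    obtain ⟨z, hz, hzW⟩ := SetLike.not_le_iff_exists.1 hsub
    obtain ⟨x, hx, u, hu, rfl⟩ := hsplit z
    have hle := hirr _ hinv x hx u hu (fun h => hzW (by simpa [h] using hx)) hz
    have heq := Submodule.eq_of_le_of_finrank_le hle (by
      rw [LinearEquiv.finrank_map_eq, hdimU]; omega)
    exact absurd heq.symm (hswap g⁻¹)
  obtain ⟨g', hg'M, hg'W, e, heU, he0, he, hge⟩ :=
    exists_moved_of_root h2 hB hn hW hU4 hM hp₁ hpq₁ hroot hrootW
  obtain ⟨f, hfp⟩ := exists_pair hBU (u := ⟨e, heU⟩)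
    (fun h => he0 (congrArg Subtype.val h)) he
  obtain ⟨-, hf, hef⟩ := id hfp
  replace hf : Q (f : V) = 0 := hf
  replace hef : polar Q e (f : V) = 1 := hef
  -- the components in `W` available at `e`
  let A : AddSubgroup V :=
    { carrier := {x | x ∈ W ∧ ∀ h : polar Q e x = 0, siegel Q he h ∈ M}
      zero_mem' := ⟨W.zero_mem, fun h => by rw [siegel_zero]; exact one_mem M⟩
      add_mem' := fun {a b} ha hb => ⟨W.add_mem ha.1 hb.1, fun h => by
        have ha' := hUW ha.1 heU
        have hb' := hUW hb.1 heU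
        have := mul_mem (ha.2 ha') (hb.2 hb')
        rwa [siegel_mul] at this⟩
      neg_mem' := fun {a} ha => ⟨W.neg_mem ha.1, fun h => by
        have := inv_mem (ha.2 (hUW ha.1 heU))
        rwa [siegel_inv] at this⟩ }
  have hAU : ∀ (x u : V) (hx : x ∈ W) (hu : u ∈ U) (h : polar Q e (x + u) = 0),
      siegel Q he h ∈ M → x ∈ A := by
    intro x u hx hu h hmem
    refine ⟨hx, fun hx' => ?_⟩
    have hu' : polar Q e u = 0 := by
      rw [polar_add_right, hx', zero_add] at h; exact h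
    have := mul_mem hmem (inv_mem (hTU he hu' heU hu).1)
    rw [siegel_inv, siegel_mul] at this
    convert this using 1
    exact siegel_congr Q _ _ _ _ rfl (by abel)
  obtain ⟨x₀, hx₀0, hx₀A⟩ : ∃ x, x ≠ 0 ∧ x ∈ A := by
    by_cases hcase : ∃ a ∈ U, polar Q e a = 0 ∧ g'.1 a ∉ U
    · obtain ⟨a, ha, hea, hga⟩ := hcase
      obtain ⟨x, hx, u, hu, hxu⟩ := hsplit (g'.1 a)
      have hea' : polar Q e (x + u) = 0 := by
        rw [hxu]; conv_lhs => rw [← hge]
        rw [OQ_polar, hea]
      refine ⟨x, fun h => hga (by rw [← hxu, h, zero_add]; exact hu), hAU x u hx hu hea' ?_⟩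
      have := mul_mem (mul_mem hg'M (hTU he hea heU ha).1) (inv_mem hg'M)
      rw [siegel_conj] at this
      convert this using 1
      exact siegel_congr Q _ _ _ _ hge.symm hxu
    push Not at hcase
    obtain ⟨x, hx, u, hu, hxu⟩ := hsplit (g'.1 (f : V))
    have hex' : polar Q e x = 0 := hUW hx heU
    have hxu' : polar Q x u = 0 := hWU hx hu
    have heu : polar Q e u = 1 := by
      have : polar Q (g'.1 e) (g'.1 (f : V)) = 1 := by rw [OQ_polar, hef]
      rw [hge, ← hxu, polar_add_right, hex', zero_add] at this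
      exact this
    have hx0 : x ≠ 0 := by
      intro hx0
      apply hg'W
      have hUinv : ∀ a ∈ U, g'.1 a ∈ U := by
        intro a ha
        have h1 : g'.1 (a - polar Q e a • (f : V)) ∈ U :=
          hcase _ (U.sub_mem ha (U.smul_mem _ f.2))
            (by rw [polar_sub_right, polar_smul_right, hef, smul_eq_mul, mul_one, sub_self])
        have h2 : g'.1 (f : V) ∈ U := by rw [← hxu, hx0, zero_add]; exact hu
        rw [map_sub, map_smul] at h1
        simpa using U.add_mem h1 (U.smul_mem (polar Q e a) h2)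
      refine Forms.mem_stabSub_of_le fun w hw => ?_
      rw [← LinearMap.BilinForm.orthogonal_orthogonal hnd hrefl W]
      have hUmap : U.map g'.1.toLinearMap = U := Submodule.eq_of_le_of_finrank_eq
        (by rintro _ ⟨a, ha, rfl⟩; exact hUinv a ha) (LinearEquiv.finrank_map_eq g'.1 U)
      intro y hy
      obtain ⟨a, ha, rfl⟩ : y ∈ U.map g'.1.toLinearMap := by rw [hUmap]; exact hy
      show polar Q (g'.1 a) (g'.1 w) = 0
      rw [OQ_polar, hUW hw ha]
    refine ⟨x, hx0, hx, fun h => ?_⟩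
    have hneg : polar Q e (-x) = 0 := by rw [polar_neg_right, h, neg_zero]
    set k := siegel Q he hneg * g' with hk'
    have hkC : k ∈ commutator (OQ Q) := mul_mem (hC ▸ siegel_mem_EQ Q he hneg) (hMK hg'M)
    have hkU : ∀ a ∈ U, k.1 a ∈ U := by
      intro a ha
      have h1 : g'.1 (a - polar Q e a • (f : V)) ∈ U :=
        hcase _ (U.sub_mem ha (U.smul_mem _ f.2))
          (by rw [polar_sub_right, polar_smul_right, hef, smul_eq_mul, mul_one, sub_self])
      have hd : a = (a - polar Q e a • (f : V)) + polar Q e a • (f : V) := by abel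
      rw [hd, map_add, map_smul]
      refine U.add_mem ?_ (U.smul_mem _ ?_)
      · rw [hk', Subgroup.coe_mul, LinearEquiv.mul_apply, siegel_fix Q he hneg ?_ ?_]
        · exact h1
        · conv_lhs => arg 2; rw [← hge]
          rw [OQ_polar, polar_sub_right, polar_smul_right, hef, smul_eq_mul, mul_one, sub_self]
        · rw [polar_neg_left, hWU hx h1, neg_zero]
      · have hxx : polar Q x x = Q x + Q x := by
          rw [polar_self, two_smul]
        have hkf : k.1 (f : V) = u + Q x • e := by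
          rw [hk', Subgroup.coe_mul, LinearEquiv.mul_apply, ← hxu, siegel_apply,
            polar_add_right, polar_add_right, hex', heu, polar_neg_left, polar_neg_left,
            QuadraticMap.map_neg, hxu', hxx]
          module
        rw [hkf]
        exact U.add_mem hu (U.smul_mem _ heU)
    have hkM : k ∈ M := hmemP hkC fun w hw => by
      rw [← LinearMap.BilinForm.orthogonal_orthogonal hnd hrefl W]
      have hUmap : U.map k.1.toLinearMap = U := Submodule.eq_of_le_of_finrank_eq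
        (by rintro _ ⟨a, ha, rfl⟩; exact hkU a ha) (LinearEquiv.finrank_map_eq k.1 U)
      intro y hy
      obtain ⟨a, ha, rfl⟩ : y ∈ U.map k.1.toLinearMap := by rw [hUmap]; exact hy
      show polar Q (k.1 a) (k.1 w) = 0
      rw [OQ_polar, hUW hw ha]
    have := mul_mem hg'M (inv_mem hkM)
    rw [hk', mul_inv_rev, mul_inv_cancel_left, siegel_inv] at this
    convert this using 1
    exact siegel_congr Q _ _ _ _ rfl (neg_neg x).symm
  -- closure under scalars
  have hAsq : ∀ (s : F) {x : V}, x ∈ A → (s * s) • x ∈ A := by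
    intro s x hx
    rcases eq_or_ne s 0 with rfl | hs
    · simp
    have hy : Q (e + (f : V)) = 1 := by rw [qf_add, he, hf, hef]; simp
    have hy' : Q (s • e + s⁻¹ • (f : V)) = 1 := by
      rw [qf_add, QuadraticMap.map_smul, QuadraticMap.map_smul, he, hf, polar_smul_left,
        polar_smul_right, hef]
      simp [hs]
    have hy0 : Q (e + (f : V)) ≠ 0 := by rw [hy]; exact one_ne_zero
    have hy0' : Q (s • e + s⁻¹ • (f : V)) ≠ 0 := by rw [hy']; exact one_ne_zero
    obtain ⟨m, hm⟩ : ∃ m, m = reflQ Q _ hy0' * reflQ Q _ hy0 := ⟨_, rfl⟩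
    have hmW : ∀ w ∈ W, m.1 w = w := fun w hw => by
      rw [hm, Subgroup.coe_mul, LinearEquiv.mul_apply,
        OrthGen.reflQ_fix Q _ (hUW hw (U.add_mem heU f.2)),
        OrthGen.reflQ_fix Q _ (hUW hw (U.add_mem (U.smul_mem _ heU) (U.smul_mem _ f.2)))]
    have hmM : m ∈ M := hmemP (hm ▸ hC ▸ reflQ_mul_mem_EQ hB hp hy0' hy0 (hy'.trans hy.symm))
      fun w hw => by rw [hmW w hw]; exact hw
    have hee : polar Q e e = 0 := by rw [polar_self, he, smul_zero]
    have hff : polar Q (f : V) f = 0 := by rw [polar_self, hf, smul_zero]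
    have hme : m.1 e = (s * s) • e := by
      rw [hm, Subgroup.coe_mul, LinearEquiv.mul_apply, reflQ_apply, reflQ_apply, hy, hy']
      simp only [polar_add_left, polar_add_right, polar_sub_right, polar_smul_left,
        polar_smul_right, hee, hff, polar_comm Q (f : V) e, hef, smul_eq_mul, inv_one]
      match_scalars <;> field_simp <;> ring
    have h0 := hUW hx.1 heU
    refine ⟨W.smul_mem _ hx.1, fun h => ?_⟩
    have := mul_mem (mul_mem hmM (hx.2 h0)) (inv_mem hmM)
    rw [siegel_conj] at this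
    have hcx : polar Q ((s * s) • e) x = 0 := by rw [polar_smul_left, h0, smul_zero]
    rw [siegel_congr Q _ _ (by rw [QuadraticMap.map_smul, he, smul_zero]) hcx hme (hmW x hx.1),
      siegel_smul_left Q _ he h0 _ h] at this
    exact this
  have hAsmul : ∀ (c : F) {x : V}, x ∈ A → c • x ∈ A := by
    intro c x hx
    have := A.sub_mem (hAsq ((c + 1) / 2) hx) (hAsq ((c - 1) / 2) hx)
    convert this using 1
    rw [← sub_smul]
    congr 1
    field_simp
    ring
  let AS : Submodule F V :=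
    { A with smul_mem' := fun c {x} hx => hAsmul c hx }
  have hASW : AS ≤ W := fun x hx => hx.1
  -- invariance under the stabiliser of `e`
  have hAinv : ∀ {p : OQ Q}, p ∈ commutator (OQ Q) → (∀ w ∈ W, p.1 w ∈ W) → p.1 e = e →
      ∀ x ∈ AS, p.1 x ∈ AS := by
    intro p hpC hpW hpe x hx
    refine ⟨hpW x hx.1, fun h => ?_⟩
    have := mul_mem (mul_mem (hmemP hpC hpW) (hx.2 (hUW hx.1 heU)))
      (inv_mem (hmemP hpC hpW))
    rw [siegel_conj] at this
    convert this using 1
    exact siegel_congr Q _ _ _ _ hpe.symm rfl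
  set R := W ⊓ OrthGen.perpSub Q AS with hRdef
  have hnons : ∀ w ∈ W, Q w ≠ 0 → w ∈ AS ∨ w ∈ R := by
    intro w hw hQw
    by_cases hwR : ∀ a ∈ AS, polar Q a w = 0
    · exact Or.inr ⟨hw, hwR⟩
    push Not at hwR
    obtain ⟨a, ha, haw⟩ := hwR
    refine Or.inl ?_
    obtain ⟨u', -, hu'e, -, hQu'⟩ := exists_perp_value (Q := QU) h2 hBU hnU hfp hQw
    set u : V := (u' : V) with hudef
    have huU : u ∈ U := u'.2
    have hQu : Q u = Q w := hQu'
    have hue : polar Q u e = 0 := by
      rw [polar_comm]; exact hu'e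
    have hpC : reflQ Q w hQw * reflQ Q u (hQu ▸ hQw) ∈ commutator (OQ Q) :=
      hC ▸ reflQ_mul_mem_EQ hB hp hQw _ hQu.symm
    have hpx : ∀ z ∈ W, (reflQ Q w hQw * reflQ Q u (hQu ▸ hQw)).1 z = (reflQ Q w hQw).1 z :=
      fun z hz => by
        rw [Subgroup.coe_mul, LinearEquiv.mul_apply, OrthGen.reflQ_fix Q _ (hUW hz huU)]
    have h1 := hAinv hpC (fun z hz => by
      rw [hpx z hz, reflQ_apply]; exact W.sub_mem hz (W.smul_mem _ hw)) (by
      rw [Subgroup.coe_mul, LinearEquiv.mul_apply, OrthGen.reflQ_fix Q _ hue,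
        OrthGen.reflQ_fix Q _ (hWU hw heU)]) a ha
    rw [hpx a ha.1, reflQ_apply] at h1
    have h2 := AS.sub_mem ha h1
    rw [sub_sub_cancel] at h2
    have hne : (Q w)⁻¹ * polar Q w a ≠ 0 :=
      mul_ne_zero (inv_ne_zero hQw) (by rw [polar_comm]; exact haw)
    have h3 := AS.smul_mem ((Q w)⁻¹ * polar Q w a)⁻¹ h2
    rwa [inv_smul_smul₀ hne] at h3
  have hspan : W = AS ⊔ R := by
    refine le_antisymm ?_ (sup_le hASW inf_le_left)
    conv_lhs => rw [← span_nonsingular_eq hW fun h2 hv => by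
      obtain ⟨c, hc, hc2⟩ := hex h2 hv
      exact ⟨c, hc, fun h => hc2 (by rw [h, one_pow])⟩]
    refine Submodule.span_le.2 fun w hw => ?_
    rcases hnons w hw.1 hw.2 with h | h
    · exact Submodule.mem_sup_left h
    · exact Submodule.mem_sup_right h
  have hAR : ∀ a ∈ AS, ∀ r ∈ R, polar Q a r = 0 := fun a ha r hr => hr.2 a ha
  have hdAR : ∀ z, z ∈ AS → z ∈ R → z = 0 := by
    intro z hzA hzR
    by_contra hz
    obtain ⟨y, hy, hzy⟩ := hW z (hASW hzA) hz
    rw [hspan] at hy
    obtain ⟨a, ha, r, hr, rfl⟩ := Submodule.mem_sup.1 hy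
    exact hzy (by rw [polar_add_right, hAR z hzA r hr, polar_comm Q z a, hAR a ha z hzR, add_zero])
  by_cases hR0 : R = ⊥
  · have hAW : W ≤ AS := by
      intro w hw
      rw [hspan, hR0, sup_bot_eq] at hw
      exact hw
    have hecentre : e ∈ siegelCentres Q M := ⟨he, fun a ha => by
      obtain ⟨x, hx, u, hu, hxu⟩ := hsplit a
      have hx' := hUW hx heU
      have hu' : polar Q e u = 0 := by rwa [← hxu, polar_add_right, hx', zero_add] at ha
      have := mul_mem ((hAW hx).2 hx') (hTU he hu' heU hu).1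
      rw [siegel_mul] at this
      convert this using 1
      exact siegel_congr Q _ _ _ _ rfl hxu.symm⟩
    obtain ⟨b', -, hb'e, hb'f, hQb'⟩ := exists_perp_value (Q := QU) h2 hBU hnU hfp one_ne_zero
    set b : V := (b' : V) with hbdef
    have hfb : polar Q (f : V) b = 0 := hb'f
    have hQb : Q b = 1 := hQb'
    have h2' := map_mem_siegelCentres hecentre (hTU hf hfb f.2 b'.2).1
    refine commutator_le_of_centre_pair hB hn hecentre h2' ?_
    have hee : polar Q e e = 0 := by rw [polar_self, he, smul_zero]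
    have hbe : polar Q b e = 0 := by
      rw [polar_comm]; exact hb'e
    rw [siegel_apply, polar_comm Q (f : V) e, hef, hQb, hbe]
    simp [polar_sub_left, polar_add_left, hee, hbe, polar_comm Q (f : V) e, hef]
  exfalso
  have hmix : ∀ a ∈ AS, a ≠ 0 → ∀ r ∈ R, r ≠ 0 → Q (a + r) = 0 := by
    intro a ha ha0 r hr hr0
    by_contra hne
    rcases hnons _ (W.add_mem (hASW ha) hr.1) hne with h | h
    · exact hr0 (hdAR r (by simpa using AS.sub_mem h ha) hr)
    · exact ha0 (hdAR a ha (by simpa using R.sub_mem h hr))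
  have hAS0 : AS ≠ ⊥ := fun h => hx₀0 (by
    have : x₀ ∈ AS := hx₀A
    simpa [h] using this)
  -- a mixed singular vector mixes the two summands
  have key : ∀ A' R' : Submodule F V, A' ≤ W → R' ≤ W →
      (∀ a ∈ A', ∀ r ∈ R', polar Q a r = 0) →
      (∀ z, z ∈ A' → z ∈ R' → z = 0) → W ≤ A' ⊔ R' →
      (∀ a ∈ A', a ≠ 0 → ∀ r ∈ R', r ≠ 0 → Q (a + r) = 0) → A' ≠ ⊥ →
      (∀ {p : OQ Q}, p ∈ commutator (OQ Q) → (∀ w ∈ W, p.1 w ∈ W) → p.1 e = e →
        ∀ x ∈ A', p.1 x ∈ A') →
      finrank F R' ≤ 1 := by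
    intro A' R' hA' hR' horth hd hsup hmixed hA0 hinv
    by_contra hcon
    obtain ⟨a, ha, ha0⟩ := A'.exists_mem_ne_zero_of_ne_bot hA0
    have hR'0 : R' ≠ ⊥ := fun h => hcon (by rw [h, finrank_bot]; omega)
    obtain ⟨r, hr, hr0⟩ := R'.exists_mem_ne_zero_of_ne_bot hR'0
    obtain ⟨r', hr', hrr'⟩ : ∃ r' ∈ R', r' ∉ F ∙ r := by
      by_contra h
      push Not at h
      exact hcon ((Submodule.finrank_mono (show R' ≤ F ∙ r from h)).trans
        (finrank_span_singleton hr0).le)
    obtain ⟨a₁, ha₁, haa₁⟩ : ∃ a₁ ∈ A', polar Q a a₁ = 1 := by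
      obtain ⟨y, hy, hay⟩ := hW a (hA' ha) ha0
      obtain ⟨p, hp', q, hq', rfl⟩ := Submodule.mem_sup.1 (hsup hy)
      rw [polar_add_right, horth a ha q hq', add_zero] at hay
      exact ⟨(polar Q a p)⁻¹ • p, A'.smul_mem _ hp', by
        rw [polar_smul_right, smul_eq_mul, inv_mul_cancel₀ hay]⟩
    set y := a + r with hydef
    set b := r' + (-polar Q r r') • a₁ with hbdef
    have hy : Q y = 0 := hmixed a ha ha0 r hr hr0
    have hyW : y ∈ W := W.add_mem (hA' ha) (hR' hr)
    have hbW : b ∈ W := W.add_mem (hR' hr') (W.smul_mem _ (hA' ha₁))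
    have hya : polar Q y a₁ = 1 := by
      rw [hydef, polar_add_left, haa₁, polar_comm Q r a₁, horth a₁ ha₁ r hr, add_zero]
    have hyb : polar Q y b = 0 := by
      rw [hbdef, polar_add_right, polar_smul_right, hya, hydef, polar_add_left,
        horth a ha r' hr']
      simp
    have hT := hinv (p := siegel Q hy hyb) (hC ▸ siegel_mem_EQ Q hy hyb)
      (fun w hw => by
        rw [siegel_apply]
        exact W.sub_mem (W.sub_mem (W.add_mem hw (W.smul_mem _ hbW)) (W.smul_mem _ hyW))
          (W.smul_mem _ hyW))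
      (siegel_fix Q hy hyb (hWU hyW heU) (hWU hbW heU)) a₁ ha₁
    rw [siegel_apply, hya] at hT
    set l := polar Q b a₁ + Q b * 1 with hl
    have h3 : r' - l • r ∈ A' := by
      have h4 := A'.sub_mem (A'.sub_mem hT ha₁)
        (A'.sub_mem (A'.smul_mem (-polar Q r r') ha₁) (A'.smul_mem l ha))
      convert h4 using 1
      rw [hl, hydef, hbdef]
      module
    have h5 := hd _ h3 (R'.sub_mem hr' (R'.smul_mem _ hr))
    exact hrr' (Submodule.mem_span_singleton.2 ⟨l, (sub_eq_zero.1 h5).symm⟩)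
  have hR1 : finrank F R ≤ 1 := key AS R hASW inf_le_left hAR hdAR hspan.le hmix hAS0 hAinv
  have hA1 : finrank F AS ≤ 1 := by
    refine key R AS inf_le_left hASW (fun r hr a ha => by rw [polar_comm]; exact hAR a ha r hr)
      (fun z h1 h2 => hdAR z h2 h1) (by rw [sup_comm]; exact hspan.le)
      (fun r hr hr0 a ha ha0 => by rw [add_comm]; exact hmix a ha ha0 r hr hr0) hR0 ?_
    intro p hpC hpW hpe r hr
    refine ⟨hpW r hr.1, fun a ha => ?_⟩
    have hmap : AS.map p.1.toLinearMap = AS := Submodule.eq_of_le_of_finrank_eq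
      (by rintro _ ⟨x, hx, rfl⟩; exact hAinv hpC hpW hpe x hx)
      (LinearEquiv.finrank_map_eq p.1 AS)
    obtain ⟨a', ha', rfl⟩ : a ∈ AS.map p.1.toLinearMap := by rw [hmap]; exact ha
    show polar Q (p.1 a') (p.1 r) = 0
    rw [OQ_polar, hAR a' ha' r hr]
  have hk' : finrank F W = 2 := by
    have h1 := Submodule.one_le_finrank_iff.2 hAS0
    have h2 := Submodule.one_le_finrank_iff.2 hR0
    have h3 := Submodule.finrank_sup_add_finrank_inf_eq AS R
    rw [show AS ⊓ R = ⊥ from eq_bot_iff.2 fun z hz => hdAR z hz.1 hz.2, finrank_bot,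
      ← hspan] at h3
    omega
  obtain ⟨a, ha, ha0⟩ := AS.exists_mem_ne_zero_of_ne_bot hAS0
  obtain ⟨r, hr, hr0⟩ := R.exists_mem_ne_zero_of_ne_bot hR0
  have har := hmix a ha ha0 r hr hr0
  have har0 : a + r ≠ 0 := fun h => ha0 (hdAR a ha (by
    rw [eq_neg_of_add_eq_zero_left h]; exact R.neg_mem hr))
  obtain ⟨c, hc, hc2⟩ := hex hk' ⟨a + r, W.add_mem (hASW ha) hr.1, har0, har⟩
  have har' := hmix _ (AS.smul_mem c ha) (smul_ne_zero hc ha0) r hr hr0
  rw [qf_add, hAR a ha r hr, add_zero] at har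
  rw [qf_add, QuadraticMap.map_smul, polar_smul_left, hAR a ha r hr, smul_zero, add_zero,
    smul_eq_mul] at har'
  have hQa : Q a = 0 := by
    have : (c ^ 2 - 1) * Q a = 0 := by linear_combination har' - har
    exact (mul_eq_zero.1 this).resolve_left (sub_ne_zero.2 hc2)
  -- a singular line cannot be non-degenerate
  obtain ⟨y, hy, hay⟩ := hW a (hASW ha) ha0
  rw [hspan] at hy
  obtain ⟨p, hp', q, hq', rfl⟩ := Submodule.mem_sup.1 hy
  have hAspan : AS = F ∙ a := (Submodule.eq_of_le_of_finrank_le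
    ((Submodule.span_singleton_le_iff_mem _ _).2 ha) (by rw [finrank_span_singleton ha0]; omega)).symm
  obtain ⟨l, rfl⟩ := Submodule.mem_span_singleton.1 (hAspan ▸ hp')
  rw [polar_add_right, hAR a ha q hq', polar_smul_right, polar_self, hQa] at hay
  simp at hay

/-- Stabilisers of non-degenerate subspaces are maximal in `Ω`. -/
theorem orth_nondeg_maximal_all (h2 : (2 : F) ≠ 0) (hB : BNondeg Q) (hn : 7 ≤ finrank F V) {W : Submodule F V}
    (hW0 : W ≠ ⊥) (hW1 : W ≠ ⊤) (hW : ∀ w ∈ W, w ≠ 0 → ∃ x ∈ W, polar Q w x ≠ 0)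
    (hne : 2 * finrank F W ≠ finrank F V ∨ (Even (finrank F W) ∧
      ¬ ∃ S : Submodule F V, (∀ s ∈ S, Q s = 0) ∧ 2 * finrank F S = finrank F V))
    (hex : ∀ U : Submodule F V, (U = W ∨ U = OrthGen.perpSub Q W) → finrank F U = 2 →
      (∀ w ∈ U, w ≠ 0 → ∃ x ∈ U, polar Q w x ≠ 0) →
      (∃ v ∈ U, v ≠ 0 ∧ Q v = 0) → ∃ c : F, c ≠ 0 ∧ c ^ 2 ≠ 1) :
    Cfsg.Geo.IsMaximalIn (commutator (OQ Q)) (Forms.stabSub Q W ⊓ commutator (OQ Q)) := by
  have hnd : (polarBilin Q).Nondegenerate :=
    ⟨fun a ha => hB a ha, fun a ha => hB a fun y => (polar_comm Q a y).trans (ha y)⟩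
  have hrefl : LinearMap.BilinForm.IsRefl (polarBilin Q) := fun a b h => by
    simpa [polar_comm Q b a] using h
  set U := OrthGen.perpSub Q W with hUdef
  have hdimU : finrank F U = finrank F V - finrank F W := OrthGen.finrank_orthogonal_polar hB W
  have hUU : OrthGen.perpSub Q U = W := LinearMap.BilinForm.orthogonal_orthogonal hnd hrefl W
  rcases le_or_gt (2 * finrank F W) (finrank F V) with hk | hk
  · refine orth_nondeg_maximal_odd h2 hB (by omega) hW0 hW (by rw [← hUdef, hdimU]; omega) hk (fun g hg => ?_)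
      (fun h1 h3 => hex W (Or.inl rfl) h1 hW h3)
    rcases hne with h | ⟨hev, h⟩
    · have := congrArg (fun S : Submodule F V => finrank F S) hg
      simp only [LinearEquiv.finrank_map_eq] at this
      have h' := OrthGen.finrank_orthogonal_polar hB W
      omega
    · have hdim : 2 * finrank F W = finrank F V := by
        have := congrArg (fun S : Submodule F V => finrank F S) hg
        simp only [LinearEquiv.finrank_map_eq] at this
        have h' := OrthGen.finrank_orthogonal_polar hB W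
        omega
      exact h (exists_half_of_swap hB hW hev hdim hg)
  · have hdisj : ∀ z, z ∈ W → z ∈ U → z = 0 := fun z hz hzU => by
      by_contra h
      obtain ⟨x, hx, hzx⟩ := hW z hz h
      exact hzx (by rw [polar_comm]; exact hzU x hx)
    have hUnd : ∀ w ∈ U, w ≠ 0 → ∃ x ∈ U, polar Q w x ≠ 0 := by
      intro w hw hw0
      by_contra hcon
      push Not at hcon
      have hwW : w ∈ OrthGen.perpSub Q U := fun x hx =>
        (polar_comm Q x w).trans (hcon x hx)
      exact hw0 (hdisj w (hUU ▸ hwW) hw)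
    have hU0 : U ≠ ⊥ := fun h => by
      have hlt : finrank F W < finrank F V := Submodule.finrank_lt hW1
      rw [h, finrank_bot] at hdimU
      omega
    have key : Forms.stabSub Q U = Forms.stabSub Q W := by
      have one : ∀ (A : Submodule F V) (g : OQ Q), g ∈ Forms.stabSub Q A →
          g ∈ Forms.stabSub Q (OrthGen.perpSub Q A) := by
        intro A g hg
        refine Forms.mem_stabSub_of_le fun z hz a ha => ?_
        obtain ⟨a', ha', rfl⟩ : a ∈ A.map g.1.toLinearMap :=
          (show A.map g.1.toLinearMap = A from hg).symm ▸ ha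
        show polar Q (g.1 a') (g.1 z) = 0
        rw [OQ_polar]
        exact hz a' ha'
      ext g
      exact ⟨fun h => hUU ▸ one U g h, one W g⟩
    rw [← key]
    refine orth_nondeg_maximal_odd h2 hB (by omega) hU0 hUnd (by rw [hUU]; omega) (by omega) (fun g hg => ?_)
      (fun h1 h3 => hex U (Or.inr rfl) h1 hUnd h3)
    have := congrArg (fun S : Submodule F V => finrank F S) hg
    simp only [LinearEquiv.finrank_map_eq, OrthGen.finrank_orthogonal_polar hB U, hdimU] at this
    omega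

section Matrices

open Cfsg.Geo

variable {K : Type u} [Field K] [Fintype K] {ι : Type} [Fintype ι] [DecidableEq ι]

/-- Matrix form of `orth_nondeg_maximal_all`: dimension at least seven in odd characteristic. -/
theorem omegaGL_nondeg_maximal {Q : (ι → K) → K} (hQ : IsNondegenerateQuadraticForm Q)
    (hodd : Odd (Fintype.card K)) (hn : 7 ≤ Fintype.card ι) {W : Submodule K (ι → K)} (hW0 : W ≠ ⊥) (hW1 : W ≠ ⊤)
    (hW : IsNondegenerateOn (QuadraticMap.polar Q) W)
    (hne : 2 * finrank K W ≠ Fintype.card ι ∨ (Even (finrank K W) ∧ ¬ IsPlusTypeOn Q ⊤))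
    (hex : ¬ (Fintype.card K ≤ 3 ∧ ∃ U : Submodule K (ι → K), finrank K U = 2 ∧
      IsNondegenerateOn (QuadraticMap.polar Q) U ∧ IsPlusTypeOn Q U ∧
      (U = W ∨ (AreOrthogonalFor (QuadraticMap.polar Q) U W ∧
        finrank K U + finrank K W = Fintype.card ι)))) :
    IsMaximalIn (omegaGL Q) (subspaceStabilizer W ⊓ omegaGL Q) := by
  have hfr : finrank K (ι → K) = Fintype.card ι := finrank_pi K
  have hB := bNondeg_toQF hQ
  have hmax := orth_nondeg_maximal_all (Q := toQF hQ)
    (two_ne_zero_of_odd (by rwa [Nat.card_eq_fintype_card])) hB (by omega) hW0 hW1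
    (fun w hw hw0 => (hW w hw hw0).2)
    (hne.imp (fun h => by rwa [hfr]) (And.imp_right fun h hS => h <| by
      obtain ⟨S, hS, hd⟩ := hS
      exact ⟨S, le_top, hS, by rw [finrank_top]; exact hd⟩)) ?_
  · have := isMaximalIn_map (oqToGL_injective (toQF hQ)) hmax
    rwa [map_oqToGL_stabSub, map_oqToGL_commutator, coe_toQF] at this
  intro U hU hU2 hUnd hsing
  refine exists_sq_ne_one fun hq => hex ⟨hq, U, hU2, fun w hw hw0 => ?_, ?_, ?_⟩
  · obtain ⟨x, hx, h⟩ := hUnd w hw hw0
    exact ⟨⟨x, hx, by rw [polar_comm]; exact h⟩, x, hx, h⟩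
  · obtain ⟨v, hv, hv0, hvQ⟩ := hsing
    refine ⟨K ∙ v, (Submodule.span_singleton_le_iff_mem _ _).2 hv, fun w hw => ?_, ?_⟩
    · obtain ⟨c, rfl⟩ := Submodule.mem_span_singleton.1 hw
      rw [hQ.smul, show Q v = 0 from hvQ, mul_zero]
    · rw [hU2, finrank_span_singleton hv0]
  · refine hU.imp_right fun h => ⟨fun u hu w hw => ?_, ?_⟩
    · rw [h] at hu
      rw [polar_comm]
      exact hu w hw
    · rw [h, OrthGen.finrank_orthogonal_polar hB]
      have := W.finrank_le
      omega

end Matrices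

end Cfsg.Agent.GeoClasses.OddNondeg
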