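import Mathlib
import Cfsg.Prelude.Def_GeometricClasses
import Cfsg.Agent.GeoClasses.Basic
import Cfsg.Agent.GeoClasses.MatrixUnits
import Cfsg.Agent.GeoClasses.Algebra
import Cfsg.Agent.GeoClasses.Tensor
import Cfsg.Agent.GeoClasses.Forms
import Cfsg.Agent.GeoClasses.FormsMore
import Cfsg.Agent.GeoClasses.FieldFacts
import Cfsg.Agent.GeoClasses.Structure
import Cfsg.Agent.GeoClasses.Blocks
import Cfsg.Agent.GeoClasses.Polarized
import Cfsg.Agent.GeoClasses.Coords
import Cfsg.Agent.GeoClasses.FormDecomp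
import Cfsg.Agent.GeoClasses.IsometryCases
import Cfsg.Agent.GeoClasses.ClassTools
import Cfsg.Agent.GeoClasses.SympExtraspecial
import Cfsg.Agent.GeoClasses.Symplectic
import Cfsg.Agent.GeoClasses.OrthOddBase

/-!
The geometric-class dichotomy for subgroups of the odd-dimensional orthogonal groups.
-/

set_option autoImplicit false
set_option maxHeartbeats 400000

namespace Cfsg.Agent.GeoClasses

open Matrix Cfsg.Geo
open scoped MatrixGroups Matrix Kronecker

section Field

variable {ι : Type} [Fintype ι] [DecidableEq ι] {F : Type*} [Field F]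

/-- An irreducible group of isometries of determinant one does not normalise a self-adjoint field
of degree equal to the dimension, for odd dimension. -/
lemma IsPolar.false_of_full_field [Nonempty ι] [Finite F] {B : Matrix ι ι F}
    (hP : IsPolar (RingEquiv.refl F) B 1) (hodd : Odd (Fintype.card ι))
    (hn : 2 ≤ Fintype.card ι) {H : Subgroup (GL ι F)}
    (hH : ∀ h ∈ H, IsSim (RingEquiv.refl F) B h 1) (hdet : ∀ h ∈ H, (h : Matrix ι ι F).det = 1)
    (hirr : ActsIrreducibly (matrixSet H)) {r : ℕ} {K : Subalgebra F (Matrix ι ι F)}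
    (hK : IsFieldSubalgebra r K) (hr : r = Fintype.card ι)
    (hsa : ∀ k ∈ K, adj (RingEquiv.refl F) B k = k) (hle : H ≤ subalgebraNormalizer K) : False := by
  classical
  haveI : Fintype F := Fintype.ofFinite F
  obtain ⟨v, hv⟩ : ∃ v : ι → F, v ≠ 0 := exists_ne 0
  -- a cyclic vector for `K`
  let ev : K →ₗ[F] (ι → F) :=
    { toFun := fun k => (k : Matrix ι ι F) *ᵥ v
      map_add' := fun a b => by simp [Matrix.add_mulVec]
      map_smul' := fun c a => by simp [Matrix.smul_mulVec] }
  have hinj : Function.Injective ev := (injective_iff_map_eq_zero ev).2 fun k hk => by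
    by_contra hk0
    obtain ⟨y, hy, hky⟩ := hK.inv k k.2 fun h => hk0 (Subtype.ext h)
    apply hv
    have h1 : (k : Matrix ι ι F) *ᵥ v = 0 := hk
    rw [← Matrix.one_mulVec v, ← hky, hK.comm k k.2 y hy, ← Matrix.mulVec_mulVec, h1,
      Matrix.mulVec_zero]
  have hsur : Function.Surjective ev :=
    (LinearMap.injective_iff_surjective_of_finrank_eq_finrank (by
      rw [Module.finrank_fintype_fun_eq_card]; exact hK.finrank_eq.trans hr)).1 hinj
  have hcent : ∀ X : Matrix ι ι F, (∀ k ∈ K, X * k = k * X) → X ∈ K := by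
    intro X hX
    obtain ⟨k, hk⟩ := hsur (X *ᵥ v)
    have hk' : (k : Matrix ι ι F) *ᵥ v = X *ᵥ v := hk
    convert k.2 using 1
    apply mat_ext_mulVec
    intro w
    obtain ⟨k', rfl⟩ := hsur w
    show X *ᵥ ((k' : Matrix ι ι F) *ᵥ v) = (k : Matrix ι ι F) *ᵥ ((k' : Matrix ι ι F) *ᵥ v)
    rw [Matrix.mulVec_mulVec, hX k' k'.2, Matrix.mulVec_mulVec, hK.comm k k.2 k' k'.2,
      ← Matrix.mulVec_mulVec, ← Matrix.mulVec_mulVec, hk']
  have htriv : ∀ h ∈ H, (∀ k ∈ K, conjGL h k = k) → h = 1 := by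
    intro h hh hfix
    have hmem : (h : Matrix ι ι F) ∈ K :=
      hcent _ fun k hk => (conjGL_eq_self_iff h k).1 (hfix k hk)
    have h1 := hP.adj_sim (hH h hh)
    rw [hsa _ hmem, map_one, one_smul] at h1
    have h2 : (h : Matrix ι ι F) * (h : Matrix ι ι F) = 1 := by
      conv_lhs => rw [h1]
      rw [← Units.val_mul]
      conv_lhs => rw [show h⁻¹ * h⁻¹ = (h * h)⁻¹ by group]
      have h3 : (h⁻¹ : GL ι F) = h := Units.ext h1.symm
      have h4 : h * h = 1 := by nth_rewrite 2 [← h3]; exact mul_inv_cancel h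
      rw [h4, inv_one, Units.val_one]
    have h5 : ((h : Matrix ι ι F) - 1) * ((h : Matrix ι ι F) + 1) = 0 := by
      rw [sub_mul, mul_add, mul_one, one_mul, h2]
      abel
    apply Units.ext
    rw [Units.val_one]
    by_contra hne
    obtain ⟨y, hy, hhy⟩ := hK.inv _ (sub_mem hmem (one_mem K)) (sub_ne_zero.2 hne)
    have h6 : (h : Matrix ι ι F) + 1 = 0 := by
      calc (h : Matrix ι ι F) + 1 = 1 * ((h : Matrix ι ι F) + 1) := (one_mul _).symm
        _ = (y * ((h : Matrix ι ι F) - 1)) * ((h : Matrix ι ι F) + 1) := by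
          rw [← hK.comm _ (sub_mem hmem (one_mem K)) y hy, hhy]
        _ = 0 := by rw [mul_assoc, h5, mul_zero]
    have h7 := hdet h hh
    rw [eq_neg_of_add_eq_zero_left h6, Matrix.det_neg, Matrix.det_one, mul_one,
      hodd.neg_one_pow] at h7
    exact hne (by rw [eq_neg_of_add_eq_zero_left h6, ← neg_one_smul F (1 : Matrix ι ι F), h7,
      one_smul])
  -- the group embeds in the automorphisms of `K`
  letI : CommRing K := { (inferInstance : Ring K) with
    mul_comm := fun x y => Subtype.ext (hK.comm x x.2 y y.2) }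
  haveI : Nontrivial K := ⟨0, 1, fun h => zero_ne_one (congrArg Subtype.val h)⟩
  haveI : NoZeroDivisors K := ⟨fun {a b} h => by
    by_cases ha : a = 0
    · exact Or.inl ha
    obtain ⟨y, hy, hay⟩ := hK.inv a a.2 fun h => ha (Subtype.ext h)
    refine Or.inr (Subtype.ext ?_)
    show (b : Matrix ι ι F) = 0
    have h' : (a : Matrix ι ι F) * b = 0 := congrArg Subtype.val h
    rw [← one_mul (b : Matrix ι ι F), ← hay, hK.comm a a.2 y hy, mul_assoc, h', mul_zero]⟩
  haveI : IsDomain K := NoZeroDivisors.to_isDomain K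
  let ρ : H → (K →ₐ[F] K) := fun h =>
    ((conjGL (h : GL ι F)).toAlgHom.comp K.val).codRestrict K fun k => (hle h.2 k.1).1 k.2
  have hρ : Function.Injective ρ := by
    intro a b hab
    refine Subtype.ext ?_
    have h1 := htriv _ (H.mul_mem (H.inv_mem b.2) a.2) fun k hk => by
      have h2 : conjGL (a : GL ι F) k = conjGL (b : GL ι F) k :=
        congrArg Subtype.val (AlgHom.congr_fun hab ⟨k, hk⟩)
      rw [conjGL_mul, h2, conjGL_apply_inv]
    exact (inv_mul_eq_one.1 h1).symm
  have hcard : Nat.card H ≤ Fintype.card ι := by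
    calc Nat.card H ≤ Nat.card (K →ₐ[F] K) := Nat.card_le_card_of_injective ρ hρ
      _ ≤ Module.finrank F K := card_algHom_le_finrank F K K
      _ = Fintype.card ι := hK.finrank_eq.trans hr
  -- the orbit of a vector
  haveI : Fintype H := Fintype.ofFinite H
  have hspan : ∀ W : Submodule F (ι → F),
      (∀ h ∈ H, ∀ w ∈ W, (h : Matrix ι ι F) *ᵥ w ∈ W) → W = ⊥ ∨ W = ⊤ := fun W hW =>
    hirr W (by
      rintro _ ⟨h, hh, rfl⟩ _ ⟨w, hw, rfl⟩
      rw [Matrix.toLin'_apply]
      exact hW h hh w hw)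
  set f : H → (ι → F) := fun h => ((h : GL ι F) : Matrix ι ι F) *ᵥ v with hf
  have hmove : ∀ g (hg : g ∈ H) (h : H), (g : Matrix ι ι F) *ᵥ f h = f (⟨g, hg⟩ * h) := fun g hg h => by
    simp [hf, Matrix.mulVec_mulVec]
  have hsum : ∑ h : H, f h = 0 := by
    by_contra hne
    rcases hspan (F ∙ ∑ h : H, f h) (fun g hg w hw => by
      obtain ⟨c, rfl⟩ := Submodule.mem_span_singleton.1 hw
      rw [Matrix.mulVec_smul, Matrix.mulVec_sum]
      refine Submodule.smul_mem _ _ (Submodule.mem_span_singleton.2 ⟨1, ?_⟩)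
      rw [one_smul]
      exact (Fintype.sum_equiv (Equiv.mulLeft ⟨g, hg⟩) _ _ fun h => hmove g hg h).symm) with h | h
    · exact hne (Submodule.span_singleton_eq_bot.1 h)
    · have h1 := congrArg (fun W : Submodule F (ι → F) => Module.finrank F W) h
      simp only [finrank_span_singleton hne, finrank_top, Module.finrank_fintype_fun_eq_card] at h1
      omega
  set T : Finset (ι → F) := (Finset.univ.erase (1 : H)).image f with hT
  have hmem : ∀ h, f h ∈ Submodule.span F (T : Set (ι → F)) := by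
    intro h
    by_cases h1 : h = 1
    · subst h1
      rw [← Finset.add_sum_erase _ _ (Finset.mem_univ (1 : H))] at hsum
      rw [eq_neg_of_add_eq_zero_left hsum]
      exact Submodule.neg_mem _ (Submodule.sum_mem _ fun h hh =>
        Submodule.subset_span (Finset.mem_coe.2 (Finset.mem_image_of_mem f hh)))
    · exact Submodule.subset_span (Finset.mem_coe.2
        (Finset.mem_image_of_mem f (Finset.mem_erase.2 ⟨h1, Finset.mem_univ _⟩)))
  rcases hspan (Submodule.span F (Set.range f)) (fun g hg w hw => by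
    induction hw using Submodule.span_induction with
    | mem x hx =>
      obtain ⟨h, rfl⟩ := hx
      exact Submodule.subset_span ⟨_, (hmove g hg h).symm⟩
    | zero => simp
    | add x y _ _ hx hy => rw [Matrix.mulVec_add]; exact Submodule.add_mem _ hx hy
    | smul c x _ hx => rw [Matrix.mulVec_smul]; exact Submodule.smul_mem _ c hx) with h | h
  · have h1 : f 1 ∈ Submodule.span F (Set.range f) := Submodule.subset_span ⟨1, rfl⟩
    rw [h, Submodule.mem_bot] at h1
    simp [hf] at h1
    exact hv h1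
  · have h1 : Submodule.span F (Set.range f) ≤ Submodule.span F (T : Set (ι → F)) :=
      Submodule.span_le.2 fun _ ⟨h, hh⟩ => hh ▸ hmem h
    rw [h, top_le_iff] at h1
    have h2 := finrank_span_finset_le_card (R := F) T
    rw [Set.finrank, h1, finrank_top, Module.finrank_fintype_fun_eq_card] at h2
    have h3 : T.card ≤ Nat.card H - 1 := by
      refine Finset.card_image_le.trans ?_
      rw [Finset.card_erase_of_mem (Finset.mem_univ _), Finset.card_univ, Nat.card_eq_fintype_card]
    have := Nat.card_pos (α := H)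
    omega

end Field

variable {F : Type*} [Field F] [Fintype F] {m : ℕ}

/-- Orthonormal frames: monomial groups over a non-prime field lie in class 5. -/
lemma orth_odd_class_of_lines (h2 : (2 : F) ≠ 0) (hnp : ¬ (Fintype.card F).Prime)
    {H : Subgroup (GL (OddIx m) F)}
    (hH : H ≤ Cfsg.isometryGroup F (Cfsg.quadFormOdd m F)) {t : ℕ}
    {D : Fin t → Submodule F (OddIx m → F)}
    (hD : IsNondegenerateMDecomposition (formOf (RingEquiv.refl F) (oddGram m F)) 1 D)
    (hle : H ≤ decompositionStabilizer D)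
    (htrans : ∀ i j, ∃ g ∈ H,
      (D i).map (Matrix.toLin' (g : Matrix (OddIx m) (OddIx m) F)) = D j) :
    ∃ M, InOrthogonalOddClass m F M ∧ H ≤ M := by
  classical
  set B := oddGram m F with hB
  set f := formOf (RingEquiv.refl F) B with hf
  have hsim : ∀ h ∈ H, IsSim (RingEquiv.refl F) B h 1 := fun h hh =>
    isSim_of_mem_isometryGroup (hH hh)
  haveI : NeZero t := ⟨by have := hD.decomp.two_le; omega⟩
  obtain ⟨w, hw0, hw⟩ := finrank_eq_one_iff'.1 (hD.decomp.finrank_eq 0)
  choose g hgH hg using fun j => htrans 0 j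
  set v : Fin t → OddIx m → F := fun j => (g j : Matrix (OddIx m) (OddIx m) F) *ᵥ (w : OddIx m → F)
    with hv
  have hw0' : (w : OddIx m → F) ≠ 0 := fun h => hw0 (Subtype.ext h)
  have hvD : ∀ j, v j ∈ D j := fun j => by
    rw [← hg j]
    exact ⟨w, w.2, Matrix.toLin'_apply _ _⟩
  have hv0 : ∀ j, v j ≠ 0 := fun j h => hw0' (by
    rw [← gl_inv_mulVec (g j) (w : OddIx m → F)]
    show ((g j)⁻¹ : GL (OddIx m) F).1 *ᵥ v j = 0
    rw [h, Matrix.mulVec_zero])
  set a := f (w : OddIx m → F) w with ha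
  have hvv : ∀ j, f (v j) (v j) = a := fun j => by
    rw [ha, hf, hv, formOf_eq_of_isSim (hsim _ (hgH j)), one_mul]
  have hli : LinearIndependent F v := iSupIndep.linearIndependent D hD.decomp.indep hvD hv0
  have hcardι : Fintype.card (OddIx m) = Fintype.card (Fin t) := by
    rw [Fintype.card_fin, ← card_eq_of_decomposition hD.decomp, mul_one]
  haveI : Nonempty (Fin t) := ⟨0⟩
  set bas := basisOfLinearIndependentOfCardEqFinrank hli (by
    rw [Module.finrank_fintype_fun_eq_card, hcardι]) with hbas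
  set L : (Fin t → F) ≃ₗ[F] (OddIx m → F) := bas.equivFun.symm with hL
  have hLsingle : ∀ j, L (Pi.single j 1) = v j := fun j => by
    rw [hL, Module.Basis.equivFun_symm_apply, Finset.sum_eq_single j]
    · simp [hbas]
    · intro k _ hk; simp [Pi.single_eq_of_ne hk]
    · simp
  have hgram : coordGram (RingEquiv.refl F) B L = a • (1 : Matrix (Fin t) (Fin t) F) := by
    ext i j
    show formOf _ B (L (Pi.single i 1)) (L (Pi.single j 1)) = _
    rw [hLsingle, hLsingle, Matrix.smul_apply, Matrix.one_apply]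
    by_cases hij : i = j
    · subst hij; rw [if_pos rfl, smul_eq_mul, mul_one]; exact hvv i
    · rw [if_neg hij, smul_zero]; exact hD.orthogonal i j hij _ (hvD i) _ (hvD j)
  have ha0 : a ≠ 0 := by
    intro h0
    obtain ⟨-, ⟨y, hy, hne⟩⟩ := hD.nondegenerate 0 w w.2 hw0'
    obtain ⟨c, hc⟩ := hw ⟨y, hy⟩
    apply hne
    have hy' : y = c • (w : OddIx m → F) := (congrArg Subtype.val hc).symm
    show f w y = 0
    rw [hy', hf, formOf_smul_right, RingEquiv.refl_apply]
    exact mul_eq_zero_of_right _ h0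
  let e := Fintype.equivOfCardEq hcardι
  obtain ⟨P, hPv, hPX⟩ := exists_coordGL L e
  obtain ⟨p, hpc⟩ := CharP.exists F
  haveI := hpc
  obtain ⟨ee, hp, hee⟩ := FiniteField.card F p
  haveI : Fact p.Prime := ⟨hp⟩
  set F₀ : Subfield F := RingHom.eqLocusField (frobenius F p) (RingHom.id F) with hF₀
  have hF₀top : F₀ ≠ ⊤ := by
    intro h
    have hall : ∀ z : F, z ^ p = z := fun z => by
      have hz : z ∈ F₀ := h ▸ Subfield.mem_top z
      exact hz
    have h1 := card_le_of_forall_pow_eq hp.one_lt hall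
    apply hnp
    rw [hee] at h1 ⊢
    rw [le_antisymm h1 (Nat.le_self_pow ee.pos.ne' p)]
    exact hp
  obtain ⟨F₁, r, hr, -, hcard⟩ := exists_subfield_prime_index hF₀top
  refine orth_odd_class_of_rational h2 hH hr (by rw [← Nat.card_eq_fintype_card, hcard]) (P := P)
    ha0 (G := 1) isUnit_one ?_ (fun i j => ?_) fun h hh => ?_
  · rw [adjForm_coordGL _ _ hPv, hgram]
    ext i j
    simp [Matrix.one_apply, e.injective.eq_iff]
  · rw [Matrix.one_apply]; split <;> [exact one_mem _; exact zero_mem _]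
  obtain ⟨π, hπ⟩ := hle hh
  have hc : ∀ j, ∃ c ∈ F₁, (h : Matrix (OddIx m) (OddIx m) F) *ᵥ v j = c • v (π j) := by
    intro j
    have h1 : (h : Matrix (OddIx m) (OddIx m) F) *ᵥ v j ∈ D (π j) := by
      rw [← hπ j]; exact ⟨v j, hvD j, Matrix.toLin'_apply _ _⟩
    obtain ⟨c, hc⟩ := exists_smul_eq_of_finrank_eq_one (hD.decomp.finrank_eq (π j))
      (x := ⟨v (π j), hvD _⟩) (fun h0 => hv0 _ (congrArg Subtype.val h0)) ⟨_, h1⟩
    have hc' : c • v (π j) = (h : Matrix (OddIx m) (OddIx m) F) *ᵥ v j := congrArg Subtype.val hc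
    refine ⟨c, ?_, hc'.symm⟩
    have h2 : f (c • v (π j)) (c • v (π j)) = a := by
      rw [hc', hf, formOf_eq_of_isSim (hsim h hh), one_mul]
      exact hvv j
    rw [hf, formOf_smul_left, formOf_smul_right, RingEquiv.refl_apply, ← hf, hvv, ← mul_assoc,
      mul_eq_right₀ ha0] at h2
    rcases mul_self_eq_one_iff.1 h2 with rfl | rfl
    · exact one_mem _
    · exact neg_mem (one_mem _)
  choose c hcF hc using hc
  refine mem_subfieldSubgroup_of_coord hPX (c := 1)
    (X := Matrix.of fun x y => if x = π y then c y else 0)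
    (fun x y => by show (if _ then _ else _) ∈ F₁; split <;> [exact hcF _; exact zero_mem _]) ?_
  rw [one_smul]
  apply Matrix.toLin'.injective
  refine bas.ext fun j => ?_
  rw [Matrix.toLin'_apply, Matrix.toLin'_apply, show bas j = v j by simp [hbas], hc]
  conv_rhs => rw [← hLsingle, conjMat_mulVec_apply]
  rw [← hLsingle, ← map_smul]
  congr 1
  funext x
  rw [Matrix.mulVec_single_one, Pi.smul_apply, Pi.single_apply, smul_eq_mul]
  show _ = if x = π j then c j else 0
  split <;> simp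

/-- Class 2 in the case of orthonormal frames over the field with three elements. -/
lemma orth_odd_class_of_three (h3 : Fintype.card F = 3)
    {H : Subgroup (GL (OddIx m) F)}
    (hH : H ≤ Cfsg.isometryGroup F (Cfsg.quadFormOdd m F)) {t : ℕ}
    {L : ((Fin t → Fin 3) → F) ≃ₗ[F] (OddIx m → F)} {s : F} (hs : s ≠ 0)
    (hgram : coordGram (RingEquiv.refl F) (oddGram m F) L
      = s • (1 : Matrix (Fin t → Fin 3) (Fin t → Fin 3) F))
    (hn : 2 ≤ Fintype.card (OddIx m))
    (hmono : ∀ h ∈ H, ∃ (π : Equiv.Perm (Fin t → Fin 3)) (c : (Fin t → Fin 3) → F),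
      ∀ y, (h : Matrix (OddIx m) (OddIx m) F) *ᵥ L (Pi.single y 1) = c y • L (Pi.single (π y) 1)) :
    ∃ M, InOrthogonalOddClass m F M ∧ H ≤ M := by
  classical
  let k : (Fin t → Fin 3) ≃ Fin (Fintype.card (Fin t → Fin 3)) := Fintype.equivFin (Fin t → Fin 3)
  set u : Fin (Fintype.card (Fin t → Fin 3)) → OddIx m → F := fun j => L (Pi.single (k.symm j) 1) with hu
  set D : Fin (Fintype.card (Fin t → Fin 3)) → Submodule F (OddIx m → F) := fun j => F ∙ u j with hD
  set f := formOf (RingEquiv.refl F) (oddGram m F) with hf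
  have huu : ∀ i j, f (u i) (u j) = if i = j then s else 0 := fun i j => by
    have h1 := congrFun (congrFun hgram (k.symm i)) (k.symm j)
    rw [Matrix.smul_apply, Matrix.one_apply, smul_eq_mul, mul_ite, mul_one, mul_zero] at h1
    rw [← show coordGram (RingEquiv.refl F) (oddGram m F) L (k.symm i) (k.symm j) = f (u i) (u j)
      from rfl, h1]
    simp
  have hu0 : ∀ j, u j ≠ 0 := fun j h0 => hs (by
    have h1 := huu j j
    rw [h0, hf, formOf_zero_left, if_pos rfl] at h1
    exact h1.symm)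
  have hli : LinearIndependent F u := by
    have h1 := ((Pi.basisFun F (Fin t → Fin 3)).map L).linearIndependent.comp k.symm k.symm.injective
    convert h1 using 1
    funext j
    simp [hu]
  have hcard : Fintype.card (Fin t → Fin 3) = Fintype.card (OddIx m) := by simpa using L.finrank_eq
  have hQ : ∀ v, f v v = 2 * Cfsg.quadFormOdd m F v := formOf_oddGram_self
  have h2 : (2 : F) ≠ 0 := two_ne_zero_iff_odd_card.2 (by rw [h3]; decide)
  refine ⟨decompositionStabilizer D ⊓ Cfsg.isometryGroup F (Cfsg.quadFormOdd m F),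
    Or.inr <| Or.inr <| Or.inr <| Or.inl ⟨Fintype.card (Fin t → Fin 3), D, by rw [h3]; norm_num,
      ⟨⟨⟨hcard ▸ hn, Nat.one_pos, fun j => finrank_span_singleton (hu0 j),
        hli.iSupIndep_span_singleton, ?_⟩, fun i => ?_, fun i j hij => ?_⟩, fun i j => ?_⟩, rfl⟩,
    le_inf (fun h hh => ?_) hH⟩
  · rw [hD, ← Submodule.span_range_eq_iSup]
    refine hli.span_eq_top_of_card_eq_finrank' ?_
    rw [Fintype.card_fin, Module.finrank_fintype_fun_eq_card, hcard]
  · rw [polar_quadFormOdd]
    intro x hx hx0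
    obtain ⟨c, rfl⟩ := Submodule.mem_span_singleton.1 hx
    have hc : c ≠ 0 := fun h => hx0 (by rw [h, zero_smul])
    have hne : f (u i) (u i) ≠ 0 := by rw [huu, if_pos rfl]; exact hs
    exact ⟨⟨u i, Submodule.mem_span_singleton_self _, by
        rw [formOf_smul_right, RingEquiv.refl_apply]; exact mul_ne_zero hc hne⟩,
      ⟨u i, Submodule.mem_span_singleton_self _, by
        rw [formOf_smul_left]; exact mul_ne_zero hc hne⟩⟩
  · rw [polar_quadFormOdd]
    intro x hx y hy
    obtain ⟨c, rfl⟩ := Submodule.mem_span_singleton.1 hx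
    obtain ⟨d, rfl⟩ := Submodule.mem_span_singleton.1 hy
    rw [formOf_smul_left, formOf_smul_right, ← hf, huu, if_neg hij, mul_zero, mul_zero]
  · have hq : Cfsg.quadFormOdd m F (u i) = Cfsg.quadFormOdd m F (u j) := by
      apply mul_left_cancel₀ h2
      rw [← hQ, ← hQ, huu, huu, if_pos rfl, if_pos rfl]
    refine ⟨(LinearEquiv.toSpanNonzeroSingleton F _ (u i) (hu0 i)).symm.trans
      (LinearEquiv.toSpanNonzeroSingleton F _ (u j) (hu0 j)), fun x => ?_⟩
    obtain ⟨c, rfl⟩ := (LinearEquiv.toSpanNonzeroSingleton F _ (u i) (hu0 i)).surjective x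
    simp only [LinearEquiv.trans_apply, LinearEquiv.symm_apply_apply]
    show Cfsg.quadFormOdd m F (c • u j) = Cfsg.quadFormOdd m F (c • u i)
    rw [quadFormOdd_smul, quadFormOdd_smul, hq]
  · obtain ⟨π, c, hc⟩ := hmono h hh
    refine ⟨(k.symm.trans π).trans k, fun i => ?_⟩
    have hci : c (k.symm i) ≠ 0 := by
      intro h0
      have h1 := hc (k.symm i)
      rw [h0, zero_smul] at h1
      apply hu0 i
      rw [← gl_inv_mulVec h (u i)]
      show ((h⁻¹ : GL (OddIx m) F) : Matrix (OddIx m) (OddIx m) F) *ᵥ _ = 0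
      rw [h1, Matrix.mulVec_zero]
    show (F ∙ u i).map _ = F ∙ u _
    rw [Submodule.map_span, Set.image_singleton, Matrix.toLin'_apply]
    show (F ∙ ((h : Matrix (OddIx m) (OddIx m) F) *ᵥ L (Pi.single (k.symm i) 1))) = _
    rw [hc, Submodule.span_singleton_smul_eq hci.isUnit]
    simp [hu]

/-- Over three elements, the similitudes of the three-dimensional unit form are monomial. -/
lemma monomial_of_three (h3 : Fintype.card F = 3) {c : GL (Fin 3) F} {μ : F}
    (hc : IsSim (RingEquiv.refl F) (1 : Matrix (Fin 3) (Fin 3) F) c μ) :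
    ∃ (π : Fin 3 → Fin 3), ∀ i j, i ≠ π j → (c : Matrix (Fin 3) (Fin 3) F) i j = 0 := by
  classical
  have h2 : (2 : F) ≠ 0 := two_ne_zero_iff_odd_card.2 (by rw [h3]; decide)
  have h30 : (3 : F) = 0 := by
    have := Nat.cast_card_eq_zero F
    rw [h3] at this
    exact_mod_cast this
  have hcube : ∀ x : F, x ≠ 0 → x * x = 1 := fun x hx => by
    have h := FiniteField.pow_card_sub_one_eq_one x hx
    rw [h3] at h
    rw [← pow_two]
    exact h
  have hμ0 : μ ≠ 0 := hc.ne_zero isUnit_one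
  have hμ : μ = 1 := by
    have h1 := congrArg Matrix.det hc
    rw [adjForm, mul_one, show (c : Matrix (Fin 3) (Fin 3) F).map (RingEquiv.refl F)
      = (c : Matrix (Fin 3) (Fin 3) F) from rfl, Matrix.det_mul, Matrix.det_transpose,
      Matrix.det_smul, Matrix.det_one, mul_one, Fintype.card_fin] at h1
    have hd : (c : Matrix (Fin 3) (Fin 3) F).det ≠ 0 :=
      ((Matrix.isUnit_iff_isUnit_det _).1 c.isUnit).ne_zero
    rw [hcube _ hd, pow_succ, pow_two, hcube μ hμ0, one_mul] at h1
    exact h1.symm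
  have hcol : ∀ j, (c : Matrix (Fin 3) (Fin 3) F) 0 j * c.1 0 j + c.1 1 j * c.1 1 j
      + c.1 2 j * c.1 2 j = 1 := fun j => by
    have h1 := congrFun (congrFun hc j) j
    rw [Matrix.smul_apply, Matrix.one_apply_eq, hμ, smul_eq_mul, mul_one, adjForm, mul_one,
      Matrix.mul_apply, Fin.sum_univ_three] at h1
    exact h1
  have hone : ∀ x y z : F, x * x + y * y + z * z = 1 →
      (y = 0 ∧ z = 0) ∨ (x = 0 ∧ z = 0) ∨ (x = 0 ∧ y = 0) := fun x y z h => by
    rcases eq_or_ne x 0 with hx | hx <;> rcases eq_or_ne y 0 with hy | hy <;>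
      rcases eq_or_ne z 0 with hz | hz
    · exact Or.inl ⟨hy, hz⟩
    · exact Or.inr (Or.inr ⟨hx, hy⟩)
    · exact Or.inr (Or.inl ⟨hx, hz⟩)
    · rw [hx, hcube y hy, hcube z hz] at h
      exact absurd (by linear_combination h : (1 : F) = 0) one_ne_zero
    · exact Or.inl ⟨hy, hz⟩
    · rw [hy, hcube x hx, hcube z hz] at h
      exact absurd (by linear_combination h : (1 : F) = 0) one_ne_zero
    · rw [hz, hcube x hx, hcube y hy] at h
      exact absurd (by linear_combination h : (1 : F) = 0) one_ne_zero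
    · rw [hcube x hx, hcube y hy, hcube z hz] at h
      exact absurd (by linear_combination h30 - h : (1 : F) = 0) one_ne_zero
  refine ⟨fun j => if c.1 0 j ≠ 0 then 0 else if c.1 1 j ≠ 0 then 1 else 2, fun i j hij => ?_⟩
  rcases hone _ _ _ (hcol j) with ⟨h1, h2'⟩ | ⟨h1, h2'⟩ | ⟨h1, h2'⟩
  all_goals
    by_cases ha : c.1 0 j = 0 <;> by_cases hb : c.1 1 j = 0 <;>
      fin_cases i <;> simp_all

/-- Class 7, or class 2 for the field with three elements and factors of size three. -/
lemma orth_odd_class_of_wreath (hm : 0 < m) (h2 : (2 : F) ≠ 0) {H : Subgroup (GL (OddIx m) F)}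
    (hH : H ≤ Cfsg.isometryGroup F (Cfsg.quadFormOdd m F)) {a t : ℕ}
    {L : ((Fin t → Fin a) → F) ≃ₗ[F] (OddIx m → F)} {J : Matrix (Fin a) (Fin a) F} {s : F}
    (hW : IsWreathData (RingEquiv.refl F) (oddGram m F) 1 H L J s) :
    ∃ M, InOrthogonalOddClass m F M ∧ H ≤ M := by
  classical
  haveI : NeZero a := ⟨by have := hW.two_le; omega⟩
  have hcardι : Fintype.card (OddIx m) = Fintype.card (Fin t → Fin a) := by
    simpa using L.finrank_eq.symm
  have hodd : Odd a := by
    have h1 : Odd (a ^ t) := by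
      rw [card_oddIx, Fintype.card_fun, Fintype.card_fin, Fintype.card_fin] at hcardι
      rw [← hcardι]
      exact ⟨m, rfl⟩
    exact (Nat.odd_pow_iff (by have := hW.card_two_le; omega)).1 h1
  have ha3 : 3 ≤ a := by
    have := hW.two_le
    obtain ⟨l, rfl⟩ := hodd
    omega
  obtain ⟨c, hc, -⟩ := hW.star
  have hJ : Jᵀ = J := by
    rcases mul_self_eq_one_iff.1 (sq_eq_one_of_star hW.unit.ne_zero hc) with h | h
    · rw [h, one_smul] at hc; exact hc
    · exfalso
      rw [h, neg_one_smul] at hc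
      have hskew : Jᵀ = -J := hc
      have h5 := even_card_of_alternating hW.unit hskew fun i => by
        have h3 : J i i = -J i i := congrFun (congrFun hskew i) i
        have h4 : (2 : F) * J i i = 0 := by linear_combination h3
        exact (mul_eq_zero.1 h4).resolve_left h2
      rw [Fintype.card_fin] at h5
      exact Nat.not_even_iff_odd.2 hodd h5
  by_cases hexc : Fintype.card F = 3 ∧ a = 3
  swap
  · let e := Fintype.equivOfCardEq hcardι
    obtain ⟨P, hPv, hPX⟩ := exists_coordGL L e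
    refine ⟨tensorWreathSubgroup a t e P ⊓ Cfsg.isometryGroup F (Cfsg.quadFormOdd m F),
      Or.inr <| Or.inr <| Or.inr <| Or.inr <| Or.inr <| Or.inr <| Or.inr
        ⟨a, t, e, P, formOf (RingEquiv.refl F) J, ha3, hW.card_two_le, hexc,
          isSymmetricForm_formOf hW.unit hJ, ?_, rfl⟩, le_inf (fun h hh => ?_) hH⟩
    · rw [polar_quadFormOdd]
      exact tensorPowerFormStructure (σ := RingEquiv.refl F) hPv hW.ne_zero hW.gram
    · obtain ⟨cs, π, hd, -⟩ := hW.mem h hh
      exact mem_tensorWreathSubgroup hPX cs π hd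
  obtain ⟨h3, rfl⟩ := hexc
  set ν := J.det with hν
  have hν0 : ν ≠ 0 := ((Matrix.isUnit_iff_isUnit_det J).1 hW.unit).ne_zero
  obtain ⟨D, hD⟩ := exists_congr_of_det h2 (k := 3)
    (J := ν • (1 : Matrix (Fin 3) (Fin 3) F)) (J' := J)
    (by rw [Matrix.isUnit_iff_isUnit_det, Matrix.det_smul, Matrix.det_one, mul_one]
        exact hν0.isUnit.pow _)
    hW.unit (by rw [Matrix.transpose_smul, Matrix.transpose_one]) hJ
    ⟨ν * ν, by rw [Matrix.det_smul, Matrix.det_one, Fintype.card_fin, ← hν]; ring⟩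
  set L' := coordMul L (glPure fun _ : Fin t => D) with hL'
  have hgram : coordGram (RingEquiv.refl F) (oddGram m F) L'
      = (s * ν ^ t) • (1 : Matrix (Fin t → Fin 3) (Fin t → Fin 3) F) := by
    rw [hL', coordGram_coordMul, hW.gram, adjForm_smul_left,
      show ((glPure fun _ : Fin t => D : GL (Fin t → Fin 3) F) : Matrix _ _ F)
        = pureMat fun _ : Fin t => (D : Matrix (Fin 3) (Fin 3) F) from rfl,
      adjForm_pureMat, hD, pureMat_neg_smul, pureMat_one 3 t, smul_smul]
  refine orth_odd_class_of_three h3 hH (mul_ne_zero hW.ne_zero (pow_ne_zero _ hν0)) hgram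
    (by rw [card_oddIx]; omega) fun h hh => ?_
  obtain ⟨cs, π, hd, hsim⟩ := hW.mem h hh
  set ds : Fin t → GL (Fin 3) F := fun i => D⁻¹ * cs i * D with hds
  have hd' : (h : Matrix (OddIx m) (OddIx m) F) = conjMat L'
      (pureMat (fun i => (ds i : Matrix (Fin 3) (Fin 3) F)) * factorPerm 3 π) := by
    rw [hd, hL', conjMat_coordMul]
    congr 1
    show _ = pureMat (fun _ : Fin t => (D : Matrix (Fin 3) (Fin 3) F)) * _
      * pureMat (fun _ : Fin t => ((D⁻¹ : GL (Fin 3) F) : Matrix (Fin 3) (Fin 3) F))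
    rw [← mul_assoc, pureMat_mul, mul_assoc, ← pureMat_mul_factorPerm
      (fun _ : Fin t => ((D⁻¹ : GL (Fin 3) F) : Matrix (Fin 3) (Fin 3) F)) π, ← mul_assoc,
      pureMat_mul]
    congr 2
    funext i
    simp [hds, mul_assoc]
  have hdsim : ∀ i, ∃ μ, IsSim (RingEquiv.refl F) (1 : Matrix (Fin 3) (Fin 3) F) (ds i) μ := by
    intro i
    obtain ⟨μ, hμ⟩ := hsim i
    refine ⟨μ, smul_right_injective _ hν0 ?_⟩
    show ν • adjForm _ _ _ = ν • _
    rw [← adjForm_smul_left, ← hD, ← adjForm_mul, ← Units.val_mul,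
      show D * ds i = cs i * D by rw [hds]; group, Units.val_mul, adjForm_mul, hμ,
      adjForm_smul_left, hD, smul_comm]
  choose μ hμ using hdsim
  choose p hp using fun i => monomial_of_three h3 (hμ i)
  set X := pureMat (fun i => (ds i : Matrix (Fin 3) (Fin 3) F)) * factorPerm 3 π with hX
  have hzero : ∀ x y : Fin t → Fin 3, x ≠ (fun i => p i (y (π.symm i))) → X x y = 0 := by
    intro x y hxy
    obtain ⟨i, hi⟩ := Function.ne_iff.1 hxy
    rw [hX, Matrix.mul_apply]
    refine Finset.sum_eq_zero fun z _ => ?_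
    by_cases hz : y = z ∘ π
    · refine mul_eq_zero_of_left (Finset.prod_eq_zero (Finset.mem_univ i) (hp i _ _ ?_)) _
      rw [hz] at hi
      simpa using hi
    · refine mul_eq_zero_of_right _ ?_
      rw [factorPerm, if_neg hz]
  have hcolv : ∀ y, X *ᵥ Pi.single y 1
      = X (fun i => p i (y (π.symm i))) y • Pi.single (fun i => p i (y (π.symm i))) 1 := by
    intro y
    funext x
    rw [Matrix.mulVec_single_one, Pi.smul_apply, Pi.single_apply, smul_eq_mul]
    show X x y = _
    by_cases hx : x = fun i => p i (y (π.symm i))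
    · subst hx; simp
    · rw [if_neg hx, mul_zero, hzero x y hx]
  have hXu : IsUnit X := (isUnit_pureMat fun i => (ds i).isUnit).mul (glFactorPerm 3 π).isUnit
  have hinj : Function.Injective fun (y : Fin t → Fin 3) (i : Fin t) => p i (y (π.symm i)) := by
    intro y y' hyy
    by_contra hne
    have hyy' : (fun i => p i (y (π.symm i))) = fun i => p i (y' (π.symm i)) := hyy
    set x := fun i => p i (y (π.symm i)) with hx
    have hlin : X *ᵥ (X x y' • Pi.single y 1 - X x y • Pi.single y' 1) = 0 := by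
      rw [Matrix.mulVec_sub, Matrix.mulVec_smul, Matrix.mulVec_smul, hcolv, hcolv, ← hyy', ← hx,
        smul_smul, smul_smul, mul_comm, sub_self]
    obtain ⟨u, hu⟩ := hXu
    have h0 : (X x y' • Pi.single y 1 - X x y • Pi.single y' 1 : (Fin t → Fin 3) → F) = 0 := by
      rw [← gl_inv_mulVec u (X x y' • Pi.single y 1 - X x y • Pi.single y' 1), hu, hlin,
        Matrix.mulVec_zero]
    have h1 := congrFun h0 y
    simp [Pi.single_eq_of_ne hne] at h1
    have h2 : X *ᵥ Pi.single y' 1 = 0 := by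
      rw [hcolv, ← hyy', h1, zero_smul]
    have h4 : (Pi.single y' 1 : (Fin t → Fin 3) → F) = 0 := by
      rw [← gl_inv_mulVec u (Pi.single y' 1), hu, h2, Matrix.mulVec_zero]
    simpa using congrFun h4 y'
  refine ⟨Equiv.ofBijective _ (Finite.injective_iff_bijective.1 hinj),
    fun y => X (fun i => p i (y (π.symm i))) y, fun y => ?_⟩
  rw [hd', conjMat_mulVec_apply, hcolv, map_smul]
  rfl

/-- Classes 4 and 7. -/
lemma orth_odd_class_of_tensor (hm : 0 < m) (h2 : (2 : F) ≠ 0) {H : Subgroup (GL (OddIx m) F)}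
    (hH : H ≤ Cfsg.isometryGroup F (Cfsg.quadFormOdd m F)) {a b : ℕ}
    {L : (Fin a × Fin b → F) ≃ₗ[F] (OddIx m → F)} {J₁ : Matrix (Fin a) (Fin a) F}
    {J₂ : Matrix (Fin b) (Fin b) F}
    (hT : IsTensorData (RingEquiv.refl F) (oddGram m F) 1 H L J₁ J₂) :
    ∃ M, InOrthogonalOddClass m F M ∧ H ≤ M := by
  classical
  have key : ∀ {a b : ℕ} {L : (Fin a × Fin b → F) ≃ₗ[F] (OddIx m → F)}
      {J₁ : Matrix (Fin a) (Fin a) F} {J₂ : Matrix (Fin b) (Fin b) F},
      IsTensorData (RingEquiv.refl F) (oddGram m F) 1 H L J₁ J₂ → a ≤ b →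
      ∃ M, InOrthogonalOddClass m F M ∧ H ≤ M := by
    intro a b L J₁ J₂ hT hab
    have hcardι : Fintype.card (OddIx m) = Fintype.card (Fin a × Fin b) := by
      simpa using L.finrank_eq.symm
    have hoddab : Odd (a * b) := by
      rw [card_oddIx, Fintype.card_prod, Fintype.card_fin, Fintype.card_fin] at hcardι
      exact hcardι ▸ ⟨m, rfl⟩
    obtain ⟨hoa, hob⟩ := Nat.odd_mul.1 hoddab
    haveI : NeZero a := ⟨by have := hT.left_two_le; omega⟩
    haveI : NeZero b := ⟨by have := hT.right_two_le; omega⟩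
    have ha3 : 3 ≤ a := by
      have := hT.left_two_le
      obtain ⟨l, rfl⟩ := hoa
      omega
    obtain ⟨c₁, c₂, -, h1, h2'⟩ := hT.star
    have hsym : ∀ {k : ℕ} [NeZero k] {J : Matrix (Fin k) (Fin k) F} {c : F}, Odd k → IsUnit J →
        starMat (RingEquiv.refl F) J = c • J → Jᵀ = J := by
      intro k _ J c hk hJu hc
      rcases mul_self_eq_one_iff.1 (sq_eq_one_of_star hJu.ne_zero hc) with h | h
      · rw [h, one_smul] at hc; exact hc
      · exfalso
        rw [h, neg_one_smul] at hc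
        have hskew : Jᵀ = -J := hc
        have h5 := even_card_of_alternating hJu hskew fun i => by
          have h3 : J i i = -J i i := congrFun (congrFun hskew i) i
          have h4 : (2 : F) * J i i = 0 := by linear_combination h3
          exact (mul_eq_zero.1 h4).resolve_left h2
        rw [Fintype.card_fin] at h5
        exact Nat.not_even_iff_odd.2 hk h5
    have hJ₁ := hsym hoa hT.unit₁ h1
    have hJ₂ := hsym hob hT.unit₂ h2'
    rcases Nat.lt_or_eq_of_le hab with hlt | heq
    · let e := Fintype.equivOfCardEq hcardι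
      obtain ⟨P, hPv, hPX⟩ := exists_coordGL L e
      refine ⟨tensorProductSubgroup a b e P ⊓ Cfsg.isometryGroup F (Cfsg.quadFormOdd m F),
        Or.inr <| Or.inr <| Or.inr <| Or.inr <| Or.inr <| Or.inl
          ⟨a, b, e, P, formOf (RingEquiv.refl F) J₁, formOf (RingEquiv.refl F) J₂, ha3, hlt,
            isSymmetricForm_formOf hT.unit₁ hJ₁, isSymmetricForm_formOf hT.unit₂ hJ₂, ?_, rfl⟩,
        le_inf (fun h hh => ?_) hH⟩
      · rw [polar_quadFormOdd]
        exact tensorFormStructure (σ := RingEquiv.refl F) hPv one_ne_zero (by rw [one_smul, hT.gram])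
      · obtain ⟨c, d, μ, ν, hcd, -, -⟩ := hT.mem h hh
        exact mem_tensorProductSubgroup hPX c d hcd
    subst heq
    set ν := J₁.det * J₂.det with hν
    have hν0 : ν ≠ 0 := mul_ne_zero ((Matrix.isUnit_iff_isUnit_det _).1 hT.unit₁).ne_zero
      ((Matrix.isUnit_iff_isUnit_det _).1 hT.unit₂).ne_zero
    obtain ⟨l, hl⟩ := hoa
    obtain ⟨D, hD⟩ := exists_congr_of_det h2 (J := J₁) (J' := ν • J₂) hT.unit₁
      (by rw [Matrix.isUnit_iff_isUnit_det, Matrix.det_smul]
          exact (hν0.isUnit.pow _).mul ((Matrix.isUnit_iff_isUnit_det _).1 hT.unit₂))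
      hJ₁ (by rw [Matrix.transpose_smul, hJ₂])
      ⟨ν ^ (l + 1), by
        rw [Matrix.det_smul, Fintype.card_fin, mul_left_comm, ← hν, ← pow_succ, ← pow_add]
        congr 1; omega⟩
    have hD' : adjForm (RingEquiv.refl F) J₂ (D : Matrix (Fin a) (Fin a) F) = ν⁻¹ • J₁ := by
      rw [← hD, adjForm_smul_left, smul_smul, inv_mul_cancel₀ hν0, one_smul]
    set L₁ := coordMul L (glKron 1 D) with hL₁
    set L₂ := coordPerm L₁ (piFinTwoEquiv fun _ => Fin a) with hL₂
    refine orth_odd_class_of_wreath hm h2 hH (a := a) (t := 2) (L := L₂) (J := J₁) (s := ν⁻¹)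
      ⟨hT.left_two_le, le_refl 2, inv_ne_zero hν0, ?_, hT.unit₁, ⟨1, ?_, by simp⟩, fun h hh => ?_⟩
    · rw [hL₂, coordGram_coordPerm, hL₁, coordGram_coordMul, hT.gram,
        show ((glKron 1 D : GL (Fin a × Fin a) F) : Matrix _ _ F)
          = (1 : Matrix (Fin a) (Fin a) F) ⊗ₖ (D : Matrix (Fin a) (Fin a) F) from rfl,
        adjForm_kronecker, adjForm_one, hD', Matrix.kronecker_smul, Matrix.submatrix_smul,
        Pi.smul_apply, Pi.smul_apply, kronecker_submatrix_pair]
      congr 2
      funext i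
      fin_cases i <;> rfl
    · rw [one_smul]; exact hJ₁
    · obtain ⟨c, d, μ, μ', hcd, hμ, hμ'⟩ := hT.mem h hh
      refine ⟨![c, D⁻¹ * d * D], 1, ?_, ?_⟩
      · rw [factorPerm_one, mul_one,
          show (fun i => ((![c, D⁻¹ * d * D] i : GL (Fin a) F) : Matrix (Fin a) (Fin a) F))
            = ![(c : Matrix (Fin a) (Fin a) F),
              ((D⁻¹ * d * D : GL (Fin a) F) : Matrix (Fin a) (Fin a) F)] by
            funext i; fin_cases i <;> rfl,
          ← kronecker_submatrix_pair, hL₂, conjMat_coordPerm, hL₁, conjMat_coordMul, hcd]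
        congr 1
        show _ = ((1 : Matrix (Fin a) (Fin a) F) ⊗ₖ (D : Matrix (Fin a) (Fin a) F)) * _
          * (((1⁻¹ : GL (Fin a) F) : Matrix (Fin a) (Fin a) F)
            ⊗ₖ ((D⁻¹ : GL (Fin a) F) : Matrix (Fin a) (Fin a) F))
        rw [← Matrix.mul_kronecker_mul, ← Matrix.mul_kronecker_mul]
        simp [mul_assoc]
      · intro i
        fin_cases i
        · exact ⟨μ, hμ⟩
        · refine ⟨μ', smul_right_injective _ (inv_ne_zero hν0) ?_⟩
          show ν⁻¹ • adjForm _ J₁ ((D⁻¹ * d * D : GL (Fin a) F) : Matrix _ _ F) = ν⁻¹ • _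
          rw [← adjForm_smul_left, ← hD', ← adjForm_mul, ← Units.val_mul,
            show D * (D⁻¹ * d * D) = d * D by group, Units.val_mul, adjForm_mul, hμ',
            adjForm_smul_left, hD', smul_comm]
  rcases le_total a b with h | h
  · exact key hT h
  · exact key hT.swap h

/-- The almost simple case. -/
lemma orth_odd_class_or_residual (h2 : (2 : F) ≠ 0) {H P : Subgroup (GL (OddIx m) F)}
    (hH : H ≤ Cfsg.isometryGroup F (Cfsg.quadFormOdd m F))
    (hP : IsSimpleData (RingEquiv.refl F) (oddGram m F) H P) :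
    (∃ M, InOrthogonalOddClass m F M ∧ H ≤ M) ∨ InOrthogonalResidualClass H := by
  have hpol := isPolar_oddGram (F := F) (m := m) h2
  by_cases hreal : ∃ F₀ : Subfield F, F₀ ≠ ⊤ ∧ RealisableOver F₀ (matrixSet P)
  · obtain ⟨F₀, hF₀, hr⟩ := hreal
    obtain ⟨B₀, hB₀⟩ := conjGL_of_realisableOver hr
    obtain ⟨F₁, r, hr, hle, hcard⟩ := exists_subfield_prime_index hF₀
    obtain ⟨P', b, G, hb, hG0, hG, hent, hHle, -⟩ := exists_rational_form
      (σ := RingEquiv.refl F) hpol.unit (F₁ := F₁) hP.span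
      (fun x hx => ⟨1, one_mem _, hP.isometry x hx⟩) hP.normal (B₀ := B₀)
      (fun x hx => mem_subfieldMatrices.2 fun i j => hle (mem_subfieldMatrices.1 (hB₀ x hx) i j))
    exact Or.inl (orth_odd_class_of_rational h2 hH hr (by rw [← Nat.card_eq_fintype_card, hcard])
      hb hG0 hG hent hHle)
  refine Or.inr ⟨P, hP.core fun F₀ h0 hr => hreal ⟨F₀, h0, hr⟩, ?_⟩
  rintro ⟨σ, f, hf, hfix⟩
  have hform := unitaryForm_eq_formOf hf
  have hBu : IsUnit (gramMatrix f) :=
    isUnit_of_isNondegenerateForm (σ := σ) (hform ▸ hf.nondegenerate)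
  set F₀ : Subfield F := RingHom.eqLocusField σ.toRingHom (RingHom.id F) with hF₀
  obtain ⟨B₀, hB₀⟩ := realisable_of_two_forms (F₀ := F₀) (σ := σ) (fun a => Iff.rfl) hBu hpol.unit
    hP.span (fun g hg => isSim_of_formOf fun u v => by
      rw [← hform, one_mul]; exact hfix _ ⟨g, hg, rfl⟩ u v) hP.isometry
  refine hreal ⟨F₀, fun htop => hf.ne_refl (RingEquiv.ext fun a => ?_),
    realisableOver_of_conjGL hB₀⟩
  have ha : a ∈ F₀ := htop ▸ Subfield.mem_top a
  exact ha

/-- Aschbacher's dichotomy for the odd-dimensional orthogonal groups. -/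
theorem orthogonal_odd_dichotomy (hm : 0 < m) (h2 : (2 : F) ≠ 0)
    {H : Subgroup (GL (OddIx m) F)} (hH : H ≤ omegaGL (Cfsg.quadFormOdd m F)) :
    (∃ M, InOrthogonalOddClass m F M ∧ H ≤ M) ∨ InOrthogonalResidualClass H := by
  classical
  have hI : H ≤ Cfsg.isometryGroup F (Cfsg.quadFormOdd m F) := fun h hh =>
    (isometry_of_mem_omegaGL (hH hh)).1
  have hP := isPolar_oddGram (F := F) (m := m) h2
  have hH' : ∀ h ∈ H, IsSim (RingEquiv.refl F) (oddGram m F) h 1 := fun h hh =>
    isSim_of_mem_isometryGroup (hI hh)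
  have hdet : ∀ h ∈ H, (h : Matrix (OddIx m) (OddIx m) F).det = 1 := fun h hh =>
    (isometry_of_mem_omegaGL (hH hh)).2
  have hn : 2 ≤ Fintype.card (OddIx m) := by rw [card_oddIx]; omega
  have hoddn : Odd (Fintype.card (OddIx m)) := by rw [card_oddIx]; exact ⟨m, rfl⟩
  by_cases hirr : ActsIrreducibly (matrixSet H)
  swap
  · left
    rcases hP.reducible_cases hH' hirr with
      ⟨W, hW, hs, hle⟩ | ⟨W, hW, hWt, hnd, -, hle⟩ | ⟨k, D, hk, -, -⟩
    · refine ⟨_, Or.inl ⟨W, hW, fun w hw => ?_, rfl⟩, le_inf hle hI⟩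
      apply mul_left_cancel₀ h2
      rw [← formOf_oddGram_self, hs w hw w hw, mul_zero]
    · exact ⟨_, Or.inr <| Or.inl ⟨W, hW, hWt, by rw [polar_quadFormOdd]; exact hnd, rfl⟩,
        le_inf hle hI⟩
    · rw [card_oddIx] at hk; omega
  rcases hP.isometry_cases hH' hirr hn with
    ⟨t, k, D, hD, hle, htr⟩ | ⟨A, e, he, -⟩ | ⟨r, K, hr, hK, hKs, hle⟩ | ⟨a, b, L, J₁, J₂, hT⟩ |
    ⟨a, t, L, J, s, hW, -⟩ | ⟨-, N, hN, hmod, htop⟩ | ⟨-, P, hPd⟩
  · left
    have hiso : IsOrthogonalMDecomposition (Cfsg.quadFormOdd m F) k D := by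
      refine ⟨by rw [polar_quadFormOdd]; exact hD, fun i j => ?_⟩
      obtain ⟨g, hg, hgm⟩ := htr i j
      refine ⟨((equivOfGL g).submoduleMap (D i)).trans (LinearEquiv.ofEq _ _ hgm), fun w => ?_⟩
      exact quad_apply_of_mem (hI hg) w
    by_cases hk : 1 < k
    · exact ⟨_, Or.inr <| Or.inr <| Or.inl ⟨t, k, D, hk, hiso, rfl⟩, le_inf hle hI⟩
    obtain rfl : k = 1 := by have := hD.decomp.pos; omega
    by_cases hp : (Fintype.card F).Prime
    · exact ⟨_, Or.inr <| Or.inr <| Or.inr <| Or.inl ⟨t, D, hp, hiso, rfl⟩, le_inf hle hI⟩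
    exact orth_odd_class_of_lines h2 hp hI hD hle htr
  · exfalso
    obtain ⟨k, hk, -⟩ := he.decomposition
    have := card_eq_of_decomposition hk
    rw [card_oddIx] at this
    omega
  · left
    have hsa : ∀ k ∈ K, adj (RingEquiv.refl F) (oddGram m F) k = k := by
      by_contra hc
      push Not at hc
      obtain ⟨k, hk, hne⟩ := hc
      set d := k - adj (RingEquiv.refl F) (oddGram m F) k with hd
      obtain ⟨y, -, hdy⟩ := hK.inv d (sub_mem hk (hKs k hk)) (sub_ne_zero.2 (Ne.symm hne))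
      have hd' : adj (RingEquiv.refl F) (oddGram m F) d = -d := by
        rw [hd, sub_eq_add_neg, adj_add, adj_neg, hP.adj_adj]; abel
      have h1 := hP.det_adj rfl d
      rw [hd', Matrix.det_neg, hoddn.neg_one_pow, neg_one_mul] at h1
      have h3 : (2 : F) * d.det = 0 := by linear_combination -h1
      have h4 := congrArg Matrix.det hdy
      rw [Matrix.det_mul, Matrix.det_one, (mul_eq_zero.1 h3).resolve_left h2, zero_mul] at h4
      exact zero_ne_one h4
    refine ⟨_, Or.inr <| Or.inr <| Or.inr <| Or.inr <| Or.inl ⟨r, K, hr, fun hrn => ?_, hK,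
      fun k hk u v => ?_, rfl⟩, le_inf hle hI⟩
    · exact hP.false_of_full_field hoddn hn hH' hdet hirr hK (by rw [card_oddIx]; exact hrn.symm)
        hsa hle
    · rw [polar_quadFormOdd, hP.formOf_adj, hsa k hk]
  · exact Or.inl (orth_odd_class_of_tensor hm h2 hI hT)
  · exact Or.inl (orth_odd_class_of_wreath hm h2 hI hW)
  · exfalso
    obtain ⟨r, k, x, hS⟩ := exists_sympTypeSystem hN hmod htop hn
    obtain ⟨hr, -⟩ := hP.sympType_two hH' hN hS htop
    obtain ⟨l, hl, hnl⟩ := hS.card_pow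
    rw [hr] at hnl
    exact Nat.not_even_iff_odd.2 hoddn (hnl ▸ Nat.even_pow.2 ⟨even_two, by omega⟩)
  · exact orth_odd_class_or_residual h2 hI hPd

end Cfsg.Agent.GeoClasses
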