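import Cfsg.Agent.GeoClasses.OrthNondeg
import Cfsg.Agent.GeoClasses.OrthSimMax

/-!
The stabiliser of a non-singular point is maximal in `Ω(Q)`, in characteristic two.
-/

set_option autoImplicit false

namespace Cfsg.Agent.GeoClasses

open QuadraticMap Module Cfsg.Agent.Classical Cfsg.Geo

universe u v

variable {F : Type u} [Field F] [Finite F] {V : Type v} [AddCommGroup V] [Module F V]
  [FiniteDimensional F V] {Q : QuadraticForm F V}

omit [Finite F] in
/-- A singular partner inside an orthogonal subspace. -/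
lemma exists_pair_in_perp (hB : BNondeg Q) {T : Submodule F V} {e : V}
    (heS : e ∈ OrthGen.perpSub Q T) (heT : e ∉ T) (he : Q e = 0) :
    ∃ f ∈ OrthGen.perpSub Q T, Q f = 0 ∧ polar Q e f = 1 := by
  set S := OrthGen.perpSub Q T
  obtain ⟨y, hy, hey⟩ : ∃ y ∈ S, polar Q e y ≠ 0 := by
    by_contra hcon
    push Not at hcon
    apply heT
    rw [← LinearMap.BilinForm.orthogonal_orthogonal (polarBilin_nondeg hB) (polarBilin_refl Q) T]
    intro y hy
    show polar Q y e = 0
    rw [polar_comm]
    exact hcon y hy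
  obtain ⟨y₁, hy₁S, hy₁⟩ : ∃ z ∈ S, polar Q e z = 1 :=
    ⟨(polar Q e y)⁻¹ • y, S.smul_mem _ hy, by
      rw [polar_smul_right, smul_eq_mul, inv_mul_cancel₀ hey]⟩
  refine ⟨y₁ - Q y₁ • e, S.sub_mem hy₁S (S.smul_mem _ heS), ?_, ?_⟩
  · rw [qf_sub, QuadraticMap.map_smul, he, polar_smul_right, polar_comm Q y₁ e, hy₁]
    simp
  · rw [polar_sub_right, polar_smul_right, hy₁, polar_self, he]
    simp

/-- Orthogonal to a point and a hyperbolic pair there is a singular vector outside their span. -/
lemma exists_singular_perp_outside (hB : BNondeg Q) (hn : 6 ≤ finrank F V) {v e f : V}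
    (hv : Q v ≠ 0) (hvv : polar Q v v = 0) (he : Q e = 0) (hef : polar Q e f = 1) (hf : Q f = 0)
    (hev : polar Q e v = 0) (hfv : polar Q f v = 0) :
    ∃ z ∈ OrthGen.perpSub Q (Submodule.span F (Set.range ![v, e, f])),
      z ∉ Submodule.span F (Set.range ![v, e, f]) ∧ Q z = 0 := by
  obtain ⟨z, hzS, hz0, hz⟩ := Forms.exists_singular_vector_of_three_le Q
    (S := OrthGen.perpSub Q (Submodule.span F (Set.range ![v, e, f]))) (by
      rw [OrthGen.finrank_orthogonal_polar hB]
      have := (finrank_range_le_card (R := F) ![v, e, f]).trans_eq (Fintype.card_fin 3)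
      unfold Set.finrank at this
      omega)
  refine ⟨z, hzS, fun hzT => hz0 ?_, hz⟩
  obtain ⟨c, hc⟩ := (Submodule.mem_span_range_iff_exists_fun F).1 hzT
  rw [Fin.sum_univ_three] at hc
  simp only [Matrix.cons_val_zero, Matrix.cons_val_one, Matrix.cons_val_two, Matrix.tail_cons,
    Matrix.head_cons] at hc
  have hee : polar Q e e = 0 := by rw [polar_self, he, smul_zero]
  have hff : polar Q f f = 0 := by rw [polar_self, hf, smul_zero]
  have h1 : c 2 = 0 := by
    have := hzS e (Submodule.subset_span ⟨1, rfl⟩)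
    change polar Q e z = 0 at this
    simpa [← hc, polar_add_right, polar_smul_right, hev, hee, hef] using this
  have h2 : c 1 = 0 := by
    have := hzS f (Submodule.subset_span ⟨2, rfl⟩)
    change polar Q f z = 0 at this
    simpa [← hc, polar_add_right, polar_smul_right, hfv, hff, polar_comm Q f e, hef] using this
  rw [h1, h2, zero_smul, zero_smul, add_zero, add_zero] at hc
  rw [← hc, QuadraticMap.map_smul, smul_eq_mul, mul_eq_zero, mul_self_eq_zero] at hz
  rw [← hc, hz.resolve_right hv, zero_smul]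

/-- The stabiliser of a non-singular point is maximal in `Ω`. -/
theorem orth_point_maximal (hB : BNondeg Q) (h2 : (2 : F) = 0) (hn : 8 ≤ finrank F V) {v : V}
    (hv : Q v ≠ 0) :
    IsMaximalIn (commutator (OQ Q)) (Forms.stabSub Q (F ∙ v) ⊓ commutator (OQ Q)) := by
  haveI : CharP F 2 := CharTwo.of_one_ne_zero_of_two_eq_zero one_ne_zero h2
  have hC := commutator_eq_EQ hB (by omega : 5 ≤ finrank F V)
  have hv0 : v ≠ 0 := fun h => hv (by simp [h])
  have hvv : polar Q v v = 0 := by rw [polar_self, two_nsmul]; exact CharTwo.add_self_eq_zero _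
  set U := OrthGen.perpSub Q (F ∙ v) with hUdef
  have hUmem : ∀ {x}, polar Q x v = 0 → x ∈ U := fun {x} h y hy => by
    obtain ⟨c, rfl⟩ := Submodule.mem_span_singleton.1 hy
    show polar Q (c • v) x = 0
    rw [polar_smul_left, polar_comm, h, smul_zero]
  have hUv : ∀ {x}, x ∈ U → polar Q x v = 0 := fun {x} h => by
    rw [polar_comm]; exact h v (Submodule.mem_span_singleton_self v)
  have hvU : v ∈ U := hUmem hvv
  have hdimU : finrank F U = finrank F V - 1 := by
    rw [hUdef, OrthGen.finrank_orthogonal_polar hB, finrank_span_singleton hv0]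
  -- the stabiliser fixes the vector
  have hstabv : ∀ {k : OQ Q}, k.1 v ∈ (F ∙ v) → k.1 v = v := fun {k} hk => by
    obtain ⟨c, hc⟩ := Submodule.mem_span_singleton.1 hk
    have h := OQ_map_app k v
    rw [← hc, QuadraticMap.map_smul, smul_eq_mul] at h
    have hcc : c * c = 1 := mul_right_cancel₀ hv (by rw [h, one_mul])
    have : (c - 1) * (c - 1) = 0 := by linear_combination hcc + (1 - c) * h2
    rw [← hc, sub_eq_zero.1 (mul_self_eq_zero.1 this), one_smul]
  have hfixmem : ∀ {k : OQ Q}, k.1 v = v → k ∈ Forms.stabSub Q (F ∙ v) := fun {k} hk =>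
    Forms.mem_stabSub_of_le fun w hw => by
      obtain ⟨c, rfl⟩ := Submodule.mem_span_singleton.1 hw
      rw [map_smul, hk]
      exact Submodule.smul_mem _ _ (Submodule.mem_span_singleton_self v)
  have hmemfix : ∀ {k : OQ Q}, k ∈ Forms.stabSub Q (F ∙ v) → k.1 v = v := fun {k} hk => by
    refine hstabv ?_
    have : k.1 v ∈ (F ∙ v).map k.1.toLinearMap := ⟨v, Submodule.mem_span_singleton_self v, rfl⟩
    rwa [show (F ∙ v).map k.1.toLinearMap = (F ∙ v) from hk] at this
  -- prescribed values against a vector and the point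
  have hsep : ∀ e : V, e ∉ (F ∙ v) → ∀ c : F, ∃ s, polar Q e s = 0 ∧ polar Q s v = c := by
    intro e hev c
    have hve : v ∉ (F ∙ e) := fun h => by
      obtain ⟨l, hl⟩ := Submodule.mem_span_singleton.1 h
      have hl0 : l ≠ 0 := fun h0 => hv0 (by simp [← hl, h0])
      exact hev (Submodule.mem_span_singleton.2 ⟨l⁻¹, by rw [← hl, inv_smul_smul₀ hl0]⟩)
    obtain ⟨φ, hφv, hφe⟩ : ∃ φ : V →ₗ[F] F, φ v = 1 ∧ φ e = 0 := by
      obtain ⟨φ, hφb, hφP⟩ := Submodule.exists_dual_map_eq_bot_of_notMem hve inferInstance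
      refine ⟨(φ v)⁻¹ • φ, by simp [hφb], ?_⟩
      have : φ e ∈ (F ∙ e).map φ := ⟨e, Submodule.mem_span_singleton_self e, rfl⟩
      rw [hφP, Submodule.mem_bot] at this
      simp [this]
    obtain ⟨s, hs⟩ : ∃ s, ∀ x, polar Q s x = φ x :=
      ⟨(LinearMap.BilinForm.toDual (polarBilin Q) (polarBilin_nondeg hB)).symm φ, fun x =>
        LinearMap.BilinForm.apply_toDual_symm_apply (hB := polarBilin_nondeg hB) _ x⟩
    refine ⟨c • s, ?_, ?_⟩
    · rw [polar_comm, polar_smul_left, hs, hφe, smul_zero]
    · rw [polar_smul_left, hs, hφv, smul_eq_mul, mul_one]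
  refine ⟨lt_of_le_not_ge inf_le_right fun hle => ?_, fun M hM hMK => ?_⟩
  · obtain ⟨e, heU, hev, he⟩ := exists_singular_outside (Q := Q) U (F ∙ v)
      (by rw [hdimU, finrank_span_singleton hv0]; omega)
    obtain ⟨s, hse, hsv⟩ := hsep e hev 1
    have h := hmemfix (hle (hC ▸ siegel_mem_EQ Q he hse)).1
    rw [siegel_apply, hUv heU, hsv] at h
    simp at h
    exact hev (by rw [h]; exact zero_mem _)
  by_cases hMW : M ≤ Forms.stabSub Q (F ∙ v)
  · exact Or.inl (le_antisymm (le_inf hMW hMK) hM)
  refine Or.inr (le_antisymm hMK ?_)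
  have hTU : ∀ {e b : V} (he : Q e = 0) (hb : polar Q e b = 0), e ∈ U → b ∈ U →
      siegel Q he hb ∈ M ∧ (siegel Q he hb).1 v = v := by
    intro e b he hb heU hbU
    have hfix := siegel_fix Q he hb (hUv heU) (hUv hbU)
    exact ⟨hM ⟨hfixmem hfix, hC ▸ siegel_mem_EQ Q he hb⟩, hfix⟩
  obtain ⟨g, hgM, hgW⟩ := SetLike.not_le_iff_exists.1 hMW
  -- an element of `M` moving `v` and fixing a subspace of codimension two
  obtain ⟨g', hg'M, hg'v, e', b', hfix⟩ : ∃ g' ∈ M, g'.1 v ≠ v ∧
      ∃ e' b' : V, ∀ z, polar Q e' z = 0 → polar Q b' z = 0 → g'.1 z = z := by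
    by_contra hcon
    push Not at hcon
    apply hgW
    refine hfixmem ?_
    set z := (g⁻¹ : OQ Q).1 v with hz
    have hgz : g.1 z = v := by
      rw [hz, ← LinearEquiv.mul_apply, ← Subgroup.coe_mul, mul_inv_cancel]; rfl
    have hfixz : ∀ (e b : V) (he : Q e = 0) (hb : polar Q e b = 0), e ∈ U → b ∈ U →
        (siegel Q he hb).1 z = z := by
      intro e b he hb heU hbU
      have hmem := mul_mem (mul_mem hgM (hTU he hb heU hbU).1) (inv_mem hgM)
      have hfx : (g * siegel Q he hb * g⁻¹).1 v = v := by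
        by_contra hne
        obtain ⟨y, h1, h2, h3⟩ := hcon _ hmem hne (g.1 e) (g.1 b)
        apply h3
        have hc : g * siegel Q he hb * g⁻¹ = _ := siegel_conj Q g he hb
        rw [hc]
        exact siegel_fix Q _ _ h1 h2
      simp only [Subgroup.coe_mul, LinearEquiv.mul_apply, ← hz] at hfx
      exact g.1.injective (hfx.trans hgz.symm)
    have horth : ∀ e ∈ U, Q e = 0 → polar Q z e = 0 := by
      intro e heU he
      by_cases hev : e ∈ (F ∙ v)
      · obtain ⟨c, rfl⟩ := Submodule.mem_span_singleton.1 hev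
        rw [QuadraticMap.map_smul, smul_eq_mul, mul_eq_zero, mul_self_eq_zero] at he
        rw [he.resolve_right hv, zero_smul, polar_zero_right]
      obtain ⟨b, hbT, hbT', hb⟩ := exists_singular_outside (Q := Q)
        (OrthGen.perpSub Q (Submodule.span F (Set.range ![v, e])))
        (Submodule.span F (Set.range ![v, e])) (by
          rw [OrthGen.finrank_orthogonal_polar hB]
          have := (finrank_range_le_card (R := F) ![v, e]).trans_eq (Fintype.card_fin 2)
          unfold Set.finrank at this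
          omega)
      have hbe : polar Q e b = 0 := hbT e (Submodule.subset_span ⟨1, rfl⟩)
      have hbU : b ∈ U := hUmem ((polar_comm Q b v).trans (hbT v (Submodule.subset_span ⟨0, rfl⟩)))
      have h := hfixz e b he hbe heU hbU
      rw [siegel_apply, hb, zero_mul, zero_smul, sub_zero] at h
      by_contra hne
      rw [polar_comm] at hne
      refine hbT' ?_
      rw [show b = (polar Q b z / polar Q e z) • e by
        linear_combination (norm := (match_scalars <;> field_simp <;> ring))
          (polar Q e z)⁻¹ • h]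
      exact Submodule.smul_mem _ _ (Submodule.subset_span ⟨1, rfl⟩)
    have hzv : z ∈ (F ∙ v) := by
      rw [← LinearMap.BilinForm.orthogonal_orthogonal (polarBilin_nondeg hB) (polarBilin_refl Q)
        (F ∙ v)]
      intro y hy
      show polar Q y z = 0
      have hsp := perpSub_le_span_singular hB (F ∙ v)
        (by rw [finrank_span_singleton hv0]; omega) hy
      clear hy
      induction hsp using Submodule.span_induction with
      | mem w hw => rw [polar_comm]; exact horth w hw.1 hw.2
      | zero => exact polar_zero_left _ _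
      | add a b _ _ ha hb => rw [polar_add_left, ha, hb, add_zero]
      | smul c a _ ha => rw [polar_smul_left, ha, smul_zero]
    have := hstabv hzv
    calc g.1 v = g.1 z := by rw [hz, this]
      _ = v := hgz
  -- a singular vector of `U` fixed by it
  set T₀ := Submodule.span F (Set.range ![v, e', b']) with hT₀
  have hT₀3 : finrank F T₀ ≤ 3 :=
    (finrank_range_le_card (R := F) ![v, e', b']).trans_eq (Fintype.card_fin 3)
  obtain ⟨e, heS, he0, he⟩ := Forms.exists_singular_vector_of_three_le Q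
    (S := OrthGen.perpSub Q T₀) (by rw [OrthGen.finrank_orthogonal_polar hB]; omega)
  have heU : e ∈ U := hUmem ((polar_comm Q e v).trans (heS v (Submodule.subset_span ⟨0, rfl⟩)))
  have hev : e ∉ (F ∙ v) := fun h => by
    obtain ⟨c, rfl⟩ := Submodule.mem_span_singleton.1 h
    rw [QuadraticMap.map_smul, smul_eq_mul, mul_eq_zero, mul_self_eq_zero] at he
    exact he0 (by rw [he.resolve_right hv, zero_smul])
  have hge : g'.1 e = e := hfix e (heS e' (Submodule.subset_span ⟨1, rfl⟩))
    (heS b' (Submodule.subset_span ⟨2, rfl⟩))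
  have hee : polar Q e e = 0 := by rw [polar_self, he, smul_zero]
  let A : AddSubgroup V :=
    { carrier := {a | polar Q e a = 0 ∧ ∀ h : polar Q e a = 0, siegel Q he h ∈ M}
      zero_mem' := ⟨polar_zero_right _ _, fun h => by rw [siegel_zero]; exact one_mem M⟩
      add_mem' := fun {a b} ha hb => ⟨by rw [polar_add_right, ha.1, hb.1, add_zero], fun h => by
        have := mul_mem (ha.2 ha.1) (hb.2 hb.1)
        rwa [siegel_mul] at this⟩
      neg_mem' := fun {a} ha => ⟨by rw [polar_neg_right, ha.1, neg_zero], fun h => by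
        have := inv_mem (ha.2 ha.1)
        rwa [siegel_inv] at this⟩ }
  have hAU : ∀ a ∈ U, polar Q e a = 0 → a ∈ A := fun a haU ha =>
    ⟨ha, fun h => (hTU he h heU haU).1⟩
  obtain ⟨a₁, ha₁, ha₁v⟩ : ∃ a ∈ A, polar Q a v ≠ 0 := by
    by_cases hcase : ∃ a ∈ U, polar Q e a = 0 ∧ g'.1 a ∉ U
    · obtain ⟨a, haU, hea, hga⟩ := hcase
      refine ⟨g'.1 a, ⟨by conv_lhs => rw [← hge]
                          rw [OQ_polar, hea], fun h => ?_⟩, fun h => hga (hUmem h)⟩
      have := mul_mem (mul_mem hg'M (hTU he hea heU haU).1) (inv_mem hg'M)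
      rw [siegel_conj] at this
      convert this using 1
      exact siegel_congr Q _ _ _ _ hge.symm rfl
    push Not at hcase
    set T := Submodule.span F (Set.range ![v, e]) with hT
    have hTdim : finrank F T ≤ 2 :=
      (finrank_range_le_card (R := F) ![v, e]).trans_eq (Fintype.card_fin 2)
    have hmap : (OrthGen.perpSub Q T).map g'.1.toLinearMap = OrthGen.perpSub Q T := by
      refine Submodule.eq_of_le_of_finrank_eq ?_ (LinearEquiv.finrank_map_eq g'.1 _)
      rintro _ ⟨a, ha, rfl⟩ s hs
      have haU : a ∈ U := hUmem ((polar_comm Q a v).trans (ha v (Submodule.subset_span ⟨0, rfl⟩)))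
      have hea : polar Q e a = 0 := ha e (Submodule.subset_span ⟨1, rfl⟩)
      have h1 := hcase a haU hea
      have h2 : polar Q e (g'.1 a) = 0 := by
        conv_lhs => rw [← hge]
        rw [OQ_polar, hea]
      induction hs using Submodule.span_induction with
      | mem y hy =>
        obtain ⟨i, rfl⟩ := hy
        fin_cases i
        · exact (polar_comm Q v _).trans (hUv h1)
        · exact h2
      | zero => exact polar_zero_left _ _
      | add a b _ _ ha hb =>
        change polar Q _ _ = 0 at ha hb ⊢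
        rw [polar_add_left, ha, hb, add_zero]
      | smul c a _ ha =>
        change polar Q _ _ = 0 at ha ⊢
        rw [polar_smul_left, ha, smul_zero]
    have hgv : g'.1 v ∈ T := by
      rw [← LinearMap.BilinForm.orthogonal_orthogonal (polarBilin_nondeg hB) (polarBilin_refl Q) T]
      intro y hy
      obtain ⟨y', hy', rfl⟩ : y ∈ (OrthGen.perpSub Q T).map g'.1.toLinearMap := by
        rw [hmap]; exact hy
      show polar Q (g'.1 y') (g'.1 v) = 0
      rw [OQ_polar, polar_comm]
      exact hy' v (Submodule.subset_span ⟨0, rfl⟩)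
    obtain ⟨c, hc⟩ := (Submodule.mem_span_range_iff_exists_fun F).1 hgv
    rw [Fin.sum_univ_two] at hc
    simp only [Matrix.cons_val_zero, Matrix.cons_val_one] at hc
    have hcv : c 0 = 1 := by
      have h := OQ_map_app g' v
      rw [← hc, qf_add, QuadraticMap.map_smul, QuadraticMap.map_smul, he, polar_smul_left,
        polar_smul_right, polar_comm Q v e, hUv heU, smul_zero, smul_zero, smul_zero, add_zero,
        add_zero, smul_eq_mul] at h
      have hcc : c 0 * c 0 = 1 := mul_right_cancel₀ hv (by rw [h, one_mul])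
      have : (c 0 - 1) * (c 0 - 1) = 0 := by linear_combination hcc + (1 - c 0) * h2
      exact sub_eq_zero.1 (mul_self_eq_zero.1 this)
    rw [hcv, one_smul] at hc
    have hc1 : c 1 ≠ 0 := fun h => hg'v (by rw [← hc, h, zero_smul, add_zero])
    obtain ⟨s, hse, hsv⟩ := hsep e hev (-c 1)
    set k := siegel Q he hse with hk
    have hkv : k.1 v = g'.1 v := by
      rw [hk, siegel_apply, hUv heU, hsv, ← hc]
      simp
    refine ⟨s, ⟨hse, fun h => ?_⟩, by rw [hsv]; exact neg_ne_zero.2 hc1⟩
    have hkg : k⁻¹ * g' ∈ M := by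
      have hkC : k ∈ commutator (OQ Q) := by rw [hC]; exact siegel_mem_EQ Q he hse
      refine hM ⟨hfixmem ?_, (commutator (OQ Q)).mul_mem ((commutator (OQ Q)).inv_mem hkC) (hMK hg'M)⟩
      rw [Subgroup.coe_mul, LinearEquiv.mul_apply, ← hkv, ← LinearEquiv.mul_apply,
        ← Subgroup.coe_mul, inv_mul_cancel]
      rfl
    have := mul_mem hg'M (inv_mem hkg)
    rwa [mul_inv_rev, mul_inv_cancel_left, inv_inv] at this
  -- every value is attained
  have hfull : ∀ l : F, l ≠ 0 → ∃ a ∈ A, polar Q a v = l * polar Q a₁ v := by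
    intro l hl
    obtain ⟨f, hfU, hf, hef⟩ := exists_pair_in_perp hB heU hev he
    set T₂ := Submodule.span F (Set.range ![v, e, f]) with hT₂
    have hT₂3 : finrank F T₂ ≤ 3 :=
      (finrank_range_le_card (R := F) ![v, e, f]).trans_eq (Fintype.card_fin 3)
    obtain ⟨e₂, he₂S, he₂T, he₂⟩ := exists_singular_perp_outside hB (by omega) hv hvv he hef hf
      (hUv heU) (hUv hfU)
    obtain ⟨f₂, hf₂S, hf₂, hef₂⟩ := exists_pair_in_perp hB he₂S he₂T he₂
    have hperp : ∀ {y}, y ∈ OrthGen.perpSub Q T₂ →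
        y ∈ U ∧ polar Q e y = 0 ∧ polar Q f y = 0 := fun {y} hy =>
      ⟨hUmem ((polar_comm Q y v).trans (hy v (Submodule.subset_span ⟨0, rfl⟩))),
        hy e (Submodule.subset_span ⟨1, rfl⟩), hy f (Submodule.subset_span ⟨2, rfl⟩)⟩
    obtain ⟨he₂U, hee₂, hfe₂⟩ := hperp he₂S
    obtain ⟨hf₂U, hef₂', hff₂⟩ := hperp hf₂S
    have move : ∀ u y z, u ∈ U → y ∈ U → z ∈ U → Q u = 0 → Q y = 0 → Q z = 0 →
        polar Q u y = 1 → polar Q u z = 1 → ∃ m ∈ M, m.1 v = v ∧ m.1 y = z := by
      intro u y z huU hyU hzU hu hy hz huy huz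
      obtain ⟨ha, -, hmove⟩ := siegel_move hu (hy.trans hz.symm) huy huz
      obtain ⟨h1, h1'⟩ := hTU hu ha huU (U.sub_mem hzU hyU)
      exact ⟨_, h1, h1', hmove⟩
    have hp : Q (e + e₂) = 0 := by rw [qf_add, he, he₂, hee₂]; simp
    obtain ⟨m₁, hm₁, hm₁v, hm₁e⟩ := move f e (e + e₂) hfU heU (U.add_mem heU he₂U) hf he hp
      ((polar_comm Q f e).trans hef)
      (by rw [polar_add_right, hfe₂, add_zero, polar_comm, hef])
    obtain ⟨m₂, hm₂, hm₂v, hm₂e⟩ := move (l⁻¹ • f + (1 - l⁻¹) • f₂) (e + e₂) (l • e)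
      (U.add_mem (U.smul_mem _ hfU) (U.smul_mem _ hf₂U)) (U.add_mem heU he₂U) (U.smul_mem _ heU)
      (by rw [qf_add, QuadraticMap.map_smul, QuadraticMap.map_smul, hf, hf₂, polar_smul_left,
        polar_smul_right, hff₂]; simp)
      hp (by rw [QuadraticMap.map_smul, he, smul_zero])
      (by
        simp only [polar_add_left, polar_add_right, polar_smul_left, polar_comm Q f e, hef, hfe₂,
          polar_comm Q f₂ e, hef₂', polar_comm Q f₂ e₂, hef₂, smul_eq_mul]
        ring)
      (by
        simp only [polar_add_left, polar_smul_left, polar_smul_right, polar_comm Q f e, hef,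
          polar_comm Q f₂ e, hef₂', smul_eq_mul]
        field_simp
        ring)
    set mm := m₂ * m₁ with hm
    have hmM : mm ∈ M := mul_mem hm₂ hm₁
    have hmv : mm.1 v = v := by rw [hm, Subgroup.coe_mul, LinearEquiv.mul_apply, hm₁v, hm₂v]
    have hme : mm.1 e = l • e := by rw [hm, Subgroup.coe_mul, LinearEquiv.mul_apply, hm₁e, hm₂e]
    have hma : polar Q e (mm.1 a₁) = 0 := by
      have h := OQ_polar mm e a₁
      rw [hme, polar_smul_left, ha₁.1, smul_eq_mul, mul_eq_zero] at h
      exact h.resolve_left hl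
    refine ⟨l • mm.1 a₁, ⟨by rw [polar_smul_right, hma, smul_zero], fun h => ?_⟩, ?_⟩
    · have := mul_mem (mul_mem hmM (ha₁.2 ha₁.1)) (inv_mem hmM)
      rw [siegel_conj] at this
      have hle : polar Q (l • e) (mm.1 a₁) = 0 := by rw [polar_smul_left, hma, smul_zero]
      rw [siegel_congr Q _ _ (by rw [QuadraticMap.map_smul, he, smul_zero]) hle hme rfl,
        siegel_smul_left Q l he (hma) _ h] at this
      exact this
    · rw [polar_smul_left, smul_eq_mul]
      congr 1
      conv_lhs => rw [← hmv]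
      rw [OQ_polar]
  have heX : e ∈ siegelCentres Q M := ⟨he, fun a ha => by
    suffices haA : a ∈ A from haA.2 ha
    by_cases hav : polar Q a v = 0
    · exact hAU a (hUmem hav) ha
    obtain ⟨a', ha', ha'v⟩ := hfull (polar Q a v / polar Q a₁ v) (div_ne_zero hav ha₁v)
    rw [div_mul_cancel₀ _ ha₁v] at ha'v
    have hd := hAU (a - a') (hUmem (by rw [polar_sub_left, ha'v, sub_self]))
      (by rw [polar_sub_right, ha, ha'.1, sub_self])
    simpa using A.add_mem hd ha'⟩
  obtain ⟨f, hfU, hf, hef⟩ := exists_pair_in_perp hB heU hev he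
  set T₂ := Submodule.span F (Set.range ![v, e, f]) with hT₂
  have hT₂3 : finrank F T₂ ≤ 3 :=
    (finrank_range_le_card (R := F) ![v, e, f]).trans_eq (Fintype.card_fin 3)
  obtain ⟨e₂, he₂S, he₂T, he₂⟩ := exists_singular_perp_outside hB (by omega) hv hvv he hef hf
    (hUv heU) (hUv hfU)
  obtain ⟨f₂, hf₂S, hf₂, hef₂⟩ := exists_pair_in_perp hB he₂S he₂T he₂
  set b := e₂ + f₂ with hbdef
  have hbS : b ∈ OrthGen.perpSub Q T₂ := add_mem he₂S hf₂S
  have hbU : b ∈ U :=
    hUmem ((polar_comm Q b v).trans (hbS v (Submodule.subset_span ⟨0, rfl⟩)))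
  have hfb : polar Q f b = 0 := hbS f (Submodule.subset_span ⟨2, rfl⟩)
  have hbe : polar Q b e = 0 := (polar_comm Q b e).trans (hbS e (Submodule.subset_span ⟨1, rfl⟩))
  have hQb : Q b = 1 := by rw [hbdef, qf_add, he₂, hf₂, hef₂]; simp
  refine commutator_le_of_centre_pair hB (by omega) heX
    (map_mem_siegelCentres heX (hTU hf hfb hfU hbU).1) ?_
  rw [siegel_apply, polar_comm Q f e, hef, hQb, hbe]
  simp [polar_sub_left, polar_add_left, hee, hbe, polar_comm Q f e, hef]

section Matrices

variable {K : Type*} [Field K] [Finite K] {ι : Type} [Fintype ι] [DecidableEq ι]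

/-- Matrix form of `orth_point_maximal`. -/
theorem omegaGL_point_maximal {Q : (ι → K) → K} (hQ : IsNondegenerateQuadraticForm Q)
    (h2 : (2 : K) = 0) (hn : 10 ≤ Fintype.card ι) {v : ι → K} (hv : Q v ≠ 0) :
    IsMaximalIn (omegaGL Q) (subspaceStabilizer (Submodule.span K {v}) ⊓ omegaGL Q) := by
  have hfr : finrank K (ι → K) = Fintype.card ι := finrank_pi K
  have := isMaximalIn_map (oqToGL_injective (toQF hQ))
    (orth_point_maximal (bNondeg_toQF hQ) h2 (by omega) (v := v) hv)
  rwa [map_oqToGL_stabSub, map_oqToGL_commutator, coe_toQF] at this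

end Matrices

end Cfsg.Agent.GeoClasses
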