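import Cfsg.Agent.GeoClasses.OrthSubfieldParam

/-!
An irrational parameter gives the whole Eichler subgroup.
-/

set_option autoImplicit false

namespace Cfsg.Agent.GeoClasses.RatO

open QuadraticMap Module Cfsg.Agent.Classical
open Cfsg.Agent.MaxSub.SubfieldMax (lo up eq_top_of_unipotents)
open Cfsg.Agent.PSLTwoSub (mk22)
open scoped MatrixGroups Matrix

universe u

variable {F : Type u} [Field F] {ι : Type} [Fintype ι] [DecidableEq ι]
  {Q : QuadraticForm F (ι → F)} {M : Subgroup (OQ Q)} {F₀ : Subfield F} {R : Set (ι → F)}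

/-- An irrational parameter at a rational point gives the whole commutator subgroup. -/
theorem commutator_le_of_param [Fintype F] (hB : BNondeg Q) (hO : RatO Q F₀ R)
    (hn : 7 ≤ Fintype.card ι)
    (hK : ∀ (u a : ι → F) (hu : Q u = 0) (ha : polar Q u a = 0), u ∈ R → a ∈ R →
      siegel Q hu ha ∈ M)
    (hmid : ∀ L : Subfield F, F₀ ≤ L → L = F₀ ∨ L = ⊤) (hP : HasParam Q F₀ R M) :
    commutator (OQ Q) ≤ M := by
  classical
  obtain ⟨p, e, hpp0, hp, he, hp0, hne, hee0, hpe, κ, hκ, hκM⟩ := hP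
  have hep : polar Q e p = 0 := by rw [polar_comm, hpe]
  -- hyperbolic partners
  obtain ⟨y₁, hy₁, hey₁, hpy₁⟩ := dual_pair hB hO he hp hp0 hne (zero_mem _) (one_mem _)
  set pp := y₁ - Q y₁ • p with hppd
  have hppR : pp ∈ R := hO.set.sub hy₁ (hO.set.smul (hO.form hy₁) hp)
  have qpp : Q pp = 0 := by
    rw [hppd, qf_sub, QuadraticMap.map_smul, hpp0, polar_smul_right, polar_comm Q y₁ p, hpy₁]
    simp
  have hppp : polar Q p pp = 1 := by simp [hppd, hpy₁, polar_self, hpp0]
  have hepp : polar Q e pp = 0 := by simp [hppd, hey₁, hep]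
  obtain ⟨y₂, hy₂, hey₂, hpy₂⟩ := dual_pair hB hO he hp hp0 hne (one_mem _) (zero_mem _)
  set y₃ := y₂ - polar Q pp y₂ • p with hy₃d
  have hy₃ : y₃ ∈ R := hO.set.sub hy₂ (hO.set.smul (hO.polar_mem hppR hy₂) hp)
  set ee := y₃ - Q y₃ • e with heed
  have heeR : ee ∈ R := hO.set.sub hy₃ (hO.set.smul (hO.form hy₃) he)
  have hey₃ : polar Q e y₃ = 1 := by simp [hy₃d, hey₂, hep]
  have qee : Q ee = 0 := by
    rw [heed, qf_sub, QuadraticMap.map_smul, hee0, polar_smul_right, polar_comm Q y₃ e, hey₃]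
    simp
  have heee : polar Q e ee = 1 := by simp [heed, hey₃, polar_self, hee0]
  have hpee : polar Q p ee = 0 := by simp [heed, hy₃d, hpy₂, polar_self, hpp0, hpe]
  have hppee : polar Q pp ee = 0 := by
    simp [heed, hy₃d, polar_comm Q pp p, hppp, polar_comm Q pp e, hepp]
  have pp1 : polar Q pp p = 1 := by rw [polar_comm, hppp]
  have ppe : polar Q pp e = 0 := by rw [polar_comm, hepp]
  have eee : polar Q ee e = 1 := by rw [polar_comm, heee]
  have eep : polar Q ee p = 0 := by rw [polar_comm, hpee]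
  have eepp : polar Q ee pp = 0 := by rw [polar_comm, hppee]
  have s_p : polar Q p p = 0 := by simp [polar_self, hpp0]
  have s_e : polar Q e e = 0 := by simp [polar_self, hee0]
  have s_pp : polar Q pp pp = 0 := by simp [polar_self, qpp]
  have s_ee : polar Q ee ee = 0 := by simp [polar_self, qee]
  -- `SL₂` in `M`
  let Φ : SL(2, F) → (ι → F) → (ι → F) := fun g w => w +
    (polar Q w pp * (g.1 0 0 - 1) + polar Q w e * g.1 0 1) • p +
    (polar Q w pp * g.1 1 0 + polar Q w e * (g.1 1 1 - 1)) • ee +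
    (polar Q w ee * (g.1 0 0 - 1) - polar Q w p * g.1 0 1) • e -
    (polar Q w ee * g.1 1 0 - polar Q w p * (g.1 1 1 - 1)) • pp
  let N : Submonoid SL(2, F) :=
    { carrier := {g | ∃ h ∈ M, ∀ w, h.1 w = Φ g w}
      one_mem' := ⟨1, one_mem M, fun w => by simp [Φ]⟩
      mul_mem' := by
        rintro a b ⟨h, hh, eh⟩ ⟨g, hg, eg⟩
        refine ⟨h * g, mul_mem hh hg, fun w => ?_⟩
        rw [Subgroup.coe_mul, LinearEquiv.mul_apply, eg, eh]
        simp only [Φ, polar_add_left, polar_sub_left, polar_smul_left, smul_eq_mul,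
          s_p, s_e, s_pp, s_ee, hppp, pp1, hpe, hep, hpee, eep, hepp, ppe, heee, eee, hppee, eepp,
          Matrix.SpecialLinearGroup.coe_mul, Matrix.mul_apply, Fin.sum_univ_two]
        match_scalars <;> ring }
  let N' : Subgroup SL(2, F) :=
    { N with
      inv_mem' := fun {g} hg => by
        rw [inv_eq_iff_eq_inv.2 (show g = (g ^ (orderOf g - 1))⁻¹ from eq_inv_of_mul_eq_one_left (by
          rw [← pow_succ', Nat.sub_add_cancel (orderOf_pos g), pow_orderOf_eq_one]))]
        exact N.pow_mem hg _ }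
  have hN : N' = ⊤ := by
    refine eq_top_of_unipotents F₀ hmid N' (l := 1) (m₁ := -1) (m₂ := -κ) one_ne_zero
      (neg_ne_zero.2 one_ne_zero) (by rwa [neg_div_neg_eq, div_one]) ?_ ?_ ?_
    · intro a ha
      have h0 : polar Q pp (a • ee) = 0 := by simp [hppee]
      refine ⟨_, hK pp (a • ee) qpp h0 hppR (hO.set.smul ha heeR), fun w => ?_⟩
      rw [siegel_apply]
      simp [Φ, lo, QuadraticMap.map_smul, qee, polar_comm Q w pp, polar_comm Q w ee]
      module
    · intro a ha
      have h0 : polar Q p (a • e) = 0 := by simp [hpe]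
      refine ⟨_, hK p (a • e) hpp0 h0 hp (hO.set.smul ha he), fun w => ?_⟩
      rw [siegel_apply]
      simp [Φ, up, QuadraticMap.map_smul, hee0, polar_comm Q w p, polar_comm Q w e]
      module
    · intro a ha
      obtain ⟨h0, hmem⟩ := hκM a ha
      refine ⟨_, hmem, fun w => ?_⟩
      rw [siegel_apply]
      simp [Φ, up, QuadraticMap.map_smul, hee0, polar_comm Q w p, polar_comm Q w e]
      module
  set A := siegParams M hpp0
  have hAe : ∀ c : F, c • e ∈ A := by
    intro c
    have h0 : polar Q p (c • e) = 0 := by simp [hpe]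
    obtain ⟨h, hh, eh⟩ : up (-c) ∈ N' := by rw [hN]; trivial
    refine ⟨h0, ?_⟩
    convert hh using 1
    refine Subtype.ext (LinearEquiv.ext fun w => ?_)
    rw [siegel_apply, eh]
    simp [Φ, up, QuadraticMap.map_smul, hee0, polar_comm Q w p, polar_comm Q w e]
    module
  -- rational vectors orthogonal to both pairs
  set π : (ι → F) →ₗ[F] (ι → F) := LinearMap.id - (polarBilin Q pp).smulRight p
    - (polarBilin Q p).smulRight pp - (polarBilin Q ee).smulRight e
    - (polarBilin Q e).smulRight ee with hπd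
  have hπ : ∀ v, π v = v - polar Q pp v • p - polar Q p v • pp - polar Q ee v • e
      - polar Q e v • ee := fun v => by simp [hπd]
  have hπR : ∀ v ∈ R, π v ∈ R := fun v hv => by
    rw [hπ]
    exact hO.set.sub (hO.set.sub (hO.set.sub (hO.set.sub hv
      (hO.set.smul (hO.polar_mem hppR hv) hp)) (hO.set.smul (hO.polar_mem hp hv) hppR))
      (hO.set.smul (hO.polar_mem heeR hv) he)) (hO.set.smul (hO.polar_mem he hv) heeR)
  have hπp : ∀ v, polar Q p (π v) = 0 ∧ polar Q pp (π v) = 0 ∧ polar Q e (π v) = 0 ∧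
      polar Q ee (π v) = 0 := fun v => by
    simp [hπ, s_p, s_e, s_pp, s_ee, hppp, pp1, hpe, hep, hpee, eep, hepp, ppe, heee, eee, hppee,
      eepp]
  have hAπ : ∀ v ∈ R, ∀ c : F, c • π v ∈ A := by
    intro v hv c
    rcases eq_or_ne c 0 with rfl | hc
    · rw [zero_smul]; exact zero_mem _
    obtain ⟨h1, h2, h3, h4⟩ := hπp v
    have hm : π v ∈ A := ⟨h1, hK p _ hpp0 h1 hp (hπR v hv)⟩
    obtain ⟨h, hh, eh⟩ : mk22 c 0 0 c⁻¹ (by rw [mul_inv_cancel₀ hc]; ring) ∈ N' := by
      rw [hN]; trivial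
    have hhp : h.1 p = c • p := by
      rw [eh]; simp [Φ, Cfsg.Agent.PSLTwoSub.coe_mk22, hppp, hpe, hpee, s_p]
      module
    have hhy : h.1 (π v) = π v := by
      rw [eh]
      simp [Φ, polar_comm Q (π v), h1, h2, h3, h4]
    have hcp : Q (c • p) = 0 := by simp [QuadraticMap.map_smul, hpp0]
    obtain ⟨h5, h6⟩ := siegParams_congr hcp hhp (map_mem_siegParams hm hh (by rw [hhp, hcp]))
    rw [hhy] at h5
    refine ⟨by simp [h1], ?_⟩
    rw [← siegel_smul_left Q c hpp0 h1 hcp (by simp [h1]) h5]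
    convert h6 using 1
    exact siegel_congr Q _ _ _ _ rfl hhy.symm
  obtain ⟨b, hb, hbb⟩ : ∃ b ∈ R, π b = b ∧ Q b ≠ 0 := by
    obtain ⟨e₀, he₀, he₀0, hee₀, hs⟩ := exists_sing_perp hB hO (k := 4) (by omega) ![p, pp, e, ee]
      (by intro i; fin_cases i <;> simp [hp, hppR, he, heeR])
    simp [Fin.forall_fin_succ] at hs
    obtain ⟨h1, h2, h3, h4⟩ := hs
    obtain ⟨y, hy, hey⟩ := dual_single hB hO he₀ he₀0
    obtain ⟨g1, g2, g3, g4⟩ := hπp y
    have h5 : polar Q e₀ (π y) = 1 := by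
      simp [hπ, hey, polar_comm Q e₀ p, h1, polar_comm Q e₀ pp, h2, polar_comm Q e₀ e, h3,
        polar_comm Q e₀ ee, h4]
    have hπ0 : π e₀ = e₀ := by simp [hπ, h1, h2, h3, h4]
    have hπy : π (π y) = π y := by rw [hπ (π y), g1, g2, g3, g4]; simp
    by_cases hq : Q (π y) = 0
    · refine ⟨π y + e₀, hO.set.add (hπR y hy) he₀, by rw [map_add, hπy, hπ0], ?_⟩
      rw [qf_add, hq, hee₀, polar_comm, h5]
      simp
    · exact ⟨π y, hπR y hy, hπy, hq⟩
  obtain ⟨hbπ, hbq⟩ := hbb
  obtain ⟨b1, b2, b3, b4⟩ := hπp b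
  rw [hbπ] at b1 b2 b3 b4
  have hAee : ∀ c : F, c • ee ∈ A := by
    intro c
    have hb4 : polar Q ee b = 0 := b4
    have hT := hK ee b qee hb4 heeR hb
    set T := siegel Q qee hb4 with hTd
    have hTp : T.1 p = p := siegel_fix Q qee hb4 eep (by rw [polar_comm, b1])
    have hTe : T.1 e = e + b - Q b • ee := by
      rw [hTd, siegel_apply, eee, polar_comm Q b e, b3]
      simp
    have h1 : ∀ d : F, d • (e + b - Q b • ee) ∈ A := fun d => by
      have := siegParams_congr hpp0 hTp (map_mem_siegParams (hAe d) hT (by rw [hTp, hpp0]))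
      rwa [map_smul, hTe] at this
    have h2 := sub_mem (add_mem (hAe (c / Q b)) (hAπ b hb (c / Q b))) (h1 (c / Q b))
    convert h2 using 1
    rw [hbπ]
    match_scalars <;> field_simp <;> ring
  have hpC : p ∈ siegelCentres Q M := by
    refine ⟨hpp0, fun a ha => ?_⟩
    let S : Submodule F (ι → F) :=
      { carrier := {v | ∀ c : F, c • π v ∈ A}
        zero_mem' := fun c => by simp
        add_mem' := fun hu hv c => by rw [map_add, smul_add]; exact add_mem (hu c) (hv c)
        smul_mem' := fun d v hv c => by rw [map_smul, smul_smul]; exact hv _ }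
    have hS : S = ⊤ := top_le_iff.1 (hO.set.span ▸ Submodule.span_le.2 hAπ)
    have h1 : a ∈ S := by rw [hS]; trivial
    have h2 := add_mem (add_mem (add_mem (h1 1) (smul_self_mem_siegParams (M := M) hpp0
      (polar Q pp a))) (hAe (polar Q ee a))) (hAee (polar Q e a))
    have h3 : a ∈ A := by
      convert h2 using 1
      rw [hπ, ha]
      module
    exact h3.choose_spec
  have hpb : polar Q pp b = 0 := b2
  have hp' := map_mem_siegelCentres hpC (hK pp b qpp hpb hppR hb)
  have hne' : polar Q ((siegel Q qpp hpb).1 p) p ≠ 0 := by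
    rw [siegel_apply, pp1, polar_comm Q b p, b1]
    simp [s_p, pp1, polar_comm Q b p, b1, hbq]
  have hn5 : 5 ≤ finrank F (ι → F) := by rw [Module.finrank_fintype_fun_eq_card]; omega
  rw [commutator_eq_EQ hB hn5]
  exact EQ_le_of_siegel_pair hB hn5 hpC hp' hne'

end Cfsg.Agent.GeoClasses.RatO
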