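import Cfsg.Agent.GeoClasses.OrthSubfieldMove
import Cfsg.Agent.GeoClasses.OrthSubfieldCentre
import Cfsg.Agent.GeoClasses.SympSubfield
import Cfsg.Agent.OrthMax.ProperBlocks

/-!
Subfield groups of prime index are maximal in orthogonal groups.
-/

set_option autoImplicit false

namespace Cfsg.Agent.GeoClasses

open QuadraticMap Module Cfsg.Agent.Classical
open scoped MatrixGroups Matrix

universe u

variable {F : Type u} [Field F] {ι : Type} [Fintype ι] [DecidableEq ι]

namespace RatO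

variable {Q : QuadraticForm F (ι → F)} {M : Subgroup (OQ Q)} {F₀ : Subfield F} {R : Set (ι → F)}
  (hB : BNondeg Q) (hO : RatO Q F₀ R)
include hB hO

lemma scalar_mem {r : ι → F} (hr : r ∈ R) (hr0 : r ≠ 0) {s : F} (hsr : s • r ∈ R) : s ∈ F₀ := by
  obtain ⟨y, hy, hry⟩ := dual_single hB hO hr hr0
  have := hO.polar_mem hy hsr
  rwa [polar_smul_right, polar_comm, hry, smul_eq_mul, mul_one] at this

/-- An element of an overgroup keeps the rational vectors up to a scalar. -/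
lemma semirational [Fintype F] (hn : 7 ≤ Fintype.card ι)
    (hK : ∀ (u a : ι → F) (hu : Q u = 0) (ha : polar Q u a = 0), u ∈ R → a ∈ R →
      siegel Q hu ha ∈ M)
    (hmid : ∀ L : Subfield F, F₀ ≤ L → L = F₀ ∨ L = ⊤) (hnp : ¬ HasParam Q F₀ R M)
    {g : OQ Q} (hg : g ∈ M) : ∃ c : F, c ≠ 0 ∧ ∀ z ∈ R, c • g.1 z ∈ R := by
  classical
  -- conjugates of rational Siegel transformations preserve the rational vectors
  have hω : ∀ u ∈ R, ∀ a ∈ R, Q u = 0 → Q a = 0 → polar Q u a = 0 → ∀ z ∈ R,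
      polar Q (g.1 u) z • g.1 a - polar Q (g.1 a) z • g.1 u ∈ R := by
    intro u hu a ha huu haa hua z hz
    by_contra hc
    refine hnp (param_of_pair hB hO hn hK hmid (x₁ := g.1 u) (x₂ := g.1 a) (by rw [OQ_map_app, huu])
      (by rw [OQ_map_app, haa]) (by rw [OQ_polar, hua]) (fun s hs => ?_) hz fun h => hc ?_)
    · have h0 : polar Q u (s • a) = 0 := by simp [hua]
      have := map_mem_siegParams (hu := huu) ⟨h0, hK u (s • a) huu h0 hu (hO.set.smul hs ha)⟩ hg
        (by rw [OQ_map_app, huu])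
      rwa [map_smul] at this
    · convert hO.set.sub h hz using 1
      module
  -- singular rational vectors go to rational lines
  have hline : ∀ u ∈ R, Q u = 0 → u ≠ 0 → ∃ c : F, c ≠ 0 ∧ c • g.1 u ∈ R := by
    intro u hu huu hu0
    obtain ⟨pu, hpu, hupu⟩ := dual_single hB hO hu hu0
    obtain ⟨a, ha, f, hf, haa, hff, haf, hua, huf⟩ := exists_pair_perp hB hO hn hu hu0
    obtain ⟨b, hb, hb0, hbb, hs⟩ := exists_sing_perp hB hO (k := 4) (by omega) ![u, pu, a, f]
      (by intro i; fin_cases i <;> simp [hu, hpu, ha, hf])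
    simp [Fin.forall_fin_succ] at hs
    obtain ⟨hub, hpub, hab, hfb⟩ := hs
    have hind : Indep3 u a b := fun x y w h => by
      have h1 := congrArg (polarBilin Q f) h
      simp [polar_comm Q f u, huf, polar_comm Q f a, haf, hfb] at h1
      subst h1
      have h2 := congrArg (polarBilin Q pu) h
      simp [polar_comm Q pu u, hupu, hpub] at h2
      subst h2
      simp at h
      exact ⟨rfl, rfl, h.resolve_right hb0⟩
    have hgu0 : g.1 u ≠ 0 := fun h => hu0 (g.1.injective (by rw [h, map_zero]))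
    obtain ⟨z₁, hz₁, hα⟩ := hO.set.exists_ne (polarBilin Q (g.1 u)) fun h0 =>
      hgu0 (hB _ fun y => LinearMap.congr_fun h0 y)
    rw [polarBilin_apply_apply] at hα
    set α₁ := polar Q (g.1 u) z₁ with hα₁
    set β₁ := polar Q (g.1 a) z₁ with hβ₁
    set r₁ := α₁ • g.1 a - β₁ • g.1 u with hr₁
    have hr₁R : r₁ ∈ R := hω u hu a ha huu haa hua z₁ hz₁
    have hindg : Indep3 (g.1 u) (g.1 a) (g.1 b) := fun x y w h => hind x y w (g.1.injective (by
      simpa [map_add, map_smul] using h))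
    have hr₁0 : r₁ ≠ 0 := fun h => hα (hindg (-β₁) α₁ 0 (by rw [← h, hr₁]; module)).2.1
    obtain ⟨z₂, hz₂, hD⟩ := hO.set.exists_ne (polarBilin Q r₁) fun h0 =>
      hr₁0 (hB _ fun y => LinearMap.congr_fun h0 y)
    rw [polarBilin_apply_apply] at hD
    set α₂ := polar Q (g.1 u) z₂ with hα₂
    set β₂ := polar Q (g.1 a) z₂ with hβ₂
    set r₂ := α₂ • g.1 a - β₂ • g.1 u with hr₂
    have hr₂R : r₂ ∈ R := hω u hu a ha huu haa hua z₂ hz₂
    have hDv : polar Q r₁ z₂ = α₁ * β₂ - β₁ * α₂ := by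
      simp [hr₁, ← hα₂, ← hβ₂]
    rw [hDv] at hD
    have hr₂n : r₁ ∉ F ∙ r₂ := fun h => by
      obtain ⟨t, ht⟩ := Submodule.mem_span_singleton.1 h
      obtain ⟨h1, h2, -⟩ := hindg (-(t * β₂) + β₁) (t * α₂ - α₁) 0 (by
        rw [hr₂, hr₁, ← sub_eq_zero] at ht
        rw [← ht]; module)
      exact hD (by linear_combination (-β₂) * h2 - α₂ * h1)
    have hr₂0 : r₂ ≠ 0 := fun h => by
      obtain ⟨h1, h2, -⟩ := hindg (-β₂) α₂ 0 (by rw [← h, hr₂]; module)
      exact hD (by linear_combination α₁ * (-h1) - β₁ * h2)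
    obtain ⟨d₁, hd₁, h11, h21⟩ := dual_pair hB hO hr₁R hr₂R hr₂0 hr₂n (one_mem _) (zero_mem _)
    obtain ⟨d₂, hd₂, h12, h22⟩ := dual_pair hB hO hr₁R hr₂R hr₂0 hr₂n (zero_mem _) (one_mem _)
    obtain ⟨z, hz, hr₁z, hr₂z, hbz⟩ : ∃ z ∈ R, polar Q r₁ z = 0 ∧ polar Q r₂ z = 0 ∧
        polar Q (g.1 b) z ≠ 0 := by
      by_contra hc
      push Not at hc
      set v := g.1 b - polar Q (g.1 b) d₁ • r₁ - polar Q (g.1 b) d₂ • r₂ with hv
      have hv0 : v = 0 := by
        by_contra hv0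
        obtain ⟨z, hz, hzv⟩ := hO.set.exists_ne (polarBilin Q v) fun h0 =>
          hv0 (hB _ fun y => LinearMap.congr_fun h0 y)
        apply hzv
        have h := hc (z - polar Q r₁ z • d₁ - polar Q r₂ z • d₂)
          (hO.set.sub (hO.set.sub hz (hO.set.smul (hO.polar_mem hr₁R hz) hd₁))
            (hO.set.smul (hO.polar_mem hr₂R hz) hd₂)) (by simp [h11, h12]) (by simp [h21, h22])
        simp at h
        simp [hv]
        linear_combination h
      have := (hindg (polar Q (g.1 b) d₁ * β₁ + polar Q (g.1 b) d₂ * β₂)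
        (-(polar Q (g.1 b) d₁ * α₁ + polar Q (g.1 b) d₂ * α₂)) 1 (by
          rw [← hv0, hv, hr₁, hr₂]; module)).2.2
      exact one_ne_zero this
    have huz : polar Q (g.1 u) z = 0 := by
      simp [hr₁, hr₂] at hr₁z hr₂z
      refine (mul_eq_zero.1 ?_).resolve_left hD
      linear_combination α₂ * hr₁z - α₁ * hr₂z
    refine ⟨-polar Q (g.1 b) z, neg_ne_zero.2 hbz, ?_⟩
    convert hω u hu b hb huu hbb hub z hz using 1
    rw [huz]; module
  -- one multiplier
  have hstep : ∀ c : F, c ≠ 0 → ∀ u ∈ R, ∀ a ∈ R, Q u = 0 → Q a = 0 → polar Q u a = 0 → u ≠ 0 →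
      c • g.1 u ∈ R → c • g.1 a ∈ R := by
    intro c hc0 u hu a ha huu haa hua hu0 hcu
    by_cases hau : a ∈ F ∙ u
    · obtain ⟨s, rfl⟩ := Submodule.mem_span_singleton.1 hau
      rw [map_smul, smul_comm]
      exact hO.set.smul (scalar_mem hB hO hu hu0 ha) hcu
    have ha0 : a ≠ 0 := fun h => hau (h ▸ zero_mem _)
    obtain ⟨d, hd0, hda⟩ := hline a ha haa ha0
    have hne : u + a ≠ 0 := fun h => hau (by
      rw [eq_neg_of_add_eq_zero_right h]
      exact neg_mem (Submodule.mem_span_singleton_self u))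
    obtain ⟨e, he0, hea⟩ := hline (u + a) (hO.set.add hu ha)
      (by rw [qf_add, huu, haa, hua]; simp) hne
    have hn1 : c • g.1 u ≠ 0 :=
      smul_ne_zero hc0 fun h => hu0 (g.1.injective (by rw [h, map_zero]))
    have hn2 : d • g.1 a ∉ F ∙ (c • g.1 u) := fun h => hau (by
      obtain ⟨s, hs⟩ := Submodule.mem_span_singleton.1 h
      refine Submodule.mem_span_singleton.2 ⟨s * c / d, g.1.injective ?_⟩
      rw [map_smul, ← smul_right_injective (ι → F) hd0 |>.eq_iff]
      rw [← hs, smul_smul, smul_smul]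
      congr 1
      field_simp)
    obtain ⟨y₁, hy₁, h1a, h1u⟩ := dual_pair hB hO hda hcu hn1 hn2 (zero_mem _) (one_mem _)
    obtain ⟨y₂, hy₂, h2a, h2u⟩ := dual_pair hB hO hda hcu hn1 hn2 (one_mem _) (zero_mem _)
    rw [polar_smul_left, smul_eq_mul] at h1a h1u h2a h2u
    have ga1 : polar Q (g.1 a) y₁ = 0 := (mul_eq_zero.1 h1a).resolve_left hd0
    have gu2 : polar Q (g.1 u) y₂ = 0 := (mul_eq_zero.1 h2u).resolve_left hc0
    have h3 := hO.polar_mem hea hy₁
    have h4 := hO.polar_mem hea hy₂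
    rw [map_add, polar_smul_left, polar_add_left, ga1, add_zero, smul_eq_mul] at h3
    rw [map_add, polar_smul_left, polar_add_left, gu2, zero_add, smul_eq_mul] at h4
    have h5 : c / d ∈ F₀ := by
      convert div_mem h4 h3 using 1
      rw [eq_div_iff (mul_ne_zero he0 (right_ne_zero_of_mul (h1u.symm ▸ one_ne_zero)))]
      field_simp
      linear_combination h1u - h2a
    convert hO.set.smul h5 hda using 1
    rw [smul_smul, div_mul_cancel₀ _ hd0]
  obtain ⟨u₀, hu₀, hu₀0, huu₀, -⟩ := exists_sing_perp hB hO (k := 0) (by omega) ![]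
    (fun i => i.elim0)
  obtain ⟨f₀, hf₀, hff₀, huf₀⟩ := exists_sing_partner hB hO hu₀ hu₀0 huu₀
  obtain ⟨c, hc0, hcu⟩ := hline u₀ hu₀ huu₀ hu₀0
  refine ⟨c, hc0, fun z hz => sing_induction hO (p := 0) (S := fun w => c • g.1 w ∈ R) hu₀ hf₀ huu₀
    hff₀ huf₀ (by simp) (by simp) (fun x y hx hy => by rw [map_add, smul_add]; exact hO.set.add hx hy)
    (fun s hs x hx => by rw [map_smul, smul_comm]; exact hO.set.smul hs hx)
    (fun w hw hww _ => ?_) hz (by simp)⟩
  obtain ⟨m, hm, hm0, hmm, hs⟩ := exists_sing_perp hB hO (k := 2) (by omega) ![u₀, w]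
    (by simp [Fin.forall_fin_two, hu₀, hw])
  simp [Fin.forall_fin_two] at hs
  exact hstep c hc0 m hm w hw hmm hww (by rw [polar_comm, hs.2]) hm0
    (hstep c hc0 u₀ hu₀ m hm huu₀ hmm hs.1 hu₀0 hcu)

end RatO

open Cfsg.Geo

/-- Subfield groups of prime index are maximal in `Ω(Q)`. -/
theorem omegaGL_subfield_maximal [Fintype F] {Q : (ι → F) → F} (hQ : IsNondegenerateQuadraticForm Q)
    (hn : 7 ≤ Fintype.card ι) {F₀ : Subfield F} {r : ℕ} (hr : r.Prime)
    (hcard : Fintype.card F = Nat.card F₀ ^ r) (P : GL ι F)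
    (hP : IsQuadFormRationalStructure Q F₀ P) :
    IsMaximalIn (omegaGL Q) (subfieldSubgroup F₀ P ⊓ omegaGL Q) := by
  classical
  set Qf := toQF hQ with hQf
  have hB : BNondeg Qf := bNondeg_toQF hQ
  set j := oqToGL Qf
  have hΩ : (commutator (OQ Qf)).map j = omegaGL Q := map_oqToGL_commutator Qf
  set K := (subfieldSubgroup F₀ P).comap j ⊓ commutator (OQ Qf) with hKd
  have hΩr : omegaGL Q ≤ j.range := by rw [← hΩ]; exact Subgroup.map_le_range j _
  have hKm : K.map j = subfieldSubgroup F₀ P ⊓ omegaGL Q := by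
    rw [hKd, Subgroup.map_inf _ _ _ (oqToGL_injective Qf), Subgroup.map_comap_eq, hΩ,
      inf_comm j.range, inf_assoc, inf_eq_right.2 hΩr]
  rw [← hKm, ← hΩ]
  refine isMaximalIn_map (oqToGL_injective Qf)
    ⟨lt_of_le_not_ge inf_le_right fun hle => ?_, fun M hM hMK => ?_⟩
  · refine OrthMax.omega_not_le_subfieldSubgroup hB hn (MaxSub.subfield_ne_top hr hcard) P ?_
    rw [hQf, coe_toQF, ← hΩ, Subgroup.map_le_iff_le_comap]
    exact hle.trans inf_le_left
  have hmid := MaxSub.SubfieldMax.mid_of_prime hr hcard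
  set R := rationalVecs F₀ P with hR
  have hO : RatO Qf F₀ R := ⟨ratSet_rationalVecs F₀ P, fun {x} hx => by
    have := hP _ hx
    rw [gl_mulVec_inv] at this
    exact this⟩
  have hcol : ∀ i, (P : Matrix ι ι F) *ᵥ Pi.single i 1 ∈ R := fun i k => by
    show (((P⁻¹ : GL ι F) : Matrix ι ι F) *ᵥ _) k ∈ F₀
    rw [gl_inv_mulVec]
    by_cases h : k = i <;> simp [h]
  have hsemi : ∀ (g : OQ Qf) (c : F), c ≠ 0 → (∀ z ∈ R, c • g.1 z ∈ R) →
      j g ∈ subfieldSubgroup F₀ P := by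
    intro g c hc h
    refine mem_subfieldSubgroup_of_ratio (a := c⁻¹) (inv_ne_zero hc) fun i k => ?_
    have h3 : ((P⁻¹ * j g * P : GL ι F) : Matrix ι ι F) i k =
        (((P⁻¹ : GL ι F) : Matrix ι ι F) *ᵥ g.1 ((P : Matrix ι ι F) *ᵥ Pi.single k 1)) i := by
      rw [← oqToGL_mulVec, ← mulVec_conj_col]
      simp [j]
    have h4 := h _ (hcol k) i
    rw [Matrix.mulVec_smul, Pi.smul_apply, smul_eq_mul] at h4
    rwa [h3, inv_inv]
  have hC : commutator (OQ Qf) = EQ Qf :=
    commutator_eq_EQ hB (by rw [Module.finrank_fintype_fun_eq_card]; omega)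
  have hKs : ∀ (u a : ι → F) (hu : Qf u = 0) (ha : polar Qf u a = 0), u ∈ R → a ∈ R →
      siegel Qf hu ha ∈ M := fun u a hu ha huR haR => by
    refine hM ⟨hsemi _ 1 one_ne_zero fun z hz => ?_, hC ▸ siegel_mem_EQ Qf hu ha⟩
    rw [one_smul, siegel_apply]
    exact hO.set.sub (hO.set.sub (hO.set.add hz (hO.set.smul (hO.polar_mem huR hz) haR))
      (hO.set.smul (hO.polar_mem haR hz) huR))
      (hO.set.smul (mul_mem (hO.form haR) (hO.polar_mem huR hz)) huR)
  by_cases hp : HasParam Qf F₀ R M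
  · exact Or.inr (le_antisymm hMK (RatO.commutator_le_of_param hB hO hn hKs hmid hp))
  left
  refine le_antisymm (fun g hg => ⟨?_, hMK hg⟩) hM
  obtain ⟨c, hc, h⟩ := RatO.semirational hB hO hn hKs hmid hp hg
  exact hsemi g c hc h

/-- Proportional forms have the same `Ω`. -/
lemma omegaGL_const_mul {Q : (ι → F) → F} {ζ : F} (hζ : ζ ≠ 0) :
    omegaGL (fun v : ι → F => ζ * Q v) = omegaGL Q := by
  have h : Cfsg.isometryGroup F (fun v : ι → F => ζ * Q v) = Cfsg.isometryGroup F Q := by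
    ext g
    simp [Cfsg.isometryGroup, Cfsg.preserving, hζ]
  exact congrArg (fun S : Subgroup (GL ι F) => (commutator S).map S.subtype) h

end Cfsg.Agent.GeoClasses
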