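import Cfsg.Agent.GeoClasses.SympSubfieldRat

/-!
Overgroups of a symplectic group over a subfield of prime index.
-/

set_option autoImplicit false

namespace Cfsg.Agent.GeoClasses

open Matrix Cfsg.Geo Cfsg.Agent.Forms Cfsg.Agent.ClassicalMax Module
open Cfsg.Agent.MaxSub.SubfieldMax (lo up eq_top_of_unipotents)
open Cfsg.Agent.PSLTwoSub (mk22)
open scoped MatrixGroups Matrix

universe u

variable {F : Type u} [Field F] {m : ℕ} {M : Subgroup (GL (Fin m ⊕ Fin m) F)}

lemma spTau_conj_mem (hMK : M ≤ Cfsg.spGL m F) {g : GL (Fin m ⊕ Fin m) F} (hg : g ∈ M)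
    {v : Fin m ⊕ Fin m → F} {c : F} (hv : spTau v c ∈ M) :
    spTau ((g : Matrix (Fin m ⊕ Fin m) (Fin m ⊕ Fin m) F) *ᵥ v) c ∈ M := by
  convert mul_mem (mul_mem hg hv) (inv_mem hg) using 1
  refine gl_ext_mulVec fun x => ?_
  have := mem_spGL_iff.1 (hMK hg) (((g⁻¹ : GL (Fin m ⊕ Fin m) F) : Matrix _ _ F) *ᵥ x) v
  rw [mulVec_inv_cancel] at this
  simp only [Units.val_mul, ← Matrix.mulVec_mulVec, spTau_apply, Matrix.mulVec_add,
    Matrix.mulVec_smul, mulVec_inv_cancel, this]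

lemma spTau_mul (v : Fin m ⊕ Fin m → F) (c d : F) : spTau v c * spTau v d = spTau v (c + d) := by
  refine gl_ext_mulVec fun x => ?_
  simp only [Units.val_mul, ← Matrix.mulVec_mulVec, spTau_apply, map_add, map_smul,
    LinearMap.add_apply, LinearMap.smul_apply, smul_eq_mul, sympBil_isAlt.self_eq_zero]
  module

/-- The parameters at one centre. -/
def spParams (M : Subgroup (GL (Fin m ⊕ Fin m) F)) (v : Fin m ⊕ Fin m → F) : AddSubgroup F where
  carrier := {c | spTau v c ∈ M}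
  zero_mem' := by
    show spTau v 0 ∈ M
    convert one_mem M using 1
    refine gl_ext_mulVec fun x => ?_
    rw [spTau_apply]; simp
  add_mem' := fun {a b} (ha : spTau v a ∈ M) (hb : spTau v b ∈ M) => by
    show spTau v (a + b) ∈ M
    rw [← spTau_mul]; exact mul_mem ha hb
  neg_mem' := fun {a} (ha : spTau v a ∈ M) => by
    show spTau v (-a) ∈ M
    have h : spTau v a * spTau v (-a) = 1 := by
      rw [spTau_mul, add_neg_cancel]
      refine gl_ext_mulVec fun x => ?_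
      rw [spTau_apply]; simp
    rw [eq_inv_of_mul_eq_one_right h]
    exact inv_mem ha

variable {F₀ : Subfield F} {ζ : F} {R : Set (Fin m ⊕ Fin m → F)} (hR : RatSp F₀ ζ R)
  (hMK : M ≤ Cfsg.spGL m F) (hT : ∀ v ∈ R, ∀ a ∈ F₀, spTau v (a * ζ) ∈ M)
include hR hMK hT

omit hMK hT in
lemma ratTau_map {v x : Fin m ⊕ Fin m → F} {a : F} (hv : v ∈ R) (ha : a ∈ F₀) (hx : x ∈ R) :
    x + (a * ζ * sympBil m F x v) • v ∈ R :=
  hR.add hx (hR.smul (by rw [mul_assoc]; exact mul_mem ha (hR.form hx hv)) hv)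

/-- Moving the second vector of an isotropic plane. -/
lemma plane_move {p : Fin m ⊕ Fin m → F} (hp : p ∈ R) (hp0 : p ≠ 0) {a b c : F}
    {e f : Fin m ⊕ Fin m → F} (he : e ∈ R) (hf : f ∈ R) (hep : sympBil m F e p = 0)
    (hfp : sympBil m F f p = 0) (hne : e ∉ F ∙ p) (hnf : f ∉ F ∙ p)
    (hmem : spTau (a • p + b • e) c ∈ M) : spTau (a • p + b • f) c ∈ M := by
  have step : ∀ e f : Fin m ⊕ Fin m → F, e ∈ R → f ∈ R → sympBil m F e p = 0 →
      sympBil m F f p = 0 → sympBil m F e f ≠ 0 → spTau (a • p + b • e) c ∈ M →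
      spTau (a • p + b • f) c ∈ M := by
    intro e f he hf hep hfp hef hm
    have hd : sympBil m F e (f - e) ≠ 0 := by
      rw [map_sub, sympBil_isAlt.self_eq_zero, sub_zero]; exact hef
    have hk := hT _ (hR.sub hf he) _ (inv_mem (hR.form he (hR.sub hf he)))
    convert spTau_conj_mem hMK hk hm using 2
    have h1 : sympBil m F p (f - e) = 0 := by
      rw [map_sub, spB_swap f p, spB_swap e p, hfp, hep]; simp
    rw [Matrix.mulVec_add, Matrix.mulVec_smul, Matrix.mulVec_smul, spTau_apply, spTau_apply, h1,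
      mul_assoc ((ζ * sympBil m F e (f - e))⁻¹) ζ (sympBil m F e (f - e)),
      inv_mul_cancel₀ (mul_ne_zero hR.zeta hd)]
    simp
  obtain ⟨g, hg, hgp, heg, hfg⟩ := hR.exists_perp_not_orth_two hp hne hnf hp0
  exact step g f hg hf hgp hfp (fun h => hfg (by rw [spB_swap g f, h, neg_zero]))
    (step e g he hg hep hgp heg hmem)

/-- A transvection with centre in a rational isotropic plane gives one at a rational point. -/
lemma plane_param (hm : 4 ≤ m) {p e : Fin m ⊕ Fin m → F} (hp : p ∈ R) (hp0 : p ≠ 0) (he : e ∈ R)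
    (hep : sympBil m F e p = 0) (hne : e ∉ F ∙ p) {a b : F}
    (hmem : spTau (a • p + b • e) ζ ∈ M) : a ^ 2 * ζ ∈ spParams M p := by
  obtain ⟨q, hq, hpq⟩ := hR.exists_pair hp hp0
  have hpq' : sympBil m F p q ≠ 0 := fun h => by
    rw [h, mul_zero] at hpq; exact zero_ne_one hpq
  obtain ⟨f₁, hf₁, hf₁0, h₁⟩ := hR.perp 2 (by omega) ![p, q] (by simp [Fin.forall_fin_two, hp, hq])
  simp [Fin.forall_fin_two] at h₁
  have hn₁ : f₁ ∉ F ∙ p := fun h => hf₁0 (by
    obtain ⟨t, rfl⟩ := Submodule.mem_span_singleton.1 h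
    have := h₁.2
    simp [hpq'] at this
    rw [this, zero_smul])
  obtain ⟨g₁, hg₁, hg₁p, hfg₁⟩ := hR.exists_perp_not_orth hp hn₁ hp0
  obtain ⟨f₂, hf₂, hf₂0, h₂⟩ := hR.perp 4 (by omega) ![p, q, f₁, g₁] (by
    intro i; fin_cases i <;> simp [hp, hq, hf₁, hg₁])
  simp [Fin.forall_fin_succ] at h₂
  obtain ⟨h₂p, h₂q, h₂f₁, h₂g₁⟩ := h₂
  have hn₂ : f₂ ∉ F ∙ p := fun h => hf₂0 (by
    obtain ⟨t, rfl⟩ := Submodule.mem_span_singleton.1 h
    simp [hpq'] at h₂q
    rw [h₂q, zero_smul])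
  obtain ⟨g₂, hg₂, hg₂p, hfg₂⟩ := hR.exists_perp_not_orth hp hn₂ hp0
  obtain ⟨f₃, hf₃, hf₃0, h₃⟩ := hR.perp 6 (by omega) ![p, q, f₁, g₁, f₂, g₂] (by
    intro i; fin_cases i <;> simp [hp, hq, hf₁, hg₁, hf₂, hg₂])
  simp [Fin.forall_fin_succ] at h₃
  obtain ⟨h₃p, h₃q, h₃f₁, h₃g₁, h₃f₂, h₃g₂⟩ := h₃
  obtain ⟨h₁p, h₁q⟩ := h₁
  have hn : ∀ f, sympBil m F f q = 0 → f ≠ 0 → f ∉ F ∙ p := fun f hfq hf0 h => hf0 (by
    obtain ⟨t, rfl⟩ := Submodule.mem_span_singleton.1 h
    simp [hpq'] at hfq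
    rw [hfq, zero_smul])
  have hY : ∀ f ∈ R, sympBil m F f p = 0 → sympBil m F f q = 0 → f ≠ 0 →
      spTau (a • p + b • f) ζ ∈ M := fun f hf hfp hfq hf0 =>
    plane_move hR hMK hT hp hp0 he hf hep hfp hne (hn f hfq hf0) hmem
  have s0 : ∀ {u v g : Fin m ⊕ Fin m → F}, sympBil m F v g = 0 → sympBil m F u g ≠ 0 →
      u + v ≠ 0 := by
    intro u v g hv hu h
    apply hu
    have := congrArg (fun w => sympBil m F w g) h
    simpa [hv] using this
  have m1 := hY f₁ hf₁ h₁p h₁q hf₁0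
  have m2 := hY f₂ hf₂ h₂p h₂q hf₂0
  have m3 := hY f₃ hf₃ h₃p h₃q hf₃0
  have m12 := hY (f₁ + f₂) (hR.add hf₁ hf₂) (by simp [h₁p, h₂p]) (by simp [h₁q, h₂q])
    (s0 h₂g₁ hfg₁)
  have m13 := hY (f₁ + f₃) (hR.add hf₁ hf₃) (by simp [h₁p, h₃p]) (by simp [h₁q, h₃q])
    (s0 h₃g₁ hfg₁)
  have m23 := hY (f₂ + f₃) (hR.add hf₂ hf₃) (by simp [h₂p, h₃p]) (by simp [h₂q, h₃q])
    (s0 h₃g₂ hfg₂)
  have m123 := hY (f₁ + (f₂ + f₃)) (hR.add hf₁ (hR.add hf₂ hf₃)) (by simp [h₁p, h₂p, h₃p])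
    (by simp [h₁q, h₂q, h₃q]) (s0 (g := g₁) (by simp [h₂g₁, h₃g₁]) hfg₁)
  show spTau p (a ^ 2 * ζ) ∈ M
  have key := mul_mem (mul_mem (mul_mem (mul_mem (mul_mem (mul_mem m123 (inv_mem m12))
    (inv_mem m13)) (inv_mem m23)) m1) m2) m3
  have hinv : ∀ v c, (spTau (F := F) (m := m) v c)⁻¹ = spTau v (-c) := fun v c => by
    refine inv_eq_of_mul_eq_one_right ?_
    rw [spTau_mul, add_neg_cancel]
    refine gl_ext_mulVec fun x => ?_
    rw [spTau_apply]; simp
  rw [hinv, hinv, hinv] at key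
  have hfix : ∀ (f f' : Fin m ⊕ Fin m → F) (c : F), sympBil m F f p = 0 → sympBil m F f' p = 0 →
      sympBil m F f' f = 0 →
      (spTau (a • p + b • f) c : Matrix (Fin m ⊕ Fin m) (Fin m ⊕ Fin m) F) *ᵥ (a • p + b • f') =
        a • p + b • f' := fun f f' c hfp hf'p hff' => by
    rw [spTau_apply]
    simp [map_add, map_smul, sympBil_isAlt.self_eq_zero, spB_swap f p, hfp, hf'p, hff']
  have hmulfix : ∀ (g g' : GL (Fin m ⊕ Fin m) F) (x : Fin m ⊕ Fin m → F),
      (g : Matrix (Fin m ⊕ Fin m) (Fin m ⊕ Fin m) F) *ᵥ x = x →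
      (g' : Matrix (Fin m ⊕ Fin m) (Fin m ⊕ Fin m) F) *ᵥ x = x →
      ((g * g' : GL (Fin m ⊕ Fin m) F) : Matrix (Fin m ⊕ Fin m) (Fin m ⊕ Fin m) F) *ᵥ x = x :=
    fun g g' x h h' => by rw [Units.val_mul, ← Matrix.mulVec_mulVec, h', h]
  have step : ∀ (g : GL (Fin m ⊕ Fin m) F) (x : Fin m ⊕ Fin m → F) (c : F),
      (g : Matrix (Fin m ⊕ Fin m) (Fin m ⊕ Fin m) F) *ᵥ x = x →
      ∀ w, ((g * spTau x c : GL (Fin m ⊕ Fin m) F) : Matrix (Fin m ⊕ Fin m) (Fin m ⊕ Fin m) F) *ᵥ w =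
        (g : Matrix (Fin m ⊕ Fin m) (Fin m ⊕ Fin m) F) *ᵥ w + (c * sympBil m F w x) • x :=
    fun g x c hg w => by
      rw [Units.val_mul, ← Matrix.mulVec_mulVec, spTau_apply, Matrix.mulVec_add, Matrix.mulVec_smul, hg]
  have o12 : sympBil m F f₁ f₂ = 0 := by rw [spB_swap f₂ f₁, h₂f₁, neg_zero]
  have o13 : sympBil m F f₁ f₃ = 0 := by rw [spB_swap f₃ f₁, h₃f₁, neg_zero]
  have o23 : sympBil m F f₂ f₃ = 0 := by rw [spB_swap f₃ f₂, h₃f₂, neg_zero]
  convert key using 1
  refine gl_ext_mulVec fun x => ?_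
  rw [step, step, step, step, step, step, spTau_apply, spTau_apply]
  · simp only [map_add, map_smul, smul_eq_mul]
    module
  all_goals (repeat' first
    | with_reducible apply hmulfix
    | with_reducible apply hfix)
  all_goals simp only [map_add, LinearMap.add_apply, h₁p, h₂p, h₃p, sympBil_isAlt.self_eq_zero,
    h₂f₁, h₃f₁, h₃f₂, o12, o13, o23, add_zero]

/-- The pairs of rational vectors giving an irrational parameter. -/
lemma exists_irrational_param [Fintype F] (hm : 4 ≤ m)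
    (hmid : ∀ L : Subfield F, F₀ ≤ L → L = F₀ ∨ L = ⊤) {x : Fin m ⊕ Fin m → F}
    (hx : ∀ κ : F, κ • x ∈ R → κ = 0) (hxM : ∀ a ∈ F₀, spTau x (a * ζ) ∈ M) :
    ∃ p ∈ R, p ≠ 0 ∧ ∃ κ, κ ∉ F₀ ∧ κ * ζ ∈ spParams M p := by
  classical
  have hx0 : x ≠ 0 := fun h => one_ne_zero (hx 1 (by rw [h, smul_zero]; exact hR.zero))
  obtain ⟨v, hv, hxv⟩ := hR.exists_not_orth hx0
  have hv0 : v ≠ 0 := fun h => hxv (by rw [h, map_zero])
  -- a rational vector orthogonal to `v` with a new ratio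
  obtain ⟨v, hv, hv0, hxv, w, hw, hwv, ρ, hρ, hρ0⟩ : ∃ v ∈ R, v ≠ 0 ∧ sympBil m F x v ≠ 0 ∧
      ∃ w ∈ R, sympBil m F w v = 0 ∧ ∃ ρ : F, sympBil m F x w = ρ * sympBil m F x v ∧
        ρ ^ 2 ∉ F₀ := by
    suffices h : ∃ v ∈ R, v ≠ 0 ∧ sympBil m F x v ≠ 0 ∧
        ∃ w ∈ R, sympBil m F w v = 0 ∧ sympBil m F x w / sympBil m F x v ∉ F₀ by
      obtain ⟨v, hv, hv0, hxv, w, hw, hwv, hρ⟩ := h
      set ρ := sympBil m F x w / sympBil m F x v with hρd
      have hρe : sympBil m F x w = ρ * sympBil m F x v := by rw [hρd, div_mul_cancel₀ _ hxv]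
      by_cases h1 : ρ ^ 2 ∈ F₀
      · refine ⟨v, hv, hv0, hxv, w + v, hR.add hw hv, ?_, ρ + 1, ?_, fun h2 =>
          hρ (mem_subfield_of_sq_succ h1 h2)⟩
        · rw [map_add, LinearMap.add_apply, hwv, sympBil_isAlt.self_eq_zero, add_zero]
        · rw [map_add, hρe]; ring
      · exact ⟨v, hv, hv0, hxv, w, hw, hwv, ρ, hρe, h1⟩
    by_contra hc
    push Not at hc
    obtain ⟨f, hf, hvf⟩ := hR.exists_pair hv hv0
    have hf0 : f ≠ 0 := fun h => by rw [h, map_zero, mul_zero] at hvf; exact zero_ne_one hvf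
    obtain ⟨w₀, hw₀, hw₀0, h₀⟩ := hR.perp 2 (by omega) ![v, f]
      (by simp [Fin.forall_fin_two, hv, hf])
    simp [Fin.forall_fin_two] at h₀
    obtain ⟨g, hg, hg1⟩ := hR.exists_pair hw₀ hw₀0
    -- remove the components of `g` along the pair
    obtain ⟨g, hg, hgv, hgf, hg1⟩ : ∃ g ∈ R, sympBil m F g v = 0 ∧ sympBil m F g f = 0 ∧
        ζ * sympBil m F w₀ g = 1 := by
      refine ⟨g - (ζ * sympBil m F v g) • f + (ζ * sympBil m F f g) • v,
        hR.add (hR.sub hg (hR.smul (hR.form hv hg) hf)) (hR.smul (hR.form hf hg) hv), ?_, ?_, ?_⟩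
      · simp only [map_add, map_sub, map_smul, LinearMap.add_apply, LinearMap.sub_apply,
          LinearMap.smul_apply, smul_eq_mul, sympBil_isAlt.self_eq_zero, spB_swap v g, spB_swap v f]
        linear_combination (sympBil m F v g) * hvf
      · simp only [map_add, map_sub, map_smul, LinearMap.add_apply, LinearMap.sub_apply,
          LinearMap.smul_apply, smul_eq_mul, sympBil_isAlt.self_eq_zero, spB_swap f g]
        linear_combination (sympBil m F f g) * hvf
      · simp only [map_add, map_sub, map_smul, smul_eq_mul, h₀.1, h₀.2]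
        linear_combination hg1
    have hfv : sympBil m F x f / sympBil m F x v ∈ F₀ := by
      by_cases hgx : sympBil m F x g = 0
      · have hw' : g + v ∈ R := hR.add hg hv
        have hxw' : sympBil m F x (g + v) = sympBil m F x v := by rw [map_add, hgx, zero_add]
        have hw'0 : g + v ≠ 0 := fun h => hxv (by rw [← hxw', h, map_zero])
        have h1 := hc (g + v) hw' hw'0 (by rw [hxw']; exact hxv) (f + w₀) (hR.add hf hw₀) (by
          simp only [map_add, LinearMap.add_apply, spB_swap v f, spB_swap g f, hgf, h₀.1,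
            sympBil_isAlt.self_eq_zero, neg_zero]
          refine mul_left_cancel₀ hR.zeta ?_
          linear_combination hg1 - hvf)
        rw [hxw'] at h1
        by_cases hxw₀ : sympBil m F x w₀ = 0
        · rwa [map_add, hxw₀, add_zero] at h1
        · have h2 := hc v hv hv0 hxv w₀ hw₀ h₀.1
          have := sub_mem h1 h2
          rwa [map_add, add_div, add_sub_cancel_right] at this
      · have hg0 : g ≠ 0 := fun h => hgx (by rw [h, map_zero])
        have h1 := hc g hg hg0 hgx f hf (by rw [spB_swap g f, hgf, neg_zero])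
        have h2 := hc v hv hv0 hxv g hg hgv
        have := mul_mem h1 h2
        rwa [div_mul_div_cancel₀ hgx] at this
    have hall : ∀ z ∈ R, sympBil m F x z / sympBil m F x v ∈ F₀ := by
      intro z hz
      have hz' : z - (ζ * sympBil m F v z) • f ∈ R := hR.sub hz (hR.smul (hR.form hv hz) hf)
      have h1 := hc v hv hv0 hxv _ hz' (by
        simp only [map_sub, map_smul, LinearMap.sub_apply, LinearMap.smul_apply, smul_eq_mul,
          spB_swap v z, spB_swap v f]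
        linear_combination (sympBil m F v z) * hvf)
      have := add_mem h1 (mul_mem (hR.form hv hz) hfv)
      convert this using 1
      simp only [map_sub, map_smul, smul_eq_mul]
      ring
    have := hx (ζ * sympBil m F x v)⁻¹ (hR.desc _ fun z hz => by
      convert hall z hz using 1
      simp only [map_smul, LinearMap.smul_apply, smul_eq_mul]
      field_simp [hR.zeta])
    exact mul_ne_zero hR.zeta hxv (inv_eq_zero.1 this)
  set c := ζ * sympBil m F x v with hc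
  have hc0 : c ≠ 0 := mul_ne_zero hR.zeta hxv
  set r₀ := w - ρ • v with hr₀
  have hr₀x : sympBil m F r₀ x = 0 := by
    simp only [hr₀, map_sub, map_smul, LinearMap.sub_apply, LinearMap.smul_apply, smul_eq_mul,
      spB_swap x w, spB_swap x v, hρ]
    ring
  have hr₀v : sympBil m F r₀ v = 0 := by
    simp [hr₀, hwv, sympBil_isAlt.self_eq_zero]
  have hr₀w : sympBil m F r₀ w = 0 := by
    simp [hr₀, spB_swap w v, hwv, sympBil_isAlt.self_eq_zero]
  let carrier : Set SL(2, F) := {g | ∃ h ∈ M,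
    (h : Matrix (Fin m ⊕ Fin m) (Fin m ⊕ Fin m) F) *ᵥ r₀ = r₀ ∧
    (∃ l : F, (h : Matrix (Fin m ⊕ Fin m) (Fin m ⊕ Fin m) F) *ᵥ v =
      g.1 0 0 • v + g.1 1 0 • x + l • r₀) ∧
    ∃ l : F, (h : Matrix (Fin m ⊕ Fin m) (Fin m ⊕ Fin m) F) *ᵥ x =
      g.1 0 1 • v + g.1 1 1 • x + l • r₀}
  let N : Submonoid SL(2, F) :=
    { carrier := carrier
      one_mem' := ⟨1, one_mem M, by simp, ⟨0, by simp⟩, ⟨0, by simp⟩⟩
      mul_mem' := by
        rintro a b ⟨h, hh, hr, ⟨l₁, e₁⟩, ⟨l₂, e₂⟩⟩ ⟨k, hk, kr, ⟨n₁, f₁⟩, ⟨n₂, f₂⟩⟩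
        refine ⟨h * k, mul_mem hh hk, ?_, ⟨b.1 0 0 * l₁ + b.1 1 0 * l₂ + n₁, ?_⟩,
          ⟨b.1 0 1 * l₁ + b.1 1 1 * l₂ + n₂, ?_⟩⟩
        · rw [Units.val_mul, ← Matrix.mulVec_mulVec, kr, hr]
        · rw [Units.val_mul, ← Matrix.mulVec_mulVec, f₁]
          simp only [Matrix.mulVec_add, Matrix.mulVec_smul, e₁, e₂, hr,
            Matrix.SpecialLinearGroup.coe_mul, Matrix.mul_apply, Fin.sum_univ_two]
          module
        · rw [Units.val_mul, ← Matrix.mulVec_mulVec, f₂]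
          simp only [Matrix.mulVec_add, Matrix.mulVec_smul, e₁, e₂, hr,
            Matrix.SpecialLinearGroup.coe_mul, Matrix.mul_apply, Fin.sum_univ_two]
          module }
  let N' : Subgroup SL(2, F) :=
    { N with
      inv_mem' := fun {g} hg => by
        rw [inv_eq_iff_eq_inv.2 (show g = (g ^ (orderOf g - 1))⁻¹ from eq_inv_of_mul_eq_one_left (by
          rw [← pow_succ', Nat.sub_add_cancel (orderOf_pos g), pow_orderOf_eq_one]))]
        exact N.pow_mem hg _ }
  have hN : N' = ⊤ := by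
    refine eq_top_of_unipotents F₀ hmid N' (l := -c) (m₁ := c) (m₂ := ρ ^ 2 * c)
      (neg_ne_zero.2 hc0) hc0 (by rwa [mul_div_cancel_right₀ _ hc0]) ?_ ?_ ?_
    · intro a ha
      refine ⟨_, hxM a ha, ?_, ⟨0, ?_⟩, ⟨0, ?_⟩⟩
      · rw [spTau_apply, hr₀x, mul_zero, zero_smul, add_zero]
      · rw [spTau_apply, spB_swap x v]
        simp [lo, hc]
        module
      · rw [spTau_apply, sympBil_isAlt.self_eq_zero]
        simp [lo]
    · intro a ha
      refine ⟨_, hT v hv a ha, ?_, ⟨0, ?_⟩, ⟨0, ?_⟩⟩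
      · rw [spTau_apply, hr₀v, mul_zero, zero_smul, add_zero]
      · rw [spTau_apply, sympBil_isAlt.self_eq_zero]
        simp [up]
      · rw [spTau_apply]
        simp [up, hc]
        module
    · intro a ha
      refine ⟨_, hT w hw a ha, ?_, ⟨0, ?_⟩, ⟨a * ρ * c, ?_⟩⟩
      · rw [spTau_apply, hr₀w, mul_zero, zero_smul, add_zero]
      · rw [spTau_apply, spB_swap w v, hwv]
        simp [up]
      · rw [spTau_apply, hρ]
        simp [up, hc, hr₀]
        module
  have hρ1 : ρ ≠ 0 := fun h0 => hρ0 (by rw [h0, zero_pow two_ne_zero]; exact zero_mem _)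
  obtain ⟨h, hh, hr, ⟨l, hl⟩, -⟩ : mk22 ρ 0 0 ρ⁻¹ (by rw [mul_inv_cancel₀ hρ1]; ring) ∈ N' := by
    rw [hN]; trivial
  simp only [Cfsg.Agent.PSLTwoSub.coe_mk22, Matrix.of_apply, Matrix.cons_val', Matrix.cons_val_zero,
    Matrix.cons_val_one, Matrix.cons_val_fin_one, zero_smul, add_zero] at hl
  set c₁ := ρ - l * ρ with hc₁
  set c₂ := l with hc₂
  set e₁ := ρ * (c₁ - 1) with he₁
  set e₂ := 1 + ρ * c₂ with he₂
  have hY : (h : Matrix (Fin m ⊕ Fin m) (Fin m ⊕ Fin m) F) *ᵥ v = c₁ • v + c₂ • w := by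
    rw [hl, hr₀, hc₁]; module
  have hY' : (h : Matrix (Fin m ⊕ Fin m) (Fin m ⊕ Fin m) F) *ᵥ w = e₁ • v + e₂ • w := by
    conv_lhs => rw [show w = r₀ + ρ • v by rw [hr₀]; abel, Matrix.mulVec_add, Matrix.mulVec_smul, hr, hY]
    rw [he₁, he₂, hr₀]; module
  have hnw : w ∉ F ∙ v := fun h0 => by
    obtain ⟨t, ht⟩ := Submodule.mem_span_singleton.1 h0
    rw [← ht, map_smul, smul_eq_mul] at hρ
    obtain rfl := mul_right_cancel₀ hxv hρ
    obtain ⟨q, hq, hvq⟩ := hR.exists_pair hv hv0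
    have := hR.form hw hq
    rw [← ht, map_smul, LinearMap.smul_apply, smul_eq_mul, mul_left_comm, hvq, mul_one] at this
    exact hρ0 (pow_mem this 2)
  have hnv : v ∉ F ∙ w := fun h0 => hnw (by
    obtain ⟨t, ht⟩ := Submodule.mem_span_singleton.1 h0
    have ht0 : t ≠ 0 := fun h1 => hv0 (by rw [← ht, h1, zero_smul])
    exact Submodule.mem_span_singleton.2 ⟨t⁻¹, by rw [← ht, inv_smul_smul₀ ht0]⟩)
  have hnvw : v + w ∉ F ∙ v := fun h0 => hnw (by
    simpa using sub_mem h0 (Submodule.mem_span_singleton_self v))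
  have hw0 : w ≠ 0 := fun h0 => hnw (h0 ▸ zero_mem _)
  have hvw0 : v + w ≠ 0 := fun h0 => hnvw (h0 ▸ zero_mem _)
  by_contra hcon
  push Not at hcon
  have hin : ∀ {p}, p ∈ R → p ≠ 0 → ∀ {κ}, κ * ζ ∈ spParams M p → κ ∈ F₀ := by
    intro p hp hp0 κ hκ
    by_contra h0
    exact hcon p hp hp0 κ h0 hκ
  have coeffs : ∀ a b : F, spTau (a • v + b • w) ζ ∈ M →
      a ^ 2 ∈ F₀ ∧ b ^ 2 ∈ F₀ ∧ 2 * a * b ∈ F₀ := by
    intro a b hab
    have h1 := hin hv hv0 (plane_param hR hMK hT hm hv hv0 hw hwv hnw hab)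
    have h2 := hin hw hw0 (plane_param hR hMK hT hm hw hw0 hv
      (by rw [spB_swap w v, hwv, neg_zero]) hnv (a := b) (b := a) (by rwa [add_comm]))
    have h3 := hin hv hv0 (plane_param hR hMK hT hm hv hv0 (hR.add hv hw)
      (by rw [map_add, LinearMap.add_apply, hwv, sympBil_isAlt.self_eq_zero, add_zero]) hnvw
      (a := a - b) (b := b) (by convert hab using 2; module))
    refine ⟨h1, h2, ?_⟩
    convert sub_mem (add_mem h1 h2) h3 using 1
    ring
  have hvζ : spTau v ζ ∈ M := by simpa using hT v hv 1 (one_mem _)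
  have hwζ : spTau w ζ ∈ M := by simpa using hT w hw 1 (one_mem _)
  have hA := spTau_conj_mem hMK hh hvζ
  have hB := spTau_conj_mem hMK hh hwζ
  rw [hY] at hA
  rw [hY'] at hB
  obtain ⟨a1, a2, a3⟩ := coeffs _ _ hA
  obtain ⟨b1, b2, b3⟩ := coeffs _ _ hB
  apply hρ0
  have hdet : ρ ^ 2 = c₁ ^ 2 * e₂ ^ 2 + c₂ ^ 2 * e₁ ^ 2 - 2 * (c₁ * c₂) * (e₁ * e₂) := by
    rw [he₁, he₂, hc₁]; ring
  rw [hdet]
  refine sub_mem (add_mem (mul_mem a1 b2) (mul_mem a2 b1)) ?_
  by_cases h2 : (2 : F) = 0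
  · rw [h2, zero_mul, zero_mul]; exact zero_mem _
  · convert div_mem (mul_mem a3 b3) (show (2 : F) ∈ F₀ from natCast_mem _ 2) using 1
    field_simp

/-- Rational vectors are moved to one another by `M`. -/
lemma rat_param_map {a b : Fin m ⊕ Fin m → F} (ha : a ∈ R) (hb : b ∈ R) (ha0 : a ≠ 0) (hb0 : b ≠ 0)
    {c : F} (hc : spTau a c ∈ M) : spTau b c ∈ M := by
  have step : ∀ a b, a ∈ R → b ∈ R → sympBil m F a b ≠ 0 → spTau a c ∈ M → spTau b c ∈ M := by
    intro a b ha hb hab hc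
    have hd : sympBil m F a (b - a) ≠ 0 := by
      rw [map_sub, sympBil_isAlt.self_eq_zero, sub_zero]; exact hab
    have hk := hT _ (hR.sub hb ha) _ (inv_mem (hR.form ha (hR.sub hb ha)))
    have := spTau_conj_mem hMK hk hc
    rwa [spTau_apply, mul_assoc, inv_mul_cancel₀ (mul_ne_zero hR.zeta hd), one_smul,
      add_sub_cancel] at this
  obtain ⟨g, hg, hag, hbg⟩ := hR.exists_not_orth_two ha0 hb0
  exact step g b hg hb (fun h => hbg (by rw [spB_swap g b, h, neg_zero])) (step a g ha hg hag hc)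

/-- Parameters at a rational point form a space over the subfield. -/
lemma smul_mem_spParams [Fintype F] {p : Fin m ⊕ Fin m → F} (hp : p ∈ R) (hp0 : p ≠ 0) {a c : F}
    (ha : a ∈ F₀) (hc : c ∈ spParams M p) : a * c ∈ spParams M p := by
  have sq : ∀ s ∈ F₀, s ^ 2 * c ∈ spParams M p := by
    intro s hs
    rcases eq_or_ne s 0 with rfl | hs0
    · rw [zero_pow two_ne_zero, zero_mul]; exact zero_mem _
    · show spTau p (s ^ 2 * c) ∈ M
      have h1 := rat_param_map hR hMK hT hp (hR.smul hs hp) hp0 (smul_ne_zero hs0 hp0) hc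
      convert h1 using 1
      refine gl_ext_mulVec fun x => ?_
      simp only [spTau_apply, map_smul, smul_eq_mul]
      module
  by_cases h2 : (2 : F) = 0
  · have heven : Even (Fintype.card F) := by
      rw [← Nat.not_odd_iff_even, ← two_ne_zero_iff_odd_card, not_not]; exact h2
    obtain ⟨k, hk⟩ := heven
    have h3 := FiniteField.pow_card a
    rw [hk, ← two_mul, mul_comm, pow_mul] at h3
    rw [← h3]
    exact sq _ (pow_mem ha _)
  · have h2F : (2 : F) ∈ F₀ := natCast_mem _ 2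
    convert sub_mem (sq ((a + 1) / 2) (div_mem (add_mem ha (one_mem _)) h2F))
      (sq ((a - 1) / 2) (div_mem (sub_mem ha (one_mem _)) h2F)) using 1
    field_simp
    ring

/-- An irrational parameter gives all transvections at all rational points. -/
lemma rat_mem_spCentres [Fintype F] (hmid : ∀ L : Subfield F, F₀ ≤ L → L = F₀ ∨ L = ⊤)
    {p : Fin m ⊕ Fin m → F} (hp : p ∈ R) (hp0 : p ≠ 0) {κ : F} (hκ : κ ∉ F₀)
    (hκM : κ * ζ ∈ spParams M p) {z : Fin m ⊕ Fin m → F} (hz : z ∈ R) : z ∈ spCentres M := by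
  classical
  obtain ⟨q, hq, hpq⟩ := hR.exists_pair hp hp0
  let Φ : SL(2, F) → (Fin m ⊕ Fin m → F) → (Fin m ⊕ Fin m → F) := fun g x => x +
    (ζ * sympBil m F x q * (g.1 0 0 - 1) + ζ * sympBil m F p x * g.1 0 1) • p +
    (ζ * sympBil m F x q * g.1 1 0 + ζ * sympBil m F p x * (g.1 1 1 - 1)) • q
  let N : Submonoid SL(2, F) :=
    { carrier := {g | ∃ h ∈ M, ∀ x,
        (h : Matrix (Fin m ⊕ Fin m) (Fin m ⊕ Fin m) F) *ᵥ x = Φ g x}
      one_mem' := ⟨1, one_mem M, fun x => by simp [Φ]⟩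
      mul_mem' := by
        rintro a b ⟨h, hh, e⟩ ⟨k, hk, f⟩
        refine ⟨h * k, mul_mem hh hk, fun x => ?_⟩
        rw [Units.val_mul, ← Matrix.mulVec_mulVec, f, e]
        simp only [Φ, map_add, map_smul, LinearMap.add_apply, LinearMap.smul_apply, smul_eq_mul,
          sympBil_isAlt.self_eq_zero, spB_swap p q, Matrix.SpecialLinearGroup.coe_mul,
          Matrix.mul_apply, Fin.sum_univ_two]
        have e1 : sympBil m F p q = ζ⁻¹ := eq_inv_of_mul_eq_one_left (by rw [mul_comm]; exact hpq)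
        rw [e1]
        match_scalars <;> field_simp [hR.zeta] <;> ring }
  let N' : Subgroup SL(2, F) :=
    { N with
      inv_mem' := fun {g} hg => by
        rw [inv_eq_iff_eq_inv.2 (show g = (g ^ (orderOf g - 1))⁻¹ from eq_inv_of_mul_eq_one_left (by
          rw [← pow_succ', Nat.sub_add_cancel (orderOf_pos g), pow_orderOf_eq_one]))]
        exact N.pow_mem hg _ }
  have hN : N' = ⊤ := by
    refine eq_top_of_unipotents F₀ hmid N' (l := 1) (m₁ := -1) (m₂ := -κ) one_ne_zero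
      (neg_ne_zero.2 one_ne_zero) (by rwa [neg_div_neg_eq, div_one]) ?_ ?_ ?_
    · intro a ha
      exact ⟨_, hT q hq a ha, fun x => by rw [spTau_apply]; simp [Φ, lo]; module⟩
    · intro a ha
      exact ⟨_, hT p hp a ha, fun x => by
        rw [spTau_apply, spB_swap p x]; simp [Φ, up]; module⟩
    · intro a ha
      have hmem : spTau p (a * (κ * ζ)) ∈ M := smul_mem_spParams hR hMK hT hp hp0 ha hκM
      exact ⟨_, hmem, fun x => by rw [spTau_apply, spB_swap p x]; simp [Φ, up]; module⟩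
  have hpX : p ∈ spCentres M := fun c => by
    obtain ⟨h, hh, e⟩ : up (-(c / ζ)) ∈ N' := by rw [hN]; trivial
    convert hh using 1
    refine gl_ext_mulVec fun x => ?_
    rw [spTau_apply, e, spB_swap p x]
    simp [Φ, up]
    field_simp [hR.zeta]
  rcases eq_or_ne z 0 with rfl | hz0
  · simpa using smul_mem_spCentres hpX 0
  exact fun c => rat_param_map hR hMK hT hp hz hp0 hz0 (hpX c)

omit hT hMK in
/-- Rational centres generate. -/
lemma spGL_le_of_rat_centres [Fintype F] (h4 : 4 ≤ Fintype.card F)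
    (hRX : ∀ z ∈ R, z ∈ spCentres M) : Cfsg.spGL m F ≤ M := by
  classical
  have h0 : (0 : Fin m ⊕ Fin m → F) ∈ spCentres M := hRX 0 hR.zero
  have one : ∀ z ∈ R, ∀ x ∈ spCentres M, ∀ t : F, x + t • z ∈ spCentres M := by
    intro z hz x hx t
    by_cases hxz : sympBil m F x z = 0
    swap
    · simpa using plane_mem_spCentres hx (hRX z hz) hxz 1 t
    rcases eq_or_ne x 0 with rfl | hx0
    · simpa using smul_mem_spCentres (hRX z hz) t
    rcases eq_or_ne z 0 with rfl | hz0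
    · simpa using hx
    rcases eq_or_ne (x + t • z) 0 with hw | hw0
    · rw [hw]; exact h0
    set w := x + t • z with hw
    obtain ⟨g, hg, hxg, hzg⟩ := hR.exists_not_orth_two hx0 hz0
    have hg0 : g ≠ 0 := fun h => hxg (by rw [h, map_zero])
    obtain ⟨f, hf, hgf, hwf⟩ := hR.exists_not_orth_two hg0 hw0
    obtain ⟨k, hk₁, hk₂, hk₃⟩ : ∃ k : F, sympBil m F x g + k * sympBil m F x f ≠ 0 ∧
        sympBil m F z g + k * sympBil m F z f ≠ 0 ∧ sympBil m F w g + k * sympBil m F w f ≠ 0 := by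
      obtain ⟨k, -, hk⟩ : ∃ k ∈ (Finset.univ : Finset F),
          k ∉ ({-(sympBil m F x g) / sympBil m F x f, -(sympBil m F z g) / sympBil m F z f,
            -(sympBil m F w g) / sympBil m F w f} : Finset F) :=
        Finset.exists_mem_notMem_of_card_lt_card
          (Finset.card_le_three.trans_lt (by rw [Finset.card_univ]; omega))
      simp only [Finset.mem_insert, Finset.mem_singleton, not_or] at hk
      refine ⟨k, ?_, ?_, ?_⟩
      · intro h
        by_cases hd : sympBil m F x f = 0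
        · rw [hd, mul_zero, add_zero] at h; exact hxg h
        · exact hk.1 (by rw [eq_div_iff hd]; linear_combination h)
      · intro h
        by_cases hd : sympBil m F z f = 0
        · rw [hd, mul_zero, add_zero] at h; exact hzg h
        · exact hk.2.1 (by rw [eq_div_iff hd]; linear_combination h)
      · intro h
        exact hk.2.2 (by rw [eq_div_iff hwf]; linear_combination h)
    set g' := g + k • f with hg'
    have hg'X : g' ∈ spCentres M := by
      simpa using plane_mem_spCentres (hRX g hg) (hRX f hf) hgf 1 k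
    have h1 : x + g' ∈ spCentres M := by
      simpa using plane_mem_spCentres hx hg'X (by simpa [hg'] using hk₁) 1 1
    have h2 : w + g' ∈ spCentres M := by
      have hne : sympBil m F (x + g') z ≠ 0 := by
        rw [map_add, LinearMap.add_apply, hxz, zero_add, spB_swap z g', neg_ne_zero]
        simpa [hg'] using hk₂
      convert plane_mem_spCentres h1 (hRX z hz) hne 1 t using 1
      rw [hw]; module
    have hne : sympBil m F (w + g') g' ≠ 0 := by
      rw [LinearMap.map_add₂, sympBil_isAlt.self_eq_zero, add_zero]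
      simpa [hg'] using hk₃
    convert plane_mem_spCentres h2 hg'X hne 1 (-1) using 1
    module
  let N : Submodule F (Fin m ⊕ Fin m → F) :=
    { carrier := {z | ∀ x ∈ spCentres M, ∀ t : F, x + t • z ∈ spCentres M}
      zero_mem' := fun x hx t => by simpa using hx
      add_mem' := fun ha hb x hx t => by rw [smul_add, ← add_assoc]; exact hb _ (ha x hx t) t
      smul_mem' := fun a z hz x hx t => by rw [smul_smul]; exact hz x hx _ }
  have hN : N = ⊤ := top_le_iff.1 (hR.span ▸ Submodule.span_le.2 fun z hz => one z hz)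
  refine spGL_le_of_spTau_mem fun v c => ?_
  have hv : v ∈ N := by rw [hN]; trivial
  have := hv 0 h0 1
  rw [zero_add, one_smul] at this
  exact this c

end Cfsg.Agent.GeoClasses
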