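import Cfsg.Agent.GeoClasses.OrthSubfieldParam
import Cfsg.Agent.GeoClasses.SympSubfieldMax

/-!
A conjugate of a rational Siegel transformation that is not rational gives an irrational
parameter.
-/

set_option autoImplicit false

namespace Cfsg.Agent.GeoClasses.RatO

open QuadraticMap Module Cfsg.Agent.Classical
open Cfsg.Agent.MaxSub.SubfieldMax (lo up eq_top_of_unipotents)
open Cfsg.Agent.PSLTwoSub (mk22)
open scoped MatrixGroups Matrix

universe u

variable {F : Type u} [Field F] {ι : Type} [Fintype ι] [DecidableEq ι]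
  {Q : QuadraticForm F (ι → F)} {M : Subgroup (OQ Q)} {F₀ : Subfield F} {R : Set (ι → F)}
  (hB : BNondeg Q) (hO : RatO Q F₀ R) (hn : 7 ≤ Fintype.card ι)
  (hK : ∀ (u a : ι → F) (hu : Q u = 0) (ha : polar Q u a = 0), u ∈ R → a ∈ R →
    siegel Q hu ha ∈ M)
  (hmid : ∀ L : Subfield F, F₀ ≤ L → L = F₀ ∨ L = ⊤)
include hB hO hn hK hmid

/-- Two incommensurable minors on a rational totally singular space. -/
lemma param_of_ratio [Fintype F] {x₁ x₂ : ι → F} (hx₁ : Q x₁ = 0) (hx₂ : Q x₂ = 0)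
    (h12 : polar Q x₁ x₂ = 0) (hM : ∀ a ∈ F₀, a • x₂ ∈ siegParams M hx₁) {u₁ u₂ u₃ : ι → F}
    (h₁ : u₁ ∈ R) (h₂ : u₂ ∈ R) (h₃ : u₃ ∈ R) (hind : Indep3 u₁ u₂ u₃)
    (q₁ : Q u₁ = 0) (q₂ : Q u₂ = 0) (q₃ : Q u₃ = 0)
    (p₁₂ : polar Q u₁ u₂ = 0) (p₁₃ : polar Q u₁ u₃ = 0) (p₂₃ : polar Q u₂ u₃ = 0)
    (hm : polar Q x₁ u₁ * polar Q x₂ u₂ - polar Q x₂ u₁ * polar Q x₁ u₂ ≠ 0)
    (hr : (polar Q x₁ u₁ * polar Q x₂ u₃ - polar Q x₂ u₁ * polar Q x₁ u₃) /
      (polar Q x₁ u₁ * polar Q x₂ u₂ - polar Q x₂ u₁ * polar Q x₁ u₂) ∉ F₀) :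
    HasParam Q F₀ R M := by
  classical
  set a₁ := polar Q x₁ u₁ with ha₁
  set b₁ := polar Q x₂ u₁ with hb₁
  set a₂ := polar Q x₁ u₂ with ha₂
  set b₂ := polar Q x₂ u₂ with hb₂
  set a₃ := polar Q x₁ u₃ with ha₃
  set b₃ := polar Q x₂ u₃ with hb₃
  set m := a₁ * b₂ - b₁ * a₂ with hmd
  set ρ := (a₁ * b₃ - b₁ * a₃) / m with hρ
  set A := (a₃ * b₂ - b₃ * a₂) / m with hA
  set e₁ := (b₂ / m) • u₁ - (b₁ / m) • u₂ with he₁
  set e₂ := (a₁ / m) • u₂ - (a₂ / m) • u₁ with he₂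
  set k := u₃ - A • u₁ - ρ • u₂ with hk
  have hu₁ : u₁ = a₁ • e₁ + b₁ • e₂ + (0 : F) • k := by
    rw [he₁, he₂]; match_scalars <;> field_simp <;> ring
  have hu₂ : u₂ = a₂ • e₁ + b₂ • e₂ + (0 : F) • k := by
    rw [he₁, he₂]; match_scalars <;> field_simp <;> ring
  have hu₃ : u₃ = a₃ • e₁ + b₃ • e₂ + (1 : F) • k := by
    rw [he₁, he₂, hk, hA, hρ]; match_scalars <;> field_simp <;> ring
  have x₁e₁ : polar Q x₁ e₁ = 1 := by
    simp [he₁, ← ha₁, ← ha₂]; field_simp; ring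
  have x₂e₁ : polar Q x₂ e₁ = 0 := by
    simp [he₁, ← hb₁, ← hb₂]; field_simp; ring
  have x₁e₂ : polar Q x₁ e₂ = 0 := by
    simp [he₂, ← ha₁, ← ha₂]; field_simp; ring
  have x₂e₂ : polar Q x₂ e₂ = 1 := by
    simp [he₂, ← hb₁, ← hb₂]; field_simp; ring
  have x₁k : polar Q x₁ k = 0 := by
    simp [hk, hA, hρ, ← ha₁, ← ha₂, ← ha₃]; field_simp; ring
  have x₂k : polar Q x₂ k = 0 := by
    simp [hk, hA, hρ, ← hb₁, ← hb₂, ← hb₃]; field_simp; ring
  have x₁₁ : polar Q x₁ x₁ = 0 := by simp [polar_self, hx₁]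
  have x₂₂ : polar Q x₂ x₂ = 0 := by simp [polar_self, hx₂]
  have x₂₁ : polar Q x₂ x₁ = 0 := by rw [polar_comm, h12]
  let carrier : Set SL(2, F) := {g | ∃ h ∈ M, h.1 k = k ∧
    (∃ l : F, h.1 e₁ = g.1 0 0 • e₁ + g.1 1 0 • x₂ + l • k) ∧
    (∃ l : F, h.1 x₂ = g.1 0 1 • e₁ + g.1 1 1 • x₂ + l • k) ∧
    (∃ l : F, h.1 e₂ = g.1 0 0 • e₂ - g.1 1 0 • x₁ + l • k) ∧
    ∃ l : F, h.1 x₁ = -g.1 0 1 • e₂ + g.1 1 1 • x₁ + l • k}
  let N : Submonoid SL(2, F) :=
    { carrier := carrier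
      one_mem' := ⟨1, one_mem M, by simp, ⟨0, by simp⟩, ⟨0, by simp⟩, ⟨0, by simp⟩, ⟨0, by simp⟩⟩
      mul_mem' := by
        rintro a b ⟨h, hh, hf, ⟨l₁, e1⟩, ⟨l₂, e2⟩, ⟨l₃, e3⟩, ⟨l₄, e4⟩⟩
          ⟨g, hg, gf, ⟨n₁, f1⟩, ⟨n₂, f2⟩, ⟨n₃, f3⟩, ⟨n₄, f4⟩⟩
        refine ⟨h * g, mul_mem hh hg, ?_, ⟨b.1 0 0 * l₁ + b.1 1 0 * l₂ + n₁, ?_⟩,
          ⟨b.1 0 1 * l₁ + b.1 1 1 * l₂ + n₂, ?_⟩, ⟨b.1 0 0 * l₃ - b.1 1 0 * l₄ + n₃, ?_⟩,
          ⟨-(b.1 0 1 * l₃) + b.1 1 1 * l₄ + n₄, ?_⟩⟩ <;>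
        rw [Subgroup.coe_mul, LinearEquiv.mul_apply]
        · rw [gf, hf]
        · rw [f1]
          simp only [map_add, map_sub, map_smul, e1, e2, e3, e4, hf,
            Matrix.SpecialLinearGroup.coe_mul, Matrix.mul_apply, Fin.sum_univ_two]
          module
        · rw [f2]
          simp only [map_add, map_sub, map_smul, e1, e2, e3, e4, hf,
            Matrix.SpecialLinearGroup.coe_mul, Matrix.mul_apply, Fin.sum_univ_two]
          module
        · rw [f3]
          simp only [map_add, map_sub, map_smul, e1, e2, e3, e4, hf,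
            Matrix.SpecialLinearGroup.coe_mul, Matrix.mul_apply, Fin.sum_univ_two]
          module
        · rw [f4]
          simp only [map_add, map_sub, map_smul, e1, e2, e3, e4, hf,
            Matrix.SpecialLinearGroup.coe_mul, Matrix.mul_apply, Fin.sum_univ_two]
          module }
  let N' : Subgroup SL(2, F) :=
    { N with
      inv_mem' := fun {g} hg => by
        rw [inv_eq_iff_eq_inv.2 (show g = (g ^ (orderOf g - 1))⁻¹ from eq_inv_of_mul_eq_one_left (by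
          rw [← pow_succ', Nat.sub_add_cancel (orderOf_pos g), pow_orderOf_eq_one]))]
        exact N.pow_mem hg _ }
  -- upper unitriangular elements
  have hpk : ∀ u : ι → F, polar Q u u₁ = 0 → polar Q u u₂ = 0 → polar Q u u₃ = 0 →
      polar Q u k = 0 ∧ polar Q u e₁ = 0 ∧ polar Q u e₂ = 0 := fun u p q s => by
    simp [hk, he₁, he₂, p, q, s]
  have upper : ∀ (u v : ι → F) (cv cu : F), u ∈ R → v ∈ R → Q u = 0 → Q v = 0 →
      polar Q u v = 0 → u = polar Q x₁ u • e₁ + polar Q x₂ u • e₂ + cu • k →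
      v = polar Q x₁ v • e₁ + polar Q x₂ v • e₂ + cv • k →
      (polar Q u k = 0 ∧ polar Q u e₁ = 0 ∧ polar Q u e₂ = 0) →
      (polar Q v k = 0 ∧ polar Q v e₁ = 0 ∧ polar Q v e₂ = 0) → ∀ a ∈ F₀,
      up (a * -(polar Q x₁ u * polar Q x₂ v - polar Q x₂ u * polar Q x₁ v)) ∈ N' := by
    intro u v cv cu hu hv quu qvv puv eu ev pu pv a ha
    have puv' : polar Q u (a • v) = 0 := by simp [puv]
    refine ⟨_, hK u (a • v) quu puv' hu (hO.set.smul ha hv), ?_, ⟨0, ?_⟩,
      ⟨a * (polar Q x₂ u * cv - polar Q x₂ v * cu), ?_⟩, ⟨0, ?_⟩,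
      ⟨a * (polar Q x₁ u * cv - polar Q x₁ v * cu), ?_⟩⟩
    · exact siegel_fix Q quu puv' pu.1 (by simp [pv.1])
    · rw [siegel_fix Q quu puv' pu.2.1 (by simp [pv.2.1])]
      simp [up]
    · rw [siegel_apply, polar_comm Q u x₂, polar_smul_left, polar_comm Q v x₂,
        QuadraticMap.map_smul, qvv]
      simp [up]
      conv_lhs => enter [1, 2, 2]; rw [ev]
      conv_lhs => enter [2, 2]; rw [eu]
      module
    · rw [siegel_fix Q quu puv' pu.2.2 (by simp [pv.2.2])]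
      simp [up]
    · rw [siegel_apply, polar_comm Q u x₁, polar_smul_left, polar_comm Q v x₁,
        QuadraticMap.map_smul, qvv]
      simp [up]
      conv_lhs => enter [1, 2, 2]; rw [ev]
      conv_lhs => enter [2, 2]; rw [eu]
      module
  have pu₁ := hpk u₁ (by simp [polar_self, q₁]) p₁₂ p₁₃
  have pu₂ := hpk u₂ (by rw [polar_comm, p₁₂]) (by simp [polar_self, q₂]) p₂₃
  have pu₃ := hpk u₃ (by rw [polar_comm, p₁₃]) (by rw [polar_comm, p₂₃]) (by simp [polar_self, q₃])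
  have hN : N' = ⊤ := by
    refine eq_top_of_unipotents F₀ hmid N' (l := 1) (m₁ := -m) (m₂ := -(a₁ * b₃ - b₁ * a₃))
      one_ne_zero (neg_ne_zero.2 hm) (by rwa [neg_div_neg_eq]) ?_
      (upper u₁ u₂ 0 0 h₁ h₂ q₁ q₂ p₁₂ hu₁ hu₂ pu₁ pu₂)
      (upper u₁ u₃ 1 0 h₁ h₃ q₁ q₃ p₁₃ hu₁ hu₃ pu₁ pu₃)
    intro a ha
    obtain ⟨hp, hmem⟩ := hM a ha
    refine ⟨_, hmem, siegel_fix Q hx₁ hp x₁k (by simp [x₂k]), ⟨0, ?_⟩, ⟨0, ?_⟩, ⟨0, ?_⟩,
      ⟨0, ?_⟩⟩
    all_goals simp [lo, QuadraticMap.map_smul, hx₂, x₁e₁, x₂e₁, x₁e₂, x₂e₂, x₁₁, x₂₂, h12, x₂₁]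
  obtain ⟨μ, hμ0, hμ⟩ : ∃ μ : F, μ ≠ 0 ∧ (μ + 1) ^ 2 ∉ F₀ := by
    by_cases h : ρ ^ 2 ∈ F₀
    · exact ⟨ρ, fun h0 => hr (h0 ▸ zero_mem _), fun h2 => hr (mem_subfield_of_sq_succ h h2)⟩
    · exact ⟨ρ - 1, fun h0 => hr ((sub_eq_zero.1 h0) ▸ one_mem _), by rwa [sub_add_cancel]⟩
  obtain ⟨h, hh, hf, ⟨l₁, hl₁⟩, -, ⟨l₃, hl₃⟩, -⟩ :
      mk22 μ 0 0 μ⁻¹ (by rw [mul_inv_cancel₀ hμ0]; ring) ∈ N' := by
    rw [hN]; trivial
  simp only [Cfsg.Agent.PSLTwoSub.coe_mk22, Matrix.of_apply, Matrix.cons_val', Matrix.cons_val_zero,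
    Matrix.cons_val_one, Matrix.cons_val_fin_one, zero_smul, add_zero, sub_zero] at hl₁ hl₃
  set n₁ := a₁ * l₁ + b₁ * l₃ with hn₁
  set n₂ := a₂ * l₁ + b₂ * l₃ with hn₂
  set n₃ := a₃ * l₁ + b₃ * l₃ + 1 - μ with hn₃
  have hlin : A * n₁ + ρ * n₂ = a₃ * l₁ + b₃ * l₃ := by
    rw [hA, hρ, hn₁, hn₂]; field_simp; ring
  have himg : ∀ (u : ι → F) (a b c : F), u = a • e₁ + b • e₂ + c • k →
      h.1 u = μ • u + (a * l₁ + b * l₃ + c * (1 - μ)) • k := by
    rintro u a b c rfl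
    simp only [map_add, map_smul, hl₁, hl₃, hf]
    module
  have i₁ : h.1 u₁ = (μ - n₁ * A) • u₁ + (-(n₁ * ρ)) • u₂ + n₁ • u₃ := by
    rw [himg u₁ a₁ b₁ 0 hu₁, hk, hn₁]; module
  have i₂ : h.1 u₂ = (-(n₂ * A)) • u₁ + (μ - n₂ * ρ) • u₂ + n₂ • u₃ := by
    rw [himg u₂ a₂ b₂ 0 hu₂, hk, hn₂]; module
  have i₃ : h.1 u₃ = (-(n₃ * A)) • u₁ + (-(n₃ * ρ)) • u₂ + (μ + n₃) • u₃ := by
    rw [himg u₃ a₃ b₃ 1 hu₃, hk, hn₃]; module
  have hm₁₂ : h.1 u₂ ∈ siegParams M (show Q (h.1 u₁) = 0 by rw [OQ_map_app, q₁]) :=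
    map_mem_siegParams (hu := q₁) ⟨p₁₂, hK u₁ u₂ q₁ p₁₂ h₁ h₂⟩ hh _
  have hm₁₃ : h.1 u₃ ∈ siegParams M (show Q (h.1 u₁) = 0 by rw [OQ_map_app, q₁]) :=
    map_mem_siegParams (hu := q₁) ⟨p₁₃, hK u₁ u₃ q₁ p₁₃ h₁ h₃⟩ hh _
  have hm₂₃ : h.1 u₃ ∈ siegParams M (show Q (h.1 u₂) = 0 by rw [OQ_map_app, q₂]) :=
    map_mem_siegParams (hu := q₂) ⟨p₂₃, hK u₂ u₃ q₂ p₂₃ h₂ h₃⟩ hh _
  by_contra hcon
  have P₁₂ : (μ - n₁ * A) * (μ - n₂ * ρ) - (-(n₁ * ρ)) * (-(n₂ * A)) ∈ F₀ := by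
    by_contra hd
    exact hcon (plane_element hB hO hn hK h₁ h₂ h₃ hind q₁ q₂ q₃ p₁₂ p₁₃ p₂₃ i₁ i₂ hm₁₂ hd)
  have P₁₃ : (μ - n₁ * A) * (μ + n₃) - n₁ * (-(n₃ * A)) ∈ F₀ := by
    by_contra hd
    exact hcon (plane_element hB hO hn hK h₁ h₃ h₂ hind.swap23 q₁ q₃ q₂ p₁₃ p₁₂
      (by rw [polar_comm, p₂₃]) (a₃ := -(n₁ * ρ)) (b₃ := -(n₃ * ρ))
      (by rw [i₁]; abel) (by rw [i₃]; abel) hm₁₃ hd)
  have P₂₃ : (μ - n₂ * ρ) * (μ + n₃) - n₂ * (-(n₃ * ρ)) ∈ F₀ := by
    by_contra hd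
    exact hcon (plane_element hB hO hn hK h₂ h₃ h₁ hind.swap12.swap23 q₂ q₃ q₁ p₂₃
      (by rw [polar_comm, p₁₂]) (by rw [polar_comm, p₁₃]) (a₃ := -(n₂ * A)) (b₃ := -(n₃ * A))
      (by rw [i₂]; abel) (by rw [i₃]; abel) hm₂₃ hd)
  apply hμ
  convert add_mem (add_mem (add_mem P₁₂ P₁₃) P₂₃) (one_mem F₀) using 1
  rw [hn₃]
  linear_combination (2 * μ) * hlin

/-- A conjugate rational Siegel transformation not preserving the rational vectors. -/
lemma param_of_pair [Fintype F] {x₁ x₂ : ι → F} (hx₁ : Q x₁ = 0) (hx₂ : Q x₂ = 0)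
    (h12 : polar Q x₁ x₂ = 0) (hM : ∀ a ∈ F₀, a • x₂ ∈ siegParams M hx₁) {z : ι → F} (hz : z ∈ R)
    (hnew : z + polar Q x₁ z • x₂ - polar Q x₂ z • x₁ ∉ R) : HasParam Q F₀ R M := by
  classical
  by_contra hcon
  have hx₁0 : x₁ ≠ 0 := fun h => hnew (by simpa [h] using hz)
  obtain ⟨u, hu, huu, hxu⟩ := exists_sing_not_orth hB hO (by omega) hx₁0
  have hu0 : u ≠ 0 := fun h => hxu (by simp [h])
  set α := polar Q x₁ u with hα
  set β := polar Q x₂ u with hβ
  set y := α • x₂ - β • x₁ with hy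
  have hyy : Q y = 0 := by
    simp [hy, qf_sub, QuadraticMap.map_smul, hx₁, hx₂, polar_comm Q x₂ x₁, h12]
  have hyu : polar Q y u = 0 := by
    simp [hy, ← hα, ← hβ]; ring
  have hyv : ∀ v, polar Q y v = α * polar Q x₂ v - β * polar Q x₁ v := fun v => by simp [hy]
  have hy0 : y ≠ 0 := fun h => hnew (by
    have h2 : x₂ = (β / α) • x₁ := by
      rw [hy, sub_eq_zero] at h
      rw [div_eq_inv_mul, mul_smul, ← h, inv_smul_smul₀ hxu]
    convert hz using 1
    rw [h2, polar_smul_left, smul_eq_mul]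
    module)
  obtain ⟨hx12, hT⟩ : x₂ ∈ siegParams M hx₁ := by simpa using hM 1 (one_mem _)
  -- the line through `y` is not rational
  have caseA : ∀ w ∈ R, Q w = 0 → ∀ κ : F, y = κ • w → False := by
    intro w hw hww κ hκ
    have hκ0 : κ ≠ 0 := fun h => hy0 (by rw [hκ, h, zero_smul])
    have hw0 : w ≠ 0 := fun h => hy0 (by rw [hκ, h, smul_zero])
    have hwx : polar Q w x₁ = 0 := by
      have : polar Q y x₁ = 0 := by simp [hy, polar_comm Q x₂ x₁, h12, polar_self, hx₁]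
      rw [hκ, polar_smul_left, smul_eq_mul] at this
      exact (mul_eq_zero.1 this).resolve_left hκ0
    set x' := (-(κ / α)) • x₁ with hx'
    have hx₂' : x₂ = (κ / α) • w + (β / α) • x₁ := by
      rw [div_eq_inv_mul, mul_smul, ← hκ, hy, div_eq_inv_mul, mul_smul, smul_sub,
        inv_smul_smul₀ hxu, sub_add_cancel]
    have hwx' : polar Q w x' = 0 := by simp [hx', hwx]
    have hmem : x' ∈ siegParams M hww := by
      refine ⟨hwx', ?_⟩
      convert hT using 1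
      refine Subtype.ext (LinearEquiv.ext fun v => ?_)
      rw [siegel_apply, siegel_apply, hx₂, hx', QuadraticMap.map_smul, hx₁, hx₂']
      simp
      match_scalars <;> ring
    refine hcon (param_of_new hB hO hn hK hww hmem hw hw0 fun t ht => hnew ?_)
    have h1 : z + polar Q w z • (x' + t • w) - polar Q (x' + t • w) z • w ∈ R :=
      hO.set.sub (hO.set.add hz (hO.set.smul (hO.polar_mem hw hz) ht))
        (hO.set.smul (hO.polar_mem ht hz) hw)
    convert h1 using 1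
    rw [hx₂', hx']
    simp
    match_scalars <;> ring
  -- the minors of pairs through `u` are commensurable
  have rule : ∀ {a b : ι → F}, a ∈ R → b ∈ R → Indep3 u a b → Q a = 0 → Q b = 0 →
      polar Q u a = 0 → polar Q u b = 0 → polar Q a b = 0 → polar Q y a ≠ 0 →
      polar Q y b / polar Q y a ∈ F₀ := by
    intro a b ha hb hind qa qb pua pub pab hne
    by_contra h
    rw [hyv, hyv] at h
    rw [hyv] at hne
    exact hcon (param_of_ratio hB hO hn hK hmid hx₁ hx₂ h12 hM hu ha hb hind huu qa qb pua pub pab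
      hne h)
  obtain ⟨pu, hpu, hupu⟩ := dual_single hB hO hu hu0
  obtain ⟨e₀, he₀, f₀, hf₀, hee₀, hff₀, hef₀, hue₀, huf₀⟩ := exists_pair_perp hB hO hn hu hu0
  obtain ⟨c, hc0, hall⟩ : ∃ c : F, c ≠ 0 ∧ ∀ w ∈ R, polar Q u w = 0 → polar Q y w / c ∈ F₀ := by
    suffices h : ∃ c : F, c ≠ 0 ∧ ∀ w ∈ R, Q w = 0 → polar Q u w = 0 → polar Q y w / c ∈ F₀ by
      obtain ⟨c, hc0, hc⟩ := h
      exact ⟨c, hc0, fun w hw huw => sing_induction hO (p := u)
        (S := fun w => polar Q y w / c ∈ F₀) he₀ hf₀ hee₀ hff₀ hef₀ hue₀ huf₀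
        (fun a b ha hb => by rw [polar_add_right, add_div]; exact add_mem ha hb)
        (fun a ha w hw => by
          rw [polar_smul_right, smul_eq_mul, mul_div_assoc]; exact mul_mem ha hw)
        (fun w hw hww huw => hc w hw hww huw) hw huw⟩
    by_cases hex : ∃ v ∈ R, Q v = 0 ∧ polar Q u v = 0 ∧ polar Q y v ≠ 0
    swap
    · push Not at hex
      exact ⟨1, one_ne_zero, fun w hw hww huw => by
        rw [hex w hw hww huw, zero_div]; exact zero_mem _⟩
    obtain ⟨v, hv, hvv, huv, hyv0⟩ := hex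
    set c := polar Q y v with hc
    refine ⟨c, hyv0, ?_⟩
    have hv0 : v ≠ 0 := fun h => hyv0 (by simp [hc, h])
    have hvu : v ∉ F ∙ u := fun h => hyv0 (by
      obtain ⟨t, rfl⟩ := Submodule.mem_span_singleton.1 h
      simp [hc, hyu])
    -- a partner of `v`
    have partner : ∀ f ∈ R, Q f = 0 → polar Q u f = 0 → polar Q v f = 1 →
        polar Q y f / c ∈ F₀ := by
      intro f hf hff huf hvf
      obtain ⟨e, he, he0, hee, hs⟩ := exists_sing_perp hB hO (k := 4) (by omega) ![v, f, u, pu]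
        (by intro i; fin_cases i <;> simp [hv, hf, hu, hpu])
      simp [Fin.forall_fin_succ] at hs
      obtain ⟨hve, hfe, hue, hpue⟩ := hs
      have hpu' : polar Q pu u = 1 := by rw [polar_comm, hupu]
      have hfv : polar Q f v = 1 := by rw [polar_comm, hvf]
      have hfu : polar Q f u = 0 := by rw [polar_comm, huf]
      have huu' : polar Q v u = 0 := by rw [polar_comm, huv]
      have iuve : Indep3 u v e := fun a b d h => by
        have h1 := congrArg (polarBilin Q f) h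
        simp [hfu, hfv, hfe] at h1
        subst h1
        have h2 := congrArg (polarBilin Q pu) h
        simp [hpu', hpue] at h2
        subst h2
        simp at h
        exact ⟨rfl, rfl, h.resolve_right he0⟩
      by_cases hye : polar Q y e = 0
      · have hev : polar Q e v = 0 := by rw [polar_comm, hve]
        have hef : polar Q e f = 0 := by rw [polar_comm, hfe]
        obtain ⟨y₁, hy₁, h1, h2⟩ := dual_pair hB hO he hu hu0 (fun h => he0 (by
          obtain ⟨t, rfl⟩ := Submodule.mem_span_singleton.1 h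
          simp [hpu'] at hpue
          rw [hpue, zero_smul])) (one_mem _) (zero_mem _)
        obtain ⟨g, hg, hgg, heg, hvg, hfg, hug⟩ := exists_sing_partner_perp hB hO hv hf he hu hvv
          hff hvf huv huf hee hev hef hue hy₁ h1 h2
        have iuvg : Indep3 u v g := fun a b d h => by
          have h1 := congrArg (polarBilin Q f) h
          simp [hfu, hfv, hfg] at h1
          subst h1
          have h2 := congrArg (polarBilin Q e) h
          simp [polar_comm Q e u, hue, heg] at h2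
          subst h2
          simp at h
          exact ⟨h.resolve_right hu0, rfl, rfl⟩
        have ivf : Indep3 u (v + e) (f - g) := fun a b d h => by
          have h1 := congrArg (polarBilin Q v) h
          simp [huu', hve, hvf, hvg, polar_self, hvv] at h1
          subst h1
          have h2 := congrArg (polarBilin Q f) h
          simp [hfu, hfv, hfe] at h2
          subst h2
          simp at h
          exact ⟨h.resolve_right hu0, rfl, rfl⟩
        have h3 := rule (hO.set.add hv he) (hO.set.sub hf hg) ivf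
          (by rw [qf_add, hvv, hee, hve]; simp) (by rw [qf_sub, hff, hgg, hfg]; simp)
          (by simp [huv, hue]) (by simp [huf, hug]) (by simp [hvf, hvg, hef, heg])
          (by simp [hye, ← hc, hyv0])
        have h4 := rule hv hg iuvg hvv hgg huv hug hvg hyv0
        convert add_mem h3 h4 using 1
        simp [hye, ← hc]
        ring
      · have h3 := rule hv he iuve hvv hee huv hue hve hyv0
        have iuef : Indep3 u e f := fun a b d h => by
          have h1 := congrArg (polarBilin Q v) h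
          simp [huu', hve, hvf] at h1
          subst h1
          have h2 := congrArg (polarBilin Q pu) h
          simp [hpu', hpue] at h2
          subst h2
          simp at h
          exact ⟨rfl, h.resolve_right he0, rfl⟩
        have h4 := rule he hf iuef hee hff hue huf (by rw [polar_comm, hfe]) hye
        convert mul_mem h4 h3 using 1
        rw [div_mul_div_cancel₀ hye]
    intro w hw hww huw
    by_cases hvw : polar Q v w = 0
    · by_cases hind : Indep3 u v w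
      · exact rule hv hw hind hvv hww huv huw hvw hyv0
      obtain ⟨y₁, hy₁, h1, h2⟩ := dual_pair hB hO hv hu hu0 hvu (one_mem _) (zero_mem _)
      obtain ⟨a, b, hab⟩ : ∃ a b : F, w = a • u + b • v := by
        by_contra hno
        push Not at hno
        refine hind fun a b d h => ?_
        by_cases hd : d = 0
        · subst hd
          simp at h
          have h3 := congrArg (polarBilin Q y₁) h
          simp [polar_comm Q y₁ u, polar_comm Q y₁ v, h1, h2] at h3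
          subst h3
          simp at h
          exact ⟨h.resolve_right hu0, rfl, rfl⟩
        · refine absurd ?_ (hno (-a / d) (-b / d))
          have h' : d • w = -a • u + -b • v := by
            rw [← sub_eq_zero, ← h]; module
          rw [← inv_smul_smul₀ hd w, h']
          module
      have hb : b ∈ F₀ := by
        have := hO.polar_mem hy₁ hw
        rw [hab] at this
        simpa [polar_comm Q y₁ u, polar_comm Q y₁ v, h1, h2] using this
      rw [hab]
      simpa [hyu, ← hc, hyv0] using hb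
    · set s := polar Q v w with hs
      have hsF : s ∈ F₀ := hO.polar_mem hv hw
      have h3 := partner (s⁻¹ • w) (hO.set.smul (inv_mem hsF) hw)
        (by simp [QuadraticMap.map_smul, hww]) (by simp [huw]) (by simp [← hs, hvw])
      have := mul_mem hsF h3
      simpa [← mul_assoc, ← mul_div_assoc, hvw] using this
  set t := polar Q pu y with ht
  set r := c⁻¹ • (y - t • u) with hr
  have huy : polar Q u y = 0 := by rw [polar_comm, hyu]
  have hrR : r ∈ R := desc hB hO fun w hw => by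
    have h1 := hall _ (hO.set.sub hw (hO.set.smul (hO.polar_mem hu hw) hpu)) (by simp [hupu])
    convert h1 using 1
    simp [hr, polar_comm Q w y, polar_comm Q w u, ht, polar_comm Q pu y]
    ring
  have hrr : Q r = 0 := by
    simp [hr, QuadraticMap.map_smul, qf_sub, hyy, huu, hyu]
  have hur : polar Q u r = 0 := by simp [hr, huy, polar_self, huu]
  have hyeq : y = c • r + t • u := by rw [hr, smul_inv_smul₀ hc0, sub_add_cancel]
  by_cases hru : r ∈ F ∙ u
  · obtain ⟨s, hs⟩ := Submodule.mem_span_singleton.1 hru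
    exact caseA u hu huu (c * s + t) (by rw [hyeq, ← hs]; module)
  by_cases hyR : y ∈ R
  · exact caseA y hyR hyy 1 (one_smul _ _).symm
  obtain ⟨p₁, hp₁, hrp₁, hup₁⟩ := dual_pair hB hO hrR hu hu0 hru (one_mem _) (zero_mem _)
  obtain ⟨p₂, hp₂, hrp₂, hup₂⟩ := dual_pair hB hO hrR hu hu0 hru (zero_mem _) (one_mem _)
  obtain ⟨a, ha, ha0, haa, hs⟩ := exists_sing_perp hB hO (k := 4) (by omega) ![u, r, p₁, p₂]
    (by intro i; fin_cases i <;> simp [hu, hrR, hp₁, hp₂])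
  simp [Fin.forall_fin_succ] at hs
  obtain ⟨hua, hra, hp₁a, hp₂a⟩ := hs
  have iura : Indep3 u r a := fun x b d h => by
    have h1 := congrArg (polarBilin Q p₁) h
    simp [polar_comm Q p₁ u, hup₁, polar_comm Q p₁ r, hrp₁, hp₁a] at h1
    subst h1
    have h2 := congrArg (polarBilin Q p₂) h
    simp [polar_comm Q p₂ u, hup₂, hp₂a] at h2
    subst h2
    simp at h
    exact ⟨rfl, rfl, h.resolve_right ha0⟩
  set T := siegel Q hx₁ hx12 with hTd
  set l := polar Q x₁ a / α with hl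
  have hTu : T.1 u = (1 + t) • u + (0 : F) • a + c • r := by
    rw [hTd, siegel_apply, hx₂]
    simp only [← hα, ← hβ]
    linear_combination (norm := module) hyeq
  have hx₂a : polar Q x₂ a = l * β := by
    have h1 : polar Q y a = 0 := by rw [hyeq]; simp [hua, hra]
    rw [hyv] at h1
    rw [hl]; field_simp
    linear_combination h1
  have hTa : T.1 a = (l * t) • u + (1 : F) • a + (l * c) • r := by
    rw [hTd, siegel_apply, hx₂, hx₂a, show polar Q x₁ a = l * α by rw [hl, div_mul_cancel₀ _ hxu]]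
    linear_combination (norm := module) l • hyeq
  have hmem : T.1 a ∈ siegParams M (show Q (T.1 u) = 0 by rw [OQ_map_app, huu]) :=
    map_mem_siegParams (hu := huu) ⟨hua, hK u a huu hua hu ha⟩ hT _
  by_cases ht0 : t ∈ F₀
  · by_cases hc : c ∈ F₀
    · exact hyR (hyeq ▸ hO.set.add (hO.set.smul hc hrR) (hO.set.smul ht0 hu))
    refine hcon (plane_element hB hO hn hK hrR ha hu iura.swap12.swap23 hrr haa huu hra
      (by rw [polar_comm, hur]) (by rw [polar_comm, hua]) (a₃ := 1 + t) (b₃ := l * t)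
      (a₁ := c) (a₂ := 0) (b₁ := l * c) (b₂ := 1)
      (by rw [hTu]; abel) (by rw [hTa]; abel) hmem ?_)
    simpa using hc
  · refine hcon (plane_element hB hO hn hK hu ha hrR iura.swap23 huu haa hrr hua hur
      (by rw [polar_comm, hra]) hTu hTa hmem ?_)
    intro h
    exact ht0 (by simpa using sub_mem h (one_mem F₀))

end Cfsg.Agent.GeoClasses.RatO
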