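import Cfsg.Agent.GeoClasses.OrthSubfieldRat
import Cfsg.Agent.MaxSub.SubfieldMax.SL2Gen

/-!
Irrational parameters of Siegel transformations at rational points.
-/

set_option autoImplicit false

namespace Cfsg.Agent.GeoClasses

open QuadraticMap Module Cfsg.Agent.Classical
open Cfsg.Agent.MaxSub.SubfieldMax (lo up eq_top_of_unipotents)
open Cfsg.Agent.PSLTwoSub (mk22)
open scoped MatrixGroups Matrix

universe u

variable {F : Type u} [Field F] {ι : Type} [Fintype ι] [DecidableEq ι]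
  {Q : QuadraticForm F (ι → F)}

/-- The parameters of the Siegel transformations at `u` lying in `M`. -/
def siegParams (M : Subgroup (OQ Q)) {u : ι → F} (hu : Q u = 0) : AddSubgroup (ι → F) where
  carrier := {a | ∃ ha : polar Q u a = 0, siegel Q hu ha ∈ M}
  zero_mem' := ⟨by simp, by rw [siegel_zero]; exact one_mem M⟩
  add_mem' := fun {a b} ⟨ha, ha'⟩ ⟨hb, hb'⟩ =>
    ⟨by rw [polar_add_right, ha, hb, add_zero], by rw [← siegel_mul Q hu ha hb]; exact mul_mem ha' hb'⟩
  neg_mem' := fun {a} ⟨ha, ha'⟩ =>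
    ⟨by rw [polar_neg_right, ha, neg_zero], by rw [← siegel_inv Q hu ha]; exact inv_mem ha'⟩

/-- A singular rational line with an irrational multiple among the parameters. -/
def HasParam (Q : QuadraticForm F (ι → F)) (F₀ : Subfield F) (R : Set (ι → F))
    (M : Subgroup (OQ Q)) : Prop :=
  ∃ (u e : ι → F) (hu : Q u = 0), u ∈ R ∧ e ∈ R ∧ u ≠ 0 ∧ e ∉ F ∙ u ∧ Q e = 0 ∧
    polar Q u e = 0 ∧ ∃ κ ∉ F₀, ∀ s ∈ F₀, (s * κ) • e ∈ siegParams M hu

variable {M : Subgroup (OQ Q)}

lemma smul_self_mem_siegParams {u : ι → F} (hu : Q u = 0) (k : F) : k • u ∈ siegParams M hu := by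
  have huu : polar Q u u = 0 := by rw [polar_self, hu, smul_zero]
  have h0 : polar Q u ((0 : ι → F) + k • u) = 0 := by simp [huu]
  refine ⟨by simp [huu], ?_⟩
  rw [siegel_congr Q hu _ hu h0 rfl (zero_add _).symm, siegel_add_self Q k hu (by simp) h0,
    siegel_zero]
  exact one_mem M

lemma map_mem_siegParams {u a : ι → F} {hu : Q u = 0} (ha : a ∈ siegParams M hu) {g : OQ Q}
    (hg : g ∈ M) (hgu : Q (g.1 u) = 0) : g.1 a ∈ siegParams M hgu := by
  obtain ⟨ha, ha'⟩ := ha
  refine ⟨by rw [OQ_polar, ha], ?_⟩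
  have := mul_mem (mul_mem hg ha') (inv_mem hg)
  rwa [siegel_conj] at this

lemma siegParams_congr {u u' a : ι → F} {hu : Q u = 0} (hu' : Q u' = 0) (h : u = u')
    (ha : a ∈ siegParams M hu) : a ∈ siegParams M hu' := by
  subst h; exact ha

namespace RatO

variable {F₀ : Subfield F} {R : Set (ι → F)} (hB : BNondeg Q) (hO : RatO Q F₀ R)
  (hn : 7 ≤ Fintype.card ι)
  (hK : ∀ (u a : ι → F) (hu : Q u = 0) (ha : polar Q u a = 0), u ∈ R → a ∈ R →
    siegel Q hu ha ∈ M)
include hB hO hn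

/-- A partner and a hyperbolic pair orthogonal to a singular vector. -/
lemma exists_pair_perp [Finite F] {p : ι → F} (hp : p ∈ R) (hp0 : p ≠ 0) :
    ∃ e ∈ R, ∃ f ∈ R, Q e = 0 ∧ Q f = 0 ∧ polar Q e f = 1 ∧ polar Q p e = 0 ∧
      polar Q p f = 0 := by
  obtain ⟨q, hq, hpq⟩ := dual_single hB hO hp hp0
  obtain ⟨e, he, he0, hee, hs⟩ := exists_sing_perp hB hO (k := 2) (by omega) ![p, q]
    (by simp [Fin.forall_fin_two, hp, hq])
  simp [Fin.forall_fin_two] at hs
  have hne : e ∉ F ∙ p := fun h => he0 (by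
    obtain ⟨t, rfl⟩ := Submodule.mem_span_singleton.1 h
    have := hs.2
    rw [polar_smul_right, polar_comm, hpq] at this
    simp at this
    rw [this, zero_smul])
  obtain ⟨y, hy, hey, hpy⟩ := dual_pair hB hO he hp hp0 hne (one_mem _) (zero_mem _)
  refine ⟨e, he, y - Q y • e, hO.set.sub hy (hO.set.smul (hO.form hy) he), hee, ?_, ?_, hs.1, ?_⟩
  · rw [qf_sub, QuadraticMap.map_smul, hee, polar_smul_right, polar_comm Q y e, hey]
    simp
  · simp [hey, polar_self, hee]
  · simp [hpy, hs.1]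

include hK

/-- A parameter with an irrational product against a singular rational vector. -/
lemma param_of_alpha {u e y : ι → F} (hu : Q u = 0) (hy : y ∈ siegParams M hu) (huR : u ∈ R)
    (he : e ∈ R) (hu0 : u ≠ 0) (hee : Q e = 0) (hue : polar Q u e = 0)
    (hα : polar Q e y ∉ F₀) : HasParam Q F₀ R M := by
  have huy : polar Q u y = 0 := hy.choose
  have hne : e ∉ F ∙ u := fun h => hα (by
    obtain ⟨t, rfl⟩ := Submodule.mem_span_singleton.1 h
    rw [polar_smul_left, huy, smul_zero]; exact zero_mem _)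
  obtain ⟨f, hf, huf, hef⟩ := dual_pair hB hO huR he
    (fun h => hne (h ▸ zero_mem _)) (fun h => hne (by
      obtain ⟨t, ht⟩ := Submodule.mem_span_singleton.1 h
      have ht0 : t ≠ 0 := fun h0 => hu0 (by rw [← ht, h0, zero_smul])
      exact Submodule.mem_span_singleton.2 ⟨t⁻¹, by rw [← ht, inv_smul_smul₀ ht0]⟩))
    (one_mem _) (zero_mem _)
  obtain ⟨g, hg, hug, heg⟩ := dual_pair hB hO huR he
    (fun h => hne (h ▸ zero_mem _)) (fun h => hne (by
      obtain ⟨t, ht⟩ := Submodule.mem_span_singleton.1 h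
      have ht0 : t ≠ 0 := fun h0 => hu0 (by rw [← ht, h0, zero_smul])
      exact Submodule.mem_span_singleton.2 ⟨t⁻¹, by rw [← ht, inv_smul_smul₀ ht0]⟩))
    (zero_mem _) (one_mem _)
  obtain ⟨b, hb, hb0, hs⟩ := exists_perp hO (k := 4) (by omega) ![u, e, f, g] (by
    intro i; fin_cases i <;> simp [huR, he, hf, hg])
  simp [Fin.forall_fin_succ] at hs
  obtain ⟨hub, heb, hfb, hgb⟩ := hs
  have hind : Indep3 u e b := fun x z w h => by
    have h1 := congrArg (polarBilin Q f) h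
    have h2 := congrArg (polarBilin Q g) h
    simp [polar_comm Q f u, huf, polar_comm Q f e, hef, hfb] at h1
    simp [polar_comm Q g u, hug, polar_comm Q g e, heg, hgb] at h2
    subst h1 h2
    simp at h
    exact ⟨rfl, rfl, h.resolve_right hb0⟩
  obtain ⟨b', hb', hd⟩ := dual hB hO ![u, e, b] (by
    intro i; fin_cases i <;> simp [huR, he, hb]) hind.linearIndependent ![0, 0, 1]
    (by intro i; fin_cases i <;> simp [one_mem, zero_mem])
  have hub' : polar Q u b' = 0 := hd 0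
  have heb' : polar Q e b' = 0 := hd 1
  have hbb' : polar Q b b' = 1 := hd 2
  set α := polar Q e y with hαd
  have D : ∀ c ∈ R, polar Q u c = 0 → polar Q e c = 0 →
      α • c - (polar Q c y + Q c * α) • e ∈ siegParams M hu := by
    intro c hc huc hec
    have hT := hK e c hee hec he hc
    have hTu : (siegel Q hee hec).1 u = u :=
      siegel_fix Q hee hec (by rw [polar_comm, hue]) (by rw [polar_comm, huc])
    have h1 := siegParams_congr hu hTu (map_mem_siegParams hy hT (by rw [hTu]; exact hu))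
    convert sub_mem h1 hy using 1
    rw [siegel_apply]
    module
  refine ⟨u, e, hu, huR, he, hu0, hne, hee, hue, α, hα, fun s hs => ?_⟩
  have hsb : s • b' ∈ R := hO.set.smul hs hb'
  have h12 := D (b + s • b') (hO.set.add hb hsb) (by simp [hub, hub']) (by simp [heb, heb'])
  have h1 := D b hb hub heb
  have h2 := D (s • b') hsb (by simp [hub']) (by simp [heb'])
  convert neg_mem (sub_mem (sub_mem h12 h1) h2) using 1
  rw [qf_add, polar_smul_right, hbb', polar_add_left, smul_eq_mul, mul_one]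
  module

/-- A parameter not rational modulo the centre. -/
lemma param_of_new [Finite F] {u y : ι → F} (hu : Q u = 0) (hy : y ∈ siegParams M hu)
    (huR : u ∈ R) (hu0 : u ≠ 0) (hnew : ∀ t : F, y + t • u ∉ R) : HasParam Q F₀ R M := by
  by_contra hcon
  obtain ⟨f, hf, huf⟩ := dual_single hB hO huR hu0
  obtain ⟨e₀, he₀, f₀, hf₀, hee, hff, hef, hue, huf₀⟩ := exists_pair_perp hB hO hn huR hu0
  have huy : polar Q u y = 0 := hy.choose
  have hall : ∀ z ∈ R, polar Q u z = 0 → polar Q z y ∈ F₀ := fun z hz huz =>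
    sing_induction hO (p := u) (S := fun w => polar Q w y ∈ F₀) he₀ hf₀ hee hff hef hue huf₀
      (fun a b ha hb => by rw [polar_add_left]; exact add_mem ha hb)
      (fun a ha w hw => by rw [polar_smul_left]; exact mul_mem ha hw)
      (fun w hw hww huw => by
        by_contra h
        exact hcon (param_of_alpha hB hO hn hK hu hy huR hw hu0 hww huw h)) hz huz
  refine hnew (-polar Q f y) (desc hB hO fun z hz => ?_)
  have hz' : z - polar Q u z • f ∈ R := hO.set.sub hz (hO.set.smul (hO.polar_mem huR hz) hf)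
  have h1 := hall _ hz' (by simp [huf])
  convert h1 using 1
  simp [polar_comm Q z u]
  ring

/-- A Siegel transformation inside a rational totally singular space. -/
lemma plane_element {u₁ u₂ u₃ : ι → F} (h₁ : u₁ ∈ R) (h₂ : u₂ ∈ R) (h₃ : u₃ ∈ R)
    (hind : Indep3 u₁ u₂ u₃) (q₁ : Q u₁ = 0) (q₂ : Q u₂ = 0) (q₃ : Q u₃ = 0)
    (p₁₂ : polar Q u₁ u₂ = 0) (p₁₃ : polar Q u₁ u₃ = 0) (p₂₃ : polar Q u₂ u₃ = 0)
    {a₁ a₂ a₃ b₁ b₂ b₃ : F} {X Y : ι → F} (hX : X = a₁ • u₁ + a₂ • u₂ + a₃ • u₃)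
    (hY : Y = b₁ • u₁ + b₂ • u₂ + b₃ • u₃) {hX0 : Q X = 0} (hXY : Y ∈ siegParams M hX0)
    (hdet : a₁ * b₂ - a₂ * b₁ ∉ F₀) : HasParam Q F₀ R M := by
  obtain ⟨hXY, hS⟩ := hXY
  obtain ⟨w, hw, hwd⟩ := dual hB hO ![u₁, u₂, u₃] (by
    intro i; fin_cases i <;> simp [h₁, h₂, h₃]) hind.linearIndependent ![1, 0, 0]
    (by intro i; fin_cases i <;> simp [one_mem, zero_mem])
  obtain ⟨y, hy, hyd⟩ := dual hB hO ![u₁, u₂, u₃] (by
    intro i; fin_cases i <;> simp [h₁, h₂, h₃]) hind.linearIndependent ![0, 1, 0]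
    (by intro i; fin_cases i <;> simp [one_mem, zero_mem])
  have w1 : polar Q u₁ w = 1 := hwd 0
  have w2 : polar Q u₂ w = 0 := hwd 1
  have w3 : polar Q u₃ w = 0 := hwd 2
  have y1 : polar Q u₁ y = 0 := hyd 0
  have y2 : polar Q u₂ y = 1 := hyd 1
  have y3 : polar Q u₃ y = 0 := hyd 2
  set e := y - Q y • u₂ with he
  have heR : e ∈ R := hO.set.sub hy (hO.set.smul (hO.form hy) h₂)
  have hee : Q e = 0 := by
    rw [he, qf_sub, QuadraticMap.map_smul, q₂, polar_smul_right, polar_comm Q y u₂, y2]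
    simp
  have e1 : polar Q e u₁ = 0 := by
    simp [he, polar_comm Q y u₁, y1, polar_comm Q u₂ u₁, p₁₂]
  have e2 : polar Q e u₂ = 1 := by
    simp [he, polar_comm Q y u₂, y2, polar_self, q₂]
  have e3 : polar Q e u₃ = 0 := by
    simp [he, polar_comm Q y u₃, y3, p₂₃]
  have hSu : (siegel Q hX0 hXY).1 u₃ = u₃ := siegel_fix Q hX0 hXY
    (by simp [hX, p₁₃, p₂₃, polar_self, q₃]) (by simp [hY, p₁₃, p₂₃, polar_self, q₃])
  have hu₃0 : u₃ ≠ 0 := fun h => one_ne_zero (hind 0 0 1 (by simp [h])).2.2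
  have hwA : w ∈ siegParams M q₃ := ⟨w3, hK _ _ q₃ w3 h₃ hw⟩
  have h4 := siegParams_congr q₃ hSu (map_mem_siegParams hwA hS (by rw [hSu]; exact q₃))
  refine param_of_alpha hB hO hn hK q₃ h4 h₃ heR hu₃0 hee (by rw [polar_comm, e3]) fun h => hdet ?_
  have hQY : Q Y = 0 := by
    simp [hY, qf_add, QuadraticMap.map_smul, q₁, q₂, q₃, p₁₂, p₁₃, p₂₃]
  have hval : polar Q e ((siegel Q hX0 hXY).1 w) = polar Q e w + (a₁ * b₂ - a₂ * b₁) := by
    rw [siegel_apply, hQY, show polar Q X w = a₁ by simp [hX, w1, w2, w3],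
      show polar Q Y w = b₁ by simp [hY, w1, w2, w3], polar_sub_right, polar_sub_right,
      polar_add_right, polar_smul_right, polar_smul_right,
      show polar Q e X = a₂ by simp [hX, e1, e2, e3], show polar Q e Y = b₂ by simp [hY, e1, e2, e3]]
    simp
    ring
  rw [hval] at h
  simpa using sub_mem h (hO.polar_mem heR hw)

end RatO

end Cfsg.Agent.GeoClasses
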