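import Cfsg.Agent.GeoClasses.OrthParabolic
import Cfsg.Agent.GeoClasses.DecompTwo

/-!
The stabiliser of a pair of complementary totally singular halves of even dimension is maximal in
`Ω(Q)`.
-/

set_option autoImplicit false

namespace Cfsg.Agent.GeoClasses

open QuadraticMap Module Cfsg.Agent.Classical

universe u v

variable {F : Type u} [Field F] [Finite F] {V : Type v} [AddCommGroup V] [Module F V]
  [FiniteDimensional F V] {Q : QuadraticForm F V}

/-- Two non-orthogonal centres give the Eichler subgroup. -/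
lemma EQ_le_of_siegel_pair (hB : BNondeg Q) (hn : 5 ≤ finrank F V) {M : Subgroup (OQ Q)} {e y : V}
    (he : e ∈ siegelCentres Q M) (hy : y ∈ siegelCentres Q M) (hey : polar Q y e ≠ 0) :
    EQ Q ≤ M := by
  have hp := OrthGen.hasTwoPairs_of_five_le hB hn
  have hall : ∀ u, Q u = 0 → u ∈ siegelCentres Q M := by
    intro u hu
    rcases eq_or_ne u 0 with rfl | hu0
    · simpa using smul_mem_siegelCentres he 0
    by_cases hyu : polar Q y u = 0
    · have hy0 : y ≠ 0 := fun h => hey (by simp [h])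
      obtain ⟨z, hz, h1, h2⟩ := exists_singular_not_orth' hB.qNondeg hp hy0 hy.choose hu0 hu
      have hzX := mem_siegelCentres_of_pair he hy hey hz h1
      exact mem_siegelCentres_of_pair hy hzX (by rw [polar_comm]; exact h1) hu
        (by rw [polar_comm]; exact h2)
    · exact mem_siegelCentres_of_pair he hy hey hu hyu
  rw [EQ, Subgroup.closure_le]
  rintro _ ⟨u, a, hu, ha, rfl⟩
  exact (hall u hu).choose_spec a ha

omit [Finite F] in
lemma finrank_le_inf_ker' (φ : V →ₗ[F] F) (S : Submodule F V) :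
    finrank F S ≤ finrank F ↥(S ⊓ LinearMap.ker φ) + 1 := by
  have h1 := Submodule.finrank_sup_add_finrank_inf_eq S (LinearMap.ker φ)
  have h2 := Submodule.finrank_le (S ⊔ LinearMap.ker φ)
  have h3 := LinearMap.finrank_range_add_finrank_ker φ
  have h4 : finrank F (LinearMap.range φ) ≤ 1 :=
    (Submodule.finrank_le _).trans (by rw [Module.finrank_self])
  omega

omit [Finite F] [FiniteDimensional F V] in
lemma polar_zero_of_sing {A : Submodule F V} (hA : ∀ x ∈ A, Q x = 0) {x y : V} (hx : x ∈ A)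
    (hy : y ∈ A) : polar Q x y = 0 :=
  Forms.polar_eq_zero_of_totallySingular hA hx hy

omit [Finite F] [FiniteDimensional F V] in
lemma exists_not_mem_sup {S P : Submodule F V} (h : ¬ S ≤ P) : ∃ x ∈ S, x ∉ P :=
  SetLike.not_le_iff_exists.1 h

section

variable {A B : Submodule F V}

omit [Finite F] in
lemma orth_pair_vector (hBn : BNondeg Q) (hc : IsCompl A B) (hB : ∀ x ∈ B, Q x = 0)
    {P : Submodule F V} (hP : P ≤ B) {b : V} (hb : b ∈ B) (hbP : b ∉ P) :
    ∃ u ∈ A, (∀ p ∈ P, polar Q u p = 0) ∧ polar Q u b = 1 := by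
  obtain ⟨φ, hφ1, hφ⟩ : ∃ φ : V →ₗ[F] F, φ b = 1 ∧ ∀ p ∈ P, φ p = 0 := by
    obtain ⟨φ, hφb, hφP⟩ := Submodule.exists_dual_map_eq_bot_of_notMem hbP inferInstance
    refine ⟨(φ b)⁻¹ • φ, by simp [hφb], fun p hp => ?_⟩
    have : φ p ∈ P.map φ := ⟨p, hp, rfl⟩
    rw [hφP, Submodule.mem_bot] at this
    simp [this]
  have hnd : (polarBilin Q).Nondegenerate :=
    ⟨fun a ha => hBn a ha, fun a ha => hBn a fun y => (polar_comm Q a y).trans (ha y)⟩
  obtain ⟨z, hz⟩ : ∃ z, ∀ x, polar Q z x = φ x :=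
    ⟨(LinearMap.BilinForm.toDual (polarBilin Q) hnd).symm φ, fun x =>
      LinearMap.BilinForm.apply_toDual_symm_apply (hB := hnd) _ x⟩
  obtain ⟨u, hu, w, hw, rfl⟩ :=
    Submodule.mem_sup.1 (show z ∈ A ⊔ B by rw [hc.sup_eq_top]; trivial)
  have key : ∀ y ∈ B, polar Q u y = φ y := fun y hy => by
    rw [← hz y, polar_add_left, polar_zero_of_sing hB hw hy, add_zero]
  exact ⟨u, hu, fun p hp => (key p (hP hp)).trans (hφ p hp), (key b hb).trans hφ1⟩

omit [Finite F] in
/-- A subspace invariant under the short root elements is comparable with one of the halves. -/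
lemma orth_invariant_dichotomy (hBn : BNondeg Q) (hc : IsCompl A B)
    (hA : ∀ x ∈ A, Q x = 0) (hB : ∀ x ∈ B, Q x = 0) (hdB : 3 ≤ finrank F B) {W : Submodule F V}
    (hW : ∀ u ∈ A, ∀ w ∈ B, polar Q u w = 0 → ∀ x ∈ W,
      x + polar Q u x • w - polar Q w x • u ∈ W) :
    B ≤ W ∨ W ≤ A := by
  refine (em (W ≤ A)).symm.imp_left fun hWA => ?_
  obtain ⟨x, hxW, hxA⟩ := SetLike.not_le_iff_exists.1 hWA
  obtain ⟨a, ha, b, hb, rfl⟩ :=
    Submodule.mem_sup.1 (show x ∈ A ⊔ B by rw [hc.sup_eq_top]; trivial)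
  have hb0 : b ≠ 0 := fun h => hxA (by simpa [h] using ha)
  have step : ∀ a' ∈ A, ∀ b' ∈ B, a' + b' ∈ W → b' ≠ 0 → ∀ w ∈ B, polar Q w a' = 0 →
      w ∉ (F ∙ b') → w ∈ W := by
    intro a' ha' b' hb' hab hb0' w hw haw hwb
    have hbw : b' ∉ (F ∙ w) := fun h => by
      obtain ⟨c, hc'⟩ := Submodule.mem_span_singleton.1 h
      have hc0 : c ≠ 0 := fun h0 => hb0' (by simp [← hc', h0])
      exact hwb (Submodule.mem_span_singleton.2 ⟨c⁻¹, by rw [← hc', inv_smul_smul₀ hc0]⟩)
    obtain ⟨u, hu, huw, hub⟩ :=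
      orth_pair_vector hBn hc hB (by rwa [Submodule.span_singleton_le_iff_mem]) hb' hbw
    have := W.sub_mem (hW u hu w hw (huw w (Submodule.mem_span_singleton_self w)) _ hab) hab
    rw [polar_add_right, polar_add_right, polar_zero_of_sing hA hu ha', haw,
      polar_zero_of_sing hB hw hb', hub] at this
    simpa using this
  set H : Submodule F V := B ⊓ LinearMap.ker (polarBilin Q a) with hH
  have hHdim : 2 ≤ finrank F H := by
    have := finrank_le_inf_ker' (polarBilin Q a) B
    rw [← hH] at this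
    omega
  have hHb : ¬ H ≤ (F ∙ b) := fun h => by
    have := (Submodule.finrank_mono h).trans (finrank_span_le_card ({b} : Set V))
    simp at this
    omega
  obtain ⟨h₀, hh₀, hh₀b⟩ := exists_not_mem_sup hHb
  have hh₀W : h₀ ∈ W :=
    step a ha b hb hxW hb0 h₀ hh₀.1 ((polar_comm Q h₀ a).trans hh₀.2) hh₀b
  have hh₀0 : h₀ ≠ 0 := fun h => hh₀b (by rw [h]; exact zero_mem _)
  intro w hw
  by_cases h : w ∈ (F ∙ h₀)
  · obtain ⟨c, rfl⟩ := Submodule.mem_span_singleton.1 h
    exact W.smul_mem c hh₀W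
  · exact step 0 (zero_mem _) h₀ hh₀.1 (by simpa using hh₀W) hh₀0 w hw (by simp) h

variable {M : Subgroup (OQ Q)}

/-- A short root element moving the second half off itself makes the first half consist of
centres. -/
lemma half_subset_siegelCentres (hBn : BNondeg Q) (hc : IsCompl A B)
    (hA : ∀ x ∈ A, Q x = 0) (hB : ∀ x ∈ B, Q x = 0) (hdA : 6 ≤ finrank F A)
    (hK : ∀ u ∈ A, ∀ w ∈ B, ∀ (hu : Q u = 0) (h : polar Q u w = 0), siegel Q hu h ∈ M)
    {p x : V} (hp : Q p = 0) (hpx : polar Q p x = 0) (hh : siegel Q hp hpx ∈ M)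
    (hmove : ∃ w ∈ B, (siegel Q hp hpx).1 w ∉ B) :
    ∀ e ∈ A, e ∈ siegelCentres Q M := by
  obtain ⟨w₁, hw₁, hw₁B⟩ := hmove
  set g := siegel Q hp hpx with hgdef
  obtain ⟨a, ha, b, hb, hab⟩ :=
    Submodule.mem_sup.1 (show g.1 w₁ ∈ A ⊔ B by rw [hc.sup_eq_top]; trivial)
  have ha0 : a ≠ 0 := fun h0 => hw₁B (by rw [← hab, h0, zero_add]; exact hb)
  set T := A ⊓ LinearMap.ker (polarBilin Q p) ⊓ LinearMap.ker (polarBilin Q x) ⊓
    LinearMap.ker (polarBilin Q w₁) with hT
  have hTa : ¬ T ≤ (F ∙ a) := fun h => by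
    have h1 := finrank_le_inf_ker' (polarBilin Q p) A
    have h2 := finrank_le_inf_ker' (polarBilin Q x) (A ⊓ LinearMap.ker (polarBilin Q p))
    have h3 := finrank_le_inf_ker' (polarBilin Q w₁)
      (A ⊓ LinearMap.ker (polarBilin Q p) ⊓ LinearMap.ker (polarBilin Q x))
    have h4 := (Submodule.finrank_mono h).trans (finrank_span_le_card ({a} : Set V))
    simp only [Set.toFinset_singleton, Finset.card_singleton] at h4
    rw [← hT] at h3
    omega
  obtain ⟨u, ⟨⟨⟨huA, hup⟩, hux⟩, huw⟩, hua'⟩ := exists_not_mem_sup hTa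
  change polar Q p u = 0 at hup
  change polar Q x u = 0 at hux
  change polar Q w₁ u = 0 at huw
  rw [polar_comm] at huw
  have hu := hA u huA
  have hfix : g.1 u = u := siegel_fix Q hp hpx hup hux
  have hua : polar Q u a = 0 := polar_zero_of_sing hA huA ha
  have hub : polar Q u b = 0 := by
    have := OQ_polar g u w₁
    rw [hfix, ← hab, polar_add_right, hua, huw, zero_add] at this
    exact this
  have hN : siegel Q hu hua ∈ M := by
    have h1 := mul_mem (mul_mem hh (hK u huA w₁ hw₁ hu huw)) (inv_mem hh)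
    rw [siegel_conj] at h1
    have hnb : polar Q u (-b) = 0 := by rw [polar_neg_right, hub, neg_zero]
    have h2 := mul_mem h1 (hK u huA _ (B.neg_mem hb) hu hnb)
    have hab' : polar Q u (a + b) = 0 := by rw [polar_add_right, hua, hub, add_zero]
    rw [siegel_congr Q _ _ hu hab' hfix hab.symm, siegel_mul] at h2
    convert h2 using 1
    exact siegel_congr Q _ _ _ _ rfl (by abel)
  -- one component outside the line of the centre gives all of them
  have spread : ∀ (u : V) (_ : u ∈ A) (hu : Q u = 0) (a : V) (_ : a ∈ A) (hua : polar Q u a = 0),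
      a ∉ (F ∙ u) → siegel Q hu hua ∈ M →
      ∀ y ∈ A, ∀ h : polar Q u y = 0, siegel Q hu h ∈ M := by
    intro u huA hu a ha hua hau hmem
    have huA' : ∀ y ∈ A, polar Q u y = 0 := fun y hy => polar_zero_of_sing hA huA hy
    have hout : ∀ y ∈ A, a ∉ Submodule.span F {u, y} → ∀ h : polar Q u y = 0,
        siegel Q hu h ∈ M := by
      intro y hy hay h
      have hle : Submodule.span F {u, y} ≤ A :=
        Submodule.span_le.2 (Set.insert_subset huA (Set.singleton_subset_iff.2 hy))
      obtain ⟨w, hw, hwP, hwa⟩ := orth_pair_vector hBn hc.symm hA hle ha hay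
      have hyw : polar Q y (-w) = 0 := by
        rw [polar_neg_right, polar_comm, hwP y (Submodule.subset_span (by simp)), neg_zero]
      have hd := hK y hy _ (B.neg_mem hw) (hA y hy) hyw
      have hm := mul_mem (mul_mem hd hmem) (inv_mem hd)
      rw [siegel_conj] at hm
      have e1 : (siegel Q (hA y hy) hyw).1 u = u := siegel_fix Q _ _
        (polar_zero_of_sing hA hy huA)
        (by rw [polar_neg_left, hwP u (Submodule.subset_span (by simp)), neg_zero])
      have e2 : (siegel Q (hA y hy) hyw).1 a = a + y := by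
        rw [siegel_apply, polar_zero_of_sing hA hy ha, polar_neg_left, hwa]
        simp
      rw [siegel_congr Q _ _ hu (huA' _ (A.add_mem ha hy)) e1 e2] at hm
      have hm' := mul_mem (inv_mem hmem) hm
      rw [siegel_inv, siegel_mul] at hm'
      convert hm' using 1
      exact siegel_congr Q _ _ _ _ rfl (by abel)
    intro y hy h
    by_cases hay : a ∈ Submodule.span F {u, y}
    · have hP : ¬ A ≤ Submodule.span F {u, y} := fun hle => by
        have := Submodule.finrank_mono hle
        rw [Submodule.span_insert] at this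
        have h2 := Submodule.finrank_add_le_finrank_add_finrank (F ∙ u) (F ∙ y)
        have h3 : ∀ z : V, finrank F (F ∙ z) ≤ 1 := fun z =>
          (finrank_span_le_card ({z} : Set V)).trans (by simp)
        have h4 := h3 u
        have h5 := h3 y
        omega
      obtain ⟨z, hz, hzP⟩ := exists_not_mem_sup hP
      have key : ∀ z ∈ A, z ∉ Submodule.span F {u, y} → a ∉ Submodule.span F {u, z} := by
        intro z _ hzP haz
        rw [Submodule.mem_span_pair] at haz hay
        obtain ⟨c, d, hcd⟩ := haz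
        rcases eq_or_ne d 0 with rfl | hd
        · exact hau (Submodule.mem_span_singleton.2 ⟨c, by simpa using hcd⟩)
        obtain ⟨c', d', hcd'⟩ := hay
        refine hzP (Submodule.mem_span_pair.2 ⟨(c' - c) / d, d' / d, ?_⟩)
        linear_combination (norm := (match_scalars <;> field_simp <;> ring))
          d⁻¹ • hcd' - d⁻¹ • hcd
      have hyz : y + z ∉ Submodule.span F {u, y} := fun h' =>
        hzP (by simpa using Submodule.sub_mem _ h' (Submodule.subset_span (by simp : y ∈ ({u, y} : Set V))))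
      have m1 := hout _ (A.add_mem hy hz) (key _ (A.add_mem hy hz) hyz) (huA' _ (A.add_mem hy hz))
      have m2 := hout z hz (key z hz hzP) (huA' z hz)
      have hm' := mul_mem m1 (inv_mem m2)
      rw [siegel_inv, siegel_mul] at hm'
      convert hm' using 1
      exact siegel_congr Q _ _ _ _ rfl (by abel)
    · exact hout y hy hay h
  have hau : a ∉ (F ∙ u) := fun h => hua' (by
    obtain ⟨c, hc'⟩ := Submodule.mem_span_singleton.1 h
    have hc0 : c ≠ 0 := fun h0 => ha0 (by simp [← hc', h0])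
    exact Submodule.mem_span_singleton.2 ⟨c⁻¹, by rw [← hc', inv_smul_smul₀ hc0]⟩)
  have hu_all := spread u huA hu a ha hua hau hN
  have hu0 : u ≠ 0 := fun h => hua' (by rw [h]; exact zero_mem _)
  -- exchanging the two arguments
  have hswap : ∀ u ∈ A, ∀ v ∈ A, v ∉ (F ∙ u) → u ≠ 0 →
      (∀ y ∈ A, ∀ (h0 : Q u = 0) (h : polar Q u y = 0), siegel Q h0 h ∈ M) →
      ∀ y ∈ A, ∀ (h0 : Q v = 0) (h : polar Q v y = 0), siegel Q h0 h ∈ M := by
    intro u huA v hv hvu hu0 hall y hy h0 h
    have huv : polar Q v u = 0 := polar_zero_of_sing hA hv huA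
    have hnv : polar Q u (-v) = 0 := by rw [polar_neg_right, polar_comm, huv, neg_zero]
    refine spread v hv h0 u huA huv (fun h' => hvu ?_) ?_ y hy h
    · obtain ⟨c, hc'⟩ := Submodule.mem_span_singleton.1 h'
      have hc0 : c ≠ 0 := fun h0 => hu0 (by simp [← hc', h0])
      exact Submodule.mem_span_singleton.2 ⟨c⁻¹, by rw [← hc', inv_smul_smul₀ hc0]⟩
    · rw [siegel_swap Q h0 (hA u huA) huv hnv]
      exact hall _ (A.neg_mem hv) _ _
  have hall : ∀ v ∈ A, ∀ y ∈ A, ∀ (h0 : Q v = 0) (h : polar Q v y = 0), siegel Q h0 h ∈ M := by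
    intro v hv y hy h0 h
    have hu_all' : ∀ y ∈ A, ∀ (h0 : Q u = 0) (h : polar Q u y = 0), siegel Q h0 h ∈ M :=
      fun y hy _ h => hu_all y hy h
    by_cases hvu : v ∈ (F ∙ u)
    · rcases eq_or_ne v 0 with rfl | hv0
      · convert one_mem M using 1
        ext z
        simp
      obtain ⟨z, hz, hzu⟩ := exists_not_mem_sup (P := (F ∙ u)) (S := A) fun hle => by
        have := (Submodule.finrank_mono hle).trans (finrank_span_le_card ({u} : Set V))
        simp only [Set.toFinset_singleton, Finset.card_singleton] at this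
        omega
      refine hswap z hz v hv (fun hvz => hzu ?_) (fun h => hzu (by rw [h]; exact zero_mem _))
        (hswap u huA z hz hzu hu0 hu_all') y hy h0 h
      obtain ⟨c, hc'⟩ := Submodule.mem_span_singleton.1 hvz
      have hc0 : c ≠ 0 := fun h0 => hv0 (by simp [← hc', h0])
      rw [show z = c⁻¹ • v by rw [← hc', inv_smul_smul₀ hc0]]
      exact Submodule.smul_mem _ _ hvu
    · exact hswap u huA v hv hvu hu0 hu_all' y hy h0 h
  intro e he
  refine ⟨hA e he, fun y hy => ?_⟩
  obtain ⟨a', ha', b', hb', rfl⟩ :=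
    Submodule.mem_sup.1 (show y ∈ A ⊔ B by rw [hc.sup_eq_top]; trivial)
  have hea : polar Q e a' = 0 := polar_zero_of_sing hA he ha'
  have heb : polar Q e b' = 0 := by rwa [polar_add_right, hea, zero_add] at hy
  rw [← siegel_mul Q (hA e he) hea heb]
  exact mul_mem (hall e he a' ha' _ _) (hK e he b' hb' _ _)

/-- Some element of the Eichler subgroup interchanges the halves when their dimension is even. -/
lemma exists_swap_halves_orth (hBn : BNondeg Q) (hc : IsCompl A B) (hA : ∀ x ∈ A, Q x = 0)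
    (hB : ∀ x ∈ B, Q x = 0) (hd : finrank F A = finrank F B) {l : ℕ} (hl : finrank F A = l * 2) :
    ∃ s ∈ EQ Q, (∀ x ∈ A, s.1 x ∈ B) ∧ ∀ x ∈ B, s.1 x ∈ A := by
  set ba := (Module.finBasisOfFinrankEq F A hl).reindex finProdFinEquiv.symm with hba
  set e : Fin l × Fin 2 → V := fun i => (ba i : V) with he
  have heA : ∀ i, e i ∈ A := fun i => (ba i).2
  have hnd : (polarBilin Q).Nondegenerate :=
    ⟨fun a ha => hBn a ha, fun a ha => hBn a fun y => (polar_comm Q a y).trans (ha y)⟩
  have hdual : ∀ j, ∃ f ∈ B, ∀ i, polar Q (e i) f = if i = j then 1 else 0 := by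
    intro j
    obtain ⟨φ, hφ⟩ := LinearMap.exists_extend (ba.coord j)
    obtain ⟨z, hz⟩ : ∃ z, ∀ x, polar Q z x = φ x :=
      ⟨(LinearMap.BilinForm.toDual (polarBilin Q) hnd).symm φ, fun x =>
        LinearMap.BilinForm.apply_toDual_symm_apply (hB := hnd) _ x⟩
    obtain ⟨w, hw, f, hf, hwf⟩ :=
      Submodule.mem_sup.1 (show z ∈ A ⊔ B by rw [hc.sup_eq_top]; trivial)
    refine ⟨f, hf, fun i => ?_⟩
    have h1 := hz (e i)
    rw [← hwf, polar_add_left, polar_zero_of_sing hA hw (heA i), zero_add, polar_comm] at h1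
    rw [h1, show φ (e i) = ba.coord j (ba i) from LinearMap.congr_fun hφ (ba i)]
    simp [Finsupp.single_apply, eq_comm]
  choose f hfB hef using hdual
  have hfe : ∀ i j, polar Q (f j) (e i) = if i = j then 1 else 0 := fun i j => by
    rw [polar_comm, hef]
  have hee : ∀ i j, polar Q (e i) (e j) = 0 := fun i j => polar_zero_of_sing hA (heA i) (heA j)
  have hff : ∀ i j, polar Q (f i) (f j) = 0 := fun i j => polar_zero_of_sing hB (hfB i) (hfB j)
  set W : Fin l → OQ Q := fun i =>
    siegel Q (hA _ (heA (i, 0))) (hee (i, 0) (i, 1)) *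
      siegel Q (hB _ (hfB (i, 0))) (hff (i, 0) (i, 1)) *
      siegel Q (hA _ (heA (i, 0))) (hee (i, 0) (i, 1)) with hW
  have hWe : ∀ i, (W i).1 (e (i, 0)) = f (i, 1) ∧ (W i).1 (e (i, 1)) = - f (i, 0) ∧
      (W i).1 (f (i, 0)) = e (i, 1) ∧ (W i).1 (f (i, 1)) = - e (i, 0) := by
    intro i
    simp only [hW, Subgroup.coe_mul, LinearEquiv.mul_apply, siegel_apply, map_add, map_sub,
      map_smul, map_neg, hA _ (heA _), hB _ (hfB _), polar_add_right, polar_sub_right,
      polar_smul_right, polar_neg_right, hee, hff, hef, hfe, Prod.mk.injEq, smul_eq_mul]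
    refine ⟨?_, ?_, ?_, ?_⟩ <;> simp <;> module
  have hWo : ∀ i j, i ≠ j → ∀ t, (W i).1 (e (j, t)) = e (j, t) ∧ (W i).1 (f (j, t)) = f (j, t) := by
    intro i j hij t
    simp only [hW, Subgroup.coe_mul, LinearEquiv.mul_apply, siegel_apply, polar_add_right,
      polar_sub_right, polar_smul_right, hee, hff, hef, hfe, Prod.mk.injEq, if_neg, hij,
      Ne.symm hij, false_and, if_false, smul_eq_mul]
    simp
  have key : ∀ L : List (Fin l), L.Nodup → ∀ i,
      (i ∈ L → ((L.map W).prod.1 (e (i, 0)) = f (i, 1) ∧ (L.map W).prod.1 (e (i, 1)) = - f (i, 0) ∧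
        (L.map W).prod.1 (f (i, 0)) = e (i, 1) ∧ (L.map W).prod.1 (f (i, 1)) = - e (i, 0))) ∧
      (i ∉ L → ∀ t, (L.map W).prod.1 (e (i, t)) = e (i, t) ∧
        (L.map W).prod.1 (f (i, t)) = f (i, t)) := by
    intro L
    induction L with
    | nil => intro _ i; simp
    | cons j L ih =>
      intro hnd' i
      obtain ⟨hjl, hL⟩ := List.nodup_cons.1 hnd'
      simp only [List.map_cons, List.prod_cons, Subgroup.coe_mul, LinearEquiv.mul_apply]
      refine ⟨fun hi => ?_, fun hi t => ?_⟩
      · rcases List.mem_cons.1 hi with rfl | hi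
        · have h := (ih hL i).2 hjl
          rw [(h 0).1, (h 1).1, (h 0).2, (h 1).2]
          exact hWe i
        · obtain ⟨h1, h2, h3, h4⟩ := (ih hL i).1 hi
          have hne : j ≠ i := fun e' => hjl (e' ▸ hi)
          rw [h1, h2, h3, h4, map_neg, map_neg, (hWo j i hne 0).1, (hWo j i hne 1).1,
            (hWo j i hne 0).2, (hWo j i hne 1).2]
          exact ⟨rfl, rfl, rfl, rfl⟩
      · rw [List.mem_cons, not_or] at hi
        obtain ⟨h1, h2⟩ := (ih hL i).2 hi.2 t
        rw [h1, h2]; exact hWo j i (Ne.symm hi.1) t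
  set s := ((List.finRange l).map W).prod with hs
  have hsmem : s ∈ EQ Q := list_prod_mem fun g hg => by
    obtain ⟨i, -, rfl⟩ := List.mem_map.1 hg
    exact mul_mem (mul_mem (siegel_mem_EQ Q _ _) (siegel_mem_EQ Q _ _)) (siegel_mem_EQ Q _ _)
  have hsi := fun i => (key _ (List.nodup_finRange _) i).1 (List.mem_finRange i)
  have hse : ∀ i, s.1 (e i) ∈ B ∧ s.1 (f i) ∈ A := by
    rintro ⟨i, t⟩
    obtain ⟨h1, h2, h3, h4⟩ := hsi i
    revert t
    rw [Fin.forall_fin_two]
    exact ⟨⟨h1.symm ▸ hfB _, h3.symm ▸ heA _⟩,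
      ⟨h2.symm ▸ B.neg_mem (hfB _), h4.symm ▸ A.neg_mem (heA _)⟩⟩
  refine ⟨s, hsmem, fun x hx => ?_, fun x hx => ?_⟩
  · have hx' := congrArg Subtype.val (ba.sum_repr ⟨x, hx⟩)
    simp only [Submodule.coe_sum, Submodule.coe_smul] at hx'
    rw [← hx', map_sum]
    refine B.sum_mem fun i _ => ?_
    rw [map_smul]
    exact B.smul_mem _ (hse i).1
  · have hlin : LinearIndependent F (fun i => (⟨f i, hfB i⟩ : B)) := by
      rw [Fintype.linearIndependent_iff]
      intro g hg i
      have h := congrArg (fun y : B => polarBilin Q (e i) (y : V)) hg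
      simp only [Submodule.coe_sum, Submodule.coe_smul, Submodule.coe_zero, map_sum, map_smul,
        map_zero] at h
      simpa [hef, eq_comm] using h
    rcases Nat.eq_zero_or_pos l with h0 | h0
    · have hB0 : B = ⊥ := Submodule.finrank_eq_zero.1 (by rw [← hd, hl, h0, zero_mul])
      rw [hB0, Submodule.mem_bot] at hx
      simp [hx]
    haveI : Nonempty (Fin l × Fin 2) := ⟨(⟨0, h0⟩, 0)⟩
    set bb := basisOfLinearIndependentOfCardEqFinrank hlin (by simp [← hd, hl])
    have hx' := congrArg Subtype.val (bb.sum_repr ⟨x, hx⟩)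
    simp only [Submodule.coe_sum, Submodule.coe_smul, bb,
      coe_basisOfLinearIndependentOfCardEqFinrank] at hx'
    rw [← hx', map_sum]
    refine A.sum_mem fun i _ => ?_
    rw [map_smul]
    exact A.smul_mem _ (hse i).2

end

section Matrices

open Cfsg.Geo

/-- The stabiliser of two complementary totally singular halves is maximal in `Ω(Q)`. -/
theorem omegaGL_totDecomp_maximal {K : Type*} [Field K] [Finite K] {ι : Type} [Fintype ι]
    [DecidableEq ι] {Qm : (ι → K) → K} (hQ : IsNondegenerateQuadraticForm Qm) {k : ℕ}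
    (hk : 6 ≤ k) (hke : Even k) {D : Fin 2 → Submodule K (ι → K)} (hD : IsMDecomposition k D)
    (hts : ∀ i, IsTotallySingularQuad Qm (D i)) :
    IsMaximalIn (omegaGL Qm) (decompositionStabilizer D ⊓ omegaGL Qm) := by
  set Qf := toQF hQ with hQf
  have hBn : BNondeg Qf := bNondeg_toQF hQ
  set A := D 0 with hAdef
  set B := D 1 with hBdef
  have hc : IsCompl A B := mdecomp_isCompl hD
  have hdA : finrank K A = k := hD.finrank_eq 0
  have hdB : finrank K B = k := hD.finrank_eq 1
  have hA : ∀ x ∈ A, Qf x = 0 := hts 0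
  have hB : ∀ x ∈ B, Qf x = 0 := hts 1
  have hn : 5 ≤ finrank K (ι → K) := by
    have := Submodule.finrank_le A
    omega
  have hC := commutator_eq_EQ hBn hn
  have hmap : omegaGL Qm = (EQ Qf).map (oqToGL Qf) := by
    rw [← hC, map_oqToGL_commutator, coe_toQF]
  have himg : ∀ {g : OQ Qf}, oqToGL Qf g ∈ decompositionStabilizer D →
      ∀ i, ∃ j, ∀ x ∈ D i, g.1 x ∈ D j := by
    rintro g ⟨σ, hσ⟩ i
    refine ⟨σ i, fun x hx => ?_⟩
    have := (hσ i).le ⟨x, hx, rfl⟩
    rwa [Matrix.toLin'_apply, oqToGL_mulVec] at this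
  refine ⟨lt_of_le_not_ge inf_le_right fun hle => ?_, fun M hM hMK => ?_⟩
  · -- properness
    obtain ⟨a₁, ha₁, ha₁0⟩ := A.exists_mem_ne_zero_of_ne_bot
      (fun h => by rw [h, finrank_bot] at hdA; omega)
    obtain ⟨a₂, ha₂, ha₂1⟩ := exists_not_mem_sup (S := A) (P := (K ∙ a₁)) fun hle => by
      have := (Submodule.finrank_mono hle).trans (finrank_span_le_card ({a₁} : Set (ι → K)))
      simp only [Set.toFinset_singleton, Finset.card_singleton] at this
      omega
    obtain ⟨y, hy, hy1, hy2⟩ := orth_pair_vector hBn hc.symm hA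
      (show (K ∙ a₁) ≤ A by rwa [Submodule.span_singleton_le_iff_mem]) ha₂ ha₂1
    have h12 : polar Qf a₁ a₂ = 0 := polar_zero_of_sing hA ha₁ ha₂
    have hmem : oqToGL Qf (siegel Qf (hA _ ha₁) h12) ∈ omegaGL Qm :=
      hmap ▸ ⟨_, siegel_mem_EQ Qf _ _, rfl⟩
    obtain ⟨j, hj⟩ := himg (hle hmem).1 1
    have himy := hj y hy
    rw [siegel_apply, hA a₂ ha₂, polar_comm Qf a₁ y, polar_comm Qf a₂ y,
      hy1 a₁ (Submodule.mem_span_singleton_self a₁), hy2] at himy
    simp only [zero_smul, add_zero, zero_mul, sub_zero, one_smul] at himy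
    have hd := Submodule.disjoint_def.1 hc.disjoint
    fin_cases j
    · refine ha₁0 ?_
      have hyA : y ∈ A := by simpa using A.add_mem himy ha₁
      have := hd y hyA hy
      rw [this, polar_zero_left] at hy2
      exact absurd hy2 zero_ne_one
    · exact ha₁0 (hd a₁ ha₁ (by simpa using B.sub_mem hy himy))
  by_cases hMW : M ≤ decompositionStabilizer D
  · exact Or.inl (le_antisymm (le_inf hMW hMK) hM)
  refine Or.inr (le_antisymm hMK ?_)
  set M' := M.comap (oqToGL Qf) with hM'
  rw [hmap, Subgroup.map_le_iff_le_comap, ← hM']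
  have hmemK : ∀ g ∈ EQ Qf, ∀ σ : Equiv.Perm (Fin 2),
      (∀ i, ∀ x ∈ D i, g.1 x ∈ D (σ i)) → g ∈ M' := fun g hg σ hσ =>
    hM ⟨mem_decompositionStabilizer_two hD σ fun i x hx => by
      rw [oqToGL_mulVec]; exact hσ i x hx, hmap ▸ ⟨g, hg, rfl⟩⟩
  have hK : ∀ u ∈ A, ∀ w ∈ B, ∀ (h0 : Qf u = 0) (h : polar Qf u w = 0),
      siegel Qf h0 h ∈ M' := by
    intro u hu w hw h0 h
    refine hmemK _ (siegel_mem_EQ Qf h0 h) 1 ?_
    rw [Fin.forall_fin_two]
    refine ⟨fun x hx => ?_, fun x hx => ?_⟩ <;>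
      simp only [siegel_apply, hB w hw, zero_mul, zero_smul, sub_zero, Equiv.Perm.one_apply]
    · rw [polar_zero_of_sing hA hu hx, zero_smul, add_zero]
      exact A.sub_mem hx (A.smul_mem _ hu)
    · rw [polar_zero_of_sing hB hw hx, zero_smul, sub_zero]
      exact B.add_mem hx (B.smul_mem _ hw)
  have hK' : ∀ w ∈ B, ∀ u ∈ A, ∀ (h0 : Qf w = 0) (h : polar Qf w u = 0),
      siegel Qf h0 h ∈ M' := by
    intro w hw u hu h0 h
    have h' : polar Qf u (-w) = 0 := by rw [polar_neg_right, polar_comm, h, neg_zero]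
    rw [siegel_swap Qf h0 (hA u hu) h h']
    exact hK u hu _ (B.neg_mem hw) _ h'
  obtain ⟨l, hl⟩ := hke
  obtain ⟨s, hsE, hsA, hsB⟩ := exists_swap_halves_orth hBn hc hA hB (hdA.trans hdB.symm)
    (l := l) (by omega)
  have hsM : s ∈ M' := hmemK s hsE (Equiv.swap 0 1) (by
    rw [Fin.forall_fin_two]; simpa using ⟨hsA, hsB⟩)
  obtain ⟨p, x, hp, hpx, hh, hmove⟩ : ∃ p x, ∃ (hp : Qf p = 0) (hpx : polar Qf p x = 0),
      siegel Qf hp hpx ∈ M' ∧ ((∃ y ∈ B, (siegel Qf hp hpx).1 y ∉ B) ∨
        ∃ y ∈ A, (siegel Qf hp hpx).1 y ∉ A) := by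
    by_contra hcon
    push Not at hcon
    refine hMW fun g₀ hg₀ => ?_
    obtain ⟨g, hg, rfl⟩ : g₀ ∈ (EQ Qf).map (oqToGL Qf) := hmap ▸ hMK hg₀
    replace hg₀ : g ∈ M' := hg₀
    have key : ∀ S : Submodule K (ι → K), S = A ∨ S = B →
        Submodule.comap g.1.toLinearMap S = A ∨ Submodule.comap g.1.toLinearMap S = B := by
      intro S hS
      set W := Submodule.comap g.1.toLinearMap S with hWdef
      have hdS : finrank K S = k := by rcases hS with rfl | rfl <;> assumption
      have hdW : finrank K W = k := by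
        rw [(Submodule.equivMapOfInjective g.1.toLinearMap g.1.injective W).finrank_eq, hWdef,
          Submodule.map_comap_eq_of_surjective g.1.surjective, hdS]
      have hinv : ∀ u ∈ A, ∀ w ∈ B, polar Qf u w = 0 → ∀ y ∈ W,
          y + polar Qf u y • w - polar Qf w y • u ∈ W := by
        intro u hu w hw huw y hy
        have hmem := mul_mem (mul_mem hg₀ (hK u hu w hw (hA u hu) huw)) (inv_mem hg₀)
        rw [siegel_conj] at hmem
        obtain ⟨hcB, hcA⟩ := hcon _ _ _ _ hmem
        have hgy : g.1 y ∈ S := hy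
        show g.1 _ ∈ S
        have hval : ∀ (h0 : Qf (g.1 u) = 0) (h : polar Qf (g.1 u) (g.1 w) = 0),
            (siegel Qf h0 h).1 (g.1 y) = g.1 (y + polar Qf u y • w - polar Qf w y • u) := by
          intro h0 h
          rw [siegel_apply, OQ_polar, OQ_polar, OQ_map_app, hB w hw, map_sub, map_add, map_smul,
            map_smul, zero_mul, zero_smul, sub_zero]
        rcases hS with rfl | rfl
        · rw [← hval]; exact hcA _ hgy
        · rw [← hval]; exact hcB _ hgy
      rcases orth_invariant_dichotomy hBn hc hA hB (by omega) hinv with h | h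
      · exact Or.inr (Submodule.eq_of_le_of_finrank_eq h (hdB.trans hdW.symm)).symm
      · exact Or.inl (Submodule.eq_of_le_of_finrank_eq h (hdW.trans hdA.symm))
    have hne : Submodule.comap g.1.toLinearMap A ≠ Submodule.comap g.1.toLinearMap B := fun h => by
      have hAB : A = B := Submodule.comap_injective_of_surjective g.1.surjective h
      rw [hAB] at hc
      have h0 := hc.inf_eq_bot
      rw [inf_idem] at h0
      rw [h0, finrank_bot] at hdB
      omega
    rcases key A (Or.inl rfl) with ha | ha <;> rcases key B (Or.inr rfl) with hb | hb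
    · exact (hne (ha.trans hb.symm)).elim
    · refine mem_decompositionStabilizer_two hD 1 ?_
      rw [Fin.forall_fin_two]
      exact ⟨fun y hy => by rw [oqToGL_mulVec]; exact ha.ge hy,
        fun y hy => by rw [oqToGL_mulVec]; exact hb.ge hy⟩
    · refine mem_decompositionStabilizer_two hD (Equiv.swap 0 1) ?_
      rw [Fin.forall_fin_two]
      exact ⟨fun y hy => by rw [oqToGL_mulVec]; simpa using hb.ge hy,
        fun y hy => by rw [oqToGL_mulVec]; simpa using ha.ge hy⟩
    · exact (hne (ha.trans hb.symm)).elim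
  have hsurj : ∀ (S T : Submodule K (ι → K)), finrank K S = finrank K T →
      (∀ z ∈ S, s.1 z ∈ T) → ∀ y ∈ T, ∃ a ∈ S, s.1 a = y := by
    intro S T hd hST y hy
    have hmap : S.map s.1.toLinearMap = T := Submodule.eq_of_le_of_finrank_eq
      (by rintro _ ⟨z, hz, rfl⟩; exact hST z hz)
      (by rw [← (Submodule.equivMapOfInjective _ s.1.injective S).finrank_eq, hd])
    obtain ⟨a, ha, hay⟩ := hmap.ge hy
    exact ⟨a, ha, hay⟩
  have hAX : ∀ e ∈ A, e ∈ siegelCentres Qf M' := by
    rcases hmove with h | h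
    · exact half_subset_siegelCentres hBn hc hA hB (by omega) hK hp hpx hh h
    · have hBX := half_subset_siegelCentres hBn hc.symm hB hA (by omega) hK' hp hpx hh h
      intro e he
      obtain ⟨b, hb, rfl⟩ := hsurj B A (hdB.trans hdA.symm) hsB e he
      exact map_mem_siegelCentres (hBX b hb) hsM
  obtain ⟨y, hy, hy0⟩ := B.exists_mem_ne_zero_of_ne_bot (fun h => by
    rw [h, finrank_bot] at hdB; omega)
  obtain ⟨u, hu, -, huy⟩ := orth_pair_vector hBn hc hB (bot_le : (⊥ : Submodule K (ι → K)) ≤ B) hy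
    (by simpa using hy0)
  obtain ⟨a, ha, rfl⟩ := hsurj A B (hdA.trans hdB.symm) hsA y hy
  exact EQ_le_of_siegel_pair hBn hn (hAX u hu) (map_mem_siegelCentres (hAX a ha) hsM)
    (by rw [polar_comm, huy]; exact one_ne_zero)

end Matrices

end Cfsg.Agent.GeoClasses
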