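import Cfsg.Agent.GeoClasses.SympMax
import Cfsg.Agent.GeoClasses.FieldFacts
import Cfsg.Agent.MaxSub.SubfieldMax.SL2Gen
import Cfsg.Agent.MaxSub.SubfieldMax.Basic

/-!
Rational vectors of a symplectic space over a subfield.
-/

set_option autoImplicit false

namespace Cfsg.Agent.GeoClasses

open Matrix Cfsg.Geo Cfsg.Agent.Forms Cfsg.Agent.ClassicalMax Module
open scoped MatrixGroups Matrix

universe u

variable {F : Type u} [Field F] {m : ℕ}

/-- A set of vectors on which `ζ` times the form is a symplectic form over the subfield. -/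
structure RatSp (F₀ : Subfield F) (ζ : F) (R : Set (Fin m ⊕ Fin m → F)) : Prop where
  zeta : ζ ≠ 0
  zero : (0 : Fin m ⊕ Fin m → F) ∈ R
  add : ∀ {x y}, x ∈ R → y ∈ R → x + y ∈ R
  smul : ∀ {a : F} {x}, a ∈ F₀ → x ∈ R → a • x ∈ R
  form : ∀ {x y}, x ∈ R → y ∈ R → ζ * sympBil m F x y ∈ F₀
  span : Submodule.span F R = ⊤
  desc : ∀ x, (∀ z ∈ R, ζ * sympBil m F x z ∈ F₀) → x ∈ R
  perp : ∀ k, k < 2 * m → ∀ s : Fin k → (Fin m ⊕ Fin m → F), (∀ i, s i ∈ R) →
    ∃ z ∈ R, z ≠ 0 ∧ ∀ i, sympBil m F z (s i) = 0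

namespace RatSp

variable {F₀ : Subfield F} {ζ : F} {R : Set (Fin m ⊕ Fin m → F)} (h : RatSp F₀ ζ R)
include h

lemma neg {x : Fin m ⊕ Fin m → F} (hx : x ∈ R) : -x ∈ R := by
  simpa using h.smul (neg_mem (one_mem F₀)) hx

lemma sub {x y : Fin m ⊕ Fin m → F} (hx : x ∈ R) (hy : y ∈ R) : x - y ∈ R := by
  rw [sub_eq_add_neg]; exact h.add hx (h.neg hy)

/-- A functional is determined by the rational vectors. -/
lemma exists_ne (φ : (Fin m ⊕ Fin m → F) →ₗ[F] F) (hφ : φ ≠ 0) : ∃ z ∈ R, φ z ≠ 0 := by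
  by_contra hc
  push Not at hc
  exact hφ (LinearMap.ext fun x => LinearMap.mem_ker.1
    ((Submodule.span_le.2 fun z hz => LinearMap.mem_ker.2 (hc z hz) :
      Submodule.span F R ≤ LinearMap.ker φ) (h.span ▸ Submodule.mem_top)))

lemma exists_not_orth {x : Fin m ⊕ Fin m → F} (hx : x ≠ 0) :
    ∃ z ∈ R, sympBil m F x z ≠ 0 :=
  h.exists_ne _ fun h0 => hx (sympBil_nondegenerate.1 x fun y => LinearMap.congr_fun h0 y)

lemma exists_pair {p : Fin m ⊕ Fin m → F} (hp : p ∈ R) (hp0 : p ≠ 0) :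
    ∃ q ∈ R, ζ * sympBil m F p q = 1 := by
  obtain ⟨z, hz, hpz⟩ := h.exists_not_orth hp0
  refine ⟨(ζ * sympBil m F p z)⁻¹ • z, h.smul (inv_mem (h.form hp hz)) hz, ?_⟩
  rw [map_smul, smul_eq_mul, mul_left_comm, inv_mul_cancel₀ (mul_ne_zero h.zeta hpz)]

/-- A rational vector orthogonal to `p` and not to `f`. -/
lemma exists_perp_not_orth {p f : Fin m ⊕ Fin m → F} (hp : p ∈ R) (hf : f ∉ F ∙ p)
    (hp0 : p ≠ 0) : ∃ z ∈ R, sympBil m F z p = 0 ∧ sympBil m F f z ≠ 0 := by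
  obtain ⟨q, hq, hpq⟩ := h.exists_pair hp hp0
  by_contra hc
  push Not at hc
  apply hf
  refine Submodule.mem_span_singleton.2 ⟨ζ * sympBil m F f q, ?_⟩
  by_contra hne
  obtain ⟨z, hz, hfz⟩ := h.exists_not_orth (sub_ne_zero.2 hne)
  have hz' : z - (ζ * sympBil m F p z) • q ∈ R := h.sub hz (h.smul (h.form hp hz) hq)
  have hperp : sympBil m F (z - (ζ * sympBil m F p z) • q) p = 0 := by
    simp only [map_sub, map_smul, LinearMap.sub_apply, LinearMap.smul_apply, smul_eq_mul,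
      spB_swap p z, spB_swap p q]
    linear_combination (sympBil m F p z) * hpq
  apply hfz
  have := hc _ hz' hperp
  simp only [map_sub, map_smul, LinearMap.sub_apply, LinearMap.smul_apply, smul_eq_mul] at this ⊢
  linear_combination -this

/-- A rational vector orthogonal to `p` and to neither of `f`, `g`. -/
lemma exists_perp_not_orth_two {p f g : Fin m ⊕ Fin m → F} (hp : p ∈ R) (hf : f ∉ F ∙ p)
    (hg : g ∉ F ∙ p) (hp0 : p ≠ 0) :
    ∃ z ∈ R, sympBil m F z p = 0 ∧ sympBil m F f z ≠ 0 ∧ sympBil m F g z ≠ 0 := by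
  obtain ⟨a, ha, hap, hfa⟩ := h.exists_perp_not_orth hp hf hp0
  by_cases hga : sympBil m F g a = 0
  · obtain ⟨b, hb, hbp, hgb⟩ := h.exists_perp_not_orth hp hg hp0
    by_cases hfb : sympBil m F f b = 0
    · refine ⟨a + b, h.add ha hb, ?_, ?_, ?_⟩
      · rw [map_add, LinearMap.add_apply, hap, hbp, add_zero]
      · rw [map_add, hfb, add_zero]; exact hfa
      · rw [map_add, hga, zero_add]; exact hgb
    · exact ⟨b, hb, hbp, hfb, hgb⟩
  · exact ⟨a, ha, hap, hfa, hga⟩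

/-- A rational vector orthogonal to neither of `x`, `y`. -/
lemma exists_not_orth_two {x y : Fin m ⊕ Fin m → F} (hx : x ≠ 0) (hy : y ≠ 0) :
    ∃ z ∈ R, sympBil m F x z ≠ 0 ∧ sympBil m F y z ≠ 0 := by
  obtain ⟨a, ha, hxa⟩ := h.exists_not_orth hx
  by_cases hya : sympBil m F y a = 0
  · obtain ⟨b, hb, hyb⟩ := h.exists_not_orth hy
    by_cases hxb : sympBil m F x b = 0
    · refine ⟨a + b, h.add ha hb, ?_, ?_⟩
      · rw [map_add, hxb, add_zero]; exact hxa
      · rw [map_add, hya, zero_add]; exact hyb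
    · exact ⟨b, hb, hxb, hyb⟩
  · exact ⟨a, ha, hxa, hya⟩

end RatSp

lemma mem_subfield_of_sq [Fintype F] {F₀ : Subfield F} {a : F} (h2 : (2 : F) = 0)
    (ha : a ^ 2 ∈ F₀) : a ∈ F₀ := by
  have heven : Even (Fintype.card F) := by
    rw [← Nat.not_odd_iff_even, ← two_ne_zero_iff_odd_card, not_not]; exact h2
  obtain ⟨k, hk⟩ := heven
  have := FiniteField.pow_card a
  rw [hk, ← two_mul, pow_mul] at this
  rw [← this]
  exact pow_mem ha _

lemma mem_subfield_of_sq_succ [Fintype F] {F₀ : Subfield F} {a : F} (ha : a ^ 2 ∈ F₀)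
    (ha1 : (a + 1) ^ 2 ∈ F₀) : a ∈ F₀ := by
  by_cases h2 : (2 : F) = 0
  · exact mem_subfield_of_sq h2 ha
  · have h2a : 2 * a ∈ F₀ := by
      convert sub_mem (sub_mem ha1 ha) (one_mem F₀) using 1
      ring
    have := div_mem h2a (show (2 : F) ∈ F₀ from natCast_mem _ 2)
    rwa [mul_div_cancel_left₀ _ h2] at this

end Cfsg.Agent.GeoClasses
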