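import Cfsg.Agent.GeoClasses.RatBasis
import Cfsg.Agent.GeoClasses.SympSubfieldRat
import Cfsg.Agent.GeoClasses.OrthSimMax
import Cfsg.Agent.GeoClasses.OrthTotDecomp

/-!
Rational vectors of a quadratic space over a subfield.
-/

set_option autoImplicit false

namespace Cfsg.Agent.GeoClasses

open QuadraticMap Module Cfsg.Agent.Classical
open scoped Matrix

universe u

variable {F : Type u} [Field F] {ι : Type} [Fintype ι] [DecidableEq ι]

/-- Rational vectors on which the quadratic form takes values in the subfield. -/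
structure RatO (Q : QuadraticForm F (ι → F)) (F₀ : Subfield F) (R : Set (ι → F)) : Prop where
  set : RatSet F₀ R
  form : ∀ {x}, x ∈ R → Q x ∈ F₀

/-- Three vectors are independent. -/
def Indep3 (x y z : ι → F) : Prop :=
  ∀ a b c : F, a • x + b • y + c • z = 0 → a = 0 ∧ b = 0 ∧ c = 0

lemma Indep3.swap23 {x y z : ι → F} (h : Indep3 x y z) : Indep3 x z y := fun a b c e => by
  obtain ⟨h1, h2, h3⟩ := h a c b (by rw [← e]; abel)
  exact ⟨h1, h3, h2⟩

lemma Indep3.swap12 {x y z : ι → F} (h : Indep3 x y z) : Indep3 y x z := fun a b c e => by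
  obtain ⟨h1, h2, h3⟩ := h b a c (by rw [← e]; abel)
  exact ⟨h2, h1, h3⟩

lemma Indep3.linearIndependent {x y z : ι → F} (h : Indep3 x y z) :
    LinearIndependent F ![x, y, z] := by
  rw [Fintype.linearIndependent_iff]
  intro g hg i
  simp only [Fin.sum_univ_three, Matrix.cons_val_zero, Matrix.cons_val_one] at hg
  obtain ⟨h1, h2, h3⟩ := h (g 0) (g 1) (g 2) hg
  fin_cases i <;> assumption

namespace RatO

variable {Q : QuadraticForm F (ι → F)} {F₀ : Subfield F} {R : Set (ι → F)} (hB : BNondeg Q)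
  (hO : RatO Q F₀ R)

include hO in
lemma polar_mem {x y : ι → F} (hx : x ∈ R) (hy : y ∈ R) : polar Q x y ∈ F₀ :=
  sub_mem (sub_mem (hO.form (hO.set.add hx hy)) (hO.form hx)) (hO.form hy)

include hB in
lemma indep_polar {k : ℕ} {s : Fin k → ι → F} (hs : LinearIndependent F s) :
    LinearIndependent F fun i => polarBilin Q (s i) :=
  hs.map' (polarBilin Q) (LinearMap.ker_eq_bot'.2 fun x hx => hB x fun y => LinearMap.congr_fun hx y)

include hB hO

lemma dual {k : ℕ} (s : Fin k → ι → F) (hs : ∀ i, s i ∈ R) (hind : LinearIndependent F s)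
    (t : Fin k → F) (ht : ∀ i, t i ∈ F₀) : ∃ y ∈ R, ∀ i, polar Q (s i) y = t i :=
  hO.set.surj (fun i => polarBilin Q (s i)) (fun i z hz => hO.polar_mem (hs i) hz)
    (indep_polar hB hind) t ht

omit hB in
lemma exists_perp {k : ℕ} (hk : k < Fintype.card ι) (s : Fin k → ι → F) (hs : ∀ i, s i ∈ R) :
    ∃ y ∈ R, y ≠ 0 ∧ ∀ i, polar Q (s i) y = 0 :=
  hO.set.kernel (fun i => polarBilin Q (s i)) hk fun i z hz => hO.polar_mem (hs i) hz

lemma dual_single {e : ι → F} (he : e ∈ R) (he0 : e ≠ 0) : ∃ y ∈ R, polar Q e y = 1 := by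
  obtain ⟨y, hy, h⟩ := dual hB hO ![e] (by simp [he]) (LinearIndependent.of_subsingleton 0
    (by simpa using he0)) ![1] (by simp [one_mem])
  exact ⟨y, hy, h 0⟩

lemma dual_pair {e p : ι → F} (he : e ∈ R) (hp : p ∈ R) (hp0 : p ≠ 0) (hne : e ∉ F ∙ p)
    {a b : F} (ha : a ∈ F₀) (hb : b ∈ F₀) :
    ∃ y ∈ R, polar Q e y = a ∧ polar Q p y = b := by
  obtain ⟨y, hy, h⟩ := dual hB hO ![e, p] (by simp [Fin.forall_fin_two, he, hp])
    (linearIndependent_fin2.2 ⟨hp0, fun c h => hne (Submodule.mem_span_singleton.2 ⟨c, h⟩)⟩)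
    ![a, b] (by simp [Fin.forall_fin_two, ha, hb])
  exact ⟨y, hy, h 0, h 1⟩

lemma desc {x : ι → F} (hx : ∀ z ∈ R, polar Q z x ∈ F₀) : x ∈ R := by
  obtain ⟨b, hb, hbR, -⟩ := hO.set.basis
  let e := Fintype.equivFin ι
  obtain ⟨c, rfl⟩ := (Submodule.mem_span_range_iff_exists_fun F).1
    (show x ∈ Submodule.span F (Set.range b) by
      rw [hb.span_eq_top_of_card_eq_finrank' (by rw [Module.finrank_fintype_fun_eq_card])]
      trivial)
  refine hO.set.sum _ fun j _ => hO.set.smul ?_ (hbR j)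
  obtain ⟨y, hy, hyb⟩ := dual hB hO (b ∘ e.symm) (fun i => hbR _) (hb.comp _ e.symm.injective)
    (Pi.single (e j) 1) fun i => by by_cases h : i = e j <;> simp [h, one_mem, zero_mem]
  have h1 : polar Q y (∑ i, c i • b i) = c j := by
    rw [show polar Q y (∑ i, c i • b i) = polarBilin Q y (∑ i, c i • b i) from rfl, map_sum,
      Finset.sum_eq_single j]
    · rw [map_smul, polarBilin_apply_apply, polar_comm]
      have := hyb (e j)
      simp at this
      simp [this]
    · intro i _ hi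
      rw [map_smul, polarBilin_apply_apply, polar_comm]
      have := hyb (e i)
      simp [hi] at this
      simp [this]
    · simp
  have := hx y hy
  rwa [h1] at this

/-- Singular rational vectors orthogonal to few given ones. -/
lemma exists_sing_perp [Finite F] {k : ℕ} (hk : k + 2 < Fintype.card ι) (s : Fin k → ι → F)
    (hs : ∀ i, s i ∈ R) :
    ∃ z ∈ R, z ≠ 0 ∧ Q z = 0 ∧ ∀ i, polar Q (s i) z = 0 := by
  classical
  haveI : Fintype F := Fintype.ofFinite F
  by_contra hc
  push Not at hc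
  have hne : ∀ z ∈ R, z ≠ 0 → (∀ i, polar Q (s i) z = 0) → Q z ≠ 0 := by
    intro z hz h0 h h1
    obtain ⟨i, hi⟩ := hc z hz h0 h1
    exact hi (h i)
  obtain ⟨x₁, hx₁, hx₁0, hs₁⟩ := exists_perp hO (by omega) s hs
  have h₁ := hne x₁ hx₁ hx₁0 hs₁
  by_cases h2 : (2 : F) = 0
  · obtain ⟨y, hy, hxy⟩ := dual_single hB hO hx₁ hx₁0
    obtain ⟨x₂, hx₂, hx₂0, hs₂⟩ := exists_perp hO (k := k + 2) (by omega)
      (Fin.snoc (Fin.snoc s x₁) y) (fun i => by
        cases i using Fin.lastCases with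
        | last => simp [hy]
        | cast i => cases i using Fin.lastCases <;> simp [hs, hx₁])
    have h12 : polar Q x₁ x₂ = 0 := by simpa using hs₂ (Fin.last k).castSucc
    have hy2 : polar Q y x₂ = 0 := by simpa using hs₂ (Fin.last (k + 1))
    have p₂ : ∀ i, polar Q (s i) x₂ = 0 := fun i => by simpa using hs₂ i.castSucc.castSucc
    have h₂ := hne x₂ hx₂ hx₂0 p₂
    haveI : Fintype F₀ := Fintype.ofFinite F₀
    have hev : Even (Fintype.card F₀) := by
      rw [← Nat.not_odd_iff_even, ← two_ne_zero_iff_odd_card, not_not]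
      exact Subtype.ext h2
    obtain ⟨j, hj⟩ := hev
    set c : F₀ := ⟨-(Q x₁) / Q x₂, div_mem (neg_mem (hO.form hx₁)) (hO.form hx₂)⟩
    have h3 : (c ^ j) ^ 2 = c := by rw [← pow_mul, mul_two, ← hj, FiniteField.pow_card]
    set a : F := ((c ^ j : F₀) : F)
    refine hne (x₁ + a • x₂) (hO.set.add hx₁ (hO.set.smul (SetLike.coe_mem _) hx₂)) ?_
      (fun i => by simp [polar_add_right, polar_smul_right, hs₁ i, p₂ i]) ?_
    · intro h0
      have := congrArg (polar Q y) h0
      rw [polar_add_right, polar_smul_right, hy2, smul_zero, add_zero, polar_comm, hxy,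
        show polar Q y (0 : ι → F) = polarBilin Q y 0 from rfl, map_zero] at this
      exact one_ne_zero this
    · rw [qf_add, polar_smul_right, h12, smul_zero, add_zero, QuadraticMap.map_smul, smul_eq_mul,
        ← pow_two, show a ^ 2 = (c : F) from congrArg Subtype.val h3,
        show (c : F) = -(Q x₁) / Q x₂ from rfl, div_mul_cancel₀ _ h₂]
      ring
  obtain ⟨x₂, hx₂, hx₂0, hs₂⟩ := exists_perp hO (k := k + 1) (by omega) (Fin.snoc s x₁)
    (fun i => by cases i using Fin.lastCases <;> simp [hs, hx₁])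
  obtain ⟨x₃, hx₃, hx₃0, hs₃⟩ := exists_perp hO (k := k + 2) (by omega)
    (Fin.snoc (Fin.snoc s x₁) x₂) (fun i => by
      cases i using Fin.lastCases with
      | last => simp [hx₂]
      | cast i => cases i using Fin.lastCases <;> simp [hs, hx₁])
  have h12 : polar Q x₁ x₂ = 0 := by simpa using hs₂ (Fin.last k)
  have h13 : polar Q x₁ x₃ = 0 := by simpa using hs₃ (Fin.last k).castSucc
  have h23 : polar Q x₂ x₃ = 0 := by simpa using hs₃ (Fin.last (k + 1))
  have p₂ : ∀ i, polar Q (s i) x₂ = 0 := fun i => by simpa using hs₂ i.castSucc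
  have p₃ : ∀ i, polar Q (s i) x₃ = 0 := fun i => by simpa using hs₃ i.castSucc.castSucc
  have h₂ := hne x₂ hx₂ hx₂0 p₂
  have h₃ := hne x₃ hx₃ hx₃0 p₃
  haveI : Fintype F₀ := Fintype.ofFinite F₀
  have hodd : Fintype.card F₀ % 2 = 1 := by
    rw [← Nat.odd_iff, ← two_ne_zero_iff_odd_card]
    intro h
    exact h2 (by rw [← map_ofNat F₀.subtype 2, h, map_zero])
  set a : F₀ := ⟨-(Q x₁) / Q x₃, div_mem (neg_mem (hO.form hx₁)) (hO.form hx₃)⟩ with hadef
  set c : F₀ := ⟨Q x₂ / Q x₃, div_mem (hO.form hx₂) (hO.form hx₃)⟩ with hcdef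
  have hc0 : c ≠ 0 := fun h => div_ne_zero h₂ h₃ (congrArg Subtype.val h)
  obtain ⟨u, v, huv⟩ := FiniteField.exists_root_sum_quadratic
    (f := (Polynomial.C c * Polynomial.X ^ 2 : Polynomial F₀))
    (g := Polynomial.X ^ 2 - Polynomial.C a)
    (Polynomial.degree_C_mul_X_pow 2 hc0)
    (Polynomial.degree_X_pow_sub_C (by norm_num) _) hodd
  simp only [Polynomial.eval_pow, Polynomial.eval_X, Polynomial.eval_sub, Polynomial.eval_C,
    Polynomial.eval_mul] at huv
  have huv' := congrArg Subtype.val huv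
  simp only [Subfield.coe_add, Subfield.coe_sub, Subfield.coe_mul, SubmonoidClass.coe_pow,
    hadef, hcdef, ZeroMemClass.coe_zero] at huv'
  refine hne (x₁ + (u : F) • x₂ + (v : F) • x₃)
    (hO.set.add (hO.set.add hx₁ (hO.set.smul u.2 hx₂)) (hO.set.smul v.2 hx₃)) ?_
    (fun i => by simp [polar_add_right, polar_smul_right, hs₁ i, p₂ i, p₃ i]) ?_
  · intro h0
    have := congrArg (polar Q x₁) h0
    rw [polar_add_right, polar_add_right, polar_smul_right, polar_smul_right, h12, h13, smul_zero,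
      smul_zero, add_zero, add_zero, polar_self, two_nsmul, ← two_mul,
      show polar Q x₁ (0 : ι → F) = polarBilin Q x₁ 0 from rfl, map_zero] at this
    exact mul_ne_zero h2 h₁ this
  · simp only [qf_add, QuadraticMap.map_smul, polar_add_left, polar_smul_left, polar_smul_right,
      h12, h13, h23, smul_eq_mul]
    field_simp at huv'
    linear_combination huv'

/-- A singular partner. -/
lemma exists_sing_partner {e : ι → F} (he : e ∈ R) (he0 : e ≠ 0) (hee : Q e = 0) :
    ∃ f ∈ R, Q f = 0 ∧ polar Q e f = 1 := by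
  obtain ⟨y, hy, hey⟩ := dual_single hB hO he he0
  refine ⟨y - Q y • e, hO.set.sub hy (hO.set.smul (hO.form hy) he), ?_, ?_⟩
  · rw [qf_sub, QuadraticMap.map_smul, hee, polar_smul_right, polar_comm Q y e, hey]
    simp
  · rw [polar_sub_right, polar_smul_right, hey, polar_self, hee]
    simp

/-- A partner of a singular vector orthogonal to a pair and to a further vector. -/
lemma exists_sing_partner_perp {v f e p : ι → F} (hv : v ∈ R) (hf : f ∈ R) (he : e ∈ R) (hp : p ∈ R)
    (hvv : Q v = 0) (hff : Q f = 0) (hvf : polar Q v f = 1) (hpv : polar Q p v = 0)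
    (hpf : polar Q p f = 0) (hee : Q e = 0) (hev : polar Q e v = 0) (hef : polar Q e f = 0)
    (hep : polar Q p e = 0) {y : ι → F} (hy : y ∈ R) (hey : polar Q e y = 1)
    (hpy : polar Q p y = 0) :
    ∃ g ∈ R, Q g = 0 ∧ polar Q e g = 1 ∧ polar Q v g = 0 ∧ polar Q f g = 0 ∧ polar Q p g = 0 := by
  have hfv : polar Q f v = 1 := by rw [polar_comm]; exact hvf
  set y' := y - polar Q f y • v - polar Q v y • f with hy'
  have hy'R : y' ∈ R := hO.set.sub (hO.set.sub hy (hO.set.smul (hO.polar_mem hf hy) hv))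
    (hO.set.smul (hO.polar_mem hv hy) hf)
  have h1 : polar Q e y' = 1 := by simp [hy', hey, hev, hef]
  have h2 : polar Q v y' = 0 := by simp [hy', hvf, polar_self, hvv]
  have h3 : polar Q f y' = 0 := by simp [hy', hfv, polar_self, hff]
  have h4 : polar Q p y' = 0 := by simp [hy', hpy, hpv, hpf]
  refine ⟨y' - Q y' • e, hO.set.sub hy'R (hO.set.smul (hO.form hy'R) he), ?_, ?_, ?_, ?_, ?_⟩
  · rw [qf_sub, QuadraticMap.map_smul, hee, polar_smul_right, polar_comm Q y' e, h1]
    simp
  · simp [h1, polar_self, hee]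
  · simp [h2, polar_comm Q v e, hev]
  · simp [h3, polar_comm Q f e, hef]
  · simp [h4, hep]

omit hB in
/-- Properties of the singular rational vectors extend to all of them. -/
lemma sing_induction {p e f : ι → F} (he : e ∈ R) (hf : f ∈ R)
    (hee : Q e = 0) (hff : Q f = 0) (hef : polar Q e f = 1)
    (hep : polar Q p e = 0) (hfp : polar Q p f = 0) {S : (ι → F) → Prop}
    (hadd : ∀ x y, S x → S y → S (x + y)) (hsmul : ∀ a ∈ F₀, ∀ x, S x → S (a • x))
    (hsing : ∀ u ∈ R, Q u = 0 → polar Q p u = 0 → S u) {y : ι → F} (hy : y ∈ R)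
    (hyp : polar Q p y = 0) : S y := by
  have hfe : polar Q f e = 1 := by rw [polar_comm]; exact hef
  have hSe := hsing e he hee hep
  have hSf := hsing f hf hff hfp
  set y₀ := y - polar Q f y • e - polar Q e y • f with hy₀
  have hy₀R : y₀ ∈ R := hO.set.sub (hO.set.sub hy (hO.set.smul (hO.polar_mem hf hy) he))
    (hO.set.smul (hO.polar_mem he hy) hf)
  have h0e : polar Q y₀ e = 0 := by simp [hy₀, hfe, polar_self, hee, polar_comm Q y e]
  have h0f : polar Q y₀ f = 0 := by simp [hy₀, hef, polar_self, hff, polar_comm Q y f]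
  have h0p : polar Q p y₀ = 0 := by simp [hy₀, hyp, hep, hfp]
  have hu : S (y₀ + e - Q y₀ • f) := by
    refine hsing _ (hO.set.sub (hO.set.add hy₀R he) (hO.set.smul (hO.form hy₀R) hf)) ?_ ?_
    · simp [qf_sub, qf_add, QuadraticMap.map_smul, hee, hff, h0e, h0f, hef]
    · simp [h0p, hep, hfp]
  have h1 : S y₀ := by
    have h2 := hadd _ _ (hadd _ _ hu (hsmul _ (neg_mem (one_mem F₀)) _ hSe))
      (hsmul _ (hO.form hy₀R) _ hSf)
    convert h2 using 1
    module
  have h3 := hadd _ _ (hadd _ _ h1 (hsmul _ (hO.polar_mem hf hy) _ hSe))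
    (hsmul _ (hO.polar_mem he hy) _ hSf)
  convert h3 using 1
  rw [hy₀]; module

/-- A rational singular vector not orthogonal to a given vector. -/
lemma exists_sing_not_orth [Finite F] (hn : 5 ≤ Fintype.card ι) {x : ι → F} (hx : x ≠ 0) :
    ∃ v ∈ R, Q v = 0 ∧ polar Q x v ≠ 0 := by
  obtain ⟨e, he, he0, hee, -⟩ := exists_sing_perp hB hO (k := 0) (by omega) ![] (fun i => i.elim0)
  obtain ⟨f, hf, hff, hef⟩ := exists_sing_partner hB hO he he0 hee
  by_contra hc
  push Not at hc
  obtain ⟨z, hz, hxz⟩ := hO.set.exists_ne (polarBilin Q x) fun h0 =>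
    hx (hB x fun y => LinearMap.congr_fun h0 y)
  apply hxz
  refine sing_induction hO (p := 0) (S := fun w => polar Q x w = 0) he hf hee hff hef (by simp)
    (by simp) (fun a b ha hb => by rw [polar_add_right, ha, hb, add_zero])
    (fun a _ w hw => by rw [polar_smul_right, hw, smul_zero]) (fun u hu huu _ => hc u hu huu) hz
    (by simp)

end RatO

end Cfsg.Agent.GeoClasses
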