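import Mathlib
import Cfsg.Agent.GeoClasses.MatrixUnits

/-!
Vectors with coordinates in a subfield with respect to a basis, and functionals rational on them.
-/

set_option autoImplicit false

namespace Cfsg.Agent.GeoClasses

open Matrix Module
open scoped MatrixGroups Matrix

universe u

variable {ι : Type} [Fintype ι] [DecidableEq ι] {F : Type u} [Field F]

/-- The vectors with coordinates in the subfield, in the basis of the columns of `P`. -/
def rationalVecs (F₀ : Subfield F) (P : GL ι F) : Set (ι → F) :=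
  {x | ∀ i : ι, (((P⁻¹ : GL ι F) : Matrix ι ι F) *ᵥ x) i ∈ F₀}

/-- The properties of the rational vectors used below. -/
structure RatSet (F₀ : Subfield F) (R : Set (ι → F)) : Prop where
  zero : (0 : ι → F) ∈ R
  add : ∀ {x y}, x ∈ R → y ∈ R → x + y ∈ R
  smul : ∀ {a : F} {x}, a ∈ F₀ → x ∈ R → a • x ∈ R
  span : Submodule.span F R = ⊤
  surj : ∀ {k : ℕ} (φ : Fin k → (ι → F) →ₗ[F] F), (∀ i, ∀ z ∈ R, φ i z ∈ F₀) →
    LinearIndependent F φ → ∀ t : Fin k → F, (∀ i, t i ∈ F₀) → ∃ y ∈ R, ∀ i, φ i y = t i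
  kernel : ∀ {k : ℕ} (φ : Fin k → (ι → F) →ₗ[F] F), k < Fintype.card ι →
    (∀ i, ∀ z ∈ R, φ i z ∈ F₀) → ∃ y ∈ R, y ≠ 0 ∧ ∀ i, φ i y = 0
  basis : ∃ b : ι → (ι → F), LinearIndependent F b ∧ (∀ i, b i ∈ R) ∧
    ∀ c : ι → F, ∑ i, c i • b i ∈ R → ∀ i, c i ∈ F₀

namespace RatSet

variable {F₀ : Subfield F} {R : Set (ι → F)} (h : RatSet F₀ R)
include h

lemma neg {x : ι → F} (hx : x ∈ R) : -x ∈ R := by
  simpa using h.smul (neg_mem (one_mem F₀)) hx

lemma sub {x y : ι → F} (hx : x ∈ R) (hy : y ∈ R) : x - y ∈ R := by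
  rw [sub_eq_add_neg]; exact h.add hx (h.neg hy)

lemma sum {α : Type} (s : Finset α) {f : α → ι → F} (hf : ∀ a ∈ s, f a ∈ R) :
    ∑ a ∈ s, f a ∈ R := by
  classical
  induction s using Finset.induction_on with
  | empty => simpa using h.zero
  | insert a s ha ih =>
    rw [Finset.sum_insert ha]
    exact h.add (hf a (Finset.mem_insert_self a s)) (ih fun b hb => hf b (Finset.mem_insert_of_mem hb))

lemma exists_ne (φ : (ι → F) →ₗ[F] F) (hφ : φ ≠ 0) : ∃ z ∈ R, φ z ≠ 0 := by
  by_contra hc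
  push Not at hc
  exact hφ (LinearMap.ext fun x => LinearMap.mem_ker.1
    ((Submodule.span_le.2 fun z hz => LinearMap.mem_ker.2 (hc z hz) :
      Submodule.span F R ≤ LinearMap.ker φ) (h.span ▸ Submodule.mem_top)))

end RatSet

lemma ratSet_rationalVecs (F₀ : Subfield F) (P : GL ι F) : RatSet F₀ (rationalVecs F₀ P) := by
  classical
  set Q := ((P⁻¹ : GL ι F) : Matrix ι ι F) with hQ
  set Pm := (P : Matrix ι ι F) with hPm
  have hPQ : ∀ x, Pm *ᵥ (Q *ᵥ x) = x := gl_mulVec_inv P
  have hQP : ∀ x, Q *ᵥ (Pm *ᵥ x) = x := gl_inv_mulVec P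
  set b : ι → (ι → F) := fun j => Pm *ᵥ Pi.single j 1 with hb
  have hbR : ∀ j, b j ∈ rationalVecs F₀ P := fun j i => by
    show (Q *ᵥ (Pm *ᵥ Pi.single j 1)) i ∈ F₀
    rw [hQP]
    by_cases h : i = j <;> simp [h]
  have hsum : ∀ c : ι → F, ∑ j, c j • b j = Pm *ᵥ c := fun c => by
    conv_rhs => rw [pi_eq_sum_univ' c, Matrix.mulVec_sum]
    simp [hb, Matrix.mulVec_smul]
  have hmem : ∀ c : ι → F, (∀ j, c j ∈ F₀) → ∑ j, c j • b j ∈ rationalVecs F₀ P := fun c hc i => by
    show (Q *ᵥ ∑ j, c j • b j) i ∈ F₀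
    rw [hsum, hQP]
    exact hc i
  have hexp : ∀ x, x = ∑ j, (Q *ᵥ x) j • b j := fun x => by rw [hsum, hPQ]
  refine ⟨fun i => ?_, fun hx hy i => ?_, fun ha hx i => ?_, ?_, ?_, ?_, ⟨b, ?_, hbR, ?_⟩⟩
  · show (Q *ᵥ 0) i ∈ F₀
    simp
  · show (Q *ᵥ _) i ∈ F₀
    rw [Matrix.mulVec_add, Pi.add_apply]
    exact add_mem (hx i) (hy i)
  · show (Q *ᵥ _) i ∈ F₀
    rw [Matrix.mulVec_smul, Pi.smul_apply, smul_eq_mul]
    exact mul_mem ha (hx i)
  · refine eq_top_iff.2 fun x _ => ?_
    rw [hexp x]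
    exact Submodule.sum_mem _ fun j _ => Submodule.smul_mem _ _ (Submodule.subset_span (hbR j))
  · intro k φ hφ hind t ht
    let Φ : (ι → F₀) →ₗ[F₀] (Fin k → F₀) :=
      { toFun := fun u i => ∑ j, u j * ⟨φ i (b j), hφ i _ (hbR j)⟩
        map_add' := fun u v => by funext i; simp [add_mul, Finset.sum_add_distrib]
        map_smul' := fun c u => by
          funext i
          simp only [Pi.smul_apply, smul_eq_mul, RingHom.id_apply, Finset.mul_sum, mul_assoc] }
    have hsurj : LinearMap.range Φ = ⊤ := by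
      by_contra hne
      obtain ⟨ψ, hψ0, hψ⟩ := Submodule.exists_le_ker_of_lt_top _ (lt_top_iff_ne_top.2 hne)
      apply hψ0
      have hz : ∀ j, ∑ i, ((ψ (Pi.single i 1) : F₀) : F) * φ i (b j) = 0 := by
        intro j
        have h1 := congrArg F₀.subtype
          (LinearMap.mem_ker.1 (hψ ⟨Pi.single j (1 : F₀), rfl⟩))
        conv_lhs at h1 => rw [pi_eq_sum_univ' (Φ (Pi.single j 1)), map_sum, map_sum]
        simp only [map_smul, smul_eq_mul, map_mul, map_zero] at h1
        rw [← h1]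
        refine Finset.sum_congr rfl fun i _ => ?_
        rw [mul_comm]
        congr 1
        simp [Φ, Pi.single_apply]
      have h0 := Fintype.linearIndependent_iff.1 hind
        (fun i => ((ψ (Pi.single i 1) : F₀) : F)) (LinearMap.ext fun x => by
          rw [LinearMap.zero_apply, hexp x, map_sum]
          refine Finset.sum_eq_zero fun j _ => ?_
          simp only [map_smul, LinearMap.sum_apply, LinearMap.smul_apply, smul_eq_mul]
          rw [hz j, mul_zero])
      refine LinearMap.ext fun v => ?_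
      rw [pi_eq_sum_univ' v, map_sum, map_sum]
      refine Finset.sum_congr rfl fun i _ => ?_
      rw [map_smul, map_smul, show ψ (Pi.single i 1) = 0 from Subtype.ext (h0 i)]
      simp
    obtain ⟨u, hu⟩ : (fun i => (⟨t i, ht i⟩ : F₀)) ∈ LinearMap.range Φ := by rw [hsurj]; trivial
    refine ⟨_, hmem (fun j => (u j : F)) fun j => SetLike.coe_mem _, fun i => ?_⟩
    have := congrArg F₀.subtype (congrFun hu i)
    simp only [Φ, LinearMap.coe_mk, AddHom.coe_mk, map_sum, map_mul] at this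
    rw [map_sum]
    simp only [map_smul, smul_eq_mul]
    exact this
  · intro k φ hk hφ
    let Φ : (ι → F₀) →ₗ[F₀] (Fin k → F₀) :=
      { toFun := fun u i => ∑ j, u j * ⟨φ i (b j), hφ i _ (hbR j)⟩
        map_add' := fun u v => by funext i; simp [add_mul, Finset.sum_add_distrib]
        map_smul' := fun c u => by
          funext i
          simp only [Pi.smul_apply, smul_eq_mul, RingHom.id_apply, Finset.mul_sum, mul_assoc] }
    have hker : LinearMap.ker Φ ≠ ⊥ := by
      intro h
      have := LinearMap.finrank_le_finrank_of_injective (LinearMap.ker_eq_bot.1 h)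
      simp at this
      omega
    obtain ⟨u, hu, hu0⟩ := Submodule.exists_mem_ne_zero_of_ne_bot hker
    refine ⟨_, hmem (fun j => (u j : F)) fun j => SetLike.coe_mem _, fun h => hu0 ?_, fun i => ?_⟩
    · rw [hsum] at h
      have := congrArg (fun v => Q *ᵥ v) h
      simp only [hQP, Matrix.mulVec_zero] at this
      funext j
      exact Subtype.ext (congrFun this j)
    · have := congrArg F₀.subtype (congrFun (LinearMap.mem_ker.1 hu) i)
      simp only [Φ, LinearMap.coe_mk, AddHom.coe_mk, map_sum, map_mul, Pi.zero_apply, map_zero] at this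
      rw [map_sum]
      simp only [map_smul, smul_eq_mul]
      exact this
  · rw [Fintype.linearIndependent_iff]
    intro c hc i
    rw [hsum] at hc
    have := congrArg (fun v => (Q *ᵥ v) i) hc
    simpa [hQP] using this
  · intro c hc i
    have := hc i
    rw [hsum] at this
    change (Q *ᵥ (Pm *ᵥ c)) i ∈ F₀ at this
    rwa [hQP] at this

end Cfsg.Agent.GeoClasses
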