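import Cfsg.Agent.GeoClasses.SympMax
import Cfsg.Agent.GeoClasses.OrthMaxBase
import Cfsg.Agent.GeoClasses.FieldFacts

/-!
In characteristic two the isometry group of a quadratic form is maximal in the symplectic group.
-/

set_option autoImplicit false

namespace Cfsg.Agent.GeoClasses

open Matrix Cfsg.Geo Cfsg.Agent.Forms Cfsg.Agent.ClassicalMax Module
open Cfsg.Agent.Classical (OQ OQ_polar OQ_map_app EQ_transitive_level EQ_transitive_singular qf_add)
open scoped MatrixGroups Matrix

universe u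

variable {F : Type u} [Field F] [Fintype F] {m : ℕ}

local notation "V" => (Fin m ⊕ Fin m → F)

/-- The isometry group of a quadratic form polarising to the alternating form is maximal. -/
theorem spGL_quad_maximal (hm : 4 ≤ m) (heven : ¬ Odd (Fintype.card F)) {Q : V → F}
    (hQ : IsNondegenerateQuadraticForm Q)
    (hpol : ∀ u v, QuadraticMap.polar Q u v = Cfsg.sympForm m F u v) :
    IsMaximalIn (Cfsg.spGL m F) (quadSimilarityGroup Q ⊓ Cfsg.spGL m F) := by
  have h2 : (2 : F) = 0 := by
    by_contra h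
    exact heven ((two_ne_zero_iff_odd_card (F := F)).1 h)
  haveI : CharP F 2 := CharTwo.of_one_ne_zero_of_two_eq_zero one_ne_zero h2
  have hadd : ∀ x : F, x + x = 0 := CharTwo.add_self_eq_zero
  have hsqrt : ∀ c : F, ∃ s, s * s = c := fun c => by
    obtain ⟨s, hs⟩ := FiniteField.isSquare_of_char_two (ringChar.eq F 2) c
    exact ⟨s, hs.symm⟩
  set Qf := toQF hQ with hQfdef
  have hQf : ∀ v, Qf v = Q v := fun v => rfl
  have hB := bNondeg_toQF hQ
  have hp : ∀ u v, QuadraticMap.polar Qf u v = Cfsg.sympForm m F u v := hpol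
  have hV : finrank F V = m + m := by simp
  have hp2 := OrthGen.hasTwoPairs_of_five_le hB (by rw [hV]; omega)
  refine ⟨lt_of_le_not_ge inf_le_right fun hle =>
    spGL_not_le_quadSimilarityGroup (by omega) hpol (hle.trans inf_le_left), fun M hM hMK => ?_⟩
  by_cases hMW : M ≤ quadSimilarityGroup Q
  · exact Or.inl (le_antisymm (le_inf hMW hMK) hM)
  refine Or.inr (le_antisymm hMK ?_)
  have hQτ : ∀ (v : V) (c : F) (x : V),
      Q ((spTau v c : Matrix (Fin m ⊕ Fin m) (Fin m ⊕ Fin m) F) *ᵥ x) =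
        Q x + c * Cfsg.sympForm m F x v ^ 2 * (c * Q v + 1) := by
    intro v c x
    rw [spTau_mulVec, ← hQf, qf_add, QuadraticMap.map_smul, QuadraticMap.polar_smul_right, hp,
      hQf, hQf, smul_eq_mul, smul_eq_mul]
    ring
  set S : Set V := {w | spTau w 1 ∈ M} with hS
  have hone : ∀ w, Q w = 1 → w ∈ S := fun w hw => hM ⟨⟨1, fun x => by
    rw [hQτ, hw, one_mul, one_mul, Units.val_one, one_mul, hadd, mul_zero, add_zero]⟩, spTau_mem _ _⟩
  have hinv : ∀ g ∈ M, ∀ w ∈ S, (g : Matrix (Fin m ⊕ Fin m) (Fin m ⊕ Fin m) F) *ᵥ w ∈ S := by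
    intro g hg w hw
    show spTau ((g : Matrix (Fin m ⊕ Fin m) (Fin m ⊕ Fin m) F) *ᵥ w) 1 ∈ M
    convert mul_mem (mul_mem hg hw) (inv_mem hg) using 1
    refine gl_ext_mulVec fun x => ?_
    have := mem_spGL_iff.1 (hMK hg) (((g⁻¹ : GL (Fin m ⊕ Fin m) F) : Matrix _ _ F) *ᵥ x) w
    rw [mulVec_inv_cancel] at this
    simp only [Units.val_mul, ← Matrix.mulVec_mulVec, spTau_apply, Matrix.mulVec_add,
      Matrix.mulVec_smul, mulVec_inv_cancel, this]
  obtain ⟨g, hgM, hgW⟩ := SetLike.not_le_iff_exists.1 hMW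
  set G : Matrix (Fin m ⊕ Fin m) (Fin m ⊕ Fin m) F := ↑g with hG
  obtain ⟨v, hv, hgv⟩ : ∃ v, Q v ≠ 0 ∧ Q (G *ᵥ v) ≠ Q v := by
    by_contra hcon
    push Not at hcon
    refine hgW ⟨1, fun v => ?_⟩
    rw [Units.val_one, one_mul]
    by_cases hv : Q v = 0
    · rw [hv]
      by_contra hgv
      let φ : {v : V // Q v ≠ 0} → {v : V // Q v ≠ 0} := fun z =>
        ⟨G *ᵥ z.1, by rw [hcon z.1 z.2]; exact z.2⟩
      have hφ : Function.Surjective φ := Finite.surjective_of_injective fun a b h =>
        Subtype.ext (mulVec_injective g (congrArg Subtype.val h))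
      obtain ⟨z, hz⟩ := hφ ⟨G *ᵥ v, hgv⟩
      exact z.2 (by rw [mulVec_injective g (congrArg Subtype.val hz)]; exact hv)
    · exact hcon v hv
  obtain ⟨s, hs⟩ := hsqrt (Q v)⁻¹
  have hQs : ∀ x, Q (s • x) = (Q v)⁻¹ * Q x := fun x => by rw [hQ.smul, pow_two, hs]
  set u := G *ᵥ (s • v) with hu
  have huS : u ∈ S := hinv g hgM _ (hone _ (by rw [hQs, inv_mul_cancel₀ hv]))
  have hu1 : Q u ≠ 1 := by
    rw [hu, Matrix.mulVec_smul, hQs]
    intro h
    exact hgv (by rwa [inv_mul_eq_one₀ hv, eq_comm] at h)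
  have hu0 : u ≠ 0 := fun h => by
    have : s • v = 0 := mulVec_injective g (show G *ᵥ (s • v) = G *ᵥ 0 by
      rw [Matrix.mulVec_zero]; exact h)
    have := congrArg Q this
    rw [hQs, inv_mul_cancel₀ hv, ← hQf, map_zero] at this
    exact one_ne_zero this
  -- every value is taken on `S`
  have hval : ∀ r : F, ∃ w ∈ S, w ≠ 0 ∧ Q w = r := by
    intro r
    obtain ⟨t, ht⟩ := hsqrt ((r + 1) / (Q u + 1))
    obtain ⟨r₀, hr₀⟩ := exists_sympForm_ne_zero hu0
    obtain ⟨e, heS, he0, he⟩ := Forms.exists_singular_vector_of_three_le Qf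
      (S := OrthGen.perpSub Qf (Submodule.span F (Set.range ![u, r₀]))) (by
        rw [OrthGen.finrank_orthogonal_polar hB, hV]
        have := (finrank_range_le_card (R := F) ![u, r₀]).trans_eq (Fintype.card_fin 2)
        show 3 ≤ _ - finrank F ↥(Submodule.span F (Set.range ![u, r₀]))
        unfold Set.finrank at this
        omega)
    have heu : Cfsg.sympForm m F u e = 0 :=
      (hp u e).symm.trans (heS u (Submodule.subset_span ⟨0, rfl⟩))
    have her : Cfsg.sympForm m F r₀ e = 0 :=
      (hp r₀ e).symm.trans (heS r₀ (Submodule.subset_span ⟨1, rfl⟩))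
    obtain ⟨e', he'⟩ := exists_sympForm_ne_zero he0
    set k := Cfsg.sympForm m F r₀ u with hk
    set l := Cfsg.sympForm m F e' e with hl
    -- a vector with the two prescribed products
    set p := e' + (Cfsg.sympForm m F e' u / k) • r₀ with hp'
    have hpu : Cfsg.sympForm m F p u = 0 := by
      rw [hp', ← sympBil_apply, map_add, map_smul, LinearMap.add_apply, LinearMap.smul_apply,
        sympBil_apply, sympBil_apply, smul_eq_mul, ← hk, div_mul_cancel₀ _ hr₀, hadd]
    have hpe : Cfsg.sympForm m F p e = l := by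
      rw [hp', ← sympBil_apply, map_add, map_smul, LinearMap.add_apply, LinearMap.smul_apply,
        sympBil_apply, sympBil_apply, her, smul_eq_mul, mul_zero, add_zero]
    set y := (t / k) • r₀ + l⁻¹ • p with hy
    have hye : Cfsg.sympForm m F y e = 1 := by
      rw [hy, ← sympBil_apply, map_add, map_smul, map_smul, LinearMap.add_apply,
        LinearMap.smul_apply, LinearMap.smul_apply, sympBil_apply, sympBil_apply, her, hpe,
        smul_eq_mul, smul_eq_mul, inv_mul_cancel₀ he', mul_zero, zero_add]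
    have hyu : Cfsg.sympForm m F y u = t := by
      rw [hy, ← sympBil_apply, map_add, map_smul, map_smul, LinearMap.add_apply,
        LinearMap.smul_apply, LinearMap.smul_apply, sympBil_apply, sympBil_apply, hpu, ← hk,
        smul_eq_mul, smul_eq_mul, mul_zero, add_zero, div_mul_cancel₀ _ hr₀]
    set w := y + (1 + Q y) • e with hw
    have hQw : Q w = 1 := by
      rw [hw, ← hQf, qf_add, QuadraticMap.map_smul, he, QuadraticMap.polar_smul_right, hp, hye,
        smul_zero, add_zero, smul_eq_mul, mul_one, hQf]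
      linear_combination hadd (Q y)
    have hwu : Cfsg.sympForm m F w u = t := by
      have heu' : Cfsg.sympForm m F e u = 0 := by
        rw [Forms.sympForm_swap, heu, neg_zero]
      rw [hw, ← sympBil_apply, map_add, map_smul, LinearMap.add_apply, LinearMap.smul_apply,
        sympBil_apply, sympBil_apply, heu', hyu, smul_zero, add_zero]
    refine ⟨_, hinv _ huS _ (hone w hQw), fun h => ?_, ?_⟩
    · have hw0 : w = 0 := by
        refine mulVec_injective (spTau u 1) ?_
        show (spTau u 1 : Matrix (Fin m ⊕ Fin m) (Fin m ⊕ Fin m) F) *ᵥ w = _ *ᵥ 0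
        rw [Matrix.mulVec_zero]
        exact h
      rw [hw0, ← hQf, map_zero] at hQw
      exact zero_ne_one hQw
    · have hne : Q u + 1 ≠ 0 := fun h => hu1 (by linear_combination h - hadd 1)
      rw [hQτ, hQw, hwu, one_mul, one_mul, pow_two, ht, div_mul_cancel₀ _ hne]
      linear_combination hadd 1
  have hall : ∀ z : V, z ∈ S := by
    intro z
    rcases eq_or_ne z 0 with rfl | hz
    · show spTau (0 : V) 1 ∈ M
      convert one_mem M using 1
      exact gl_ext_mulVec fun x => by simp [spTau_mulVec]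
    obtain ⟨w, hwS, hw0, hwz⟩ := hval (Q z)
    obtain ⟨k, hk⟩ : ∃ k : OQ Qf, k.1 w = z := by
      by_cases hz0 : Q z = 0
      · obtain ⟨k, -, hk⟩ := EQ_transitive_singular hB.qNondeg hp2 hw0 (hwz.trans hz0) hz hz0
        exact ⟨k, hk⟩
      · obtain ⟨k, -, hk⟩ := EQ_transitive_level hB hp2 (x := w) (y := z) hwz
          (by rw [hQf, hwz]; exact hz0)
        exact ⟨k, hk⟩
    have hkM : oqToGL Qf k ∈ M := hM ⟨⟨1, fun x => by
      rw [oqToGL_mulVec, Units.val_one, one_mul]; exact OQ_map_app k x⟩, fun x y => by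
      show Cfsg.sympForm m F ((oqToGL Qf k : Matrix _ _ F) *ᵥ x) ((oqToGL Qf k : Matrix _ _ F) *ᵥ y)
        = Cfsg.sympForm m F x y
      rw [oqToGL_mulVec, oqToGL_mulVec, ← hp, ← hp]
      exact OQ_polar k x y⟩
    have := hinv _ hkM _ hwS
    rwa [oqToGL_mulVec, hk] at this
  refine spGL_le_of_spTau_mem fun v c => ?_
  obtain ⟨s, hs⟩ := hsqrt c
  have : spTau (s • v) 1 ∈ M := hall _
  convert this using 1
  refine gl_ext_mulVec fun x => ?_
  simp only [spTau_apply, map_smul, smul_eq_mul, smul_smul, ← hs]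
  congr 2
  ring

end Cfsg.Agent.GeoClasses
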