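import Cfsg.Agent.GeoClasses.SympMax
import Cfsg.Agent.GeoClasses.DecompTwo
import Cfsg.Agent.GeoClasses.FieldFacts

/-!
The stabiliser of a pair of complementary totally singular halves is maximal in the symplectic
group, for fields of odd order.
-/

set_option autoImplicit false

namespace Cfsg.Agent.GeoClasses

open Matrix Cfsg.Geo Cfsg.Agent.Forms Cfsg.Agent.ClassicalMax Module
open scoped MatrixGroups Matrix

variable {F : Type*} [Field F] {m : ℕ}

local notation "V" => (Fin m ⊕ Fin m → F)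
local notation "β" => sympBil m F
local notation "μ" g => ((g : GL (Fin m ⊕ Fin m) F) : Matrix (Fin m ⊕ Fin m) (Fin m ⊕ Fin m) F)

/-- A short root element, written with transvections. -/
noncomputable def spShort (u w : V) : GL (Fin m ⊕ Fin m) F :=
  spTau (u + w) 1 * spTau u (-1) * spTau w (-1)

lemma spShort_mem_spGL (u w : V) : spShort u w ∈ Cfsg.spGL m F :=
  mul_mem (mul_mem (spTau_mem _ _) (spTau_mem _ _)) (spTau_mem _ _)

lemma spShort_apply {u w : V} (h : β u w = 0) (x : V) :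
    (μ (spShort u w)) *ᵥ x = x + β x u • w + β x w • u := by
  simp only [spShort, Units.val_mul, ← Matrix.mulVec_mulVec, spTau_apply, map_add, map_smul,
    LinearMap.add_apply, LinearMap.smul_apply, smul_eq_mul, h, spB_swap u w,
    sympBil_isAlt.self_eq_zero]
  module

lemma conj_spTau {g : GL (Fin m ⊕ Fin m) F} (hg : g ∈ Cfsg.spGL m F) (v : V) (c : F) :
    spTau ((μ g) *ᵥ v) c = g * spTau v c * g⁻¹ := by
  refine gl_ext_mulVec fun x => ?_
  have := mem_spGL_iff.1 hg ((μ g⁻¹) *ᵥ x) v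
  rw [mulVec_inv_cancel] at this
  simp only [Units.val_mul, ← Matrix.mulVec_mulVec, spTau_apply, Matrix.mulVec_add,
    Matrix.mulVec_smul, mulVec_inv_cancel, this]

lemma spShort_comm {u w : V} (h : β u w = 0) : spShort w u = spShort u w := by
  refine gl_ext_mulVec fun x => ?_
  rw [spShort_apply h, spShort_apply (by rw [spB_swap u w, h, neg_zero])]
  abel

lemma conj_spShort {g : GL (Fin m ⊕ Fin m) F} (hg : g ∈ Cfsg.spGL m F) (u w : V) :
    spShort ((μ g) *ᵥ u) ((μ g) *ᵥ w) = g * spShort u w * g⁻¹ := by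
  unfold spShort
  rw [← Matrix.mulVec_add, conj_spTau hg, conj_spTau hg, conj_spTau hg]
  group

section

variable {A B : Submodule F (Fin m ⊕ Fin m → F)}

/-- A functional prescribed through the pairing of the two halves. -/
lemma exists_pair_vector (hc : IsCompl A B) (hB : ∀ x ∈ B, ∀ y ∈ B, β x y = 0) {p b : V}
    (hp : p ∈ B) (hb : b ∈ B) (hbp : b ∉ (F ∙ p)) :
    ∃ u ∈ A, β u p = 0 ∧ β u b ≠ 0 := by
  obtain ⟨φ, hφ1, hφ⟩ := exists_functional (p := (F ∙ p)) hbp
  obtain ⟨z, hz⟩ : ∃ z, ∀ x, β z x = φ x :=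
    ⟨(LinearMap.BilinForm.toDual β sympBil_nondegenerate).symm φ, fun x =>
      LinearMap.BilinForm.apply_toDual_symm_apply _ x⟩
  obtain ⟨u, hu, w, hw, rfl⟩ := Submodule.mem_sup.1 (show z ∈ A ⊔ B by rw [hc.sup_eq_top]; trivial)
  refine ⟨u, hu, ?_, ?_⟩
  · have := (hz p).trans (hφ p (Submodule.mem_span_singleton_self p))
    rwa [map_add, LinearMap.add_apply, hB w hw p hp, add_zero] at this
  · have := (hz b).trans hφ1
    rw [map_add, LinearMap.add_apply, hB w hw b hb, add_zero] at this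
    rw [this]; exact one_ne_zero

/-- A non-zero vector of one half is not orthogonal to the other half. -/
lemma exists_pair_ne (hc : IsCompl A B) (hB : ∀ x ∈ B, ∀ y ∈ B, β x y = 0) {b : V}
    (hb : b ∈ B) (hb0 : b ≠ 0) : ∃ u ∈ A, β u b ≠ 0 := by
  obtain ⟨u, hu, -, h⟩ := exists_pair_vector hc hB (zero_mem B) hb (p := 0)
    (by simpa [Submodule.span_singleton_eq_bot.2] using hb0)
  exact ⟨u, hu, h⟩

/-- A subspace invariant under the short root elements is comparable with one of the halves. -/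
lemma short_invariant_dichotomy (hm : 3 ≤ m) (hc : IsCompl A B)
    (hA : ∀ x ∈ A, ∀ y ∈ A, β x y = 0) (hB : ∀ x ∈ B, ∀ y ∈ B, β x y = 0) (hdB : finrank F B = m)
    {W : Submodule F V}
    (hW : ∀ u ∈ A, ∀ w ∈ B, β u w = 0 → ∀ x ∈ W, (μ (spShort u w)) *ᵥ x ∈ W) :
    B ≤ W ∨ W ≤ A := by
  refine (em (W ≤ A)).symm.imp_left fun hWA => ?_
  obtain ⟨x, hxW, hxA⟩ := SetLike.not_le_iff_exists.1 hWA
  obtain ⟨a, ha, b, hb, rfl⟩ := Submodule.mem_sup.1 (show x ∈ A ⊔ B by rw [hc.sup_eq_top]; trivial)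
  have hb0 : b ≠ 0 := fun h => hxA (by simpa [h] using ha)
  have step : ∀ a' ∈ A, ∀ b' ∈ B, a' + b' ∈ W → b' ≠ 0 → ∀ w ∈ B, β a' w = 0 →
      w ∉ (F ∙ b') → w ∈ W := by
    intro a' ha' b' hb' hab hb0' w hw haw hwb
    have hbw : b' ∉ (F ∙ w) := fun h => by
      obtain ⟨c, hc'⟩ := Submodule.mem_span_singleton.1 h
      have hc0 : c ≠ 0 := fun h0 => hb0' (by simp [← hc', h0])
      exact hwb (Submodule.mem_span_singleton.2 ⟨c⁻¹, by rw [← hc', inv_smul_smul₀ hc0]⟩)
    obtain ⟨u, hu, huw, hub⟩ := exists_pair_vector hc hB hw hb' hbw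
    have := W.sub_mem (hW u hu w hw huw _ hab) hab
    rw [spShort_apply huw] at this
    simp only [map_add, LinearMap.add_apply, hA a' ha' u hu, haw, hB b' hb' w hw, zero_add,
      add_zero, zero_smul, add_sub_cancel_left] at this
    rw [spB_swap u b'] at this
    simpa [hub] using W.smul_mem (-(β u b'))⁻¹ this
  set H : Submodule F V := B ⊓ LinearMap.ker (β a) with hH
  have hHdim : 2 ≤ finrank F H := by
    have h1 := Submodule.finrank_sup_add_finrank_inf_eq B (LinearMap.ker (β a))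
    have h2 := Submodule.finrank_le (B ⊔ LinearMap.ker (β a))
    have h3 := (LinearMap.finrank_range_add_finrank_ker (β a))
    have h4 : finrank F (LinearMap.range (β a)) ≤ 1 :=
      (Submodule.finrank_le _).trans (by rw [Module.finrank_self])
    have hV : finrank F V = m + m := by simp
    rw [hV] at h2 h3
    rw [← hH] at h1
    omega
  have hHb : ¬ H ≤ (F ∙ b) := fun h => by
    have := (Submodule.finrank_mono h).trans (finrank_span_le_card ({b} : Set V))
    simp at this
    omega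
  obtain ⟨h₀, hh₀, hh₀b⟩ := SetLike.not_le_iff_exists.1 hHb
  have hh₀W : h₀ ∈ W := step a ha b hb hxW hb0 h₀ hh₀.1 hh₀.2 hh₀b
  have hh₀0 : h₀ ≠ 0 := fun h => hh₀b (by rw [h]; exact zero_mem _)
  have hall : ∀ w ∈ B, w ∉ (F ∙ h₀) → w ∈ W := fun w hw h =>
    step 0 (zero_mem _) h₀ hh₀.1 (by simpa using hh₀W) hh₀0 w hw (by simp) h
  intro w hw
  by_cases h : w ∈ (F ∙ h₀)
  · obtain ⟨c, rfl⟩ := Submodule.mem_span_singleton.1 h
    exact W.smul_mem c hh₀W
  · exact hall w hw h

variable {M : Subgroup (GL (Fin m ⊕ Fin m) F)}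

/-- A short root element moving the second half off itself yields a long root element. -/
lemma exists_long_of_short (hm : 4 ≤ m) (h2 : (2 : F) ≠ 0) (hc : IsCompl A B)
    (hA : ∀ x ∈ A, ∀ y ∈ A, β x y = 0) (hB : ∀ x ∈ B, ∀ y ∈ B, β x y = 0) (hdA : finrank F A = m)
    (hMK : M ≤ Cfsg.spGL m F)
    (hK : ∀ u ∈ A, ∀ w ∈ B, β u w = 0 → spShort u w ∈ M)
    {p q : V} (hpq : β p q = 0) (hh : spShort p q ∈ M)
    (hmove : ∃ w ∈ B, (μ (spShort p q)) *ᵥ w ∉ B) :
    ∃ u ∈ A, u ≠ 0 ∧ ∃ c : F, c ≠ 0 ∧ spTau u c ∈ M := by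
  obtain ⟨w₁, hw₁, hw₁B⟩ := hmove
  set h := spShort p q with hhdef
  have hdim : 2 ≤ finrank F ↥(A ⊓ (LinearMap.ker ((β).flip p) ⊓ LinearMap.ker ((β).flip q))) := by
    have hV : finrank F V = m + m := by simp
    have hle : ∀ φ : V →ₗ[F] F, ∀ S : Submodule F V,
        finrank F S ≤ finrank F ↥(S ⊓ LinearMap.ker φ) + 1 := by
      intro φ S
      have h1 := Submodule.finrank_sup_add_finrank_inf_eq S (LinearMap.ker φ)
      have h2 := Submodule.finrank_le (S ⊔ LinearMap.ker φ)
      have h3 := LinearMap.finrank_range_add_finrank_ker φ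
      have h4 : finrank F (LinearMap.range φ) ≤ 1 :=
        (Submodule.finrank_le _).trans (by rw [Module.finrank_self])
      rw [hV] at h2 h3
      omega
    have h1 := hle ((β).flip p) A
    have h5 := hle ((β).flip q) (A ⊓ LinearMap.ker ((β).flip p))
    rw [inf_assoc] at h5
    omega
  set T := A ⊓ (LinearMap.ker ((β).flip p) ⊓ LinearMap.ker ((β).flip q)) with hT
  have hfix : ∀ u ∈ T, (μ h) *ᵥ u = u := fun u hu => by
    obtain ⟨-, h1, h2⟩ := hu
    change β u p = 0 at h1
    change β u q = 0 at h2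
    rw [hhdef, spShort_apply hpq, h1, h2]
    simp
  obtain ⟨u, huT, hu0, huw⟩ : ∃ u ∈ T, u ≠ 0 ∧ β u w₁ = 0 := by
    by_contra hcon
    push Not at hcon
    have hinj : Function.Injective (((β).flip w₁).comp T.subtype) := by
      rw [← LinearMap.ker_eq_bot, eq_bot_iff]
      intro t ht
      by_contra ht0
      exact hcon t t.2 (fun h0 => ht0 (by simpa using h0)) ht
    have := LinearMap.finrank_le_finrank_of_injective hinj
    rw [Module.finrank_self] at this
    omega
  have huA : u ∈ A := huT.1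
  obtain ⟨a, ha, b, hb, hab⟩ :=
    Submodule.mem_sup.1 (show (μ h) *ᵥ w₁ ∈ A ⊔ B by rw [hc.sup_eq_top]; trivial)
  have ha0 : a ≠ 0 := fun h0 => hw₁B (by rw [← hab, h0, zero_add]; exact hb)
  have hua : β u a = 0 := hA u huA a ha
  have hub : β u b = 0 := by
    have := mem_spGL_iff.1 (spShort_mem_spGL p q) u w₁
    rw [← hhdef, hfix u huT, ← hab, map_add, hua, huw, zero_add] at this
    exact this
  set N := spShort u (a + b) * (spShort u b)⁻¹ with hN
  have hNM : N ∈ M := by
    refine mul_mem ?_ (inv_mem (hK u huA b hb hub))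
    rw [hab, ← hfix u huT, conj_spShort (spShort_mem_spGL p q)]
    exact mul_mem (mul_mem hh (hK u huA w₁ hw₁ huw)) (inv_mem hh)
  have hNapp : ∀ x, (μ N) *ᵥ x =
      x + (β x u • a + β x a • u) + (β a b * β x u) • u := by
    intro x
    obtain ⟨y, rfl⟩ : ∃ y, x = (μ (spShort u b)) *ᵥ y := ⟨_, (mulVec_inv_cancel _ x).symm⟩
    rw [hN, Units.val_mul, ← Matrix.mulVec_mulVec]
    have hcancel : (μ (spShort u b)⁻¹) *ᵥ ((μ (spShort u b)) *ᵥ y) = y := by
      rw [Matrix.mulVec_mulVec, ← Units.val_mul, inv_mul_cancel, Units.val_one, Matrix.one_mulVec]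
    rw [hcancel, spShort_apply (by rw [map_add, hua, hub, add_zero]), spShort_apply hub]
    simp only [map_add, map_smul, LinearMap.add_apply, LinearMap.smul_apply, smul_eq_mul, hua,
      hub, spB_swap u a, spB_swap u b, spB_swap a b, sympBil_isAlt.self_eq_zero]
    module
  by_cases hau : a ∈ (F ∙ u)
  · obtain ⟨l, rfl⟩ := Submodule.mem_span_singleton.1 hau
    have hl : l ≠ 0 := fun h0 => ha0 (by simp [h0])
    have hub0 : β (l • u) b = 0 := by simp [hub]
    refine ⟨u, huA, hu0, 2 * l, mul_ne_zero h2 hl, ?_⟩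
    convert hNM using 1
    refine gl_ext_mulVec fun x => ?_
    rw [hNapp, spTau_apply, hub0]
    simp only [map_smul, smul_eq_mul]
    module
  · obtain ⟨w₂, hw₂, hu2, ha2⟩ := exists_pair_vector hc.symm hA huA ha hau
    set w₂' := (β a w₂)⁻¹ • w₂ with hw₂'
    have huw2 : β u w₂' = 0 := by rw [map_smul, spB_swap w₂ u, hu2]; simp
    have haw2 : β a w₂' = 1 := by
      rw [map_smul, smul_eq_mul, inv_mul_cancel₀]
      rw [spB_swap w₂ a, neg_ne_zero]; exact ha2
    set d := spShort u w₂' with hd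
    have hdM : d ∈ M := hK u huA _ (B.smul_mem _ hw₂) huw2
    refine ⟨u, huA, hu0, 2, h2, ?_⟩
    convert mul_mem (inv_mem hNM) (mul_mem (mul_mem hdM hNM) (inv_mem hdM)) using 1
    rw [eq_inv_mul_iff_mul_eq]
    refine gl_ext_mulVec fun x => ?_
    obtain ⟨y, rfl⟩ : ∃ y, x = (μ d) *ᵥ y := ⟨_, (mulVec_inv_cancel _ x).symm⟩
    have hcancel : (μ d⁻¹) *ᵥ ((μ d) *ᵥ y) = y := by
      rw [Matrix.mulVec_mulVec, ← Units.val_mul, inv_mul_cancel, Units.val_one, Matrix.one_mulVec]
    simp only [Units.val_mul, ← Matrix.mulVec_mulVec, hcancel]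
    rw [hd, spShort_apply huw2, spShort_apply huw2]
    simp only [hNapp, spTau_apply]
    simp only [map_add, map_smul, LinearMap.add_apply, LinearMap.smul_apply, smul_eq_mul, hua,
      huw2, haw2, spB_swap u a, spB_swap u w₂', spB_swap a w₂', sympBil_isAlt.self_eq_zero]
    module


/-- Some element of the symplectic group interchanges the two halves. -/
lemma exists_swap_halves (hc : IsCompl A B) (hA : ∀ x ∈ A, ∀ y ∈ A, β x y = 0)
    (hB : ∀ x ∈ B, ∀ y ∈ B, β x y = 0) (hdA : finrank F A = m) (hdB : finrank F B = m) :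
    ∃ s ∈ Cfsg.spGL m F, (∀ x ∈ A, (μ s) *ᵥ x ∈ B) ∧ ∀ x ∈ B, (μ s) *ᵥ x ∈ A := by
  let θ : A ≃ₗ[F] B := LinearEquiv.ofFinrankEq A B (hdA.trans hdB.symm)
  let P : A →ₗ[F] B →ₗ[F] F := (β).compl₁₂ A.subtype B.subtype
  have hPinj : Function.Injective P := by
    rw [← LinearMap.ker_eq_bot, eq_bot_iff]
    intro a ha
    rw [Submodule.mem_bot]
    refine Subtype.ext (sympBil_nondegenerate.1 (a : Fin m ⊕ Fin m → F) fun x => ?_)
    obtain ⟨u, hu, w, hw, rfl⟩ :=
      Submodule.mem_sup.1 (show x ∈ A ⊔ B by rw [hc.sup_eq_top]; trivial)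
    rw [map_add, hA _ a.2 u hu, zero_add]
    exact LinearMap.congr_fun ha ⟨w, hw⟩
  let Pe : A ≃ₗ[F] (B →ₗ[F] F) := LinearMap.linearEquivOfInjective P hPinj (by
    rw [Module.finrank_linearMap_self, hdA, hdB])
  let ψ : B →ₗ[F] A := - (Pe.symm.toLinearMap ∘ₗ (P ∘ₗ θ.symm.toLinearMap).flip)
  let T : (Fin m ⊕ Fin m → F) →ₗ[F] (Fin m ⊕ Fin m → F) :=
    B.subtype ∘ₗ θ.toLinearMap ∘ₗ (Submodule.projectionOnto A B hc) +
      A.subtype ∘ₗ ψ ∘ₗ (Submodule.projectionOnto B A hc.symm)
  have hTA : ∀ a : A, T a = θ a := fun a => by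
    simp [T, Submodule.projectionOnto_apply_left, Submodule.projectionOnto_apply_right]
  have hTB : ∀ b : B, T b = ψ b := fun b => by
    simp [T, Submodule.projectionOnto_apply_left, Submodule.projectionOnto_apply_right]
  have hψ : ∀ (a : A) (b : B), β (ψ b : Fin m ⊕ Fin m → F) (θ a : Fin m ⊕ Fin m → F)
      = - β (a : Fin m ⊕ Fin m → F) b := by
    intro a b
    have h1 : P (ψ b) = -((P ∘ₗ θ.symm.toLinearMap).flip b) := by
      show Pe (ψ b) = _
      simp [ψ]
    have := LinearMap.congr_fun h1 (θ a)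
    simpa [P] using this
  have hiso : ∀ x y, β (T x) (T y) = β x y := by
    intro x y
    obtain ⟨a, ha, b, hb, rfl⟩ :=
      Submodule.mem_sup.1 (show x ∈ A ⊔ B by rw [hc.sup_eq_top]; trivial)
    obtain ⟨a', ha', b', hb', rfl⟩ :=
      Submodule.mem_sup.1 (show y ∈ A ⊔ B by rw [hc.sup_eq_top]; trivial)
    have e1 := hψ ⟨a', ha'⟩ ⟨b, hb⟩
    have e2 := hψ ⟨a, ha⟩ ⟨b', hb'⟩
    rw [← hTA, ← hTB] at e1 e2
    have e3 : β (T a) (T a') = 0 := by
      rw [hTA ⟨a, ha⟩, hTA ⟨a', ha'⟩]; exact hB _ (θ _).2 _ (θ _).2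
    have e4 : β (T b) (T b') = 0 := by
      rw [hTB ⟨b, hb⟩, hTB ⟨b', hb'⟩]; exact hA _ (ψ _).2 _ (ψ _).2
    simp only [map_add, LinearMap.add_apply, e3, e4, hA a ha a' ha', hB b hb b' hb',
      spB_swap (T b') (T a), spB_swap a' b] at e1 e2 ⊢
    rw [e1, e2]
    ring
  have hinj : Function.Injective T := by
    rw [← LinearMap.ker_eq_bot, eq_bot_iff]
    intro x hx
    rw [Submodule.mem_bot]
    refine sympBil_nondegenerate.1 x fun y => ?_
    rw [← hiso, LinearMap.mem_ker.1 hx]
    simp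
  have hdet : IsUnit (LinearMap.toMatrix' T) := by
    rw [← Matrix.mulVec_injective_iff_isUnit]
    intro u v huv
    simpa using hinj (by simpa [Matrix.toLin'_toMatrix'] using huv)
  refine ⟨hdet.unit, mem_spGL_iff.2 fun u v => ?_, fun x hx => ?_, fun x hx => ?_⟩
  · simp only [IsUnit.unit_spec, LinearMap.toMatrix'_mulVec, hiso]
  · rw [IsUnit.unit_spec, LinearMap.toMatrix'_mulVec, hTA ⟨x, hx⟩]; exact (θ _).2
  · rw [IsUnit.unit_spec, LinearMap.toMatrix'_mulVec, hTB ⟨x, hx⟩]; exact (ψ _).2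

/-- The stabiliser of two complementary totally singular halves is maximal. -/
theorem spGL_totDecomp_maximal [Fintype F] (hm : 4 ≤ m) (hodd : Odd (Fintype.card F))
    {D : Fin 2 → Submodule F (Fin m ⊕ Fin m → F)} (hD : IsMDecomposition m D)
    (hts : ∀ i, IsTotallySingularFor (Cfsg.sympForm m F) (D i)) :
    IsMaximalIn (Cfsg.spGL m F) (decompositionStabilizer D ⊓ Cfsg.spGL m F) := by
  have h2 : (2 : F) ≠ 0 := two_ne_zero_iff_odd_card.2 hodd
  refine ⟨lt_of_le_not_ge inf_le_right fun hle =>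
    spGL_not_le_decompositionStabilizer hD (by omega) (hle.trans inf_le_left), fun M hM hMK => ?_⟩
  by_cases hMW : M ≤ decompositionStabilizer D
  · exact Or.inl (le_antisymm (le_inf hMW hMK) hM)
  refine Or.inr (le_antisymm hMK ?_)
  set A := D 0 with hAdef
  set B := D 1 with hBdef
  have hc : IsCompl A B := mdecomp_isCompl hD
  have hdA : finrank F A = m := hD.finrank_eq 0
  have hdB : finrank F B = m := hD.finrank_eq 1
  have hA : ∀ x ∈ A, ∀ y ∈ A, β x y = 0 := fun x hx y hy => by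
    rw [sympBil_apply]; exact hts 0 x hx y hy
  have hB : ∀ x ∈ B, ∀ y ∈ B, β x y = 0 := fun x hx y hy => by
    rw [sympBil_apply]; exact hts 1 x hx y hy
  have hK : ∀ u ∈ A, ∀ w ∈ B, β u w = 0 → spShort u w ∈ M := by
    intro u hu w hw huw
    refine hM ⟨mem_decompositionStabilizer_two hD 1 fun i => ?_, spShort_mem_spGL _ _⟩
    revert i
    rw [Fin.forall_fin_two]
    refine ⟨fun x hx => ?_, fun x hx => ?_⟩ <;> rw [spShort_apply huw] <;>
      simp only [Equiv.Perm.one_apply]
    · rw [hA x hx u hu, zero_smul, add_zero]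
      exact A.add_mem hx (A.smul_mem _ hu)
    · rw [hB x hx w hw, zero_smul, add_zero]
      exact B.add_mem hx (B.smul_mem _ hw)
  have hK' : ∀ w ∈ B, ∀ u ∈ A, β w u = 0 → spShort w u ∈ M := fun w hw u hu h => by
    have h' : β u w = 0 := by rw [spB_swap w u, h, neg_zero]
    rw [spShort_comm h']; exact hK u hu w hw h'
  obtain ⟨s, hsK, hsA, hsB⟩ := exists_swap_halves hc hA hB hdA hdB
  have hsM : s ∈ M := hM ⟨mem_decompositionStabilizer_two hD (Equiv.swap 0 1) (by
    rw [Fin.forall_fin_two]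
    simpa using ⟨hsA, hsB⟩), hsK⟩
  -- some conjugate of a short root element moves one of the halves
  obtain ⟨p, q, hpq, hh, hmove⟩ : ∃ p q, β p q = 0 ∧ spShort p q ∈ M ∧
      ((∃ x ∈ B, (μ (spShort p q)) *ᵥ x ∉ B) ∨ ∃ x ∈ A, (μ (spShort p q)) *ᵥ x ∉ A) := by
    by_contra hcon
    push Not at hcon
    refine hMW fun g hg => ?_
    set G : (Fin m ⊕ Fin m → F) →ₗ[F] (Fin m ⊕ Fin m → F) :=
      Matrix.toLin' (μ g) with hG
    have hGv : ∀ v, G v = (μ g) *ᵥ v := fun v => Matrix.toLin'_apply _ v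
    have hGinj : Function.Injective G := fun u v h => mulVec_injective g (by simpa [hGv] using h)
    have hGsurj : Function.Surjective G := LinearMap.surjective_of_injective hGinj
    have key : ∀ S : Submodule F (Fin m ⊕ Fin m → F), S = A ∨ S = B →
        Submodule.comap G S = A ∨ Submodule.comap G S = B := by
      intro S hS
      set W := Submodule.comap G S with hWdef
      have hdS : finrank F S = m := by rcases hS with rfl | rfl <;> assumption
      have hdW : finrank F W = m := by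
        rw [(Submodule.equivMapOfInjective G hGinj W).finrank_eq, hWdef,
          Submodule.map_comap_eq_of_surjective hGsurj, hdS]
      have hinv : ∀ u ∈ A, ∀ w ∈ B, β u w = 0 → ∀ x ∈ W, (μ (spShort u w)) *ᵥ x ∈ W := by
        intro u hu w hw huw x hx
        have hpq : β ((μ g) *ᵥ u) ((μ g) *ᵥ w) = 0 := (mem_spGL_iff.1 (hMK hg) u w).trans huw
        have hmem : spShort ((μ g) *ᵥ u) ((μ g) *ᵥ w) ∈ M := by
          rw [conj_spShort (hMK hg)]
          exact mul_mem (mul_mem hg (hK u hu w hw huw)) (inv_mem hg)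
        obtain ⟨hcB, hcA⟩ := hcon _ _ hpq hmem
        have hgx : (μ g) *ᵥ x ∈ S := by rw [← hGv]; exact hx
        show G _ ∈ S
        rw [hGv, show (μ g) *ᵥ ((μ (spShort u w)) *ᵥ x) =
            (μ (spShort ((μ g) *ᵥ u) ((μ g) *ᵥ w))) *ᵥ ((μ g) *ᵥ x) by
          rw [conj_spShort (hMK hg), Matrix.mulVec_mulVec, Matrix.mulVec_mulVec, ← Units.val_mul,
            ← Units.val_mul]
          group]
        rcases hS with rfl | rfl
        · exact hcA _ hgx
        · exact hcB _ hgx
      have h1 := short_invariant_dichotomy (by omega) hc hA hB hdB hinv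
      have h1' := short_invariant_dichotomy (by omega) hc.symm hB hA hdA (fun w hw u hu h x hx => by
        have h' : β u w = 0 := by rw [spB_swap w u, h, neg_zero]
        rw [spShort_comm h']; exact hinv u hu w hw h' x hx)
      rcases h1 with h | h
      · exact Or.inr (Submodule.eq_of_le_of_finrank_eq h (hdB.trans hdW.symm)).symm
      · exact Or.inl (Submodule.eq_of_le_of_finrank_eq h (hdW.trans hdA.symm))
    have hne : Submodule.comap G A ≠ Submodule.comap G B := fun h => by
      have hAB : A = B := Submodule.comap_injective_of_surjective hGsurj h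
      have := Submodule.finrank_add_eq_of_isCompl hc
      rw [hAB] at hc
      have h0 := hc.inf_eq_bot
      rw [inf_idem] at h0
      rw [h0, finrank_bot] at hdB
      omega
    rcases key A (Or.inl rfl) with ha | ha <;> rcases key B (Or.inr rfl) with hb | hb
    · exact (hne (ha.trans hb.symm)).elim
    · refine mem_decompositionStabilizer_two hD 1 ?_
      rw [Fin.forall_fin_two]
      exact ⟨fun x hx => by simpa [← hGv] using (ha.ge hx),
        fun x hx => by simpa [← hGv] using (hb.ge hx)⟩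
    · refine mem_decompositionStabilizer_two hD (Equiv.swap 0 1) ?_
      rw [Fin.forall_fin_two]
      exact ⟨fun x hx => by simpa [← hGv] using (hb.ge hx),
        fun x hx => by simpa [← hGv] using (ha.ge hx)⟩
    · exact (hne (ha.trans hb.symm)).elim
  obtain ⟨u₀, hu₀, hu₀0, c₀, hc₀, hτ⟩ : ∃ u ∈ A, u ≠ 0 ∧ ∃ c : F, c ≠ 0 ∧ spTau u c ∈ M := by
    rcases hmove with h | h
    · exact exists_long_of_short hm h2 hc hA hB hdA hMK hK hpq hh h
    · obtain ⟨u, hu, hu0, c, hc', hτ⟩ :=
        exists_long_of_short hm h2 hc.symm hB hA hdB hMK hK' hpq hh h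
      refine ⟨(μ s) *ᵥ u, hsB u hu, fun h0 => hu0 (mulVec_injective s (by simpa using h0)), c, hc', ?_⟩
      rw [conj_spTau hsK]
      exact mul_mem (mul_mem hsM hτ) (inv_mem hsM)
  -- the shorts act transitively on the non-zero vectors of the half
  have step : ∀ a ∈ A, ∀ a' ∈ A, a ≠ 0 → a' ∉ (F ∙ a) → spTau a c₀ ∈ M → spTau a' c₀ ∈ M := by
    intro a ha a' ha' hvne hne hmem
    obtain ⟨w, hw, hwu, hwa⟩ := exists_pair_vector hc.symm hA (A.sub_mem ha' ha) ha (p := a' - a)
      (fun h => by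
        obtain ⟨c, hc'⟩ := Submodule.mem_span_singleton.1 h
        rcases eq_or_ne c 0 with rfl | hc0
        · rw [zero_smul] at hc'
          exact hvne hc'.symm
        · refine hne (Submodule.mem_span_singleton.2 ⟨(1 + c) / c, ?_⟩)
          linear_combination (norm := (match_scalars <;> field_simp <;> ring)) (-c⁻¹ : F) • hc')
    set w' := (β a w)⁻¹ • w with hw'
    have h1 : β (a' - a) w' = 0 := by rw [map_smul, spB_swap w (a' - a), hwu]; simp
    have h3 : β a w' = 1 := by
      rw [map_smul, smul_eq_mul, inv_mul_cancel₀]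
      rw [spB_swap w a, neg_ne_zero]; exact hwa
    have hd := hK _ (A.sub_mem ha' ha) w' (B.smul_mem _ hw) h1
    have himg : (μ (spShort (a' - a) w')) *ᵥ a = a' := by
      rw [spShort_apply h1, hA a ha _ (A.sub_mem ha' ha), h3, zero_smul, add_zero, one_smul,
        add_sub_cancel]
    rw [← himg, conj_spTau (spShort_mem_spGL _ _)]
    exact mul_mem (mul_mem hd hmem) (inv_mem hd)
  have hall : ∀ a ∈ A, a ≠ 0 → spTau a c₀ ∈ M := by
    intro a ha ha0
    by_cases h : a ∈ (F ∙ u₀)
    · obtain ⟨v, hv, hvu⟩ : ∃ v ∈ A, v ∉ (F ∙ u₀) := SetLike.not_le_iff_exists.1 fun hle => by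
        have := (Submodule.finrank_mono hle).trans (finrank_span_le_card ({u₀} : Set _))
        simp at this
        omega
      refine step v hv a ha (fun h0 => hvu (by rw [h0]; exact zero_mem _)) (fun hav => hvu ?_)
        (step u₀ hu₀ v hv hu₀0 hvu hτ)
      obtain ⟨c, hc'⟩ := Submodule.mem_span_singleton.1 hav
      have hc0 : c ≠ 0 := fun h0 => ha0 (by simp [← hc', h0])
      rw [show v = c⁻¹ • a by rw [← hc', inv_smul_smul₀ hc0]]
      exact Submodule.smul_mem _ _ h
    · exact step u₀ hu₀ a ha hu₀0 h hτ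
  have hAS : (A : Set (Fin m ⊕ Fin m → F)) ⊆ spCentres M := by
    intro a ha c
    rcases eq_or_ne a 0 with rfl | ha0
    · convert one_mem M using 1
      exact gl_ext_mulVec fun x => by simp [spTau_apply]
    obtain ⟨x, y, hxy⟩ := FiniteField.exists_root_sum_quadratic (f := (Polynomial.X ^ 2 : Polynomial F))
      (g := Polynomial.X ^ 2 - Polynomial.C (c / c₀)) (Polynomial.degree_X_pow 2)
      (Polynomial.degree_X_pow_sub_C (by norm_num) _) (Nat.odd_iff.1 hodd)
    have key : ∀ l : F, spTau a (c₀ * l ^ 2) ∈ M := fun l => by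
      rcases eq_or_ne l 0 with rfl | hl
      · convert one_mem M using 1
        exact gl_ext_mulVec fun x => by simp [spTau_apply]
      · convert hall (l • a) (A.smul_mem l ha) (smul_ne_zero hl ha0) using 1
        refine gl_ext_mulVec fun x => ?_
        simp only [spTau_apply, map_smul, smul_eq_mul, smul_smul]
        congr 2
        ring
    convert mul_mem (key x) (key y) using 1
    refine gl_ext_mulVec fun z => ?_
    simp only [Units.val_mul, ← Matrix.mulVec_mulVec, spTau_apply, map_add, map_smul,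
      LinearMap.add_apply, LinearMap.smul_apply, smul_eq_mul, sympBil_isAlt.self_eq_zero]
    have hsum : c = c₀ * x ^ 2 + c₀ * y ^ 2 := by
      simp only [Polynomial.eval_pow, Polynomial.eval_X, Polynomial.eval_sub,
        Polynomial.eval_C] at hxy
      field_simp at hxy
      linear_combination -hxy
    rw [hsum]
    module
  have hBS : (B : Set (Fin m ⊕ Fin m → F)) ⊆ spCentres M := by
    intro b hb
    have hsurj : ∃ a ∈ A, (μ s) *ᵥ a = b := by
      have hmap : A.map (Matrix.toLin' (μ s)) = B := Submodule.eq_of_le_of_finrank_eq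
        (by rintro _ ⟨x, hx, rfl⟩; simpa using hsA x hx)
        (by rw [← (Submodule.equivMapOfInjective _ (fun u v huv =>
          mulVec_injective s (by simpa using huv)) A).finrank_eq, hdA, hdB])
      obtain ⟨a, ha, rfl⟩ := hmap.ge hb
      exact ⟨a, ha, by simp⟩
    obtain ⟨a, ha, rfl⟩ := hsurj
    exact mulVec_mem_spCentres (hAS ha) hsM hsK
  have hAo : LinearMap.BilinForm.orthogonal β A ≤ A := by
    intro v hv
    obtain ⟨a, ha, b, hb, rfl⟩ :=
      Submodule.mem_sup.1 (show v ∈ A ⊔ B by rw [hc.sup_eq_top]; trivial)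
    by_cases hb0 : b = 0
    · simpa [hb0] using ha
    obtain ⟨u, hu, hub⟩ := exists_pair_ne hc hB hb hb0
    have h0 : β u (a + b) = 0 := hv u hu
    rw [map_add, hA u hu a ha, zero_add] at h0
    exact absurd h0 hub
  haveI : Finite (Submodule F (Fin m ⊕ Fin m → F)) :=
    Finite.of_injective (fun S : Submodule F (Fin m ⊕ Fin m → F) => (S : Set (Fin m ⊕ Fin m → F)))
      SetLike.coe_injective
  obtain ⟨S, ⟨hAS', hSX⟩, hmax⟩ := (Set.toFinite
    {S : Submodule F (Fin m ⊕ Fin m → F) | A ≤ S ∧ (S : Set (Fin m ⊕ Fin m → F)) ⊆ spCentres M}).exists_maximal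
      ⟨A, le_rfl, hAS⟩
  have hBle : B ≤ S := fun b hb => by
    by_contra hbS
    have := hmax (y := S ⊔ (F ∙ b)) ⟨hAS'.trans le_sup_left,
      sup_span_subset_spCentres hSX (le_trans (fun v hv => hAo fun u hu => hv u (hAS' hu)) hAS')
        (hBS hb) hbS⟩ le_sup_left
    exact hbS (this (Submodule.mem_sup_right (Submodule.mem_span_singleton_self b)))
  exact spGL_le_of_spTau_mem fun v c =>
    hSX ((sup_le hAS' hBle) (show v ∈ A ⊔ B by rw [hc.sup_eq_top]; trivial)) c

end

end Cfsg.Agent.GeoClasses
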