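import Mathlib
import Cfsg.Prelude.Def_GeometricClasses
import Cfsg.Agent.Forms.FieldInvolution
import Cfsg.Agent.GeoClasses.Basic
import Cfsg.Agent.GeoClasses.MatrixUnits
import Cfsg.Agent.GeoClasses.Algebra
import Cfsg.Agent.GeoClasses.Forms
import Cfsg.Agent.GeoClasses.FormsMore
import Cfsg.Agent.GeoClasses.Descent
import Cfsg.Agent.GeoClasses.Structure
import Cfsg.Agent.GeoClasses.FieldFacts
import Cfsg.Agent.GeoClasses.SympType
import Cfsg.Agent.GeoClasses.Polarized
import Cfsg.Agent.GeoClasses.Coords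
import Cfsg.Agent.GeoClasses.ClassTools
import Cfsg.Agent.GeoClasses.Symplectic
import Cfsg.Agent.GeoClasses.UnitBase

/-!
Classes 5 and 6 for the unitary groups.
-/

set_option autoImplicit false
set_option maxHeartbeats 400000

namespace Cfsg.Agent.GeoClasses

open Matrix Cfsg.Geo
open scoped MatrixGroups Matrix Kronecker
open Cfsg.Agent.Classical.U (SqField)

variable {F : Type*} [Field F] [Fintype F] {n q : ℕ}

/-- Class 5: odd index, with the scalar of the form adjusted. -/
lemma unit_class_of_odd_index (hF : SqField F q) [NeZero n] {H : Subgroup (GL (Fin n) F)}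
    (hH : H ≤ Cfsg.GU n F q) {F₁ : Subfield F} {r : ℕ} (hr : r.Prime) (hodd : Odd r)
    (hcard : Fintype.card F = Nat.card F₁ ^ r)
    {P : GL (Fin n) F} {b : F} {G : Matrix (Fin n) (Fin n) F} (hb : b ≠ 0) (hG0 : IsUnit G)
    (hG : adjForm (qConj hF) (1 : Matrix (Fin n) (Fin n) F) (P : Matrix _ _ F) = b • G)
    (hent : ∀ i j, G i j ∈ F₁) (hle : H ≤ subfieldSubgroup F₁ P) :
    ∃ M, InUnitaryClass n F q M ∧ H ≤ M := by
  set σ := qConj hF with hσdef
  have hσ : ∀ a, σ (σ a) = a := qConj_invol hF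
  -- the form in the new coordinates is hermitian
  have hherm : starMat σ (b • G) = b • G := by
    rw [← hG, ← adjForm_star hσ]
    simp [starMat, Matrix.map_one]
  obtain ⟨i, j, hij⟩ := exists_entry_ne_zero hG0.ne_zero
  have hσb : σ b ≠ 0 := fun h => hb (σ.map_eq_zero_iff.1 h)
  set c := b / σ b with hc
  have hstar : starMat σ G = c • G := by
    rw [starMat_smul] at hherm
    rw [← inv_smul_smul₀ hσb (starMat σ G), hherm, smul_smul, hc, div_eq_inv_mul]
  have hcF : c ∈ F₁ := by
    have h1 : σ (G j i) = c * G i j := congrFun (congrFun hstar i) j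
    rw [show c = σ (G j i) / G i j by rw [h1, mul_div_cancel_right₀ _ hij]]
    exact div_mem (mem_of_subfield_stable σ F₁ (hent j i)) (hent i j)
  have hcc : σ c * c = 1 := by
    rw [hc, map_div₀, hσ, div_mul_div_comm, mul_comm, div_self (mul_ne_zero hb hσb)]
  -- Hilbert 90 inside the subfield
  obtain ⟨a, ha, hane⟩ : ∃ a ∈ F₁, σ a ≠ a :=
    exists_moved_of_odd_index hF hodd (by rw [Nat.card_eq_fintype_card, hcard])
  obtain ⟨d, hd, hd0, hdc⟩ : ∃ d ∈ F₁, d ≠ 0 ∧ σ d * c = d := by
    by_cases h1 : (1 : F) + c = 0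
    · refine ⟨a - σ a, sub_mem ha (mem_of_subfield_stable σ F₁ ha), sub_ne_zero.2 (Ne.symm hane), ?_⟩
      rw [eq_neg_of_add_eq_zero_right h1, map_sub, hσ]
      ring
    · refine ⟨1 + c, add_mem (one_mem _) hcF, h1, ?_⟩
      rw [map_add, map_one]
      linear_combination hcc
  set b' := b / d with hb'
  have hG' : adjForm σ (1 : Matrix (Fin n) (Fin n) F) (P : Matrix _ _ F) = b' • (d • G) := by
    rw [hG, smul_smul, hb', div_mul_cancel₀ _ hd0]
  have hbfix : σ b' = b' := by
    have hcb : b = σ b * c := by rw [hc, mul_div_cancel₀ _ hσb]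
    rw [hb', map_div₀, div_eq_div_iff (fun h => hd0 (σ.map_eq_zero_iff.1 h)) hd0]
    apply mul_right_cancel₀ (b := c) (fun h => by rw [h, mul_zero] at hcc; exact zero_ne_one hcc)
    linear_combination (-(b : F)) * hdc - d * hcb
  have hb'0 : b' ≠ 0 := div_ne_zero hb hd0
  obtain ⟨x, hx⟩ := Forms.exists_mul_apply_eq (σ := σ.toRingHom) (a := b'⁻¹)
    (fun h => qConj_ne hF (RingEquiv.ext fun a => RingHom.congr_fun h a)) hσ
    (show σ b'⁻¹ = b'⁻¹ by rw [map_inv₀, hbfix])
  have hx' : x * σ x = b'⁻¹ := hx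
  have hx0 : x ≠ 0 := fun h => inv_ne_zero hb'0 (by rw [← hx', h, zero_mul])
  set z : GL (Fin n) F :=
    Units.map (Matrix.scalar (Fin n) : F →+* Matrix (Fin n) (Fin n) F).toMonoidHom (Units.mk0 x hx0)
    with hz
  have hzv : (z : Matrix (Fin n) (Fin n) F) = x • 1 := by
    simp [hz, Matrix.smul_one_eq_diagonal]
  have hP' : adjForm σ (1 : Matrix (Fin n) (Fin n) F) ((z * P : GL (Fin n) F) : Matrix _ _ F)
      = d • G := by
    rw [Units.val_mul, hzv, Matrix.smul_mul, one_mul, adjForm_smul_right, hG', smul_smul, hx',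
      inv_mul_cancel₀ hb'0, one_smul]
  refine ⟨_, Or.inl <| Or.inr <| Or.inr <| Or.inr <| Or.inr <| Or.inl
    ⟨F₁, r, z * P, hr, hodd, hcard, fun u v hu hv => ?_, rfl⟩, le_inf ?_ hH⟩
  · rw [one_mul, hermForm_eq_formOf hF, formOf_mulVec, hP']
    exact formOf_mem F₁ (fun k l => mul_mem hd (hent k l)) hu
      fun k => mem_of_subfield_stable σ F₁ (hv k)
  · rwa [subfieldSubgroup_scalar_mul F₁ ⟨_, rfl⟩]

/-- Class 5: index two, symmetric over the fixed field. -/
lemma unit_class_of_symmetric (hF : SqField F q) [NeZero n] {H : Subgroup (GL (Fin n) F)}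
    (hH : H ≤ Cfsg.GU n F q) {F₁ : Subfield F} (hcard : Fintype.card F = Nat.card F₁ ^ 2)
    {P : GL (Fin n) F} {b : F} {G : Matrix (Fin n) (Fin n) F} (hb : b ≠ 0)
    (hbfix : qConj hF b = b) (hq : Odd q)
    (hG : adjForm (qConj hF) (1 : Matrix (Fin n) (Fin n) F) (P : Matrix _ _ F) = b • G)
    (hent : ∀ i j, G i j ∈ F₁) (hle : H ≤ subfieldSubgroup F₁ P) :
    ∃ M, InUnitaryClass n F q M ∧ H ≤ M := by
  obtain ⟨x, hx⟩ := Forms.exists_mul_apply_eq (σ := (qConj hF).toRingHom) (a := b⁻¹)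
    (fun h => qConj_ne hF (RingEquiv.ext fun a => RingHom.congr_fun h a)) (qConj_invol hF)
    (show qConj hF b⁻¹ = b⁻¹ by rw [map_inv₀, hbfix])
  have hx' : x * qConj hF x = b⁻¹ := hx
  have hx0 : x ≠ 0 := fun h => inv_ne_zero hb (by rw [← hx', h, zero_mul])
  set z : GL (Fin n) F :=
    Units.map (Matrix.scalar (Fin n) : F →+* Matrix (Fin n) (Fin n) F).toMonoidHom (Units.mk0 x hx0)
    with hz
  have hzv : (z : Matrix (Fin n) (Fin n) F) = x • 1 := by
    simp [hz, Matrix.smul_one_eq_diagonal]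
  have hP' : adjForm (qConj hF) (1 : Matrix (Fin n) (Fin n) F)
      ((z * P : GL (Fin n) F) : Matrix _ _ F) = G := by
    rw [Units.val_mul, hzv, Matrix.smul_mul, one_mul, adjForm_smul_right, hG, smul_smul, hx',
      inv_mul_cancel₀ hb, one_smul]
  refine ⟨_, Or.inl <| Or.inr <| Or.inr <| Or.inr <| Or.inr <| Or.inr <| Or.inl
    ⟨F₁, z * P, hq, hcard, fun u v hu hv => ?_, rfl⟩, le_inf ?_ hH⟩
  · rw [one_mul, hermForm_eq_formOf hF, formOf_mulVec, hP']
    exact formOf_mem F₁ hent hu fun k => mem_of_subfield_stable _ F₁ (hv k)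
  · rwa [subfieldSubgroup_scalar_mul F₁ ⟨_, rfl⟩]

/-- Class 5: index two, alternating over the fixed field. -/
lemma unit_class_of_alternating (hF : SqField F q) {H : Subgroup (GL (Fin n) F)}
    (hH : H ≤ Cfsg.GU n F q) {F₁ : Subfield F} (hcard : Fintype.card F = Nat.card F₁ ^ 2)
    {P : GL (Fin n) F} {b : F} {G : Matrix (Fin n) (Fin n) F} (hb : b ≠ 0)
    (hbneg : qConj hF b = -b) (hG0 : IsUnit G) (hskew : Gᵀ = -G) (hdiag : ∀ i, G i i = 0)
    (hG : adjForm (qConj hF) (1 : Matrix (Fin n) (Fin n) F) (P : Matrix _ _ F) = b • G)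
    (hent : ∀ i j, G i j ∈ F₁) (hle : H ≤ subfieldSubgroup F₁ P) :
    ∃ M, InUnitaryClass n F q M ∧ H ≤ M := by
  have hev : Even n := by simpa using even_card_of_alternating hG0 hskew hdiag
  refine ⟨_, Or.inl <| Or.inr <| Or.inr <| Or.inr <| Or.inr <| Or.inr <| Or.inr <| Or.inl
    ⟨F₁, P, b⁻¹, hev, hcard, inv_ne_zero hb, ?_, fun u v hu hv => ?_, fun u hu => ?_, rfl⟩,
    le_inf hle hH⟩
  · rw [← qConj_apply hF, map_inv₀, hbneg, inv_neg, add_neg_cancel]
  · rw [hermForm_eq_formOf hF, formOf_mulVec, hG, formOf_smul, inv_mul_cancel_left₀ hb]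
    exact formOf_mem F₁ hent hu fun k => mem_of_subfield_stable _ F₁ (hv k)
  · have hσu : (fun k => qConj hF (u k)) = u := funext fun k => qConj_fixed_of_index_two hF
      (by rw [Nat.card_eq_fintype_card, hcard]) (hu k)
    rw [hermForm_eq_formOf hF, formOf_mulVec, hG, formOf_smul]
    show b * (u ⬝ᵥ (G *ᵥ fun k => qConj hF (u k))) = 0
    rw [hσu]
    exact mul_eq_zero_of_right _ (formOf_self_eq_zero (B := G) hskew hdiag u)

/-- Class 5 from a realisable normal absolutely irreducible group of similitudes. -/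
lemma unit_class_of_realisable (hn : 2 ≤ n) (hF : SqField F q)
    {H R : Subgroup (GL (Fin n) F)} (hH : H ≤ Cfsg.GU n F q) (hR : spanAlg R = ⊤)
    {F₀ : Subfield F} (hF₀ : F₀ ≠ ⊤)
    (hsim : ∀ x ∈ R, ∃ μ ∈ F₀, IsSim (qConj hF) (1 : Matrix (Fin n) (Fin n) F) x μ)
    (hnorm : ∀ g ∈ H, ∀ x ∈ R, g * x * g⁻¹ ∈ R) (hreal : RealisableOver F₀ (matrixSet R)) :
    ∃ M, InUnitaryClass n F q M ∧ H ≤ M := by
  classical
  haveI : NeZero n := ⟨by omega⟩
  set σ := qConj hF with hσdef
  have hσ : ∀ a, σ (σ a) = a := qConj_invol hF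
  obtain ⟨B₀, hB₀⟩ := conjGL_of_realisableOver hreal
  obtain ⟨F₁, r, hr, hle, hcard⟩ := exists_subfield_prime_index hF₀
  have hB₁ : ∀ x ∈ R, conjGL B₀ (x : Matrix (Fin n) (Fin n) F) ∈ subfieldMatrices F₁ :=
    fun x hx => mem_subfieldMatrices.2 fun i j => hle (mem_subfieldMatrices.1 (hB₀ x hx) i j)
  obtain ⟨P, b, G, hb, hG0, hG, hent, hHle, hRG⟩ := exists_rational_form (σ := σ)
    (B := (1 : Matrix (Fin n) (Fin n) F)) isUnit_one (F₁ := F₁) hR
    (fun x hx => by obtain ⟨μ, hμ, h⟩ := hsim x hx; exact ⟨μ, hle hμ, h⟩) hnorm hB₁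
  have hcard' : Fintype.card F = Nat.card F₁ ^ r := by rw [← Nat.card_eq_fintype_card, hcard]
  rcases hr.eq_two_or_odd' with rfl | hodd
  swap
  · exact unit_class_of_odd_index hF hH hr hodd hcard' hb hG0 hG hent hHle
  have hfix : ∀ {a}, a ∈ F₁ → σ a = a := fun ha => qConj_fixed_of_index_two hF hcard ha
  obtain ⟨i, j, hij⟩ := exists_entry_ne_zero hG0.ne_zero
  have hσb : σ b ≠ 0 := fun h => hb (σ.map_eq_zero_iff.1 h)
  have hstarG : starMat σ G = Gᵀ := by
    ext k l
    exact hfix (hent l k)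
  have hrel : σ b • Gᵀ = b • G := by
    rw [← hstarG, ← starMat_smul, ← hG, ← adjForm_star hσ]
    simp [starMat, Matrix.map_one]
  set c := b / σ b with hc
  have hGt : Gᵀ = c • G := by
    rw [← inv_smul_smul₀ hσb Gᵀ, hrel, smul_smul, hc, div_eq_inv_mul]
  have hcfix : σ c = c := by
    have h1 : G j i = c * G i j := congrFun (congrFun hGt i) j
    rw [show c = G j i / G i j by rw [h1, mul_div_cancel_right₀ _ hij], map_div₀, hfix (hent _ _),
      hfix (hent _ _)]
  have hcb : σ b * c = b := by rw [hc, mul_div_cancel₀ _ hσb]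
  have hcc : c * c = 1 := by
    apply mul_left_cancel₀ hb
    have h1 := congrArg σ hcb
    rw [map_mul, hσ, hcfix] at h1
    linear_combination c * h1 + hcb
  by_cases h2 : (2 : F) = 0
  · have hneg : (-1 : F) = 1 := by linear_combination -h2
    have hc1 : c = 1 := by
      rcases mul_self_eq_one_iff.1 hcc with h | h
      · exact h
      · rw [h, hneg]
    rw [hc1, one_smul] at hGt
    rw [hc1, mul_one] at hcb
    have hirr : ActsIrreducibly (matrixSet (conjSub B₀ R)) := by
      refine (absIrred_of_spanAlg_top ?_).1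
      rw [spanAlg_conjSub, hR, Algebra.map_top, AlgHom.range_eq_top]
      exact (conjGL B₀).surjective
    have hdiag := diag_eq_zero_of_irreducible hirr h2 (by simpa using hn) hGt (by
      rintro _ ⟨x, hx, rfl⟩
      obtain ⟨μ, -, hμ⟩ := hRG x hx
      refine ⟨μ, ?_⟩
      rw [IsSim, show (((MulAut.conj B₀).toMonoidHom x : GL (Fin n) F) : Matrix _ _ F)
        = conjGL B₀ (x : Matrix (Fin n) (Fin n) F) from gl_conj_val _ _]
      have hm : (conjGL B₀ (x : Matrix (Fin n) (Fin n) F)).map (RingEquiv.refl F)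
          = (conjGL B₀ (x : Matrix (Fin n) (Fin n) F)).map σ := by
        ext k l
        exact (hfix (mem_subfieldMatrices.1 (hB₁ x hx) k l)).symm
      rw [adjForm, hm]
      exact hμ)
    refine unit_class_of_alternating hF hH hcard' hb ?_ hG0 ?_ hdiag hG hent hHle
    · rw [hcb]; linear_combination b * h2
    · rw [hGt, ← neg_one_smul F G, hneg, one_smul]
  have hqodd : Odd q := by
    have h3 := two_ne_zero_iff_odd_card.1 h2
    rw [← Nat.card_eq_fintype_card, hF.2] at h3
    exact (Nat.odd_pow_iff (by norm_num)).1 h3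
  rcases mul_self_eq_one_iff.1 hcc with hc1 | hc1
  · rw [hc1, mul_one] at hcb
    exact unit_class_of_symmetric hF hH hcard' hb hcb hqodd hG hent hHle
  · rw [hc1, neg_one_smul] at hGt
    rw [hc1, mul_neg, mul_one] at hcb
    refine unit_class_of_alternating hF hH hcard' hb (by rw [← hσdef]; linear_combination -hcb)
      hG0 hGt (fun k => ?_) hG hent hHle
    have h3 : G k k = -G k k := congrFun (congrFun hGt k) k
    have h4 : (2 : F) * G k k = 0 := by linear_combination h3
    exact (mul_eq_zero.1 h4).resolve_left h2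

/-- Classes 5 and 6 from an abelian minimal normal subgroup spanning all matrices. -/
lemma unit_class_of_abelian (hn : 2 ≤ n) (hF : SqField F q) {H G N : Subgroup (GL (Fin n) F)}
    (hH : H ≤ Cfsg.GU n F q) (hHG : H ≤ G)
    (hG : ∀ g ∈ G, ∃ μ : F, qConj hF μ = μ ∧ IsSim (qConj hF) (1 : Matrix (Fin n) (Fin n) F) g μ)
    (hN : IsMinNormal G N) (hmod : ModComm N) (htop : spanAlg N = ⊤) :
    ∃ M, InUnitaryClass n F q M ∧ H ≤ M := by
  classical
  haveI : Nonempty (Fin n) := ⟨⟨0, by omega⟩⟩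
  set σ := qConj hF with hσdef
  have hPol : IsPolar σ (1 : Matrix (Fin n) (Fin n) F) 1 := isPolar_one (qConj_invol hF)
  obtain ⟨r, k, x, hS⟩ := exists_sympTypeSystem hN hmod htop (by simpa using hn)
  have hsq : r = 2 → ∃ i : F, i * i = -1 := by
    intro hr
    have h2 : (2 : F) ≠ 0 := by simpa [hr] using hS.char_ne
    have hodd : Odd q := by
      have h3 := two_ne_zero_iff_odd_card.1 h2
      rw [← Nat.card_eq_fintype_card, hF.2] at h3
      exact (Nat.odd_pow_iff (by norm_num)).1 h3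
    obtain ⟨i, hi⟩ : IsSquare (-1 : F) := by
      rw [FiniteField.isSquare_neg_one_iff, ← Nat.card_eq_fintype_card, hF.2]
      obtain ⟨l, rfl⟩ := hodd
      rw [show (2 * l + 1) ^ 2 = 4 * (l * l + l) + 1 by ring]
      omega
    exact ⟨i, hi.symm⟩
  have hcov : CosetsCovered hS := cover_of_roots hS hN hsq
  have hspanR : spanAlg (sympGroup hS) = ⊤ := (spanAlg_sympGroup hS hN hcov).trans htop
  obtain ⟨ζ, hζ⟩ : ∃ ζ : F, IsPrimitiveRoot ζ (sympExp r) := by
    rcases hS.prime.eq_two_or_odd' with rfl | hodd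
    · obtain ⟨i, hi⟩ := hsq rfl
      refine ⟨i, sympExp_two ▸ IsPrimitiveRoot.mk_of_lt i (by norm_num) (by
        rw [show i ^ 4 = (i * i) * (i * i) by ring, hi]; ring) fun l hl hl4 hpow => ?_⟩
      have h2 : (2 : F) ≠ 0 := by simpa using hS.char_ne
      interval_cases l
      · rw [pow_one] at hpow
        rw [hpow, mul_one] at hi
        exact h2 (by linear_combination hi)
      · rw [pow_two, hi] at hpow
        exact h2 (by linear_combination -hpow)
      · rw [show i ^ 3 = (i * i) * i by ring, hi] at hpow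
        have : i = -1 := by linear_combination -hpow
        rw [this] at hi
        exact h2 (by linear_combination hi)
    · obtain ⟨c, hc, hc1⟩ := hS.exists_root
      rw [sympExp_odd hodd]
      haveI : Fact r.Prime := ⟨hS.prime⟩
      exact ⟨c, (orderOf_eq_prime hc hc1) ▸ IsPrimitiveRoot.orderOf c⟩
  haveI : NeZero (sympExp r) := ⟨(sympExp_pos hS.prime).ne'⟩
  set F₀ := Subfield.closure {ζ} with hF₀
  have hmu : ∀ c : F, c ^ sympExp r = 1 → c ∈ F₀ := by
    intro c hc
    obtain ⟨i, -, rfl⟩ := hζ.eq_pow_of_pow_eq_one hc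
    exact pow_mem (show ζ ∈ F₀ from Subfield.subset_closure (Set.mem_singleton ζ)) i
  have hnorm : ∀ g ∈ H, ∀ y ∈ sympGroup hS, g * y * g⁻¹ ∈ sympGroup hS :=
    fun g hg => sympGroup_normal hS hN g (hHG hg)
  have hsimR : ∀ g ∈ sympGroup hS, ∃ μ ∈ F₀, IsSim σ (1 : Matrix (Fin n) (Fin n) F) g μ := by
    intro g hg
    obtain ⟨μ, -, hμ⟩ := hG g (hN.le hg.1)
    refine ⟨μ, hmu μ ?_, hμ⟩
    have hpow : ∀ l : ℕ, IsSim σ (1 : Matrix (Fin n) (Fin n) F) (g ^ l) (μ ^ l) := fun l => by
      induction l with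
      | zero => simpa using IsSim.one σ (1 : Matrix (Fin n) (Fin n) F)
      | succ l ih => rw [pow_succ, pow_succ]; exact ih.mul hμ
    have h1 := hpow (sympExp r)
    rw [hg.2] at h1
    exact IsSim.mult_unique hPol.unit.ne_zero h1 (IsSim.one _ _)
  by_cases hF₀top : F₀ = ⊤
  swap
  · obtain ⟨B, hB⟩ := sympGroup_realisable hS hN hcov htop hmu
    exact unit_class_of_realisable hn hF hH hspanR hF₀top hsimR hnorm
      (realisableOver_of_conjGL hB)
  obtain ⟨p, hpchar⟩ := CharP.exists F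
  haveI := hpchar
  obtain ⟨e, hpp, he⟩ := FiniteField.card F p
  haveI : Fact p.Prime := ⟨hpp⟩
  refine ⟨subgroupNormalizer (sympGroup hS) ⊓ Cfsg.GU n F q,
    Or.inl <| Or.inr <| Or.inr <| Or.inr <| Or.inr <| Or.inr <| Or.inr <| Or.inr
    ⟨r, sympGroup hS, p, e, ?_⟩, le_inf (fun g hg => ?_) hH⟩
  swap
  · rw [subgroupNormalizer, Subgroup.mem_normalizer_iff]
    refine fun y => ⟨fun hy => hnorm g hg y hy, fun hy => ?_⟩
    have := hnorm g⁻¹ (H.inv_mem hg) _ hy
    simpa [mul_assoc] using this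
  obtain ⟨m, hm, hnm⟩ := hS.card_pow
  refine ⟨m, ⟨hS.prime, sympGroup_isPGroup hS, cyclic_of_characteristic hS hN htop,
    exponent_sympGroup hS hN hcov htop⟩, absIrred_of_spanAlg_top hspanR, fun g hg => ?_, ?_, ?_,
    ?_, rfl⟩
  · rw [hermForm_eq_formOf hF]
    obtain ⟨μ, -, hμ⟩ := hsimR g hg
    exact mem_similarityGroup_of_isSim isUnit_one hμ
  · intro hrp
    exact hS.char_ne (by rw [hrp]; exact CharP.cast_eq_zero F p)
  · rw [center_sympGroup hS hspanR hN, hζ.card_rootsOfUnity]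
    refine ⟨hpp, hpchar, he, he ▸ dvd_card_sub_one_of_primitive hζ (sympExp_pos hS.prime).ne',
      fun d hd hde hdvd => ?_⟩
    have h1 := pow_fixed_of_dvd hζ (pow_pos hpp.pos d) hdvd
    exact absurd (le_of_generator_fixed he hd hF₀top h1) (not_le.2 hde)
  · have hcardR : Nat.card (sympGroup hS) = sympExp r * r ^ (2 * m) := by
      rw [card_sympGroup hS hN hcov, hζ.card_rootsOfUnity, hS.card_eq, hnm, ← pow_add, two_mul]
    rw [center_sympGroup hS hspanR hN, hζ.card_rootsOfUnity]
    rcases hS.prime.eq_two_or_odd' with hr | hodd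
    · subst hr
      refine Or.inr ⟨rfl, ?_, sympExp_two, ?_⟩
      · -- the degree is even and at most two
        have hp2 : p ≠ 2 := fun h2 => hS.char_ne (by
          rw [← h2]; exact CharP.cast_eq_zero F p)
        have hpodd : p % 2 = 1 := Nat.odd_iff.1 (hpp.odd_of_ne_two hp2)
        have h4 : sympExp 2 ∣ p ^ 2 - 1 := by
          rw [sympExp_two]
          obtain ⟨u, hu⟩ : ∃ u, p = 2 * u + 1 := ⟨p / 2, by omega⟩
          refine ⟨u * u + u, ?_⟩
          rw [hu]; ring_nf; omega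
        have h1 := pow_fixed_of_dvd hζ (pow_pos hpp.pos 2) h4
        have hle := le_of_generator_fixed he (by norm_num : 0 < 2) hF₀top h1
        obtain ⟨p', j, hp', hp'c, rfl⟩ := hF.exists_char
        obtain rfl : p' = p := CharP.eq F hp'c hpchar
        have h5 := hF.2
        rw [Nat.card_eq_fintype_card, he, ← pow_mul] at h5
        have := Nat.pow_right_injective hpp.two_le h5
        have := e.pos
        omega
      · rw [hcardR, sympExp_two, pow_add]
        norm_num
    · exact Or.inl ⟨hodd, sympExp_odd hodd, hm, by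
        rw [hcardR, sympExp_odd hodd, pow_add, pow_one]⟩


/-- A field of the matrix algebra closed under the adjoint of a hermitian form has odd degree. -/
lemma odd_degree_of_unitary (hF : SqField F q) [NeZero n] {r : ℕ}
    {K : Subalgebra F (Matrix (Fin n) (Fin n) F)} (hr : r.Prime) (hK : IsFieldSubalgebra r K)
    (hs : StarClosed (qConj hF) (1 : Matrix (Fin n) (Fin n) F) K) : Odd r := by
  classical
  rcases hr.eq_two_or_odd' with rfl | hodd
  swap
  · exact hodd
  exfalso
  set σ := qConj hF with hσdef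
  have hP : IsPolar σ (1 : Matrix (Fin n) (Fin n) F) 1 := isPolar_one (qConj_invol hF)
  obtain ⟨c, hc⟩ := exists_qConj_moved hF
  have hd : c - σ c ≠ 0 := sub_ne_zero.2 (Ne.symm hc)
  letI : CommRing K := { (inferInstance : Ring K) with
    mul_comm := fun x y => Subtype.ext (hK.comm x x.2 y y.2) }
  haveI : Nontrivial K := ⟨0, 1, fun h => zero_ne_one (congrArg Subtype.val h)⟩
  haveI : NoZeroDivisors K := ⟨fun {a b} h => by
    by_cases ha : a = 0
    · exact Or.inl ha
    obtain ⟨y, hy, hay⟩ := hK.inv a a.2 fun h => ha (Subtype.ext h)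
    refine Or.inr (Subtype.ext ?_)
    show (b : Matrix (Fin n) (Fin n) F) = 0
    have h' : (a : Matrix (Fin n) (Fin n) F) * b = 0 := congrArg Subtype.val h
    rw [← one_mul (b : Matrix (Fin n) (Fin n) F), ← hay, hK.comm a a.2 y hy, mul_assoc, h', mul_zero]⟩
  haveI : IsDomain K := NoZeroDivisors.to_isDomain K
  let S : Subring K :=
    { carrier := {x | adj σ 1 (x : Matrix (Fin n) (Fin n) F) = x}
      mul_mem' := fun {x y} hx hy => by
        show adj σ 1 (x.1 * y.1) = x.1 * y.1
        rw [hP.adj_mul, hx, hy, hK.comm y y.2 x x.2]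
      one_mem' := hP.adj_one
      add_mem' := fun {x y} hx hy => by
        show adj σ 1 (x.1 + y.1) = x.1 + y.1
        rw [adj_add, hx, hy]
      zero_mem' := adj_zero
      neg_mem' := fun {x} hx => by
        show adj σ 1 (-x.1) = -x.1
        rw [adj_neg, hx] }
  let Φ : S × S → K := fun p => (p.1 : K) + c • (p.2 : K)
  have hbij : Function.Bijective Φ := by
    refine ⟨fun p p' h => ?_, fun x => ?_⟩
    · have h1 : ((p.1 : K) : Matrix (Fin n) (Fin n) F) + c • ((p.2 : K) : Matrix (Fin n) (Fin n) F)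
          = ((p'.1 : K) : Matrix (Fin n) (Fin n) F) + c • ((p'.2 : K) : Matrix (Fin n) (Fin n) F) :=
        congrArg Subtype.val h
      have h2 := congrArg (adj σ (1 : Matrix (Fin n) (Fin n) F)) h1
      rw [adj_add, adj_add, adj_smul, adj_smul, p.1.2, p.2.2, p'.1.2, p'.2.2] at h2
      have h4 : ((p.2 : K) : Matrix (Fin n) (Fin n) F) = ((p'.2 : K) : Matrix (Fin n) (Fin n) F) := by
        apply smul_right_injective (Matrix (Fin n) (Fin n) F) hd
        show (c - σ c) • _ = (c - σ c) • _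
        rw [sub_smul, sub_smul, eq_sub_of_add_eq' h1, eq_sub_of_add_eq' h2]
        abel
      rw [h4, add_left_inj] at h1
      exact Prod.ext (Subtype.ext (Subtype.ext h1)) (Subtype.ext (Subtype.ext h4))
    · set X : Matrix (Fin n) (Fin n) F := x.1 with hX
      set b := (c - σ c)⁻¹ • (X - adj σ 1 X) with hb
      have hbK : b ∈ K := K.smul_mem (sub_mem x.2 (hs _ x.2)) _
      have hbfix : adj σ 1 b = b := by
        have h7 : adj σ 1 (X - adj σ 1 X) = -(X - adj σ 1 X) := by
          rw [sub_eq_add_neg X, adj_add, adj_neg, hP.adj_adj]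
          abel
        rw [hb, adj_smul, h7, map_inv₀, map_sub, qConj_invol hF, ← neg_sub c (σ c), inv_neg,
          neg_smul_neg]
      have haK : X - c • b ∈ K := sub_mem x.2 (K.smul_mem hbK _)
      have hafix : adj σ 1 (X - c • b) = X - c • b := by
        have h5 : c • b - σ c • b = X - adj σ 1 X := by
          rw [← sub_smul, hb, smul_smul, mul_inv_cancel₀ hd, one_smul]
        rw [sub_eq_add_neg, adj_add, adj_neg, adj_smul, hbfix]
        calc adj σ 1 X + -(σ c • b) = X - (X - adj σ 1 X) - σ c • b := by abel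
          _ = X - (c • b - σ c • b) - σ c • b := by rw [h5]
          _ = X + -(c • b) := by abel
      exact ⟨(⟨⟨_, haK⟩, hafix⟩, ⟨⟨b, hbK⟩, hbfix⟩), Subtype.ext (sub_add_cancel X (c • b))⟩
  have hKcard : Nat.card K = Fintype.card F ^ 2 := by
    rw [Module.natCard_eq_pow_finrank (K := F) (V := K), hK.finrank_eq, Nat.card_eq_fintype_card]
  have hScard : Nat.card S = Fintype.card F := by
    rw [← Nat.card_congr (Equiv.ofBijective Φ hbij), Nat.card_prod, ← pow_two] at hKcard
    exact Nat.pow_left_injective (by norm_num) hKcard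
  let T : Set K := Set.range fun a : F => a • (1 : K)
  have hTcard : T.ncard = Fintype.card F := by
    rw [← Nat.card_coe_set_eq, Nat.card_range_of_injective (fun a b h => by
      have h1 : a • (1 : Matrix (Fin n) (Fin n) F) = b • 1 := congrArg Subtype.val h
      exact smul_one_injective h1), Nat.card_eq_fintype_card]
  have hScard' : (S : Set K).ncard = Fintype.card F := by
    rw [← Nat.card_coe_set_eq]; exact hScard
  have heq : (S : Set K) = T := by
    refine set_eq_of_pow_card_eq (by rw [hScard']; exact Fintype.one_lt_card)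
      (hScard'.trans hTcard.symm) (fun x hx => ?_) ?_
    · rw [hScard', ← hScard]
      exact congrArg Subtype.val (pow_natCard_eq_self (⟨x, hx⟩ : S))
    · rintro _ ⟨a, rfl⟩
      rw [hTcard, smul_pow, one_pow, FiniteField.pow_card]
  have hmem : c • (1 : K) ∈ (S : Set K) := heq ▸ ⟨c, rfl⟩
  have h6 : adj σ 1 (c • (1 : Matrix (Fin n) (Fin n) F)) = c • 1 := hmem
  rw [adj_smul, hP.adj_one] at h6
  exact hc (smul_one_injective h6)

end Cfsg.Agent.GeoClasses
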