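import Cfsg.Agent.GeoClasses.UnitTotDecomp
import Cfsg.Agent.GeoClasses.UnitBase
import Cfsg.Agent.Forms.UnitaryGeom

/-!
Centralisers of semilinear involutions (subfield groups of index two) are maximal in `SU_n(q)`.
-/

set_option autoImplicit false

namespace Cfsg.Agent.GeoClasses

open Matrix Cfsg.Geo Cfsg.Agent.Classical.U Cfsg.Agent.ClassicalMax Module
open Cfsg.Agent.Forms (hperp mem_hperp finrank_hperp hperp_hperp herm_comm_zero)
open scoped MatrixGroups Matrix

universe u

variable {F : Type u} [Field F] {n q : ℕ}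

/-- A semilinear involution transforming the form into `ε` times its conjugate. -/
structure RatStr (q : ℕ) (ε : F) (bar : (Fin n → F) → (Fin n → F)) : Prop where
  add : ∀ x y, bar (x + y) = bar x + bar y
  smul : ∀ (c : F) x, bar (c • x) = c ^ q • bar x
  invol : ∀ x, bar (bar x) = x
  herm_bar : ∀ x y, herm q (bar x) (bar y) = ε * herm q x y ^ q
  sign : (ε = 1 ∧ (2 : F) ≠ 0) ∨ ε = -1
  lift : ∀ x, bar x = ε • x → ∃ a, a ^ q = ε * a ∧ a + a ^ q + herm q x x = 0

/-- A subspace stable under the involution. -/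
def IsBarStable (bar : (Fin n → F) → (Fin n → F)) (S : Submodule F (Fin n → F)) : Prop :=
  ∀ x ∈ S, bar x ∈ S

variable {ε : F} {bar : (Fin n → F) → (Fin n → F)} (hF : SqField F q) (hb : RatStr q ε bar)
include hF hb

namespace RatStr

lemma eps_sq : ε * ε = 1 := by
  rcases hb.sign with ⟨h, -⟩ | h <;> rw [h] <;> ring

lemma eps_ne : ε ≠ 0 := fun h => by
  have := eps_sq hF hb
  rw [h, mul_zero] at this
  exact zero_ne_one this

lemma eps_pow : ε ^ q = ε := by
  rcases hb.sign with ⟨h, -⟩ | h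
  · rw [h, one_pow]
  · rw [h, hF.neg_pow, one_pow]

lemma map_zero' : bar 0 = 0 := by
  have := hb.smul 0 0
  rwa [zero_pow hF.q_ne_zero, zero_smul, zero_smul] at this

lemma map_sub' (x y : Fin n → F) : bar (x - y) = bar x - bar y := by
  rw [sub_eq_add_neg, hb.add, show -y = (-1 : F) • y by simp, hb.smul, hF.neg_pow, one_pow]
  simp [sub_eq_add_neg]

lemma herm_bar_left (x y : Fin n → F) : herm q (bar x) y = ε * herm q x (bar y) ^ q := by
  conv_lhs => rw [← hb.invol y]
  rw [hb.herm_bar]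

lemma herm_fix {x y : Fin n → F} (hx : bar x = x) (hy : bar y = y) :
    herm q x y ^ q = ε * herm q x y := by
  conv_rhs => rw [← hx, ← hy, hb.herm_bar, ← mul_assoc, eps_sq hF hb, one_mul]

lemma herm_twist {x y : Fin n → F} (hx : bar x = ε • x) (hy : bar y = ε • y) :
    herm q x y ^ q = ε * herm q x y := by
  have h := hb.herm_bar x y
  rw [hx, hy, herm_smul_left, herm_smul_right, eps_pow hF hb] at h
  linear_combination -(herm q x y ^ q) * eps_sq hF hb - ε * h +
    ε * herm q x y * eps_sq hF hb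

lemma exists_scalar : ∃ c : F, c ≠ 0 ∧ c ^ q = ε * c := by
  rcases hb.sign with ⟨h, -⟩ | h
  · exact ⟨1, one_ne_zero, by rw [h, one_pow, one_mul]⟩
  · obtain ⟨d, hd0, hd⟩ := hF.exists_skew
    exact ⟨d, hd0, by rw [hd, h, neg_one_mul]⟩

lemma bar_scalar_smul {c : F} (hc : c ^ q = ε * c) {x : Fin n → F} (hx : bar x = x) :
    bar (c • x) = ε • (c • x) := by rw [hb.smul, hx, hc, smul_smul]

lemma mem_span_fix {S : Submodule F (Fin n → F)} (hS : IsBarStable bar S) :
    S ≤ Submodule.span F {x | x ∈ S ∧ bar x = x} := by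
  obtain ⟨l, hl⟩ := exists_qConj_moved hF
  rw [qConj_apply] at hl
  intro x hx
  set N := Submodule.span F {x | x ∈ S ∧ bar x = x}
  have h1 : x + bar x ∈ N := Submodule.subset_span ⟨S.add_mem hx (hS x hx), by
    rw [hb.add, hb.invol, add_comm]⟩
  have h2 : l • x + l ^ q • bar x ∈ N := Submodule.subset_span
    ⟨S.add_mem (S.smul_mem _ hx) (S.smul_mem _ (hS x hx)), by
      rw [hb.add, hb.smul, hb.smul, hb.invol, hF.pow_pow, add_comm]⟩
  have := N.smul_mem (l ^ q - l)⁻¹ (N.sub_mem (N.smul_mem (l ^ q) h1) h2)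
  convert this using 1
  match_scalars <;> field_simp [sub_ne_zero.2 hl] <;> ring

lemma stable_hperp {T : Submodule F (Fin n → F)} (hT : IsBarStable bar T) :
    IsBarStable bar (hperp q T) := fun x hx w hw => by
  rw [herm_bar_left hF hb, hx _ (hT w hw), zero_pow hF.q_ne_zero, mul_zero]

lemma stable_span {s : Set (Fin n → F)} (hs : ∀ x ∈ s, bar x ∈ Submodule.span F s) :
    IsBarStable bar (Submodule.span F s) := by
  intro x hx
  induction hx using Submodule.span_induction with
  | mem y hy => exact hs y hy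
  | zero => rw [map_zero' hF hb]; exact zero_mem _
  | add a b _ _ ha hb' => rw [hb.add]; exact add_mem ha hb'
  | smul c a _ ha => rw [hb.smul]; exact Submodule.smul_mem _ _ ha

lemma herm_self_eq_zero (hε : ε = -1) {x : Fin n → F} (hx : bar x = x) : herm q x x = 0 := by
  obtain ⟨c, hc0, hc⟩ := exists_scalar hF hb
  obtain ⟨a, ha, ha'⟩ := hb.lift _ (bar_scalar_smul hF hb hc hx)
  rw [ha, hε, herm_smul_left, herm_smul_right] at ha'
  have : c * c ^ q * herm q x x = 0 := by linear_combination ha'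
  exact (mul_eq_zero.1 this).resolve_left (mul_ne_zero hc0 (pow_ne_zero _ hc0))

/-- Fixed isotropic vectors exist in stable subspaces of dimension three. -/
lemma exists_fix_isotropic {S : Submodule F (Fin n → F)} (hS : IsBarStable bar S)
    (h3 : 3 ≤ finrank F S) : ∃ x ∈ S, bar x = x ∧ x ≠ 0 ∧ herm q x x = 0 := by
  by_contra hcon
  push Not at hcon
  have hne : ∀ T : Submodule F (Fin n → F), IsBarStable bar T → T ≤ S → 1 ≤ finrank F T →
      ∃ x ∈ T, bar x = x ∧ herm q x x ≠ 0 := by
    intro T hT hTS hd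
    obtain ⟨x, hx, hx0⟩ : ∃ x ∈ {x | x ∈ T ∧ bar x = x}, x ≠ 0 := by
      by_contra h
      push Not at h
      have := (mem_span_fix hF hb hT).trans (Submodule.span_le.2 fun x hx =>
        (h x hx).symm ▸ (⊥ : Submodule F (Fin n → F)).zero_mem)
      rw [le_bot_iff] at this
      rw [this, finrank_bot] at hd
      omega
    exact ⟨x, hx.1, hx.2, hcon x (hTS hx.1) hx.2 hx0⟩
  rcases hb.sign with ⟨hε, h2⟩ | hε
  swap
  · obtain ⟨x, -, hx, hxx⟩ := hne S hS le_rfl (by omega)
    exact hxx (herm_self_eq_zero hF hb hε hx)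
  obtain ⟨x₁, hx₁S, hx₁, h₁⟩ := hne S hS le_rfl (by omega)
  have hsub : ∀ (T : Submodule F (Fin n → F)) (y : Fin n → F), IsBarStable bar T → bar y = y →
      IsBarStable bar (T ⊓ LinearMap.ker (hermL q y)) := fun T y hT hy x hx =>
    ⟨hT x hx.1, by
      show herm q (bar x) y = 0
      rw [herm_bar_left hF hb, hy, show herm q x y = 0 from hx.2, zero_pow hF.q_ne_zero, mul_zero]⟩
  have hd1 := finrank_le_inf_ker (hermL q x₁) S
  obtain ⟨x₂, ⟨hx₂S, hx₂₁⟩, hx₂, h₂⟩ :=
    hne _ (hsub S x₁ hS hx₁) inf_le_left (by omega)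
  have hd2 := finrank_le_inf_ker (hermL q x₂) (S ⊓ LinearMap.ker (hermL q x₁))
  obtain ⟨x₃, ⟨⟨hx₃S, hx₃₁⟩, hx₃₂⟩, hx₃, h₃⟩ :=
    hne _ (hsub _ x₂ (hsub S x₁ hS hx₁) hx₂) (inf_le_left.trans inf_le_left) (by omega)
  change herm q x₂ x₁ = 0 at hx₂₁
  change herm q x₃ x₁ = 0 at hx₃₁
  change herm q x₃ x₂ = 0 at hx₃₂
  set F₀ := RingHom.eqLocusField (qConj hF).toRingHom (RingHom.id F) with hF₀
  have hmem : ∀ {a : F}, a ∈ F₀ ↔ a ^ q = a := fun {a} => mem_fixed_qConj hF
  haveI : Finite F := hF.1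
  haveI : Fintype F₀ := Fintype.ofFinite F₀
  have hodd : Fintype.card F₀ % 2 = 1 := by
    rw [← Nat.odd_iff, ← two_ne_zero_iff_odd_card]
    intro h
    exact h2 (by rw [← map_ofNat F₀.subtype 2, h, map_zero])
  have hfix : ∀ {x}, bar x = x → herm q x x ^ q = herm q x x := fun {x} _ => hF.herm_symm x x
  have ha : -(herm q x₁ x₁ / herm q x₃ x₃) ∈ F₀ := hmem.2 (by
    rw [hF.neg_pow, div_pow, hfix hx₁, hfix hx₃])
  have hc : herm q x₂ x₂ / herm q x₃ x₃ ∈ F₀ := hmem.2 (by rw [div_pow, hfix hx₂, hfix hx₃])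
  set a : F₀ := ⟨_, ha⟩ with hadef
  set c : F₀ := ⟨_, hc⟩ with hcdef
  have hc0 : c ≠ 0 := fun h => div_ne_zero h₂ h₃ (congrArg Subtype.val h)
  obtain ⟨s, t, hst⟩ := FiniteField.exists_root_sum_quadratic
    (f := (Polynomial.C c * Polynomial.X ^ 2 : Polynomial F₀))
    (g := Polynomial.X ^ 2 - Polynomial.C a)
    (Polynomial.degree_C_mul_X_pow 2 hc0)
    (Polynomial.degree_X_pow_sub_C (by norm_num) _) hodd
  simp only [Polynomial.eval_pow, Polynomial.eval_X, Polynomial.eval_sub, Polynomial.eval_C,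
    Polynomial.eval_mul] at hst
  have hst' := congrArg Subtype.val hst
  simp only [Subfield.coe_add, Subfield.coe_sub, Subfield.coe_mul, SubmonoidClass.coe_pow,
    hadef, hcdef, ZeroMemClass.coe_zero] at hst'
  have hs := hmem.1 s.2
  have ht := hmem.1 t.2
  have h12 := herm_comm_zero hF hx₂₁
  have h13 := herm_comm_zero hF hx₃₁
  have h23 := herm_comm_zero hF hx₃₂
  set z := x₁ + (s : F) • x₂ + (t : F) • x₃ with hz
  have hz0 : z ≠ 0 := fun h => h₁ (by
    have := congrArg (fun w => herm q w x₁) h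
    simp only [hz, herm_add_left, herm_smul_left, hx₂₁, hx₃₁, mul_zero, add_zero,
      herm_zero_left] at this
    exact this)
  refine hcon z (S.add_mem (S.add_mem hx₁S (S.smul_mem _ hx₂S)) (S.smul_mem _ hx₃S)) ?_ hz0 ?_
  · rw [hz, hb.add, hb.add, hb.smul, hb.smul, hx₁, hx₂, hx₃, hs, ht]
  · simp only [hz, herm_add_left, hF.herm_add_right, herm_smul_left, herm_smul_right, hx₂₁, hx₃₁,
      hx₃₂, h12, h13, h23, hs, ht]
    field_simp at hst'
    linear_combination hst'

/-- A fixed partner of a fixed isotropic vector inside a stable subspace. -/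
lemma exists_fix_partner {S : Submodule F (Fin n → F)} (hS : IsBarStable bar S) {p : Fin n → F}
    (hpS : p ∈ S) (hp : bar p = p) (hpp : herm q p p = 0) (hnd : ∃ y ∈ S, herm q y p ≠ 0) :
    ∃ f ∈ S, bar f = f ∧ herm q f f = 0 ∧ herm q f p ≠ 0 := by
  obtain ⟨y, ⟨hyS, hy⟩, hyp⟩ : ∃ y ∈ {x | x ∈ S ∧ bar x = x}, herm q y p ≠ 0 := by
    by_contra h
    push Not at h
    obtain ⟨y, hy, hyp⟩ := hnd
    apply hyp
    have hsp := mem_span_fix hF hb hS hy
    clear hy hyp
    induction hsp using Submodule.span_induction with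
    | mem z hz => exact h z hz
    | zero => exact herm_zero_left p
    | add a b _ _ ha hb' => rw [herm_add_left, ha, hb', add_zero]
    | smul c a _ ha => rw [herm_smul_left, ha, mul_zero]
  rcases hb.sign with ⟨hε, h2⟩ | hε
  swap
  · exact ⟨y, hyS, hy, herm_self_eq_zero hF hb hε hy, hyp⟩
  set c := herm q y p with hc
  have hcq : c ^ q = c := by rw [hc, herm_fix hF hb hy hp, hε, one_mul]
  set t := -herm q y y / (2 * c) with ht
  have htq : t ^ q = t := by
    rw [ht, div_pow, hF.neg_pow, hF.herm_symm, mul_pow, hcq,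
      show (2 : F) = 1 + 1 by norm_num, hF.add_pow, one_pow]
  refine ⟨y + t • p, S.add_mem hyS (S.smul_mem _ hpS), ?_, ?_, ?_⟩
  · rw [hb.add, hb.smul, hy, hp, htq]
  · simp only [herm_add_left, hF.herm_add_right, herm_smul_left, herm_smul_right, hpp,
      ← hc, ← hF.herm_symm y p, hcq, htq]
    rw [ht]
    field_simp
    ring
  · rw [herm_add_left, herm_smul_left, hpp, mul_zero, add_zero]
    exact hyp

/-- A stable subspace with a pair is spanned by fixed isotropic vectors meeting one of them. -/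
lemma le_span_fix_isotropic {S : Submodule F (Fin n → F)} (hS : IsBarStable bar S)
    {e f : Fin n → F} (heS : e ∈ S) (hfS : f ∈ S) (he : bar e = e) (hf : bar f = f)
    (hee : herm q e e = 0) (hff : herm q f f = 0) (hfe : herm q f e ≠ 0) :
    S ≤ Submodule.span F
      {z | z ∈ S ∧ bar z = z ∧ herm q z z = 0 ∧ (herm q z e ≠ 0 ∨ z = e)} := by
  set N := Submodule.span F
    {z | z ∈ S ∧ bar z = z ∧ herm q z z = 0 ∧ (herm q z e ≠ 0 ∨ z = e)}
  set c := herm q f e with hc
  have hef : herm q e f = ε * c := by rw [← hF.herm_symm, ← hc, herm_fix hF hb hf he]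
  have hfN : f ∈ N := Submodule.subset_span ⟨hfS, hf, hff, Or.inl hfe⟩
  -- the component of a fixed vector
  have hcomp : ∀ z ∈ S, bar z = z → herm q z e = 0 → herm q z f = 0 →
      ∃ t : F, z + f + t • e ∈ N := by
    intro z hzS hz hze hzf
    have hez := herm_comm_zero hF hze
    have hfz := herm_comm_zero hF hzf
    obtain ⟨t, htq, ht⟩ : ∃ t : F, t ^ q = t ∧ t * (ε * c) + t * c + herm q z z = 0 := by
      rcases hb.sign with ⟨hε, h2⟩ | hε
      · refine ⟨-herm q z z / (2 * c), ?_, by rw [hε]; field_simp; ring⟩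
        rw [div_pow, hF.neg_pow, hF.herm_symm, mul_pow, show (2 : F) = 1 + 1 by norm_num,
          hF.add_pow, one_pow, hc, herm_fix hF hb hf he, hε, one_mul]
      · exact ⟨0, zero_pow hF.q_ne_zero, by rw [herm_self_eq_zero hF hb hε hz]; ring⟩
    refine ⟨t, Submodule.subset_span ⟨S.add_mem (S.add_mem hzS hfS) (S.smul_mem _ heS), ?_, ?_, ?_⟩⟩
    · rw [hb.add, hb.add, hb.smul, hz, hf, he, htq]
    · simp only [herm_add_left, hF.herm_add_right, herm_smul_left, herm_smul_right, hee, hff, hef,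
        ← hc, hze, hzf, hez, hfz, htq]
      linear_combination ht
    · refine Or.inl ?_
      rw [herm_add_left, herm_add_left, herm_smul_left, hze, hee, ← hc, mul_zero, add_zero,
        zero_add]
      exact hfe
  have hef0 : herm q e f ≠ 0 := by rw [hef]; exact mul_ne_zero (eps_ne hF hb) hfe
  have heN : e ∈ N := Submodule.subset_span ⟨heS, he, hee, Or.inr rfl⟩
  intro s hs
  have hsp := mem_span_fix hF hb hS hs
  clear hs
  induction hsp using Submodule.span_induction with
  | mem s hs =>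
    obtain ⟨hsS, hs⟩ := hs
    set α := herm q s f / herm q e f with hα
    set β := herm q s e / c with hβ
    have hαq : α ^ q = α := by
      rw [hα, div_pow, herm_fix hF hb hs hf, herm_fix hF hb he hf]
      field_simp [eps_ne hF hb]
    have hβq : β ^ q = β := by
      rw [hβ, div_pow, herm_fix hF hb hs he, hc, herm_fix hF hb hf he]
      field_simp [eps_ne hF hb]
    set z := s - α • e - β • f with hz
    have hze : herm q z e = 0 := by
      rw [hz, herm_sub_left, herm_sub_left, herm_smul_left, herm_smul_left, hee, ← hc, hβ,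
        div_mul_cancel₀ _ hfe]
      ring
    have hzf : herm q z f = 0 := by
      rw [hz, herm_sub_left, herm_sub_left, herm_smul_left, herm_smul_left, hff, hα,
        div_mul_cancel₀ _ hef0]
      ring
    obtain ⟨t, ht⟩ := hcomp z (S.sub_mem (S.sub_mem hsS (S.smul_mem _ heS)) (S.smul_mem _ hfS))
      (by rw [hz, map_sub' hF hb, map_sub' hF hb, hb.smul, hb.smul, hs, he, hf, hαq, hβq]) hze hzf
    have := N.add_mem (N.sub_mem (N.sub_mem ht hfN) (N.smul_mem t heN))
      (N.add_mem (N.smul_mem α heN) (N.smul_mem β hfN))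
    convert this using 1
    rw [hz]; abel
  | zero => exact zero_mem _
  | add a b _ _ ha hb' => exact add_mem ha hb'
  | smul c a _ ha => exact Submodule.smul_mem _ _ ha

end RatStr

end Cfsg.Agent.GeoClasses
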