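import Cfsg.Agent.GeoClasses.UnitSubfieldParam

/-!
An overgroup of a unitary group over a subfield of odd index.
-/

set_option autoImplicit false

namespace Cfsg.Agent.GeoClasses

open Matrix Cfsg.Geo Cfsg.Agent.Classical.U Cfsg.Agent.ClassicalMax Module
open Cfsg.Agent.MaxSub.SubfieldMax (lo up eq_top_of_unipotents)
open Cfsg.Agent.PSLTwoSub (mk22)
open scoped MatrixGroups Matrix

universe u

variable {F : Type u} [Field F] {n q : ℕ}

/-- The field fixed by `x ↦ x ^ q`. -/
noncomputable def fixField (hF : SqField F q) : Subfield F :=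
  RingHom.eqLocusField (qConj hF).toRingHom (RingHom.id F)

lemma mem_fixField (hF : SqField F q) {a : F} : a ∈ fixField hF ↔ a ^ q = a := Iff.rfl

variable {F₀ : Subfield F} {R : Set (Fin n → F)} (hF : SqField F q) (hU : RatU q F₀ R)
  {M : Subgroup (UG n F q)}
  (hK : ∀ (v y : Fin n → F) (a : F) (h : UniCond q v y a), v ∈ R → y ∈ R → a ∈ F₀ → uni hF h ∈ M)
include hF hU

namespace RatU

/-- A scalar with rational norms of its translates is rational. -/
lemma mem_of_norms {a : F} (h : ∀ s ∈ F₀, (a + s) * (a + s) ^ q ∈ F₀) : a ∈ F₀ := by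
  have hkey : ∀ s ∈ F₀, s * a + (s * a) ^ q ∈ F₀ := by
    intro s hs
    have h0 := h 0 (zero_mem _)
    have h1 := h (s ^ q) (pow_mem hs q)
    rw [add_zero] at h0
    convert sub_mem (sub_mem h1 h0) (mul_mem hs (pow_mem hs q)) using 1
    rw [hF.add_pow, hF.pow_pow, mul_pow]
    ring
  exact mem_of_traces hF hU (by simpa using hkey 1 (one_mem _)) hkey

/-- Some rational isotropic vector is not orthogonal to a given one. -/
lemma exists_iso_not_orth [Finite F] (hn : 3 ≤ n) {x : Fin n → F} (hx : x ≠ 0) :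
    ∃ v ∈ R, herm q v v = 0 ∧ v ≠ 0 ∧ herm q v x ≠ 0 := by
  obtain ⟨e, he, he0, hee, -⟩ := exists_iso_perp hF hU (k := 0) (by omega) ![] (fun i => i.elim0)
  obtain ⟨f, hf, hff, hef⟩ := exists_iso_partner hF hU he he0 hee
  by_contra hc
  push Not at hc
  obtain ⟨z, hz, hzx⟩ := hU.set.exists_ne (hermL q x) fun h0 => hx (hF.eq_zero_of_herm x fun w => by
    have : herm q w x = 0 := LinearMap.congr_fun h0 w
    rw [← hF.herm_symm, this, zero_pow hF.q_ne_zero])
  apply hzx
  have hperp0 : ∀ w : Fin n → F, herm q w 0 = 0 := fun w => hF.herm_zero_right w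
  refine iso_induction hF hU (p := 0) (S := fun w => herm q w x = 0) he hf hee hff hef (hperp0 e)
    (hperp0 f) (fun a b ha hb => by rw [herm_add_left, ha, hb, add_zero])
    (fun a _ w hw => by rw [herm_smul_left, hw, mul_zero]) (fun u hu huu _ => ?_) hz (hperp0 z)
  rcases eq_or_ne u 0 with rfl | hu0
  · exact herm_zero_left x
  · exact hc u hu huu hu0

include hK

/-- An irrational centre gives an irrational parameter at a rational centre. -/
lemma exists_param [Fintype F] (hn : 4 ≤ n)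
    (hmid : ∀ L : Subfield (fixField hF), F₀.comap (fixField hF).subtype ≤ L →
      L = F₀.comap (fixField hF).subtype ∨ L = ⊤)
    (hsq : ∀ a : F, a ^ q = a → a ^ 2 ∈ F₀ → a ∈ F₀)
    {δ : F} (hδ : δ ∈ F₀) (hδ0 : δ ≠ 0) (hδq : δ ^ q = -δ)
    {x : Fin n → F} (hxx : herm q x x = 0) (hx : ∀ κ : F, κ • x ∈ R → κ = 0)
    (hxM : ∀ c ∈ F₀, c ^ q = -c → c ∈ trvParams hF M hxx) :
    ∃ p ∈ R, p ≠ 0 ∧ ∃ hpp : herm q p p = 0, ∃ κ : F, κ ^ q = κ ∧ κ ∉ F₀ ∧
      κ * δ ∈ trvParams hF M hpp := by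
  classical
  haveI : Fintype (fixField hF) := Fintype.ofFinite _
  have hx0 : x ≠ 0 := fun h => one_ne_zero (hx 1 (by rw [h, smul_zero]; exact hU.set.zero))
  obtain ⟨v, hv, hvv, hv0, w, hw, hww, hwv, hxv, ρ, hρ, hρ0⟩ : ∃ v ∈ R, herm q v v = 0 ∧ v ≠ 0 ∧
      ∃ w ∈ R, herm q w w = 0 ∧ herm q w v = 0 ∧ herm q v x ≠ 0 ∧
        ∃ ρ : F, herm q w x = ρ * herm q v x ∧ ρ * ρ ^ q ∉ F₀ := by
    by_contra hc
    push Not at hc
    have rule : ∀ v w, v ∈ R → w ∈ R → herm q v v = 0 → herm q w w = 0 → herm q w v = 0 →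
        herm q v x ≠ 0 → herm q w x / herm q v x ∈ F₀ := by
      intro v w hv hw hvv hww hwv hvx
      have hv0 : v ≠ 0 := fun h => hvx (by rw [h, herm_zero_left])
      have hvw : herm q v w = 0 := by rw [← hF.herm_symm, hwv, zero_pow hF.q_ne_zero]
      refine mem_of_norms hF hU fun s hs => hc v hv hvv hv0 (w + s • v)
        (hU.set.add hw (hU.set.smul hs hv)) ?_ ?_ hvx _ ?_
      · simp [herm_add_left, hF.herm_add_right, herm_smul_left, herm_smul_right, hvv, hww, hwv,
          hvw]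
      · rw [herm_add_left, herm_smul_left, hwv, hvv]; ring
      · rw [herm_add_left, herm_smul_left, add_mul, div_mul_cancel₀ _ hvx]
    obtain ⟨v, hv, hvv, hv0, hvx⟩ := exists_iso_not_orth hF hU (by omega) hx0
    obtain ⟨f, hf, hff, hvf⟩ := exists_iso_partner hF hU hv hv0 hvv
    set a := herm q v x with ha
    obtain ⟨e, he, he0, hee, hes⟩ := exists_iso_perp hF hU (k := 2) (by omega) ![v, f]
      (by simp [Fin.forall_fin_two, hv, hf])
    have hev : herm q e v = 0 := hes 0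
    have hef : herm q e f = 0 := hes 1
    obtain ⟨g, hg, hgg, heg, hgv, hgf⟩ :=
      exists_iso_partner_perp hF hU hv hf he hvv hff hvf he0 hee hev hef
    obtain ⟨e, g, he, hg, hee, hgg, hev, hef, hgv, hgf, heg, hne⟩ : ∃ e g, e ∈ R ∧ g ∈ R ∧
        herm q e e = 0 ∧ herm q g g = 0 ∧ herm q e v = 0 ∧ herm q e f = 0 ∧ herm q g v = 0 ∧
        herm q g f = 0 ∧ herm q e g = 1 ∧ a + herm q e x ≠ 0 := by
      by_cases h0 : a + herm q e x = 0
      · obtain ⟨σ, hσ, hne⟩ := hU.moved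
        have hσ0 : σ ≠ 0 := fun h => hne (by rw [h, zero_pow hF.q_ne_zero])
        have hσ1 : σ ≠ 1 := fun h => hne (by rw [h, one_pow])
        refine ⟨σ • e, (σ ^ q)⁻¹ • g, hU.set.smul hσ he, hU.set.smul (inv_mem (pow_mem hσ q)) hg,
          ?_, ?_, ?_, ?_, ?_, ?_, ?_, fun h1 => ?_⟩
        · simp [herm_smul_left, herm_smul_right, hee]
        · simp [herm_smul_left, herm_smul_right, hgg]
        · simp [herm_smul_left, hev]
        · simp [herm_smul_left, hef]
        · simp [herm_smul_left, hgv]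
        · simp [herm_smul_left, hgf]
        · rw [herm_smul_left, herm_smul_right, inv_pow, hF.pow_pow, heg, mul_one,
            mul_inv_cancel₀ hσ0]
        · rw [herm_smul_left] at h1
          have : (σ - 1) * a = 0 := by linear_combination σ * h0 - h1
          exact hvx ((mul_eq_zero.1 this).resolve_left (sub_ne_zero.2 hσ1))
      · exact ⟨e, g, he, hg, hee, hgg, hev, hef, hgv, hgf, heg, h0⟩
    have hfv := eq_one_of_fixed_pair hF hvf
    have sym0 : ∀ {u v : Fin n → F}, herm q u v = 0 → herm q v u = 0 := fun h => by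
      rw [← hF.herm_symm, h, zero_pow hF.q_ne_zero]
    have hge := eq_one_of_fixed_pair hF heg
    have hfa : herm q f x / a ∈ F₀ := by
      have h1 := rule (v + e) (f - g) (hU.set.add hv he) (hU.set.sub hf hg)
        (by simp [herm_add_left, hF.herm_add_right, hvv, hee, hev, sym0 hev])
        (by simp [herm_sub_left, hF.herm_sub_right, hff, hgg, hgf, sym0 hgf])
        (by simp [herm_sub_left, hF.herm_add_right, hfv, hgv, hge, sym0 hef])
        (by rw [herm_add_left, ← ha]; exact hne)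
      have h2 := rule v e hv he hvv hee hev hvx
      have h3 := rule v g hv hg hvv hgg hgv hvx
      rw [herm_add_left, herm_sub_left, ← ha] at h1
      convert add_mem (mul_mem h1 (add_mem (one_mem F₀) h2)) h3 using 1
      rw [← ha]
      field_simp
      ring
    have hperp : ∀ y ∈ R, herm q y v = 0 → herm q y x / a ∈ F₀ := by
      intro y hy hyv
      obtain ⟨e₁, he₁, he₁0, he₁e, hs⟩ := exists_iso_perp hF hU (k := 2) (by omega) ![v, f]
        (by simp [Fin.forall_fin_two, hv, hf])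
      obtain ⟨g₁, hg₁, hg₁g, heg₁, hg₁v, -⟩ :=
        exists_iso_partner_perp hF hU hv hf he₁ hvv hff hvf he₁0 he₁e (hs 0) (hs 1)
      exact iso_induction hF hU (S := fun w => herm q w x / a ∈ F₀) he₁ hg₁ he₁e hg₁g heg₁ (hs 0)
        hg₁v (fun u w hu hw => by rw [herm_add_left, add_div]; exact add_mem hu hw)
        (fun c hc w hw => by rw [herm_smul_left, mul_div_assoc]; exact mul_mem hc hw)
        (fun u hu huu huv => rule v u hv hu hvv huu huv hvx) hy hyv
    have := hx (a⁻¹ ^ q) (desc hF hU fun z hz => by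
      rw [herm_smul_right, hF.pow_pow, mul_comm, ← div_eq_mul_inv]
      have h1 := hperp (z - herm q z v • f) (hU.set.sub hz (hU.set.smul (hU.form hz hv) hf))
        (by rw [herm_sub_left, herm_smul_left, hfv]; ring)
      have h2 := add_mem h1 (mul_mem (hU.form hz hv) hfa)
      convert h2 using 1
      rw [herm_sub_left, herm_smul_left]
      ring)
    exact hvx (inv_eq_zero.1 (pow_eq_zero_iff hF.q_ne_zero |>.1 this))
  have hvw : herm q v w = 0 := by rw [← hF.herm_symm, hwv, zero_pow hF.q_ne_zero]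
  have hw0 : w ≠ 0 := fun h => hρ0 (by
    rw [h, herm_zero_left] at hρ
    rw [(mul_eq_zero.1 hρ.symm).resolve_right hxv, zero_mul]
    exact zero_mem _)
  set c := herm q x v with hcdef
  have hvx : herm q v x = c ^ q := (hF.herm_symm x v).symm
  have hc0 : c ≠ 0 := fun h => hxv (by rw [hvx, h, zero_pow hF.q_ne_zero])
  set r₀ := w - ρ • v with hr₀
  have hr₀x : herm q r₀ x = 0 := by
    rw [hr₀, herm_sub_left, herm_smul_left, hρ, sub_self]
  have hr₀v : herm q r₀ v = 0 := by rw [hr₀, herm_sub_left, herm_smul_left, hwv, hvv]; ring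
  have hr₀w : herm q r₀ w = 0 := by rw [hr₀, herm_sub_left, herm_smul_left, hww, hvw]; ring
  set u := (δ / c) • x with hu
  have huv : herm q u v = δ := by rw [hu, herm_smul_left, ← hcdef, div_mul_cancel₀ _ hc0]
  have huw : herm q u w = δ * ρ ^ q := by
    rw [hu, herm_smul_left, ← hF.herm_symm w x, hρ, hvx, mul_pow, hF.pow_pow]
    field_simp
  have hux : herm q u x = 0 := by rw [hu, herm_smul_left, hxx, mul_zero]
  have hNfix : ∀ a : F, (a * a ^ q) ^ q = a * a ^ q := fun a => by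
    rw [mul_pow, hF.pow_pow, mul_comm]
  have hδ2 : (δ * δ) ^ q = δ * δ := by rw [mul_pow, hδq, neg_mul_neg]
  let N : Submonoid SL(2, fixField hF) :=
    { carrier := {g | ∃ h ∈ M, h.1 r₀ = r₀ ∧
        (∃ l : F, h.1 v = (g.1 0 0 : F) • v + (g.1 1 0 : F) • u + l • r₀) ∧
        ∃ l : F, h.1 u = (g.1 0 1 : F) • v + (g.1 1 1 : F) • u + l • r₀}
      one_mem' := ⟨1, one_mem M, by simp, ⟨0, by simp⟩, ⟨0, by simp⟩⟩
      mul_mem' := by
        rintro a b ⟨h, hh, hr, ⟨l₁, e₁⟩, ⟨l₂, e₂⟩⟩ ⟨k, hk, kr, ⟨n₁, f₁⟩, ⟨n₂, f₂⟩⟩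
        refine ⟨h * k, mul_mem hh hk, ?_, ⟨(b.1 0 0 : F) * l₁ + (b.1 1 0 : F) * l₂ + n₁, ?_⟩,
          ⟨(b.1 0 1 : F) * l₁ + (b.1 1 1 : F) * l₂ + n₂, ?_⟩⟩
        · rw [Subgroup.coe_mul, LinearEquiv.mul_apply, kr, hr]
        · rw [Subgroup.coe_mul, LinearEquiv.mul_apply, f₁]
          simp only [map_add, map_smul, e₁, e₂, hr, Matrix.SpecialLinearGroup.coe_mul,
            Matrix.mul_apply, Fin.sum_univ_two, Subfield.coe_add, Subfield.coe_mul]
          module
        · rw [Subgroup.coe_mul, LinearEquiv.mul_apply, f₂]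
          simp only [map_add, map_smul, e₁, e₂, hr, Matrix.SpecialLinearGroup.coe_mul,
            Matrix.mul_apply, Fin.sum_univ_two, Subfield.coe_add, Subfield.coe_mul]
          module }
  let N' : Subgroup SL(2, fixField hF) :=
    { N with
      inv_mem' := fun {g} hg => by
        rw [inv_eq_iff_eq_inv.2 (show g = (g ^ (orderOf g - 1))⁻¹ from eq_inv_of_mul_eq_one_left (by
          rw [← pow_succ', Nat.sub_add_cancel (orderOf_pos g), pow_orderOf_eq_one]))]
        exact N.pow_mem hg _ }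
  have hN : N' = ⊤ := by
    refine eq_top_of_unipotents _ hmid N'
      (l := (⟨c * c ^ q, hNfix c⟩ : fixField hF))
      (m₁ := (⟨δ * δ, hδ2⟩ : fixField hF))
      (m₂ := (⟨δ * δ * (ρ * ρ ^ q), by rw [mem_fixField, mul_pow, hNfix, hδ2]⟩ : fixField hF))
      (fun h => mul_ne_zero hc0 (pow_ne_zero _ hc0) (congrArg Subtype.val h))
      (fun h => mul_ne_zero hδ0 hδ0 (congrArg Subtype.val h)) ?_ ?_ ?_ ?_
    · intro h
      apply hρ0
      change δ * δ * (ρ * ρ ^ q) / (δ * δ) ∈ F₀ at h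
      rwa [mul_div_cancel_left₀ _ (mul_ne_zero hδ0 hδ0)] at h
    · rintro ⟨a, haf⟩ ha
      change a ∈ F₀ at ha
      obtain ⟨ht, htM⟩ := hxM (δ * a) (mul_mem hδ ha) (by rw [mul_pow, hδq, (mem_fixField hF).1 haf]; ring)
      refine ⟨_, htM, ?_, ⟨0, ?_⟩, ⟨0, ?_⟩⟩
      · rw [trv_apply, hr₀x, mul_zero, zero_smul, add_zero]
      · rw [trv_apply, hvx, hu]
        simp [lo]
        match_scalars
        field_simp
      · rw [trv_apply, hux]
        simp [lo]
    · rintro ⟨a, haf⟩ ha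
      change a ∈ F₀ at ha
      obtain ⟨ht, htM⟩ := rat_param hF hU hK hv hvv (mul_mem hδ ha)
        (by rw [mul_pow, hδq, (mem_fixField hF).1 haf]; ring)
      refine ⟨_, htM, ?_, ⟨0, ?_⟩, ⟨0, ?_⟩⟩
      · rw [trv_apply, hr₀v, mul_zero, zero_smul, add_zero]
      · rw [trv_apply, hvv]
        simp [up]
      · rw [trv_apply, huv]
        simp [up]
        module
    · rintro ⟨a, haf⟩ ha
      change a ∈ F₀ at ha
      obtain ⟨ht, htM⟩ := rat_param hF hU hK hw hww (mul_mem hδ ha)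
        (by rw [mul_pow, hδq, (mem_fixField hF).1 haf]; ring)
      refine ⟨_, htM, ?_, ⟨0, ?_⟩, ⟨δ * δ * a * ρ ^ q, ?_⟩⟩
      · rw [trv_apply, hr₀w, mul_zero, zero_smul, add_zero]
      · rw [trv_apply, hvw]
        simp [up]
      · rw [trv_apply, huw]
        simp [up, hr₀]
        module
  set μ := ρ * ρ ^ q with hμdef
  have hμ0 : μ ≠ 0 := fun h => hρ0 (by rw [h]; exact zero_mem _)
  obtain ⟨h, hh, hr, ⟨l, hl⟩, -⟩ :
      mk22 (⟨μ, hNfix ρ⟩ : fixField hF) 0 0 (⟨μ, hNfix ρ⟩ : fixField hF)⁻¹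
        (by rw [mul_inv_cancel₀ (fun h => hμ0 (congrArg Subtype.val h))]; ring) ∈ N' := by
    rw [hN]; trivial
  simp only [Cfsg.Agent.PSLTwoSub.coe_mk22, Matrix.of_apply, Matrix.cons_val', Matrix.cons_val_zero,
    Matrix.cons_val_one, Matrix.cons_val_fin_one, ZeroMemClass.coe_zero, zero_smul, add_zero] at hl
  set c₁ := μ - l * ρ with hc₁
  set c₂ := l with hc₂
  set e₁ := ρ * (c₁ - 1) with he₁
  set e₂ := 1 + ρ * c₂ with he₂
  have hY : h.1 v = c₁ • v + c₂ • w := by
    rw [hl, hr₀, hc₁]; module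
  have hY' : h.1 w = e₁ • v + e₂ • w := by
    conv_lhs => rw [show w = r₀ + ρ • v by rw [hr₀]; abel, map_add, map_smul, hr, hY]
    rw [he₁, he₂, hr₀]; module
  have hnw : w ∉ F ∙ v := fun h0 => by
    obtain ⟨t, ht⟩ := Submodule.mem_span_singleton.1 h0
    obtain ⟨f, hf, -, hvf⟩ := exists_iso_partner hF hU hv hv0 hvv
    have := hU.form hw hf
    rw [← ht, herm_smul_left, hvf, mul_one] at this
    rw [← ht, herm_smul_left] at hρ
    exact hρ0 (by rw [hμdef, ← mul_right_cancel₀ hxv hρ]; exact mul_mem this (pow_mem this q))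
  have hnv : v ∉ F ∙ w := fun h0 => hnw (by
    obtain ⟨t, ht⟩ := Submodule.mem_span_singleton.1 h0
    have ht0 : t ≠ 0 := fun h1 => hv0 (by rw [← ht, h1, zero_smul])
    exact Submodule.mem_span_singleton.2 ⟨t⁻¹, by rw [← ht, inv_smul_smul₀ ht0]⟩)
  by_contra hcon
  push Not at hcon
  have hin : ∀ {p}, p ∈ R → p ≠ 0 → ∀ {hpp : herm q p p = 0} {κ}, κ ^ q = κ →
      κ * δ ∈ trvParams hF M hpp → κ ∈ F₀ := by
    intro p hp hp0 hpp κ hκq hκ
    by_contra h0
    exact hcon p hp hp0 hpp κ hκq h0 hκ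
  have coeffs : ∀ a b : F, ∀ hyy : herm q (a • v + b • w) (a • v + b • w) = 0,
      δ ∈ trvParams hF M hyy → a * a ^ q ∈ F₀ ∧ b * b ^ q ∈ F₀ ∧ a * b ^ q ∈ F₀ := by
    intro a b hyy hab
    have h1 := hin hv hv0 (hNfix a) (plane_param hF hU hK hn hv hv0 hvv hw hww hwv hnw hyy hab)
    have h2 : b * b ^ q ∈ F₀ := by
      refine hin hw hw0 (hpp := hww) (hNfix b) (plane_param hF hU hK hn hw hw0 hww hv hvv hvw hnv
        (a := b) (b := a) (by rw [add_comm]; exact hyy) ?_)
      exact trvParams_congr hF (add_comm _ _) hab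
    have h3 : ∀ s ∈ F₀, (a + -(b * s)) * (a + -(b * s)) ^ q ∈ F₀ := by
      intro s hs
      have e : (a + -(b * s)) • v + b • (w + s • v) = a • v + b • w := by module
      refine hin hv hv0 (hpp := hvv) (hNfix _) (plane_param hF hU hK hn hv hv0 hvv
        (hU.set.add hw (hU.set.smul hs hv)) ?_ ?_ ?_ (a := a + -(b * s)) (b := b)
        (by rw [e]; exact hyy) ?_)
      · simp [herm_add_left, hF.herm_add_right, herm_smul_left, herm_smul_right, hvv, hww, hwv, hvw]
      · rw [herm_add_left, herm_smul_left, hwv, hvv]; ring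
      · intro h0
        exact hnw (by simpa using sub_mem h0 (Submodule.smul_mem _ s
          (Submodule.mem_span_singleton_self v)))
      · exact trvParams_congr hF e.symm hab
    refine ⟨h1, h2, ?_⟩
    have hkey : ∀ s ∈ F₀, s * (a * b ^ q) + (s * (a * b ^ q)) ^ q ∈ F₀ := by
      intro s hs
      convert sub_mem (add_mem h1 (mul_mem (mul_mem hs (pow_mem hs q)) h2))
        (h3 (s ^ q) (pow_mem hs q)) using 1
      rw [hF.add_pow, hF.neg_pow, mul_pow, mul_pow, mul_pow, hF.pow_pow, hF.pow_pow]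
      ring
    exact mem_of_traces hF hU (by simpa using hkey 1 (one_mem _)) hkey
  have hA := map_mem_trvParams hF hvv hh (rat_param hF hU hK hv hvv hδ hδq) hY
    (by rw [← hY, UG_app]; exact hvv)
  have hB := map_mem_trvParams hF hww hh (rat_param hF hU hK hw hww hδ hδq) hY'
    (by rw [← hY', UG_app]; exact hww)
  obtain ⟨a1, a2, a3⟩ := coeffs _ _ _ hA
  obtain ⟨b1, b2, b3⟩ := coeffs _ _ _ hB
  apply hρ0
  have hdet : μ ^ 2 = (c₁ * c₁ ^ q) * (e₂ * e₂ ^ q) + (c₂ * c₂ ^ q) * (e₁ * e₁ ^ q) -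
      ((c₁ * c₂ ^ q) * (e₁ * e₂ ^ q) ^ q + ((c₁ * c₂ ^ q) * (e₁ * e₂ ^ q) ^ q) ^ q) := by
    have h1 : μ ^ 2 = (c₁ * e₂ - c₂ * e₁) * (c₁ * e₂ - c₂ * e₁) ^ q := by
      rw [show c₁ * e₂ - c₂ * e₁ = μ by rw [he₁, he₂, hc₁]; ring, hμdef, hNfix]
      ring
    rw [h1, hF.sub_pow]
    simp only [mul_pow, hF.pow_pow]
    ring
  exact hsq μ (hNfix ρ) (by
    rw [hdet]
    exact sub_mem (add_mem (mul_mem a1 b2) (mul_mem a2 b1)) (add_mem (mul_mem a3 (pow_mem b3 q))
      (pow_mem (mul_mem a3 (pow_mem b3 q)) q)))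

/-- An irrational parameter gives all root elements at every rational centre. -/
lemma rat_mem_uniCentres [Fintype F] (hn : 4 ≤ n)
    (hmid : ∀ L : Subfield (fixField hF), F₀.comap (fixField hF).subtype ≤ L →
      L = F₀.comap (fixField hF).subtype ∨ L = ⊤)
    {δ : F} (hδ : δ ∈ F₀) (hδ0 : δ ≠ 0) (hδq : δ ^ q = -δ)
    {p₀ : Fin n → F} (hp₀ : p₀ ∈ R) (hp₀0 : p₀ ≠ 0) (hp₀p : herm q p₀ p₀ = 0) {κ : F}
    (hκq : κ ^ q = κ) (hκ : κ ∉ F₀) (hκM : κ * δ ∈ trvParams hF M hp₀p)
    {p : Fin n → F} (hp : p ∈ R) (hp0 : p ≠ 0) (hpp : herm q p p = 0) : p ∈ uniCentres hF M := by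
  classical
  haveI : Fintype (fixField hF) := Fintype.ofFinite _
  obtain ⟨τ, hτ, hτ'⟩ := exists_trace hF hU
  -- the parameters at `p` form a space over the fixed part of the subfield
  have hnorm : ∀ s ∈ F₀, s * s ^ q * (κ * δ) ∈ trvParams hF M hpp := by
    intro s hs
    rcases eq_or_ne s 0 with rfl | hs0
    · rw [zero_mul, zero_mul]; exact zero_mem _
    have hsp : herm q (s • p) (s • p) = 0 := by simp [herm_smul_left, herm_smul_right, hpp]
    obtain ⟨k, hk, hke⟩ := move_any hF hU hK hn hp₀ (hU.set.smul hs hp) hp₀0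
      (smul_ne_zero hs0 hp0) hp₀p hsp
    exact smul_mem_trvParams hF hpp hsp (map_mem_trvParams hF hp₀p hk hκM hke hsp)
  have hscale : ∀ a ∈ F₀, a ^ q = a → a * (κ * δ) ∈ trvParams hF M hpp := by
    intro a ha haq
    convert sub_mem (sub_mem (hnorm (τ * a + 1) (add_mem (mul_mem hτ ha) (one_mem _)))
      (hnorm (τ * a) (mul_mem hτ ha))) (hnorm 1 (one_mem _)) using 1
    rw [hF.add_pow, mul_pow, haq, one_pow]
    linear_combination -(a * κ * δ) * hτ'
  obtain ⟨qq, hqq, hqqq, hpq⟩ := exists_iso_partner hF hU hp hp0 hpp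
  have hqp := eq_one_of_fixed_pair hF hpq
  have hδ2 : (δ * δ) ^ q = δ * δ := by rw [mul_pow, hδq, neg_mul_neg]
  let Φ : SL(2, fixField hF) → (Fin n → F) → (Fin n → F) := fun g w => w +
    (herm q w qq * ((g.1 0 0 : F) - 1) + herm q w p / δ * (g.1 0 1 : F)) • p +
    ((herm q w qq * (g.1 1 0 : F) + herm q w p / δ * ((g.1 1 1 : F) - 1)) * δ) • qq
  let N : Submonoid SL(2, fixField hF) :=
    { carrier := {g | ∃ h ∈ M, ∀ w, h.1 w = Φ g w}
      one_mem' := ⟨1, one_mem M, fun w => by simp [Φ]⟩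
      mul_mem' := by
        rintro a b ⟨h, hh, e⟩ ⟨k, hk, f⟩
        refine ⟨h * k, mul_mem hh hk, fun w => ?_⟩
        rw [Subgroup.coe_mul, LinearEquiv.mul_apply, f, e]
        simp only [Φ, herm_add_left, herm_smul_left, hpp, hqqq, hpq, hqp,
          Matrix.SpecialLinearGroup.coe_mul, Matrix.mul_apply, Fin.sum_univ_two, Subfield.coe_add,
          Subfield.coe_mul]
        match_scalars <;> field_simp <;> ring }
  let N' : Subgroup SL(2, fixField hF) :=
    { N with
      inv_mem' := fun {g} hg => by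
        rw [inv_eq_iff_eq_inv.2 (show g = (g ^ (orderOf g - 1))⁻¹ from eq_inv_of_mul_eq_one_left (by
          rw [← pow_succ', Nat.sub_add_cancel (orderOf_pos g), pow_orderOf_eq_one]))]
        exact N.pow_mem hg _ }
  have hN : N' = ⊤ := by
    refine eq_top_of_unipotents _ hmid N' (l := (1 : fixField hF))
      (m₁ := (⟨δ * δ, hδ2⟩ : fixField hF))
      (m₂ := (⟨δ * δ * κ, by rw [mem_fixField, mul_pow, hκq, hδ2]⟩ : fixField hF))
      one_ne_zero (fun h => mul_ne_zero hδ0 hδ0 (congrArg Subtype.val h)) ?_ ?_ ?_ ?_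
    · intro h
      apply hκ
      change δ * δ * κ / (δ * δ) ∈ F₀ at h
      rwa [mul_div_cancel_left₀ _ (mul_ne_zero hδ0 hδ0)] at h
    · rintro ⟨a, haf⟩ ha
      change a ∈ F₀ at ha
      obtain ⟨ht, htM⟩ := rat_param hF hU hK hqq hqqq (mul_mem hδ ha)
        (by rw [mul_pow, hδq, (mem_fixField hF).1 haf]; ring)
      exact ⟨_, htM, fun w => by rw [trv_apply]; simp [Φ, lo]; module⟩
    · rintro ⟨a, haf⟩ ha
      change a ∈ F₀ at ha
      obtain ⟨ht, htM⟩ := rat_param hF hU hK hp hpp (mul_mem hδ ha)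
        (by rw [mul_pow, hδq, (mem_fixField hF).1 haf]; ring)
      exact ⟨_, htM, fun w => by
        rw [trv_apply]; simp [Φ, up]; match_scalars <;> field_simp⟩
    · rintro ⟨a, haf⟩ ha
      change a ∈ F₀ at ha
      obtain ⟨ht, htM⟩ := hscale a ha ((mem_fixField hF).1 haf)
      exact ⟨_, htM, fun w => by
        rw [trv_apply]; simp [Φ, up]; match_scalars <;> field_simp⟩
  -- all the transvections at `p`
  have htrv : ∀ (c : F) (h : TrvCond q p c), trv hF h ∈ M := by
    intro c h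
    have hcδ : (δ * c) ^ q = δ * c := by rw [mul_pow, hδq, h.2, neg_mul_neg]
    obtain ⟨k, hk, e⟩ : up (⟨δ * c, hcδ⟩ : fixField hF) ∈ N' := by rw [hN]; trivial
    convert hk using 1
    refine Subtype.ext (LinearEquiv.ext fun w => ?_)
    rw [trv_apply, e]
    simp [Φ, up]
    field_simp
  -- the vectors occurring at `p`
  have hline : ∀ y ∈ R, herm q y p = 0 → herm q y qq = 0 → ∀ t : F, t • y ∈ uniParams hF hpp M := by
    intro y hy hyp hyq
    set a₀ := -(τ * herm q y y) with ha₀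
    have hyy : (herm q y y) ^ q = herm q y y := hF.herm_symm y y
    have hc : UniCond q p y a₀ := ⟨hpp, hyp, by
      rw [ha₀, hF.neg_pow, mul_pow, hyy]; linear_combination -(herm q y y) * hτ'⟩
    have hmem := hK p y a₀ hc hp hy (neg_mem (mul_mem hτ (hU.form hy hy)))
    have hfix : ∀ c : fixField hF, (c : F) • y ∈ uniParams hF hpp M := by
      intro c
      rcases eq_or_ne c 0 with rfl | hc0
      · simp only [ZeroMemClass.coe_zero, zero_smul]; exact zero_mem _
      obtain ⟨k, hk, e⟩ : mk22 c 0 0 c⁻¹ (by rw [mul_inv_cancel₀ hc0]; ring) ∈ N' := by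
        rw [hN]; trivial
      have hkp : k.1 p = (c : F) • p := by
        rw [e]; simp [Φ, hpp, hpq]; module
      have hky : k.1 y = y := by rw [e]; simp [Φ, hyp, hyq]
      have hcq : (c : F) ^ q = c := (mem_fixField hF).1 c.2
      have hc1 : UniCond q ((c : F) • p) y a₀ := ⟨by simp [herm_smul_left, herm_smul_right, hpp],
        by simp [herm_smul_right, hyp], hc.2.2⟩
      have hc2 : UniCond q p ((c : F) ^ q • y) ((c : F) * (c : F) ^ q * a₀) := ⟨hpp,
        by simp [herm_smul_left, hyp], by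
          rw [herm_smul_left, herm_smul_right, mul_pow, mul_pow, hcq, hcq]
          linear_combination (c : F) * c * hc.2.2⟩
      refine ⟨(c : F) * (c : F) ^ q * a₀, by rw [hcq] at hc2 ⊢; exact hc2, ?_⟩
      have hm := mul_mem (mul_mem hk hmem) (inv_mem hk)
      rw [uni_conj, uni_congr hF _ hc1 hkp hky rfl, uni_smul hF hc1 hc2] at hm
      convert hm using 1
      exact uni_congr hF _ _ rfl (by rw [hcq]) rfl
    intro t
    obtain ⟨σ, hσ, hne⟩ := hU.moved
    set l₂ := (t - t ^ q) / (σ - σ ^ q) with hl₂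
    have hl₂q : l₂ ^ q = l₂ := by
      rw [hl₂, div_pow, hF.sub_pow, hF.sub_pow, hF.pow_pow, hF.pow_pow, ← neg_div_neg_eq]
      simp
    have hl₁q : (t - l₂ * σ) ^ q = t - l₂ * σ := by
      have h3 : l₂ * (σ - σ ^ q) = t - t ^ q := by
        rw [hl₂, div_mul_cancel₀ _ (sub_ne_zero.2 (Ne.symm hne))]
      rw [hF.sub_pow, mul_pow, hl₂q]
      linear_combination h3
    have hy2 : σ • y ∈ R := hU.set.smul hσ hy
    have h1 := hfix ⟨t - l₂ * σ, hl₁q⟩
    -- the same for a rational multiple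
    have h2 : l₂ • σ • y ∈ uniParams hF hpp M := by
      have hσy : herm q (σ • y) p = 0 := by rw [herm_smul_left, hyp, mul_zero]
      set a₁ := -(τ * herm q (σ • y) (σ • y)) with ha₁
      have hc' : UniCond q p (σ • y) a₁ := ⟨hpp, hσy, by
        rw [ha₁, hF.neg_pow, mul_pow, hF.herm_symm]
        linear_combination -(herm q (σ • y) (σ • y)) * hτ'⟩
      have hmem' := hK p (σ • y) a₁ hc' hp hy2 (neg_mem (mul_mem hτ (hU.form hy2 hy2)))
      rcases eq_or_ne l₂ 0 with h0 | h0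
      · rw [h0, zero_smul]; exact zero_mem _
      obtain ⟨k, hk, e⟩ : mk22 (⟨l₂, hl₂q⟩ : fixField hF) 0 0 (⟨l₂, hl₂q⟩ : fixField hF)⁻¹
          (by rw [mul_inv_cancel₀ (fun h => h0 (congrArg Subtype.val h))]; ring) ∈ N' := by
        rw [hN]; trivial
      have hkp : k.1 p = l₂ • p := by rw [e]; simp [Φ, hpp, hpq]; module
      have hky : k.1 (σ • y) = σ • y := by rw [e]; simp [Φ, herm_smul_left, hyp, hyq]
      have hc1 : UniCond q (l₂ • p) (σ • y) a₁ := ⟨by simp [herm_smul_left, herm_smul_right, hpp],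
        by simp [herm_smul_right, herm_smul_left, hyp], hc'.2.2⟩
      have hc2 : UniCond q p (l₂ ^ q • σ • y) (l₂ * l₂ ^ q * a₁) := ⟨hpp,
        by simp [herm_smul_left, hyp], by
          rw [herm_smul_left, herm_smul_right, mul_pow, mul_pow, hl₂q, hl₂q]
          linear_combination l₂ * l₂ * hc'.2.2⟩
      refine ⟨l₂ * l₂ ^ q * a₁, by rw [hl₂q] at hc2 ⊢; exact hc2, ?_⟩
      have hm := mul_mem (mul_mem hk hmem') (inv_mem hk)
      rw [uni_conj, uni_congr hF _ hc1 hkp hky rfl, uni_smul hF hc1 hc2] at hm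
      convert hm using 1
      exact uni_congr hF _ _ rfl (by rw [hl₂q]) rfl
    convert add_mem h1 h2 using 1
    show _ = (t - l₂ * σ) • y + _
    module
  -- everything orthogonal to `p`
  let proj : (Fin n → F) →ₗ[F] (Fin n → F) :=
    LinearMap.id - (hermL q qq).smulRight p - (hermL q p).smulRight qq
  let W : Submodule F (Fin n → F) :=
    { carrier := {v | ∀ t : F, t • proj v ∈ uniParams hF hpp M}
      zero_mem' := fun t => by rw [map_zero, smul_zero]; exact zero_mem _
      add_mem' := fun ha hb t => by rw [map_add, smul_add]; exact add_mem (ha t) (hb t)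
      smul_mem' := fun a v hv t => by rw [map_smul, smul_smul]; exact hv _ }
  have hW : W = ⊤ := top_le_iff.1 (hU.set.span ▸ Submodule.span_le.2 fun z hz => by
    refine hline (proj z) ?_ ?_ ?_
    · simp only [proj, LinearMap.sub_apply, LinearMap.id_apply, LinearMap.smulRight_apply,
        hermL_apply]
      exact hU.set.sub (hU.set.sub hz (hU.set.smul (hU.form hz hqq) hp))
        (hU.set.smul (hU.form hz hp) hqq)
    · simp [proj, hermL_apply, herm_sub_left, herm_smul_left, hpp, hqp]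
    · simp [proj, hermL_apply, herm_sub_left, herm_smul_left, hpq, hqqq])
  refine ⟨hpp, fun v a hc => ?_⟩
  have hvW : v ∈ W := by rw [hW]; trivial
  have h1 := hvW 1
  rw [one_smul] at h1
  have hvp : v ∈ uniParams hF hpp M := by
    convert add_mem h1 (line_mem_uniParams hF hpp (herm q v qq) (M := M)) using 1
    simp only [proj, LinearMap.sub_apply, LinearMap.id_apply, LinearMap.smulRight_apply,
      hermL_apply, hc.2.1, zero_smul]
    abel
  obtain ⟨b, hb, hbM⟩ := hvp
  have hd : UniCond q p 0 (a - b) := ⟨hpp, herm_zero_left p, by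
    rw [herm_zero_left, hF.sub_pow]; linear_combination hc.2.2 - hb.2.2⟩
  have hdt : TrvCond q p (a - b) := trvCond_mk hpp (by
    rw [hF.sub_pow]; linear_combination hc.2.2 - hb.2.2)
  have h2 : uni hF hd ∈ M := htrv (a - b) hdt
  have := mul_mem h2 hbM
  rw [uni_mul] at this
  convert this using 1
  exact uni_congr hF _ _ rfl (zero_add v).symm (by rw [hF.herm_zero_right]; ring)

end RatU

end Cfsg.Agent.GeoClasses
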