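import Cfsg.Agent.GeoClasses.UnitNondeg
import Cfsg.Agent.GeoClasses.DecompTwo

/-!
The stabiliser of a pair of complementary totally singular halves is maximal in `SU_n(q)`.
-/

set_option autoImplicit false

namespace Cfsg.Agent.GeoClasses

open Matrix Cfsg.Geo Cfsg.Agent.Classical.U Cfsg.Agent.ClassicalMax Module
open scoped MatrixGroups Matrix

universe u

variable {F : Type u} [Field F] {n q : ℕ}

/-- The form with a fixed right argument. -/
noncomputable def hermL (q : ℕ) (e : Fin n → F) : (Fin n → F) →ₗ[F] F where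
  toFun v := herm q v e
  map_add' u v := herm_add_left u v e
  map_smul' c u := by rw [RingHom.id_apply, herm_smul_left, smul_eq_mul]

lemma hermL_apply (e v : Fin n → F) : hermL q e v = herm q v e := rfl

lemma trvCond_mk {e : Fin n → F} {δ : F} (h1 : herm q e e = 0) (h2 : δ ^ q = -δ) : TrvCond q e δ :=
  ⟨h1, h2⟩

variable (hF : SqField F q)
include hF

omit hF in
lemma finrank_le_inf_ker (φ : (Fin n → F) →ₗ[F] F) (S : Submodule F (Fin n → F)) :
    finrank F S ≤ finrank F ↥(S ⊓ LinearMap.ker φ) + 1 := by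
  have h1 := Submodule.finrank_sup_add_finrank_inf_eq S (LinearMap.ker φ)
  have h2 := Submodule.finrank_le (S ⊔ LinearMap.ker φ)
  have h3 := LinearMap.finrank_range_add_finrank_ker φ
  have h4 : finrank F (LinearMap.range φ) ≤ 1 :=
    (Submodule.finrank_le _).trans (by rw [Module.finrank_self])
  omega

section

variable {A B : Submodule F (Fin n → F)}

lemma uni_pair_vector (hc : IsCompl A B) (hB : ∀ x ∈ B, ∀ y ∈ B, herm q x y = 0)
    {p b : Fin n → F} (hp : p ∈ B) (hb : b ∈ B) (hbp : b ∉ (F ∙ p)) :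
    ∃ u ∈ A, herm q u p = 0 ∧ herm q u b = 1 := by
  obtain ⟨φ, hφ1, hφ⟩ := exists_functional (p := (F ∙ p)) hbp
  set z : Fin n → F := fun i => φ (Pi.single i 1) ^ q with hz
  have hrep : ∀ v, herm q v z = φ v := fun v => by
    conv_rhs => rw [pi_eq_sum_univ' v, map_sum]
    rw [herm_def]
    refine Finset.sum_congr rfl fun i _ => ?_
    rw [hz, hF.pow_pow, map_smul, smul_eq_mul]
  obtain ⟨u, hu, w, hw, huw⟩ :=
    Submodule.mem_sup.1 (show z ∈ A ⊔ B by rw [hc.sup_eq_top]; trivial)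
  have key : ∀ y ∈ B, herm q u y = φ y ^ q := fun y hy => by
    rw [← hrep y, hF.herm_symm, ← huw, herm_add_left, hB w hw y hy, add_zero]
  refine ⟨u, hu, ?_, ?_⟩
  · rw [key p hp, hφ p (Submodule.mem_span_singleton_self p), zero_pow hF.q_ne_zero]
  · rw [key b hb, hφ1, one_pow]

lemma uni_short_cond {u w : Fin n → F} (hu : herm q u u = 0) (hw : herm q w w = 0)
    (huw : herm q u w = 0) : UniCond q u w 0 :=
  ⟨hu, by rw [← hF.herm_symm, huw, zero_pow hF.q_ne_zero],
    by rw [hw, zero_pow hF.q_ne_zero]; ring⟩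

/-- A subspace invariant under the short root elements is comparable with one of the halves. -/
lemma uni_invariant_dichotomy (hc : IsCompl A B)
    (hA : ∀ x ∈ A, ∀ y ∈ A, herm q x y = 0) (hB : ∀ x ∈ B, ∀ y ∈ B, herm q x y = 0)
    (hdB : 3 ≤ finrank F B) {W : Submodule F (Fin n → F)}
    (hW : ∀ u ∈ A, ∀ w ∈ B, ∀ (h : herm q u w = 0), ∀ x ∈ W,
      x + herm q x u • w - herm q x w • u ∈ W) :
    B ≤ W ∨ W ≤ A := by
  refine (em (W ≤ A)).symm.imp_left fun hWA => ?_
  obtain ⟨x, hxW, hxA⟩ := SetLike.not_le_iff_exists.1 hWA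
  obtain ⟨a, ha, b, hb, rfl⟩ :=
    Submodule.mem_sup.1 (show x ∈ A ⊔ B by rw [hc.sup_eq_top]; trivial)
  have hb0 : b ≠ 0 := fun h => hxA (by simpa [h] using ha)
  have step : ∀ a' ∈ A, ∀ b' ∈ B, a' + b' ∈ W → b' ≠ 0 → ∀ w ∈ B, herm q a' w = 0 →
      w ∉ (F ∙ b') → w ∈ W := by
    intro a' ha' b' hb' hab hb0' w hw haw hwb
    have hbw : b' ∉ (F ∙ w) := fun h => by
      obtain ⟨c, hc'⟩ := Submodule.mem_span_singleton.1 h
      have hc0 : c ≠ 0 := fun h0 => hb0' (by simp [← hc', h0])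
      exact hwb (Submodule.mem_span_singleton.2 ⟨c⁻¹, by rw [← hc', inv_smul_smul₀ hc0]⟩)
    obtain ⟨u, hu, huw, hub⟩ := uni_pair_vector hF hc hB hw hb' hbw
    have := W.sub_mem (hW u hu w hw huw _ hab) hab
    rw [herm_add_left, herm_add_left, hA a' ha' u hu, haw, hB b' hb' w hw,
      ← hF.herm_symm u b', hub, one_pow] at this
    simpa using this
  set H : Submodule F (Fin n → F) := B ⊓ LinearMap.ker (hermL q a) with hH
  have hHdim : 2 ≤ finrank F H := by
    have := finrank_le_inf_ker (hermL q a) B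
    rw [← hH] at this
    omega
  have hHb : ¬ H ≤ (F ∙ b) := fun h => by
    have := (Submodule.finrank_mono h).trans (finrank_span_le_card ({b} : Set (Fin n → F)))
    simp at this
    omega
  obtain ⟨h₀, hh₀, hh₀b⟩ := SetLike.not_le_iff_exists.1 hHb
  have hah₀ : herm q a h₀ = 0 := by
    rw [← hF.herm_symm, show herm q h₀ a = 0 from hh₀.2, zero_pow hF.q_ne_zero]
  have hh₀W : h₀ ∈ W := step a ha b hb hxW hb0 h₀ hh₀.1 hah₀ hh₀b
  have hh₀0 : h₀ ≠ 0 := fun h => hh₀b (by rw [h]; exact zero_mem _)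
  intro w hw
  by_cases h : w ∈ (F ∙ h₀)
  · obtain ⟨c, rfl⟩ := Submodule.mem_span_singleton.1 h
    exact W.smul_mem c hh₀W
  · exact step 0 (zero_mem _) h₀ hh₀.1 (by simpa using hh₀W) hh₀0 w hw (by simp) h

variable {M : Subgroup (UG n F q)}

/-- A short root element mapping much of a half into it has much of the half in both kernels. -/
lemma two_le_finrank_kers (hc : IsCompl A B) (hA : ∀ x ∈ A, ∀ y ∈ A, herm q x y = 0)
    (hdA : 3 ≤ finrank F A) {p x : Fin n → F} {a₀ : F} (hpx : UniCond q p x a₀)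
    {K : Submodule F (Fin n → F)} (hKA : K ≤ A) (hdK : 2 ≤ finrank F K)
    (hgK : ∀ a ∈ K, (uni hF hpx).1 a ∈ A) :
    2 ≤ finrank F ↥(A ⊓ LinearMap.ker (hermL q p) ⊓ LinearMap.ker (hermL q x)) := by
  set T := A ⊓ LinearMap.ker (hermL q p) ⊓ LinearMap.ker (hermL q x) with hT
  obtain ⟨pa, hpa, pb, hpb, hp⟩ :=
    Submodule.mem_sup.1 (show p ∈ A ⊔ B by rw [hc.sup_eq_top]; trivial)
  obtain ⟨xa, hxa, xb, hxb, hx⟩ :=
    Submodule.mem_sup.1 (show x ∈ A ⊔ B by rw [hc.sup_eq_top]; trivial)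
  have ep : ∀ a ∈ A, herm q a p = herm q a pb := fun a ha => by
    rw [← hp, hF.herm_add_right, hA a ha pa hpa, zero_add]
  have ex : ∀ a ∈ A, herm q a x = herm q a xb := fun a ha => by
    rw [← hx, hF.herm_add_right, hA a ha xa hxa, zero_add]
  by_cases hpb0 : pb = 0
  · have hle : A ⊓ LinearMap.ker (hermL q x) ≤ T := fun a ha => ⟨⟨ha.1,
      show herm q a p = 0 by rw [ep a ha.1, hpb0, hF.herm_zero_right]⟩, ha.2⟩
    have := Submodule.finrank_mono hle
    have := finrank_le_inf_ker (hermL q x) A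
    omega
  by_cases hxb' : xb ∈ (F ∙ pb)
  · obtain ⟨c, hc'⟩ := Submodule.mem_span_singleton.1 hxb'
    have hle : A ⊓ LinearMap.ker (hermL q p) ≤ T := fun a ha => ⟨ha, show herm q a x = 0 by
      rw [ex a ha.1, ← hc', herm_smul_right, ← ep a ha.1, show herm q a p = 0 from ha.2, mul_zero]⟩
    have := Submodule.finrank_mono hle
    have := finrank_le_inf_ker (hermL q p) A
    omega
  refine hdK.trans (Submodule.finrank_mono (t := T) fun a ha => ?_)
  have haA := hKA ha
  have h0 : herm q a p • xb + (a₀ * herm q a p - herm q a x) • pb = 0 := by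
    refine Submodule.disjoint_def.1 hc.disjoint _ ?_ (B.add_mem (B.smul_mem _ hxb) (B.smul_mem _ hpb))
    have := A.sub_mem (A.sub_mem (A.sub_mem (hgK a ha) haA) (A.smul_mem (herm q a p) hxa))
      (A.smul_mem (a₀ * herm q a p - herm q a x) hpa)
    convert this using 1
    rw [uni_apply]
    rw [show x = xa + xb from hx.symm, show p = pa + pb from hp.symm]
    module
  have hap : herm q a p = 0 := by
    by_contra hne
    refine hxb' (Submodule.mem_span_singleton.2
      ⟨-(a₀ * herm q a p - herm q a x) / herm q a p, ?_⟩)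
    rw [div_eq_inv_mul, mul_smul, neg_smul, ← eq_neg_of_add_eq_zero_left h0, inv_smul_smul₀ hne]
  rw [hap, zero_smul, zero_add, mul_zero, zero_sub] at h0
  exact ⟨⟨haA, hap⟩, neg_eq_zero.1 ((smul_eq_zero.1 h0).resolve_right hpb0)⟩

/-- A short root element moving the second half off itself yields the long root elements at one
centre. -/
lemma exists_trv_centre (hc : IsCompl A B)
    (hA : ∀ x ∈ A, ∀ y ∈ A, herm q x y = 0) (hB : ∀ x ∈ B, ∀ y ∈ B, herm q x y = 0)
    (hK : ∀ u ∈ A, ∀ w ∈ B, herm q u w = 0 → ∀ h : UniCond q u w 0, uni hF h ∈ M)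
    {p x : Fin n → F} {a₀ : F} (hpx : UniCond q p x a₀) (hh : uni hF hpx ∈ M)
    (hwit : ∃ w ∈ B, (uni hF hpx).1 w ∉ B ∧
      ∃ u ∈ A ⊓ LinearMap.ker (hermL q p) ⊓ LinearMap.ker (hermL q x), u ≠ 0 ∧ herm q u w = 0) :
    ∃ u ∈ A, u ≠ 0 ∧ ∀ (δ : F) (h : TrvCond q u δ), trv hF h ∈ M := by
  obtain ⟨w₁, hw₁, hw₁B, u, huT, hu0, huw⟩ := hwit
  set g := uni hF hpx with hgdef
  set T := A ⊓ LinearMap.ker (hermL q p) ⊓ LinearMap.ker (hermL q x) with hT
  have hfix : ∀ u ∈ T, g.1 u = u := fun u hu => by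
    obtain ⟨⟨-, h1⟩, h2⟩ := hu
    change herm q u p = 0 at h1
    change herm q u x = 0 at h2
    rw [hgdef, uni_apply, h1, h2]
    simp
  have huA : u ∈ A := huT.1.1
  obtain ⟨a, ha, b, hb, hab⟩ :=
    Submodule.mem_sup.1 (show g.1 w₁ ∈ A ⊔ B by rw [hc.sup_eq_top]; trivial)
  have ha0 : a ≠ 0 := fun h0 => hw₁B (by rw [← hab, h0, zero_add]; exact hb)
  have hua : herm q u a = 0 := hA u huA a ha
  have hub : herm q u b = 0 := by
    have := UG_app g u w₁
    rw [hfix u huT, ← hab, hF.herm_add_right, hua, huw, zero_add] at this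
    exact this
  have hbu : herm q b u = 0 := by rw [← hF.herm_symm, hub, zero_pow hF.q_ne_zero]
  have huu : herm q u u = 0 := hA u huA u huA
  have hau : herm q a u = 0 := hA a ha u huA
  have hN : ∀ μ : F, ∃ h : UniCond q u (μ • a) (μ ^ q * μ * herm q b a), uni hF h ∈ M := by
    intro μ
    have hμ : herm q u (μ • w₁) = 0 := by rw [herm_smul_right, huw, mul_zero]
    have hc1 : UniCond q u (μ • w₁) 0 := uni_short_cond hF huu
      (hB _ (B.smul_mem μ hw₁) _ (B.smul_mem μ hw₁)) hμ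
    have h1 := mul_mem (mul_mem hh (hK u huA _ (B.smul_mem μ hw₁) hμ hc1)) (inv_mem hh)
    rw [uni_conj] at h1
    have hc2 : UniCond q u (μ • (a + b)) 0 := by
      refine uni_short_cond hF huu ?_ (by rw [herm_smul_right, hF.herm_add_right, hua, hub]; ring)
      rw [herm_smul_left, herm_smul_right, hab, UG_app, hB w₁ hw₁ w₁ hw₁]; ring
    have h2 : uni hF hc2 ∈ M := by
      convert h1 using 1
      exact uni_congr hF _ _ (hfix u huT).symm (by rw [map_smul, hab]) rfl
    have hc3 : UniCond q u (-(μ • b)) 0 := uni_short_cond hF huu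
      (hB _ (B.neg_mem (B.smul_mem μ hb)) _ (B.neg_mem (B.smul_mem μ hb)))
      (by rw [hF.herm_neg_right, herm_smul_right, hub, mul_zero, neg_zero])
    have h3 := mul_mem h2 (hK u huA _ (B.neg_mem (B.smul_mem μ hb))
      (by rw [hF.herm_neg_right, herm_smul_right, hub, mul_zero, neg_zero]) hc3)
    rw [uni_mul] at h3
    have e1 : μ • (a + b) + -(μ • b) = μ • a := by module
    have e2 : (0 : F) + 0 - herm q (-(μ • b)) (μ • (a + b)) = μ ^ q * μ * herm q b a := by
      rw [herm_neg_left, herm_smul_left, herm_smul_right, hF.herm_add_right, hB b hb b hb]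
      ring
    have hc4 := uniCond_mul hF hc2 hc3
    refine ⟨by rw [e1, e2] at hc4; exact hc4, ?_⟩
    convert h3 using 1
    exact uni_congr hF _ _ rfl e1.symm e2.symm
  obtain ⟨ρ, hρ⟩ := hF.exists_trace (c := (1 : F)) (one_pow q)
  refine ⟨u, huA, hu0, fun δ hδ => ?_⟩
  by_cases hau' : a ∈ (F ∙ u)
  · obtain ⟨l, rfl⟩ := Submodule.mem_span_singleton.1 hau'
    have hl : l ≠ 0 := fun h0 => ha0 (by simp [h0])
    obtain ⟨μ, hμ⟩ : ∃ μ, μ * l = δ * ρ := ⟨δ * ρ / l, div_mul_cancel₀ _ hl⟩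
    have hμq : μ ^ q * l ^ q = -δ * ρ ^ q := by rw [← mul_pow, hμ, mul_pow, hδ.2]
    obtain ⟨h, hm⟩ := hN μ
    convert hm using 1
    refine Subtype.ext (LinearEquiv.ext fun w => ?_)
    rw [trv_apply, uni_apply]
    have hbl : herm q b (l • u) = 0 := by rw [herm_smul_right, hbu, mul_zero]
    rw [hbl, herm_smul_right, herm_smul_right]
    match_scalars
    · ring
    · linear_combination herm q w u * (-(δ * hρ) - hμ + hμq)
  · obtain ⟨h, hm⟩ := hN 1
    obtain ⟨w₂, hw₂, hu2, ha2⟩ := uni_pair_vector hF hc.symm hA huA ha hau'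
    have hu2' : herm q u w₂ = 0 := by rw [← hF.herm_symm, hu2, zero_pow hF.q_ne_zero]
    have ha2' : herm q a w₂ = 1 := by rw [← hF.herm_symm, ha2, one_pow]
    set t := δ * ρ with ht
    have hcd : herm q u ((-t) ^ q • w₂) = 0 := by rw [herm_smul_right, hu2', mul_zero]
    have hc5 : UniCond q u ((-t) ^ q • w₂) 0 := uni_short_cond hF huu
      (hB _ (B.smul_mem _ hw₂) _ (B.smul_mem _ hw₂)) hcd
    set d := uni hF hc5 with hd
    have hdM : d ∈ M := hK u huA _ (B.smul_mem _ hw₂) hcd hc5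
    have hmem := mul_mem (mul_mem (mul_mem hdM hm) (inv_mem hdM)) (inv_mem hm)
    convert hmem using 1
    rw [eq_mul_inv_iff_mul_eq, uni_conj]
    refine Subtype.ext (LinearEquiv.ext fun w => ?_)
    have e1 : d.1 u = u := by
      rw [hd, uni_apply, huu, herm_smul_right, hu2']
      simp
    have e2 : d.1 ((1 : F) • a) = a + t • u := by
      rw [one_smul, hd, uni_apply, hau, herm_smul_right, hF.pow_pow, ha2']
      module
    rw [Subgroup.coe_mul, LinearEquiv.mul_apply, trv_apply, uni_apply, uni_apply, e1, e2,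
      one_smul]
    simp only [herm_add_left, herm_smul_left, huu, hau, hF.herm_add_right, herm_smul_right,
      hF.sub_pow, one_mul, one_pow]
    have hδ' : t - t ^ q = δ := by rw [ht, mul_pow, hδ.2]; linear_combination δ * hρ
    linear_combination (norm := module) (herm q w u * hδ'.symm) • u

/-- A short root element moving a half off itself yields a centre in one of the halves. -/
lemma exists_trv_centre_either (hc : IsCompl A B)
    (hA : ∀ x ∈ A, ∀ y ∈ A, herm q x y = 0) (hB : ∀ x ∈ B, ∀ y ∈ B, herm q x y = 0)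
    (hdA : 3 ≤ finrank F A) (hdB : 3 ≤ finrank F B)
    (hK : ∀ u ∈ A, ∀ w ∈ B, herm q u w = 0 → ∀ h : UniCond q u w 0, uni hF h ∈ M)
    (hK' : ∀ w ∈ B, ∀ u ∈ A, herm q w u = 0 → ∀ h : UniCond q w u 0, uni hF h ∈ M)
    {p x : Fin n → F} {a₀ : F} (hpx : UniCond q p x a₀) (hh : uni hF hpx ∈ M)
    (hmove : ∃ w ∈ B, (uni hF hpx).1 w ∉ B) :
    (∃ u ∈ A, u ≠ 0 ∧ ∀ (δ : F) (h : TrvCond q u δ), trv hF h ∈ M) ∨
      ∃ u ∈ B, u ≠ 0 ∧ ∀ (δ : F) (h : TrvCond q u δ), trv hF h ∈ M := by
  have many : ∀ {A' : Submodule F (Fin n → F)} (w : Fin n → F),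
      2 ≤ finrank F ↥(A' ⊓ LinearMap.ker (hermL q p) ⊓ LinearMap.ker (hermL q x)) →
      ∃ u ∈ A' ⊓ LinearMap.ker (hermL q p) ⊓ LinearMap.ker (hermL q x), u ≠ 0 ∧ herm q u w = 0 := by
    intro A' w h
    set S := A' ⊓ LinearMap.ker (hermL q p) ⊓ LinearMap.ker (hermL q x) with hS
    have := finrank_le_inf_ker (hermL q w) S
    obtain ⟨u, hu, hu0⟩ := Submodule.exists_mem_ne_zero_of_ne_bot
      (p := S ⊓ LinearMap.ker (hermL q w)) fun e => by rw [e, finrank_bot] at this; omega
    exact ⟨u, hu.1, hu0, hu.2⟩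
  set T := A ⊓ LinearMap.ker (hermL q p) ⊓ LinearMap.ker (hermL q x) with hT
  obtain ⟨w₁, hw₁, hw₁B⟩ := hmove
  by_cases hT2 : 2 ≤ finrank F T
  · exact Or.inl (exists_trv_centre hF hc hA hB hK hpx hh ⟨w₁, hw₁, hw₁B, many w₁ hT2⟩)
  obtain ⟨u, hu, hu0⟩ := Submodule.exists_mem_ne_zero_of_ne_bot (p := T) fun e => by
    have h1 := finrank_le_inf_ker (hermL q p) A
    have h2 := finrank_le_inf_ker (hermL q x) (A ⊓ LinearMap.ker (hermL q p))
    rw [← hT, e, finrank_bot] at h2
    omega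
  by_cases hwit : ∃ w ∈ B, (uni hF hpx).1 w ∉ B ∧ herm q u w = 0
  · obtain ⟨w, hw, hwB, huw⟩ := hwit
    exact Or.inl (exists_trv_centre hF hc hA hB hK hpx hh ⟨w, hw, hwB, u, hu, hu0, huw⟩)
  push Not at hwit
  have hT' := two_le_finrank_kers hF hc.symm hB hdB hpx (K := B ⊓ LinearMap.ker (hermL q u))
    inf_le_left (by have := finrank_le_inf_ker (hermL q u) B; omega) fun w hw =>
      by_contra fun h => hwit w hw.1 h (by
        rw [← hF.herm_symm, show herm q w u = 0 from hw.2, zero_pow hF.q_ne_zero])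
  by_cases hAm : ∃ w ∈ A, (uni hF hpx).1 w ∉ A
  · obtain ⟨w, hw, hwA⟩ := hAm
    exact Or.inr (exists_trv_centre hF hc.symm hB hA hK' hpx hh ⟨w, hw, hwA, many w hT'⟩)
  push Not at hAm
  exact absurd (two_le_finrank_kers hF hc hA hdA hpx (K := A) le_rfl (by omega) hAm) hT2

/-- A centre in one half and an element mapping it to the other half give all of `SU`. -/
lemma SUG_le_of_half_centre (hn : 4 ≤ n) (hc : IsCompl A B)
    (hA : ∀ x ∈ A, ∀ y ∈ A, herm q x y = 0) (hB : ∀ x ∈ B, ∀ y ∈ B, herm q x y = 0)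
    (hd : finrank F A = finrank F B) (h2 : 2 ≤ finrank F A)
    (hK : ∀ u ∈ A, ∀ w ∈ B, herm q u w = 0 → ∀ h : UniCond q u w 0, uni hF h ∈ M)
    {s : UG n F q} (hsM : s ∈ M) (hsA : ∀ x ∈ A, s.1 x ∈ B)
    {u₀ : Fin n → F} (hu₀ : u₀ ∈ A) (hu₀0 : u₀ ≠ 0)
    (hτ : ∀ (δ : F) (h : TrvCond q u₀ δ), trv hF h ∈ M) : SUG n F q ≤ M := by
  have hsymm0 : ∀ {a b : Fin n → F}, herm q a b = 0 → herm q b a = 0 := fun {a b} h => by
    rw [← hF.herm_symm, h, zero_pow hF.q_ne_zero]
  set M' := M with hM'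
  obtain ⟨k, hk⟩ : ∃ k, finrank F B = k := ⟨_, rfl⟩
  have hdA : finrank F A = k := hd.trans hk
  have hdB : finrank F B = k := hk
  -- the shorts act transitively on the lines of the half
  have step : ∀ a ∈ A, ∀ a' ∈ A, a ≠ 0 → a' ∉ (F ∙ a) →
      (∀ (δ : F) (h : TrvCond q a δ), trv hF h ∈ M') →
      ∀ (δ : F) (h : TrvCond q a' δ), trv hF h ∈ M' := by
    intro a ha a' ha' hvne hne hmem δ hδ
    obtain ⟨w, hw, hwu, hwa⟩ := uni_pair_vector hF hc.symm hA (A.sub_mem ha' ha) ha (p := a' - a)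
      (fun h => by
        obtain ⟨c, hc'⟩ := Submodule.mem_span_singleton.1 h
        rcases eq_or_ne c 0 with rfl | hc0
        · rw [zero_smul] at hc'
          exact hvne hc'.symm
        · refine hne (Submodule.mem_span_singleton.2 ⟨(1 + c) / c, ?_⟩)
          linear_combination (norm := (match_scalars <;> field_simp <;> ring)) (-c⁻¹ : F) • hc')
    have h1 : herm q (a' - a) (-w) = 0 := by rw [hF.herm_neg_right, hsymm0 hwu, neg_zero]
    have hc1 : UniCond q (a' - a) (-w) 0 :=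
      uni_short_cond hF (hA _ (A.sub_mem ha' ha) _ (A.sub_mem ha' ha))
        (hB _ (B.neg_mem hw) _ (B.neg_mem hw)) h1
    have hd := hK _ (A.sub_mem ha' ha) _ (B.neg_mem hw) h1 hc1
    have hm := mul_mem (mul_mem hd (hmem δ (trvCond_mk (hA a ha a ha) hδ.2))) (inv_mem hd)
    rw [trv, uni_conj] at hm
    convert hm using 1
    refine uni_congr hF _ _ ?_ (map_zero _).symm rfl
    rw [uni_apply, hF.herm_neg_right, ← hF.herm_symm w a, hwa, hA a ha _ (A.sub_mem ha' ha),
      one_pow]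
    module
  have hall : ∀ a ∈ A, a ≠ 0 → ∀ (δ : F) (h : TrvCond q a δ), trv hF h ∈ M' := by
    intro a ha ha0
    by_cases h : a ∈ (F ∙ u₀)
    · obtain ⟨v, hv, hvu⟩ : ∃ v ∈ A, v ∉ (F ∙ u₀) := SetLike.not_le_iff_exists.1 fun hle => by
        have := (Submodule.finrank_mono hle).trans
          (finrank_span_le_card ({u₀} : Set (Fin n → F)))
        simp at this
        omega
      refine step v hv a ha (fun h0 => hvu (by rw [h0]; exact zero_mem _)) (fun hav => hvu ?_)
        (step u₀ hu₀ v hv hu₀0 hvu hτ)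
      obtain ⟨c, hc'⟩ := Submodule.mem_span_singleton.1 hav
      have hc0 : c ≠ 0 := fun h0 => ha0 (by simp [← hc', h0])
      rw [show v = c⁻¹ • a by rw [← hc', inv_smul_smul₀ hc0]]
      exact Submodule.smul_mem _ _ h
    · exact step u₀ hu₀ a ha hu₀0 h hτ
  have htrv : ∀ a ∈ A, ∀ (δ : F) (h : TrvCond q a δ), trv hF h ∈ M' := by
    intro a ha δ h
    rcases eq_or_ne a 0 with rfl | ha0
    · convert one_mem M' using 1
      refine Subtype.ext (LinearEquiv.ext fun w => ?_)
      simp [trv_apply]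
    · exact hall a ha ha0 δ h
  have hAX : ∀ e ∈ A, e ∈ uniCentres hF M' := by
    intro e he
    obtain ⟨δ, hδ0, hδ⟩ := hF.exists_skew
    have hee := hA e he e he
    -- a component in the same half
    have hin : ∀ a' ∈ A, ∀ h : UniCond q e a' 0, uni hF h ∈ M' := by
      intro a' ha' h
      set a'' := δ⁻¹ • a' with ha''
      have ha''A : a'' ∈ A := A.smul_mem _ ha'
      have m1 := htrv (e + a'') (A.add_mem he ha''A) δ
        (trvCond_mk (hA _ (A.add_mem he ha''A) _ (A.add_mem he ha''A)) hδ)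
      have m2 := htrv e he δ (trvCond_mk hee hδ)
      have m3 := htrv a'' ha''A δ (trvCond_mk (hA _ ha''A _ ha''A) hδ)
      convert mul_mem (mul_mem m1 (inv_mem m2)) (inv_mem m3) using 1
      rw [eq_mul_inv_iff_mul_eq, eq_mul_inv_iff_mul_eq]
      refine Subtype.ext (LinearEquiv.ext fun w => ?_)
      have e' : a' = δ • a'' := by rw [ha'', smul_inv_smul₀ hδ0]
      simp only [Subgroup.coe_mul, LinearEquiv.mul_apply, trv_apply, uni_apply, herm_add_left,
        herm_smul_left, hF.herm_add_right, hA _ ha''A e he, hA e he _ ha''A, hee,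
        hA _ ha''A _ ha''A, e', herm_smul_right, hδ]
      module
    refine ⟨hee, fun y c hc' => ?_⟩
    obtain ⟨a', ha', b', hb', rfl⟩ :=
      Submodule.mem_sup.1 (show y ∈ A ⊔ B by rw [hc.sup_eq_top]; trivial)
    have hbe : herm q b' e = 0 := by
      have := hc'.2.1
      rwa [herm_add_left, hA a' ha' e he, zero_add] at this
    have hca : UniCond q e a' 0 := uni_short_cond hF hee (hA a' ha' a' ha') (hA e he a' ha')
    have hcb : UniCond q e b' 0 := uni_short_cond hF hee (hB b' hb' b' hb') (hsymm0 hbe)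
    have hab := uniCond_mul hF hca hcb
    have hskew : (c - (0 + 0 - herm q b' a')) ^ q = -(c - (0 + 0 - herm q b' a')) := by
      have h1 := hc'.2.2
      have h2 := hab.2.2
      rw [hF.sub_pow]
      linear_combination h1 - h2
    have hct : TrvCond q e (c - (0 + 0 - herm q b' a')) := ⟨hee, hskew⟩
    have hm := mul_mem (mul_mem (hin a' ha' hca) (hK e he b' hb' (hsymm0 hbe) hcb)) (htrv e he _ hct)
    rw [uni_mul, trv, uni_mul] at hm
    convert hm using 1
    exact uni_congr hF _ _ rfl (add_zero _).symm (by simp [hF.herm_zero_right])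
  obtain ⟨y, hy, hy0⟩ := B.exists_mem_ne_zero_of_ne_bot (fun h => by
    rw [h, finrank_bot] at hdB; omega)
  obtain ⟨u, hu, -, huy⟩ := uni_pair_vector hF hc hB (zero_mem B) hy (p := 0)
    (by simpa [Submodule.span_singleton_eq_bot.2] using hy0)
  have hsurj : ∃ a ∈ A, s.1 a = y := by
    have hmap : A.map s.1.toLinearMap = B := Submodule.eq_of_le_of_finrank_eq
      (by rintro _ ⟨z, hz, rfl⟩; exact hsA z hz)
      (by rw [← (Submodule.equivMapOfInjective _ s.1.injective A).finrank_eq, hdA, hdB])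
    obtain ⟨a, ha, hay⟩ := hmap.ge hy
    exact ⟨a, ha, hay⟩
  obtain ⟨a, ha, rfl⟩ := hsurj
  exact SUG_le_of_uniCentre_pair hF hn (hAX u hu) (map_mem_uniCentres hF (hAX a ha) hsM)
    (by rw [huy]; exact one_ne_zero)

omit hF in
lemma ne_of_nodup_cons {ι : Type} {j i : ι} {l : List ι} (h : (j :: l).Nodup) (hi : i ∈ l) :
    j ≠ i := fun e => (List.nodup_cons.1 h).1 (e ▸ hi)

/-- Some element of `SU` interchanges the two halves. -/
lemma exists_swap_halves_unitary (hc : IsCompl A B) (hA : ∀ x ∈ A, ∀ y ∈ A, herm q x y = 0)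
    (hB : ∀ x ∈ B, ∀ y ∈ B, herm q x y = 0) (hd : finrank F A = finrank F B) :
    ∃ s ∈ SUG n F q, (∀ x ∈ A, s.1 x ∈ B) ∧ ∀ x ∈ B, s.1 x ∈ A := by
  set ba := Module.finBasis F A with hba
  set e : Fin (finrank F A) → (Fin n → F) := fun i => (ba i : Fin n → F) with he
  have heA : ∀ i, e i ∈ A := fun i => (ba i).2
  have hdual : ∀ j, ∃ f ∈ B, ∀ i, herm q (e i) f = if i = j then 1 else 0 := by
    intro j
    obtain ⟨φ, hφ⟩ := LinearMap.exists_extend (ba.coord j)
    set z : Fin n → F := fun i => φ (Pi.single i 1) ^ q with hz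
    have hrep : ∀ v, herm q v z = φ v := fun v => by
      conv_rhs => rw [pi_eq_sum_univ' v, map_sum]
      rw [herm_def]
      refine Finset.sum_congr rfl fun i _ => ?_
      rw [hz, hF.pow_pow, map_smul, smul_eq_mul]
    obtain ⟨w, hw, f, hf, hwf⟩ :=
      Submodule.mem_sup.1 (show z ∈ A ⊔ B by rw [hc.sup_eq_top]; trivial)
    refine ⟨f, hf, fun i => ?_⟩
    have h1 := hrep (e i)
    rw [← hwf, hF.herm_add_right, hA _ (heA i) w hw, zero_add] at h1
    rw [h1, show φ (e i) = ba.coord j (ba i) from LinearMap.congr_fun hφ (ba i)]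
    simp [Finsupp.single_apply, eq_comm]
  choose f hfB hef using hdual
  have hfe : ∀ i j, herm q (f j) (e i) = if i = j then 1 else 0 := fun i j => by
    rw [← hF.herm_symm, hef j i]
    split_ifs <;> simp [hF.q_ne_zero]
  obtain ⟨δ, hδ0, hδ⟩ := hF.exists_skew
  have hδ' : (-δ⁻¹) ^ q = -(-δ⁻¹) := by rw [hF.neg_pow, inv_pow, hδ, inv_neg]
  have cE : ∀ i, TrvCond q (e i) δ := fun i => ⟨hA _ (heA i) _ (heA i), hδ⟩
  have cF : ∀ i, TrvCond q (f i) (-δ⁻¹) := fun i => ⟨hB _ (hfB i) _ (hfB i), hδ'⟩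
  set W : Fin (finrank F A) → UG n F q :=
    fun i => trv hF (cE i) * trv hF (cF i) * trv hF (cE i) with hW
  have hWe : ∀ i, (W i).1 (e i) = (-δ⁻¹) • f i ∧ (W i).1 (f i) = δ • e i := by
    intro i
    simp only [hW, Subgroup.coe_mul, LinearEquiv.mul_apply, trv_apply, herm_add_left,
      herm_smul_left, hef, hfe, hA _ (heA i) _ (heA i), hB _ (hfB i) _ (hfB i), if_true]
    constructor <;> match_scalars <;> field_simp <;> ring
  have hWo : ∀ i j, i ≠ j → (W i).1 (e j) = e j ∧ (W i).1 (f j) = f j := by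
    intro i j hij
    simp only [hW, Subgroup.coe_mul, LinearEquiv.mul_apply, trv_apply, herm_add_left,
      herm_smul_left, hef, hfe, hA _ (heA j) _ (heA i), hB _ (hfB j) _ (hfB i), if_neg hij,
      if_neg (Ne.symm hij)]
    simp
  have key : ∀ l : List (Fin (finrank F A)), l.Nodup →
      ∀ i, (i ∈ l → (l.map W).prod.1 (e i) = (-δ⁻¹) • f i ∧ (l.map W).prod.1 (f i) = δ • e i) ∧
        (i ∉ l → (l.map W).prod.1 (e i) = e i ∧ (l.map W).prod.1 (f i) = f i) := by
    intro l
    induction l with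
    | nil => intro _ i; simp
    | cons j l ih =>
      intro hnd i
      obtain ⟨hjl, hl⟩ := List.nodup_cons.1 hnd
      simp only [List.map_cons, List.prod_cons, Subgroup.coe_mul, LinearEquiv.mul_apply]
      refine ⟨fun hi => ?_, fun hi => ?_⟩
      · rcases List.mem_cons.1 hi with rfl | hi
        · obtain ⟨h1, h2⟩ := (ih hl i).2 hjl
          rw [h1, h2]; exact hWe i
        · obtain ⟨h1, h2⟩ := (ih hl i).1 hi
          obtain ⟨h3, h4⟩ := hWo j i (ne_of_nodup_cons hnd hi)
          rw [h1, h2, map_smul, map_smul, h3, h4]; exact ⟨rfl, rfl⟩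
      · rw [List.mem_cons, not_or] at hi
        obtain ⟨h1, h2⟩ := (ih hl i).2 hi.2
        rw [h1, h2]; exact hWo j i (Ne.symm hi.1)
  set s := ((List.finRange (finrank F A)).map W).prod with hs
  have hsmem : s ∈ SUG n F q := list_prod_mem fun g hg => by
    obtain ⟨i, -, rfl⟩ := List.mem_map.1 hg
    exact mul_mem (mul_mem (det_uni hF _) (det_uni hF _)) (det_uni hF _)
  have hsi := fun i => (key _ (List.nodup_finRange _) i).1 (List.mem_finRange i)
  refine ⟨s, hsmem, fun x hx => ?_, fun x hx => ?_⟩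
  · have hx' := congrArg Subtype.val (ba.sum_repr ⟨x, hx⟩)
    simp only [Submodule.coe_sum, Submodule.coe_smul] at hx'
    rw [← hx', map_sum]
    refine B.sum_mem fun i _ => ?_
    rw [map_smul, (hsi i).1]
    exact B.smul_mem _ (B.smul_mem _ (hfB i))
  · have hlin : LinearIndependent F (fun i => (⟨f i, hfB i⟩ : B)) := by
      rw [Fintype.linearIndependent_iff]
      intro g hg i
      have h := congrArg (fun y : B => herm q (y : Fin n → F) (e i)) hg
      simp only [Submodule.coe_sum, Submodule.coe_smul, Submodule.coe_zero, herm_zero_left] at h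
      rw [← hermL_apply, map_sum] at h
      simpa [hermL_apply, herm_smul_left, hfe] using h
    rcases Nat.eq_zero_or_pos (finrank F A) with h0 | h0
    · have hB0 : B = ⊥ := Submodule.finrank_eq_zero.1 (hd ▸ h0)
      rw [hB0, Submodule.mem_bot] at hx
      simp [hx]
    haveI : Nonempty (Fin (finrank F A)) := ⟨⟨0, h0⟩⟩
    set bb := basisOfLinearIndependentOfCardEqFinrank hlin (by rw [Fintype.card_fin, hd])
    have hx' := congrArg Subtype.val (bb.sum_repr ⟨x, hx⟩)
    simp only [Submodule.coe_sum, Submodule.coe_smul, bb,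
      coe_basisOfLinearIndependentOfCardEqFinrank] at hx'
    rw [← hx', map_sum]
    refine A.sum_mem fun i _ => ?_
    rw [map_smul, (hsi i).2]
    exact A.smul_mem _ (A.smul_mem _ (heA i))

end

/-- The stabiliser of two complementary totally singular halves is maximal in `SU_n(q)`. -/
theorem suGL_totDecomp_maximal {k : ℕ} (hk : 3 ≤ k) (hn : 4 ≤ n)
    {D : Fin 2 → Submodule F (Fin n → F)} (hD : IsMDecomposition k D)
    (hts : ∀ i, IsTotallySingularFor (Cfsg.hermForm n F q) (D i)) :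
    IsMaximalIn (suGL n F q) (decompositionStabilizer D ⊓ suGL n F q) := by
  refine ⟨lt_of_le_not_ge inf_le_right fun hle =>
    suGL_not_le_decompositionStabilizer hF hD (by omega) (hle.trans inf_le_left),
    fun M hM hMK => ?_⟩
  by_cases hMW : M ≤ decompositionStabilizer D
  · exact Or.inl (le_antisymm (le_inf hMW hMK) hM)
  refine Or.inr (le_antisymm hMK ?_)
  set A := D 0 with hAdef
  set B := D 1 with hBdef
  have hc : IsCompl A B := mdecomp_isCompl hD
  have hdA : finrank F A = k := hD.finrank_eq 0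
  have hdB : finrank F B = k := hD.finrank_eq 1
  have hA : ∀ x ∈ A, ∀ y ∈ A, herm q x y = 0 := hts 0
  have hB : ∀ x ∈ B, ∀ y ∈ B, herm q x y = 0 := hts 1
  have hsymm0 : ∀ {a b : Fin n → F}, herm q a b = 0 → herm q b a = 0 := fun {a b} h => by
    rw [← hF.herm_symm, h, zero_pow hF.q_ne_zero]
  set M' := M.comap (ugToGL n F q) with hM'
  suffices hS : SUG n F q ≤ M' by
    intro g hg
    obtain ⟨k, hk, rfl⟩ := exists_ugToGL_eq hg
    exact hS hk
  have hmemK : ∀ g ∈ SUG n F q, ∀ σ : Equiv.Perm (Fin 2),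
      (∀ i, ∀ x ∈ D i, g.1 x ∈ D (σ i)) → g ∈ M' := fun g hg σ hσ =>
    hM ⟨mem_decompositionStabilizer_two hD σ fun i x hx => by
      rw [ugToGL_mulVec]; exact hσ i x hx, ugToGL_mem_suGL hg⟩
  have hK : ∀ u ∈ A, ∀ w ∈ B, herm q u w = 0 → ∀ h : UniCond q u w 0, uni hF h ∈ M' := by
    intro u hu w hw huw h
    refine hmemK _ (det_uni hF h) 1 ?_
    rw [Fin.forall_fin_two]
    refine ⟨fun x hx => ?_, fun x hx => ?_⟩ <;> rw [uni_apply, zero_mul, zero_sub] <;>
      simp only [Equiv.Perm.one_apply]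
    · rw [hA x hx u hu, zero_smul, add_zero]
      exact A.add_mem hx (A.smul_mem _ hu)
    · rw [hB x hx w hw, neg_zero, zero_smul, add_zero]
      exact B.add_mem hx (B.smul_mem _ hw)
  have hK' : ∀ w ∈ B, ∀ u ∈ A, herm q w u = 0 → ∀ h : UniCond q w u 0, uni hF h ∈ M' := by
    intro w hw u hu hwu h
    have h' : UniCond q u (-w) 0 := uni_short_cond hF (hA u hu u hu)
      (hB _ (B.neg_mem hw) _ (B.neg_mem hw)) (by rw [hF.herm_neg_right, hsymm0 hwu, neg_zero])
    convert hK u hu _ (B.neg_mem hw) (by rw [hF.herm_neg_right, hsymm0 hwu, neg_zero]) h' using 1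
    refine Subtype.ext (LinearEquiv.ext fun x => ?_)
    rw [uni_apply, uni_apply, hF.herm_neg_right]
    module
  obtain ⟨s, hsU, hsA, hsB⟩ := exists_swap_halves_unitary hF hc hA hB (hdA.trans hdB.symm)
  have hsM : s ∈ M' := hmemK s hsU (Equiv.swap 0 1) (by
    rw [Fin.forall_fin_two]; simpa using ⟨hsA, hsB⟩)
  -- some conjugate of a short root element moves one of the halves
  obtain ⟨p, x, hpx, hh, hmove⟩ : ∃ p x, ∃ h : UniCond q p x (0 : F), uni hF h ∈ M' ∧
      ((∃ y ∈ B, (uni hF h).1 y ∉ B) ∨ ∃ y ∈ A, (uni hF h).1 y ∉ A) := by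
    by_contra hcon
    push Not at hcon
    refine hMW fun g₀ hg₀ => ?_
    obtain ⟨g, hg, rfl⟩ := exists_ugToGL_eq (hMK hg₀)
    replace hg₀ : g ∈ M' := hg₀
    have key : ∀ S : Submodule F (Fin n → F), S = A ∨ S = B →
        Submodule.comap g.1.toLinearMap S = A ∨ Submodule.comap g.1.toLinearMap S = B := by
      intro S hS
      set W := Submodule.comap g.1.toLinearMap S with hWdef
      have hdS : finrank F S = k := by rcases hS with rfl | rfl <;> assumption
      have hdW : finrank F W = k := by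
        rw [(Submodule.equivMapOfInjective g.1.toLinearMap g.1.injective W).finrank_eq, hWdef,
          Submodule.map_comap_eq_of_surjective g.1.surjective, hdS]
      have hinv : ∀ u ∈ A, ∀ w ∈ B, ∀ (h : herm q u w = 0), ∀ y ∈ W,
          y + herm q y u • w - herm q y w • u ∈ W := by
        intro u hu w hw huw y hy
        have hc1 : UniCond q u w 0 := uni_short_cond hF (hA u hu u hu) (hB w hw w hw) huw
        have hmem := mul_mem (mul_mem hg₀ (hK u hu w hw huw hc1)) (inv_mem hg₀)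
        rw [uni_conj] at hmem
        obtain ⟨hcB, hcA⟩ := hcon _ _ _ hmem
        have hgy : g.1 y ∈ S := hy
        show g.1 _ ∈ S
        have hval : ∀ (hh : UniCond q (g.1 u) (g.1 w) (0 : F)), (uni hF hh).1 (g.1 y) =
            g.1 (y + herm q y u • w - herm q y w • u) := by
          intro hh
          rw [uni_apply, UG_app, UG_app, map_sub, map_add, map_smul, map_smul]
          module
        rcases hS with rfl | rfl
        · rw [← hval]; exact hcA _ hgy
        · rw [← hval]; exact hcB _ hgy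
      have h1 := uni_invariant_dichotomy hF hc hA hB (by omega) hinv
      rcases h1 with h | h
      · exact Or.inr (Submodule.eq_of_le_of_finrank_eq h (hdB.trans hdW.symm)).symm
      · exact Or.inl (Submodule.eq_of_le_of_finrank_eq h (hdW.trans hdA.symm))
    have hne : Submodule.comap g.1.toLinearMap A ≠ Submodule.comap g.1.toLinearMap B := fun h => by
      have hAB : A = B := Submodule.comap_injective_of_surjective g.1.surjective h
      rw [hAB] at hc
      have h0 := hc.inf_eq_bot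
      rw [inf_idem] at h0
      rw [h0, finrank_bot] at hdB
      omega
    rcases key A (Or.inl rfl) with ha | ha <;> rcases key B (Or.inr rfl) with hb | hb
    · exact (hne (ha.trans hb.symm)).elim
    · refine mem_decompositionStabilizer_two hD 1 ?_
      rw [Fin.forall_fin_two]
      exact ⟨fun y hy => by rw [ugToGL_mulVec]; exact ha.ge hy,
        fun y hy => by rw [ugToGL_mulVec]; exact hb.ge hy⟩
    · refine mem_decompositionStabilizer_two hD (Equiv.swap 0 1) ?_
      rw [Fin.forall_fin_two]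
      exact ⟨fun y hy => by rw [ugToGL_mulVec]; simpa using hb.ge hy,
        fun y hy => by rw [ugToGL_mulVec]; simpa using ha.ge hy⟩
    · exact (hne (ha.trans hb.symm)).elim
  obtain ⟨u₀, hu₀, hu₀0, hτ⟩ : ∃ u ∈ A, u ≠ 0 ∧
      ∀ (δ : F) (h : TrvCond q u δ), trv hF h ∈ M' := by
    have hor : (∃ u ∈ A, u ≠ 0 ∧ ∀ (δ : F) (h : TrvCond q u δ), trv hF h ∈ M') ∨
        ∃ u ∈ B, u ≠ 0 ∧ ∀ (δ : F) (h : TrvCond q u δ), trv hF h ∈ M' := by
      rcases hmove with h | h
      · exact exists_trv_centre_either hF hc hA hB (by omega) (by omega) hK hK' hpx hh h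
      · exact (exists_trv_centre_either hF hc.symm hB hA (by omega) (by omega) hK' hK hpx hh h).symm
    rcases hor with h | ⟨u, hu, hu0, hτ⟩
    · exact h
    refine ⟨s.1 u, hsB u hu, fun h0 => hu0 (s.1.injective (by simpa using h0)), fun δ hδ => ?_⟩
    have hδ' : TrvCond q u δ := ⟨hB u hu u hu, hδ.2⟩
    have hm := mul_mem (mul_mem hsM (hτ δ hδ')) (inv_mem hsM)
    rw [trv, uni_conj] at hm
    convert hm using 1
    exact uni_congr hF _ _ rfl (map_zero _).symm rfl
  exact SUG_le_of_half_centre hF hn hc hA hB (hdA.trans hdB.symm) (by omega) hK hsM hsA hu₀ hu₀0 hτ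

end Cfsg.Agent.GeoClasses
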