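import Cfsg.Agent.GeoClasses.RatBasis
import Cfsg.Agent.GeoClasses.UnitTotDecomp
import Cfsg.Agent.GeoClasses.FieldFacts
import Cfsg.Agent.GeoClasses.UnitBase
import Cfsg.Agent.MaxSub.SubfieldMax.SL2Gen

/-!
Rational vectors of a unitary space over a subfield of odd index.
-/

set_option autoImplicit false

namespace Cfsg.Agent.GeoClasses

open Matrix Cfsg.Geo Cfsg.Agent.Classical.U Cfsg.Agent.ClassicalMax Module
open scoped MatrixGroups Matrix

universe u

variable {F : Type u} [Field F] {n q : ℕ}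

/-- Rational vectors on which the hermitian form takes values in the subfield. -/
structure RatU (q : ℕ) (F₀ : Subfield F) (R : Set (Fin n → F)) : Prop where
  set : RatSet F₀ R
  form : ∀ {x y}, x ∈ R → y ∈ R → herm q x y ∈ F₀
  moved : ∃ a ∈ F₀, a ^ q ≠ a

lemma eq_one_of_fixed_pair (hF : SqField F q) {v f : Fin n → F} (h : herm q v f = 1) :
    herm q f v = 1 := by rw [← hF.herm_symm, h, one_pow]

namespace RatU

variable {F₀ : Subfield F} {R : Set (Fin n → F)} (hF : SqField F q) (hU : RatU q F₀ R)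
include hF hU

lemma exists_skew : ∃ d ∈ F₀, d ≠ 0 ∧ d ^ q = -d := by
  obtain ⟨a, ha, hne⟩ := hU.moved
  exact ⟨a - a ^ q, sub_mem ha (pow_mem ha q), sub_ne_zero.2 (Ne.symm hne), by
    rw [hF.sub_pow, hF.pow_pow]; ring⟩

lemma exists_trace : ∃ t ∈ F₀, t + t ^ q = 1 := by
  obtain ⟨a, ha, hne⟩ := hU.moved
  by_cases hs : a + a ^ q = 0
  · have h2 : (2 : F) ≠ 0 := fun h2 => hne (by linear_combination hs - a * h2)
    refine ⟨1 / 2, div_mem (one_mem _) (natCast_mem _ 2), ?_⟩
    rw [div_pow, one_pow, show (2 : F) = 1 + 1 by norm_num, hF.add_pow, one_pow]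
    field_simp [show (1 + 1 : F) ≠ 0 by norm_num [h2]]
  · refine ⟨a / (a + a ^ q), div_mem ha (add_mem ha (pow_mem ha q)), ?_⟩
    rw [div_pow, hF.add_pow, hF.pow_pow, add_comm (a ^ q) a, ← add_div, div_self hs]

/-- An element with rational norm and rational traces is rational. -/
lemma mem_of_traces {a : F} (h1 : a + a ^ q ∈ F₀)
    (h2 : ∀ s ∈ F₀, s * a + (s * a) ^ q ∈ F₀) : a ∈ F₀ := by
  obtain ⟨τ, hτ, hne⟩ := hU.moved
  have h := sub_mem (h2 τ hτ) (mul_mem (pow_mem hτ q) h1)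
  have hd : τ - τ ^ q ∈ F₀ := sub_mem hτ (pow_mem hτ q)
  convert div_mem h hd using 1
  rw [mul_pow, eq_div_iff (sub_ne_zero.2 (Ne.symm hne))]
  ring

lemma indep_hermL {k : ℕ} {s : Fin k → Fin n → F} (hs : LinearIndependent F s) :
    LinearIndependent F fun i => hermL q (s i) := by
  rw [Fintype.linearIndependent_iff] at hs ⊢
  intro c hc i
  have h0 : ∑ i, c i ^ q • s i = 0 := hF.eq_zero_of_herm _ fun w => by
    have h1 := congrArg (fun φ : (Fin n → F) →ₗ[F] F => φ w) hc
    simp only [LinearMap.sum_apply, LinearMap.smul_apply, hermL_apply, smul_eq_mul,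
      LinearMap.zero_apply] at h1
    have h2 : herm q (∑ i, c i ^ q • s i) w = ∑ i, c i ^ q * herm q (s i) w := by
      show (hermL q w) (∑ i, c i ^ q • s i) = _
      rw [map_sum]
      simp only [map_smul, hermL_apply, smul_eq_mul]
    rw [h2]
    refine Eq.trans ?_ (show (∑ i, c i * herm q w (s i)) ^ q = 0 by
      rw [h1, zero_pow hF.q_ne_zero])
    rw [hF.sum_pow]
    exact Finset.sum_congr rfl fun i _ => by rw [mul_pow, hF.herm_symm]
  have := congrArg (fun x : F => x ^ q) (hs _ h0 i)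
  simpa [hF.pow_pow, hF.q_ne_zero] using this

lemma dual {k : ℕ} (s : Fin k → Fin n → F) (hs : ∀ i, s i ∈ R) (hind : LinearIndependent F s)
    (t : Fin k → F) (ht : ∀ i, t i ∈ F₀) : ∃ y ∈ R, ∀ i, herm q y (s i) = t i :=
  hU.set.surj (fun i => hermL q (s i)) (fun i z hz => hU.form hz (hs i))
    (indep_hermL hF hU hind) t ht

lemma exists_perp {k : ℕ} (hk : k < n) (s : Fin k → Fin n → F) (hs : ∀ i, s i ∈ R) :
    ∃ y ∈ R, y ≠ 0 ∧ ∀ i, herm q y (s i) = 0 :=
  hU.set.kernel (fun i => hermL q (s i)) (by simpa using hk) fun i z hz => hU.form hz (hs i)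

lemma dual_single {e : Fin n → F} (he : e ∈ R) (he0 : e ≠ 0) :
    ∃ y ∈ R, herm q y e = 1 := by
  obtain ⟨y, hy, h⟩ := dual hF hU ![e] (by simp [he]) (LinearIndependent.of_subsingleton 0
    (by simpa using he0)) ![1] (by simp [one_mem])
  exact ⟨y, hy, h 0⟩

lemma exists_perp_not_orth {p f : Fin n → F} (hp : p ∈ R) (hp0 : p ≠ 0) (hf : f ∈ R)
    (hfp : f ∉ F ∙ p) : ∃ y ∈ R, herm q y p = 0 ∧ herm q y f = 1 := by
  obtain ⟨y, hy, h⟩ := dual hF hU ![f, p] (by simp [Fin.forall_fin_two, hf, hp])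
    (linearIndependent_fin2.2 ⟨hp0, fun a h => hfp (Submodule.mem_span_singleton.2 ⟨a, h⟩)⟩)
    ![1, 0] (by simp [Fin.forall_fin_two, one_mem, zero_mem])
  exact ⟨y, hy, h 1, h 0⟩

lemma desc {x : Fin n → F} (hx : ∀ z ∈ R, herm q z x ∈ F₀) : x ∈ R := by
  obtain ⟨b, hb, hbR, -⟩ := hU.set.basis
  obtain ⟨c, rfl⟩ := (Submodule.mem_span_range_iff_exists_fun F).1
    (show x ∈ Submodule.span F (Set.range b) by
      rw [hb.span_eq_top_of_card_eq_finrank' (by rw [Module.finrank_fintype_fun_eq_card])]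
      trivial)
  refine hU.set.sum _ fun j _ => hU.set.smul ?_ (hbR j)
  obtain ⟨y, hy, hyb⟩ := dual hF hU b hbR hb (Pi.single j 1)
    fun i => by by_cases h : i = j <;> simp [h, one_mem, zero_mem]
  have h1 : herm q y (∑ i, c i • b i) = c j ^ q := by
    rw [← hF.herm_symm, show herm q (∑ i, c i • b i) y = hermL q y (∑ i, c i • b i) from rfl,
      map_sum, Finset.sum_eq_single j]
    · rw [map_smul, hermL_apply, ← hF.herm_symm y (b j), hyb j]; simp
    · intro i _ hi
      rw [map_smul, hermL_apply, ← hF.herm_symm y (b i), hyb i]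
      simp [hi, hF.q_ne_zero]
    · simp
  have h2 := pow_mem (hx y hy) q
  rwa [h1, hF.pow_pow] at h2

/-- Isotropic rational vectors orthogonal to few given ones. -/
lemma exists_iso_perp [Finite F] {k : ℕ} (hk : k + 1 < n) (s : Fin k → Fin n → F)
    (hs : ∀ i, s i ∈ R) :
    ∃ z ∈ R, z ≠ 0 ∧ herm q z z = 0 ∧ ∀ i, herm q z (s i) = 0 := by
  classical
  by_contra hc
  push Not at hc
  have hne : ∀ z ∈ R, z ≠ 0 → (∀ i, herm q z (s i) = 0) → herm q z z ≠ 0 := by
    intro z hz h0 h h1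
    obtain ⟨i, hi⟩ := hc z hz h0 h1
    exact hi (h i)
  obtain ⟨x₁, hx₁, hx₁0, hs₁⟩ := exists_perp hF hU (by omega) s hs
  obtain ⟨x₂, hx₂, hx₂0, hs₂⟩ := exists_perp hF hU (k := k + 1) (by omega) (Fin.snoc s x₁)
    (fun i => by cases i using Fin.lastCases <;> simp [hs, hx₁])
  have h21 : herm q x₂ x₁ = 0 := by simpa using hs₂ (Fin.last k)
  have p₂ : ∀ i, herm q x₂ (s i) = 0 := fun i => by simpa using hs₂ i.castSucc
  have h₁ := hne x₁ hx₁ hx₁0 hs₁
  have h₂ := hne x₂ hx₂ hx₂0 p₂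
  have h12 : herm q x₁ x₂ = 0 := by rw [← hF.herm_symm, h21, zero_pow hF.q_ne_zero]
  -- the fixed part of the subfield
  set F₁ : Subfield F := F₀ ⊓ RingHom.eqLocusField (qConj hF).toRingHom (RingHom.id F) with hF₁
  have hmem : ∀ {a : F}, a ∈ F₁ ↔ a ∈ F₀ ∧ a ^ q = a := fun {a} => Iff.rfl
  haveI : Fintype F₁ := Fintype.ofFinite F₁
  have hd : ∀ {y : Fin n → F}, y ∈ R → herm q y y ∈ F₁ := fun {y} hy =>
    hmem.2 ⟨hU.form hy hy, hF.herm_symm y y⟩
  have hcomb : ∀ t ∈ F₀, herm q x₁ x₁ + t * t ^ q * herm q x₂ x₂ = 0 → False := by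
    intro t ht h
    refine hne (x₁ + t • x₂) (hU.set.add hx₁ (hU.set.smul ht hx₂)) ?_
      (fun i => by simp [herm_add_left, herm_smul_left, hs₁ i, p₂ i]) ?_
    · intro h0
      have := congrArg (fun w => herm q w x₁) h0
      simp [herm_add_left, herm_smul_left, h21, h₁] at this
    · simp only [herm_add_left, hF.herm_add_right, herm_smul_left, herm_smul_right, h21, h12]
      linear_combination h
  set c : F₁ := ⟨-(herm q x₁ x₁) / herm q x₂ x₂, div_mem (neg_mem (hd hx₁)) (hd hx₂)⟩ with hcdef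
  -- every element of the fixed part is a norm from the subfield
  obtain ⟨t, ht, htc⟩ : ∃ t ∈ F₀, t * t ^ q = (c : F) := by
    by_cases h2 : (2 : F) = 0
    · have hchar : Even (Fintype.card F₁) := by
        rw [← Nat.not_odd_iff_even, ← two_ne_zero_iff_odd_card, not_not]
        exact Subtype.ext h2
      obtain ⟨j, hj⟩ := hchar
      obtain ⟨ht, htq⟩ := hmem.1 (SetLike.coe_mem (c ^ j : F₁))
      refine ⟨_, ht, ?_⟩
      rw [htq, ← Subfield.coe_mul, ← pow_add, ← hj, FiniteField.pow_card]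
    · have hodd : Fintype.card F₁ % 2 = 1 := by
        rw [← Nat.odd_iff, ← two_ne_zero_iff_odd_card]
        intro h
        exact h2 (by rw [← map_ofNat F₁.subtype 2, h, map_zero])
      obtain ⟨δ, hδ, hδ0, hδq⟩ := exists_skew hF hU
      set e : F₁ := ⟨-(δ * δ), hmem.2 ⟨neg_mem (mul_mem hδ hδ), by
        rw [hF.neg_pow, mul_pow, hδq, neg_mul_neg]⟩⟩ with hedef
      have he0 : e ≠ 0 := fun h => neg_ne_zero.2 (mul_ne_zero hδ0 hδ0) (congrArg Subtype.val h)
      obtain ⟨u, v, huv⟩ := FiniteField.exists_root_sum_quadratic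
        (f := (Polynomial.C e * Polynomial.X ^ 2 : Polynomial F₁))
        (g := Polynomial.X ^ 2 - Polynomial.C c)
        (Polynomial.degree_C_mul_X_pow 2 he0)
        (Polynomial.degree_X_pow_sub_C (by norm_num) _) hodd
      simp only [Polynomial.eval_pow, Polynomial.eval_X, Polynomial.eval_sub, Polynomial.eval_C,
        Polynomial.eval_mul] at huv
      have huv' := congrArg Subtype.val huv
      simp only [Subfield.coe_add, Subfield.coe_sub, Subfield.coe_mul, SubmonoidClass.coe_pow,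
        hedef, ZeroMemClass.coe_zero] at huv'
      obtain ⟨hu, huq⟩ := hmem.1 u.2
      obtain ⟨hv, hvq⟩ := hmem.1 v.2
      refine ⟨v + u * δ, add_mem hv (mul_mem hu hδ), ?_⟩
      rw [hF.add_pow, mul_pow, huq, hvq, hδq]
      linear_combination huv'
  refine hcomb t ht ?_
  rw [htc, hcdef, div_mul_cancel₀ _ h₂]
  ring

/-- An isotropic partner. -/
lemma exists_iso_partner {e : Fin n → F} (he : e ∈ R) (he0 : e ≠ 0) (hee : herm q e e = 0) :
    ∃ f ∈ R, herm q f f = 0 ∧ herm q e f = 1 := by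
  obtain ⟨y, hy, hye⟩ := dual_single hF hU he he0
  obtain ⟨τ, hτ, hτ'⟩ := exists_trace hF hU
  have hey := eq_one_of_fixed_pair hF hye
  have hyy : (herm q y y) ^ q = herm q y y := hF.herm_symm y y
  refine ⟨y + (-(τ * herm q y y)) • e, hU.set.add hy (hU.set.smul (neg_mem (mul_mem hτ
    (hU.form hy hy))) he), ?_, ?_⟩
  · simp only [herm_add_left, hF.herm_add_right, herm_smul_left, herm_smul_right, hee, hye, hey,
      hF.neg_pow, mul_pow, hyy]
    linear_combination -(herm q y y) * hτ'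
  · rw [hF.herm_add_right, herm_smul_right, hee, hey, mul_zero, add_zero]

/-- An isotropic partner inside the orthogonal of a pair. -/
lemma exists_iso_partner_perp {v f e : Fin n → F} (hv : v ∈ R) (hf : f ∈ R) (he : e ∈ R)
    (hvv : herm q v v = 0) (hff : herm q f f = 0) (hvf : herm q v f = 1)
    (he0 : e ≠ 0) (hee : herm q e e = 0) (hev : herm q e v = 0) (hef : herm q e f = 0) :
    ∃ g ∈ R, herm q g g = 0 ∧ herm q e g = 1 ∧ herm q g v = 0 ∧ herm q g f = 0 := by
  obtain ⟨y, hy, hye⟩ := dual_single hF hU he he0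
  obtain ⟨τ, hτ, hτ'⟩ := exists_trace hF hU
  have hfv := eq_one_of_fixed_pair hF hvf
  obtain ⟨y', hy', hy'v, hy'f, hy'e⟩ : ∃ y' ∈ R, herm q y' v = 0 ∧ herm q y' f = 0 ∧
      herm q y' e = 1 := by
    refine ⟨y - herm q y v • f - herm q y f • v, hU.set.sub (hU.set.sub hy
      (hU.set.smul (hU.form hy hv) hf)) (hU.set.smul (hU.form hy hf) hv), ?_, ?_, ?_⟩
    · rw [herm_sub_left, herm_sub_left, herm_smul_left, herm_smul_left, hfv, hvv]; ring
    · rw [herm_sub_left, herm_sub_left, herm_smul_left, herm_smul_left, hff, hvf]; ring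
    · rw [herm_sub_left, herm_sub_left, herm_smul_left, herm_smul_left, hye,
        ← hF.herm_symm e f, hef, ← hF.herm_symm e v, hev, zero_pow hF.q_ne_zero]; ring
  have hey' := eq_one_of_fixed_pair hF hy'e
  have hyy : (herm q y' y') ^ q = herm q y' y' := hF.herm_symm y' y'
  refine ⟨y' + (-(τ * herm q y' y')) • e, hU.set.add hy' (hU.set.smul (neg_mem (mul_mem hτ
    (hU.form hy' hy'))) he), ?_, ?_, ?_, ?_⟩
  · simp only [herm_add_left, hF.herm_add_right, herm_smul_left, herm_smul_right, hee, hy'e, hey',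
      hF.neg_pow, mul_pow, hyy]
    linear_combination -(herm q y' y') * hτ'
  · rw [hF.herm_add_right, herm_smul_right, hee, hey', mul_zero, add_zero]
  · rw [herm_add_left, herm_smul_left, hy'v, hev, mul_zero, add_zero]
  · rw [herm_add_left, herm_smul_left, hy'f, hef, mul_zero, add_zero]

/-- Properties of the isotropic rational vectors extend to all of them. -/
lemma iso_induction {p e f : Fin n → F} (he : e ∈ R) (hf : f ∈ R)
    (hee : herm q e e = 0) (hff : herm q f f = 0) (hef : herm q e f = 1)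
    (hep : herm q e p = 0) (hfp : herm q f p = 0) {S : (Fin n → F) → Prop}
    (hadd : ∀ x y, S x → S y → S (x + y)) (hsmul : ∀ a ∈ F₀, ∀ x, S x → S (a • x))
    (hiso : ∀ u ∈ R, herm q u u = 0 → herm q u p = 0 → S u) {y : Fin n → F} (hy : y ∈ R)
    (hyp : herm q y p = 0) : S y := by
  obtain ⟨τ, hτ, hτ'⟩ := exists_trace hF hU
  have hfe := eq_one_of_fixed_pair hF hef
  have hSe := hiso e he hee hep
  have hSf := hiso f hf hff hfp
  set y₀ := y - herm q y f • e - herm q y e • f with hy₀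
  have hy₀R : y₀ ∈ R := hU.set.sub (hU.set.sub hy (hU.set.smul (hU.form hy hf) he))
    (hU.set.smul (hU.form hy he) hf)
  have h0e : herm q y₀ e = 0 := by
    rw [hy₀, herm_sub_left, herm_sub_left, herm_smul_left, herm_smul_left, hee, hfe]; ring
  have h0f : herm q y₀ f = 0 := by
    rw [hy₀, herm_sub_left, herm_sub_left, herm_smul_left, herm_smul_left, hef, hff]; ring
  have h0p : herm q y₀ p = 0 := by
    rw [hy₀, herm_sub_left, herm_sub_left, herm_smul_left, herm_smul_left, hep, hfp, hyp]; ring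
  have he0' : herm q e y₀ = 0 := by rw [← hF.herm_symm, h0e, zero_pow hF.q_ne_zero]
  have hf0' : herm q f y₀ = 0 := by rw [← hF.herm_symm, h0f, zero_pow hF.q_ne_zero]
  set t := -(τ * herm q y₀ y₀) with ht
  have htF : t ∈ F₀ := neg_mem (mul_mem hτ (hU.form hy₀R hy₀R))
  have hyy : (herm q y₀ y₀) ^ q = herm q y₀ y₀ := hF.herm_symm y₀ y₀
  have hu : S (y₀ + e + t • f) := by
    refine hiso _ (hU.set.add (hU.set.add hy₀R he) (hU.set.smul htF hf)) ?_ ?_
    · simp only [herm_add_left, hF.herm_add_right, herm_smul_left, herm_smul_right, hee, hff, hef,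
        hfe, h0e, h0f, he0', hf0', ht, hF.neg_pow, mul_pow, hyy]
      linear_combination -(herm q y₀ y₀) * hτ'
    · rw [herm_add_left, herm_add_left, herm_smul_left, h0p, hep, hfp]; ring
  have h1 : S y₀ := by
    have h2 := hadd _ _ (hadd _ _ hu (hsmul _ (neg_mem (one_mem F₀)) _ hSe))
      (hsmul _ (neg_mem htF) _ hSf)
    convert h2 using 1
    module
  have h3 := hadd _ _ (hadd _ _ h1 (hsmul _ (hU.form hy hf) _ hSe))
    (hsmul _ (hU.form hy he) _ hSf)
  convert h3 using 1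
  rw [hy₀]; module

end RatU

end Cfsg.Agent.GeoClasses
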