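import Mathlib
import Cfsg.Prelude.Def_GeometricClasses
import Cfsg.Agent.Classical.UGroup
import Cfsg.Agent.Char.Burnside
import Cfsg.Agent.GeoClasses.Basic
import Cfsg.Agent.GeoClasses.MatrixUnits
import Cfsg.Agent.GeoClasses.Algebra
import Cfsg.Agent.GeoClasses.Tensor
import Cfsg.Agent.GeoClasses.Forms
import Cfsg.Agent.GeoClasses.FormsMore
import Cfsg.Agent.GeoClasses.Structure
import Cfsg.Agent.GeoClasses.Polarized
import Cfsg.Agent.GeoClasses.Coords
import Cfsg.Agent.GeoClasses.FormDecomp
import Cfsg.Agent.GeoClasses.IsometryCases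
import Cfsg.Agent.GeoClasses.ClassTools
import Cfsg.Agent.GeoClasses.UnitBase
import Cfsg.Agent.GeoClasses.UnitRational

/-!
Tensor powers of the three-dimensional unitary form over the field with four elements.
-/

set_option autoImplicit false
set_option maxHeartbeats 400000

namespace Cfsg.Agent.GeoClasses

open Matrix Cfsg.Geo
open scoped MatrixGroups Matrix Kronecker
open Cfsg.Agent.Classical.U (SqField)

variable {F : Type*} [Field F] {ι : Type} [Fintype ι] [DecidableEq ι]

lemma pureMat_update_smul {a t : ℕ} (i : Fin t) (c : F) (Y : Matrix (Fin a) (Fin a) F) :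
    pureMat (Function.update (1 : Fin t → Matrix (Fin a) (Fin a) F) i (c • Y))
      = c • pureMat (Function.update 1 i Y) := by
  ext x y
  simp only [pureMat, Matrix.smul_apply, smul_eq_mul]
  rw [← Finset.mul_prod_erase Finset.univ _ (Finset.mem_univ i),
    ← Finset.mul_prod_erase (f := fun k => Function.update
      (1 : Fin t → Matrix (Fin a) (Fin a) F) i Y k (x k) (y k)) Finset.univ (Finset.mem_univ i)]
  rw [Function.update_self, Function.update_self, Matrix.smul_apply, smul_eq_mul, mul_assoc]
  congr 2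
  refine Finset.prod_congr rfl fun j hj => ?_
  rw [Function.update_of_ne (Finset.ne_of_mem_erase hj),
    Function.update_of_ne (Finset.ne_of_mem_erase hj)]

lemma pureMat_update_injective {a t : ℕ} [NeZero a] (i : Fin t) :
    Function.Injective fun Y : Matrix (Fin a) (Fin a) F =>
      pureMat (Function.update (1 : Fin t → Matrix (Fin a) (Fin a) F) i Y) := by
  intro X Y h
  ext u v
  have h1 := congrFun (congrFun h (Function.update 0 i u)) (Function.update 0 i v)
  simp only [pureMat] at h1
  rw [← Finset.mul_prod_erase Finset.univ _ (Finset.mem_univ i),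
    ← Finset.mul_prod_erase (f := fun k => Function.update
      (1 : Fin t → Matrix (Fin a) (Fin a) F) i Y k
        (Function.update (0 : Fin t → Fin a) i u k) (Function.update (0 : Fin t → Fin a) i v k))
      Finset.univ (Finset.mem_univ i)] at h1
  simp only [Function.update_self] at h1
  have hone : ∀ Z : Matrix (Fin a) (Fin a) F, ∀ j ∈ Finset.univ.erase i,
      Function.update (1 : Fin t → Matrix (Fin a) (Fin a) F) i Z j
        (Function.update (0 : Fin t → Fin a) i u j) (Function.update (0 : Fin t → Fin a) i v j) = 1 :=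
    fun Z j hj => by
      simp [Function.update_of_ne (Finset.ne_of_mem_erase hj)]
  rwa [Finset.prod_eq_one (hone X), Finset.prod_eq_one (hone Y), mul_one, mul_one] at h1

/-- The pure tensors with entries in `D`, extended by the permutations of factors. -/
noncomputable def wreathGroup {a t : ℕ} (L : ((Fin t → Fin a) → F) ≃ₗ[F] (ι → F))
    (D : Subgroup (GL (Fin a) F)) : Subgroup (GL ι F) where
  carrier := {g | ∃ (cs : Fin t → GL (Fin a) F) (π : Equiv.Perm (Fin t)), (∀ i, cs i ∈ D) ∧
    (g : Matrix ι ι F)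
      = conjMat L (pureMat (fun i => (cs i : Matrix (Fin a) (Fin a) F)) * factorPerm a π)}
  mul_mem' := by
    rintro g h ⟨cs, π, hcs, hg⟩ ⟨ds, ρ, hds, hh⟩
    refine ⟨fun i => cs i * ds (π.symm i), π * ρ, fun i => D.mul_mem (hcs i) (hds _), ?_⟩
    rw [Units.val_mul, hg, hh, ← map_mul]
    congr 1
    have h1 : factorPerm (F := F) a π * pureMat (fun i => (ds i : Matrix (Fin a) (Fin a) F))
        = pureMat (fun i => (ds (π.symm i) : Matrix (Fin a) (Fin a) F)) * factorPerm a π := by
      rw [pureMat_mul_factorPerm]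
      simp
    rw [mul_assoc (pureMat _), ← mul_assoc (factorPerm a π), h1, mul_assoc (pureMat _),
      factorPerm_mul, ← mul_assoc, pureMat_mul]
    rfl
  one_mem' := ⟨fun _ => 1, 1, fun _ => D.one_mem, by
    rw [factorPerm_one, mul_one]
    show _ = conjMat L (pureMat (1 : Fin t → Matrix (Fin a) (Fin a) F))
    rw [show pureMat (1 : Fin t → Matrix (Fin a) (Fin a) F) = 1 from pureMat_one a t, map_one]
    rfl⟩
  inv_mem' := by
    rintro g ⟨cs, π, hcs, hg⟩
    refine ⟨fun i => (cs (π i))⁻¹, π⁻¹, fun i => D.inv_mem (hcs _), ?_⟩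
    refine Units.inv_eq_of_mul_eq_one_right ?_
    rw [hg, ← map_mul]
    have h1 : factorPerm (F := F) a π * pureMat (fun i => (((cs (π i))⁻¹ : GL (Fin a) F) :
        Matrix (Fin a) (Fin a) F))
        = pureMat (fun i => (((cs i)⁻¹ : GL (Fin a) F) : Matrix (Fin a) (Fin a) F))
          * factorPerm a π :=
      (pureMat_mul_factorPerm (fun i => (((cs i)⁻¹ : GL (Fin a) F) : Matrix (Fin a) (Fin a) F)) π).symm
    rw [mul_assoc (pureMat _), ← mul_assoc (factorPerm a π), h1, mul_assoc (pureMat _),
      factorPerm_mul, mul_inv_cancel, factorPerm_one, mul_one, pureMat_mul]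
    simp only [Units.mul_inv]
    rw [pureMat_one a t, map_one]

/-- One factor embedded. -/
noncomputable def factorHom {a t : ℕ} (L : ((Fin t → Fin a) → F) ≃ₗ[F] (ι → F)) (i : Fin t) :
    GL (Fin a) F →* GL ι F where
  toFun Y := glConjMat L (glPure (Function.update 1 i Y))
  map_one' := Units.ext (by
    show conjMat L (pureMat _) = 1
    simp [pureMat_one])
  map_mul' X Y := Units.ext (by
    show conjMat L (pureMat _) = conjMat L (pureMat _) * conjMat L (pureMat _)
    rw [← map_mul, pureMat_mul]
    congr 2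
    funext j
    by_cases hj : j = i
    · subst hj; simp
    · simp [Function.update_of_ne hj])

lemma factorHom_val {a t : ℕ} (L : ((Fin t → Fin a) → F) ≃ₗ[F] (ι → F)) (i : Fin t)
    (Y : GL (Fin a) F) : ((factorHom L i Y : GL ι F) : Matrix ι ι F)
      = conjMat L (pureMat (Function.update 1 i (Y : Matrix (Fin a) (Fin a) F))) := by
  show conjMat L (pureMat _) = _
  congr 2
  funext j
  by_cases hj : j = i
  · subst hj; simp
  · simp [Function.update_of_ne hj]

lemma factorHom_mem {a t : ℕ} {L : ((Fin t → Fin a) → F) ≃ₗ[F] (ι → F)}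
    {D : Subgroup (GL (Fin a) F)} {i : Fin t} {Y : GL (Fin a) F} (hY : Y ∈ D) :
    factorHom L i Y ∈ wreathGroup L D := by
  refine ⟨Function.update 1 i Y, 1, fun j => ?_, ?_⟩
  · by_cases hj : j = i
    · subst hj; simpa using hY
    · simp [Function.update_of_ne hj, D.one_mem]
  · rw [factorPerm_one, mul_one]
    rfl

lemma factorHom_scalar {a t : ℕ} {L : ((Fin t → Fin a) → F) ≃ₗ[F] (ι → F)} (i : Fin t) (c : Fˣ) :
    factorHom L i (Units.map (Matrix.scalar (Fin a) : F →+* Matrix (Fin a) (Fin a) F).toMonoidHom c)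
      = Units.map (Matrix.scalar ι : F →+* Matrix ι ι F).toMonoidHom c := by
  apply Units.ext
  rw [factorHom_val]
  have h1 : (Units.map (Matrix.scalar (Fin a) : F →+* Matrix (Fin a) (Fin a) F).toMonoidHom c :
      Matrix (Fin a) (Fin a) F) = (c : F) • 1 := by simp [Matrix.smul_one_eq_diagonal]
  rw [h1, pureMat_update_smul]
  simp only [Function.update_eq_self_iff.2 (Pi.one_apply i).symm]
  rw [show pureMat (1 : Fin t → Matrix (Fin a) (Fin a) F) = 1 from pureMat_one a t, map_smul,
    map_one]
  simp [Matrix.smul_one_eq_diagonal]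

lemma wreath_conj_factor {a t : ℕ} {L : ((Fin t → Fin a) → F) ≃ₗ[F] (ι → F)} {g : GL ι F}
    {cs : Fin t → GL (Fin a) F} {π : Equiv.Perm (Fin t)}
    (hg : (g : Matrix ι ι F)
      = conjMat L (pureMat (fun i => (cs i : Matrix (Fin a) (Fin a) F)) * factorPerm a π))
    (i : Fin t) (Y : GL (Fin a) F) :
    g * factorHom L i Y * g⁻¹ = factorHom L (π i) (cs (π i) * Y * (cs (π i))⁻¹) := by
  rw [mul_inv_eq_iff_eq_mul]
  apply Units.ext
  rw [Units.val_mul, Units.val_mul, factorHom_val, factorHom_val, hg, ← map_mul, ← map_mul,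
    pureMat_update_mul, Units.val_mul, Units.val_mul]

lemma wreath_conjGL_factor {a t : ℕ} {L : ((Fin t → Fin a) → F) ≃ₗ[F] (ι → F)} {g : GL ι F}
    {cs : Fin t → GL (Fin a) F} {π : Equiv.Perm (Fin t)}
    (hg : (g : Matrix ι ι F)
      = conjMat L (pureMat (fun i => (cs i : Matrix (Fin a) (Fin a) F)) * factorPerm a π))
    (i : Fin t) (Y : Matrix (Fin a) (Fin a) F) :
    conjGL g (conjMat L (pureMat (Function.update 1 i Y)))
      = conjMat L (pureMat (Function.update 1 (π i) (conjGL (cs (π i)) Y))) := by
  refine conjGL_eq_of_mul_eq ?_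
  rw [hg, ← map_mul, ← map_mul, pureMat_update_mul, conjGL_apply]

lemma adj_smul_one_eq (σ : F ≃+* F) {c : F} (hc : c ≠ 0) (X : Matrix ι ι F) :
    adj σ (c • (1 : Matrix ι ι F)) X = starMat σ X := by
  have hinv : (c • (1 : Matrix ι ι F))⁻¹ = c⁻¹ • 1 := Matrix.inv_eq_right_inv (by
    rw [Matrix.smul_mul, Matrix.mul_smul, mul_one, smul_smul, mul_inv_cancel₀ hc, one_smul])
  rw [adj, hinv, Matrix.smul_mul, one_mul, Matrix.smul_mul, Matrix.mul_smul, mul_one, smul_smul,
    inv_mul_cancel₀ hc, one_smul, starMat, Matrix.transpose_map]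

variable {n q : ℕ} [Fintype F]

/-- Tensor powers of the unitary form in dimension three over the field with four elements. -/
theorem unit_class_of_wreath_exception (hn : 2 ≤ n) (hF : SqField F q) (hq : q = 2)
    {H : Subgroup (GL (Fin n) F)} (hH : H ≤ Cfsg.GU n F q)
    (hirr : ActsIrreducibly (matrixSet H)) {t : ℕ}
    {L : ((Fin t → Fin 3) → F) ≃ₗ[F] (Fin n → F)} {s : F}
    (hW : IsWreathData (qConj hF) (1 : Matrix (Fin n) (Fin n) F) 1 H L
      (1 : Matrix (Fin 3) (Fin 3) F) s) :
    ∃ M, InUnitaryClass n F q M ∧ H ≤ M := by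
  classical
  haveI : Nonempty (Fin n) := ⟨⟨0, by omega⟩⟩
  haveI : NeZero t := ⟨by have := hW.card_two_le; omega⟩
  haveI : NeZero n := ⟨by omega⟩
  subst hq
  set σ := qConj hF with hσdef
  have hσ : ∀ a, σ (σ a) = a := qConj_invol hF
  have hP3 : IsPolar σ (1 : Matrix (Fin 3) (Fin 3) F) 1 := isPolar_one hσ
  have hP : IsPolar σ (1 : Matrix (Fin n) (Fin n) F) 1 := isPolar_one hσ
  set D : Subgroup (GL (Fin 3) F) := Cfsg.GU 3 F 2 with hD
  have hmemD : ∀ g : GL (Fin 3) F, g ∈ D ↔ IsSim σ (1 : Matrix (Fin 3) (Fin 3) F) g 1 :=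
    fun g => ⟨isSim_of_mem_GU hF, fun h u v => by
      show Cfsg.hermForm 3 F 2 ((g : Matrix (Fin 3) (Fin 3) F) *ᵥ u)
        ((g : Matrix (Fin 3) (Fin 3) F) *ᵥ v) = Cfsg.hermForm 3 F 2 u v
      rw [hermForm_eq_formOf hF, formOf_eq_of_isSim h, one_mul]⟩
  have hone : ∀ μ : F, μ ≠ 0 → σ μ = μ → μ = 1 := fun μ h0 h => by
    rw [qConj_apply, pow_two] at h
    exact mul_right_cancel₀ h0 (h.trans (one_mul μ).symm)
  have hnorm1 : ∀ c : F, c ≠ 0 → c * σ c = 1 := fun c hc =>
    hone _ (mul_ne_zero hc fun h => hc (σ.map_eq_zero_iff.1 h)) (by rw [map_mul, hσ, mul_comm])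
  have hscalD : scalars (Fin 3) F ≤ D := fun z hz => by
    obtain ⟨c, hc⟩ := (mem_scalars_iff z).1 hz
    rw [hmemD, IsSim, hc, adjForm_smul_right, adjForm_one, hnorm1 _ c.ne_zero]
  have hscal : ∀ z ∈ scalars (Fin n) F, z ∈ wreathGroup L D := by
    rintro _ ⟨c, rfl⟩
    rw [← factorHom_scalar (L := L) 0 c]
    exact factorHom_mem (hscalD ⟨c, rfl⟩)
  -- the group contains `H`
  have hHle : H ≤ wreathGroup L D := fun h hh => by
    obtain ⟨cs, π, hd, hsim⟩ := hW.mem h hh
    refine ⟨cs, π, fun i => ?_, hd⟩
    obtain ⟨μ, hμ⟩ := hsim i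
    have hfix : σ μ = μ := by
      have h1 := congrFun (congrFun hμ 0) 0
      rw [Matrix.smul_apply, Matrix.one_apply_eq, smul_eq_mul, mul_one] at h1
      have h2 := congrFun (congrFun (congrArg (starMat σ) hμ) 0) 0
      rw [← adjForm_star hσ, show starMat σ (1 : Matrix (Fin 3) (Fin 3) F) = 1 by
        simp [starMat, Matrix.map_one], h1, starMat_smul,
        show starMat σ (1 : Matrix (Fin 3) (Fin 3) F) = 1 by simp [starMat, Matrix.map_one],
        Matrix.smul_apply, Matrix.one_apply_eq, smul_eq_mul, mul_one] at h2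
      exact h2.symm
    rw [hmemD]
    rwa [hone μ (hμ.ne_zero isUnit_one) hfix] at hμ
  have hsimG : ∀ g ∈ wreathGroup L D,
      ∃ μ : F, σ μ = μ ∧ IsSim σ (1 : Matrix (Fin n) (Fin n) F) g μ := by
    rintro g ⟨cs, π, hcs, hg⟩
    refine ⟨1, map_one σ, (isSim_coord_iff hg).2 ?_⟩
    rw [hW.gram, one_smul, adjForm_mul, adjForm_smul_left, adjForm_pureMat,
      show (fun i => adjForm σ (1 : Matrix (Fin 3) (Fin 3) F) (cs i : Matrix (Fin 3) (Fin 3) F))
        = fun _ => (1 : Matrix (Fin 3) (Fin 3) F) from
        funext fun i => ((hmemD _).1 (hcs i)).trans (one_smul F _),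
      adjForm_smul_left, adjForm_factorPerm]
  -- `D` is solvable and irreducible
  haveI hsolv : Group.IsSolvable D := by
    haveI : Finite D := inferInstance
    refine Char.solvable_of_card_eq_pow_mul_pow 2 3 Nat.prime_two Nat.prime_three 648 ?_
      fun r hr hdvd => ?_
    · rw [hD, Nat.card_congr (Classical.U.guEquiv 3 F 2).toEquiv, Classical.U.card_UG hF]
      simp [Finset.prod_range_succ, Nat.even_iff]
    · rw [show 648 = 2 ^ 3 * 3 ^ 4 by norm_num] at hdvd
      rcases hr.dvd_mul.1 hdvd with h | h
      · exact Or.inl ((Nat.prime_dvd_prime_iff_eq hr Nat.prime_two).1 (hr.dvd_of_dvd_pow h))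
      · exact Or.inr ((Nat.prime_dvd_prime_iff_eq hr Nat.prime_three).1 (hr.dvd_of_dvd_pow h))
  have hperm : ∀ π : Equiv.Perm (Fin 3), ∃ g ∈ D, ∀ v : Fin 3 → F,
      (g : Matrix (Fin 3) (Fin 3) F) *ᵥ v = v ∘ π := fun π => by
    have hg := glOfEquiv_mulVec (LinearEquiv.funCongrLeft F F π)
    refine ⟨glOfEquiv (LinearEquiv.funCongrLeft F F π), ?_, fun v => (hg v).trans rfl⟩
    rw [hmemD]
    refine isSim_of_formOf fun u v => ?_
    rw [hg, hg, one_mul]
    simp only [formOf, Matrix.one_mulVec, dotProduct]
    exact Fintype.sum_equiv π _ _ fun i => rfl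
  have hnotD : ¬ D ≤ scalars (Fin 3) F := fun h => by
    obtain ⟨g, hg, hgv⟩ := hperm (Equiv.swap 0 1)
    obtain ⟨c, hc⟩ := (mem_scalars_iff g).1 (h hg)
    have h1 := congrFun (hgv (Pi.single 0 1)) 1
    rw [hc] at h1
    simp at h1
  obtain ⟨ω, hω0, hω1⟩ : ∃ ω : F, ω ≠ 0 ∧ ω ≠ 1 := by
    obtain ⟨a, ha⟩ := exists_qConj_moved hF
    exact ⟨a, fun h => ha (by rw [h, map_zero]), fun h => ha (by rw [h, map_one])⟩
  have hirrD : ActsIrreducibly (matrixSet D) := by
    intro W hW'
    rw [or_iff_not_imp_left, Submodule.eq_bot_iff]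
    intro hne
    push Not at hne
    obtain ⟨w, hw, hw0⟩ := hne
    obtain ⟨j, hj⟩ : ∃ j, w j ≠ 0 := by
      by_contra h
      push Not at h
      exact hw0 (funext h)
    have hmem : ∀ g ∈ D, ∀ v ∈ W, (g : Matrix (Fin 3) (Fin 3) F) *ᵥ v ∈ W := fun g hg v hv =>
      hW' _ ⟨g, hg, rfl⟩ ⟨v, hv, Matrix.toLin'_apply _ _⟩
    set d : Fin 3 → F := Function.update 1 j ω with hd
    have hd0 : ∀ i, d i ≠ 0 := fun i => by
      by_cases hi : i = j
      · subst hi; simpa [hd] using hω0
      · simp [hd, Function.update_of_ne hi]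
    have hdu : IsUnit (Matrix.diagonal d) := by
      rw [Matrix.isUnit_iff_isUnit_det, Matrix.det_diagonal]
      exact (Finset.prod_ne_zero_iff.2 fun i _ => hd0 i).isUnit
    have hdD : hdu.unit ∈ D := by
      rw [hmemD, IsSim, one_smul]
      show adjForm σ 1 (Matrix.diagonal d) = 1
      rw [adjForm, Matrix.diagonal_transpose, mul_one, Matrix.diagonal_map (map_zero σ),
        Matrix.diagonal_mul_diagonal, ← Matrix.diagonal_one]
      congr 1
      funext i
      exact hnorm1 _ (hd0 i)
    have hsingle : (Pi.single j 1 : Fin 3 → F) ∈ W := by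
      have h1 : Matrix.diagonal d *ᵥ w - w ∈ W := W.sub_mem (hmem _ hdD w hw) hw
      have h2 : Matrix.diagonal d *ᵥ w - w = ((ω - 1) * w j) • Pi.single j 1 := by
        funext i
        rw [Pi.sub_apply, Matrix.mulVec_diagonal, Pi.smul_apply, smul_eq_mul]
        by_cases hi : i = j
        · subst hi; simp [hd]; ring
        · simp [hd, Function.update_of_ne hi, hi]
      rw [h2] at h1
      exact (Submodule.smul_mem_iff _ (mul_ne_zero (sub_ne_zero.2 hω1) hj)).1 h1
    rw [eq_top_iff]
    intro v _
    rw [pi_eq_sum_univ v]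
    refine W.sum_mem fun i _ => W.smul_mem _ ?_
    obtain ⟨g, hg, hgv⟩ := hperm (Equiv.swap j i)
    have h3 := hmem g hg _ hsingle
    rw [hgv] at h3
    convert h3 using 1
    funext l
    simp only [Function.comp_apply, Pi.single_apply]
    congr 1
    rw [Equiv.swap_apply_eq_iff, Equiv.swap_apply_left]
    exact propext eq_comm
  -- a minimal normal subgroup of `D`
  obtain ⟨N, hN⟩ := exists_isMinNormal hscalD hnotD
  have hmodN : ModComm N := by
    by_contra hna
    have hperf := hN.perfect hna
    have hle : (⁅N, N⁆ : Subgroup (GL (Fin 3) F)) ≤ D := by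
      refine Subgroup.commutator_le.2 fun a ha b hb => ?_
      exact D.mul_mem (D.mul_mem (D.mul_mem (hN.le ha) (hN.le hb)) (D.inv_mem (hN.le ha)))
        (D.inv_mem (hN.le hb))
    exact hna (modComm_of_commutator_le (by
      rw [eq_bot_of_perfect_of_solvable hle hperf]; exact bot_le))
  set C := centerIn (spanAlg N) with hC
  have hnormC : Normalises D C := (normalises_spanAlg hN.normal).centerIn
  by_cases hCns : ∃ z ∈ C, ∀ c : F, z ≠ c • (1 : Matrix (Fin 3) (Fin 3) F)
  · -- a commutative algebra normalised by `H`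
    set S : Set (Matrix (Fin n) (Fin n) F) :=
      {X | ∃ i, ∃ z ∈ C, X = conjMat L (pureMat (Function.update 1 i z))} with hS
    have hcs : StarClosed σ (1 : Matrix (Fin 3) (Fin 3) F) C :=
      hP3.starClosed_centerIn (hP3.starClosed_spanAlg fun g hg =>
        ⟨1, (hmemD g).1 (hN.le hg)⟩)
    have hgen : ∀ x ∈ S, ∀ y ∈ S, x * y = y * x := by
      rintro _ ⟨i, z, hz, rfl⟩ _ ⟨j, w, hw, rfl⟩
      rw [← map_mul, ← map_mul, pureMat_mul, pureMat_mul]
      congr 2
      funext l
      by_cases hij : i = j
      · subst hij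
        by_cases hl : l = i
        · subst hl
          simpa using (mem_centerIn.1 hw).2 z (mem_centerIn.1 hz).1
        · simp [Function.update_of_ne hl]
      · by_cases hl : l = i
        · subst hl; simp [Function.update_of_ne hij]
        · simp [Function.update_of_ne hl]
    have hcomm : ∀ x ∈ Algebra.adjoin F S, ∀ y ∈ Algebra.adjoin F S, x * y = y * x := by
      have h1 : Algebra.adjoin F S ≤ Subalgebra.centralizer F S := Algebra.adjoin_le fun x hx => by
        rw [SetLike.mem_coe, Subalgebra.mem_centralizer_iff]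
        exact fun y hy => hgen y hy x hx
      intro x hx y hy
      have h2 : Algebra.adjoin F S ≤ Subalgebra.centralizer F {y} :=
        Algebra.adjoin_le fun a ha => by
          rw [SetLike.mem_coe, Subalgebra.mem_centralizer_iff]
          rintro _ rfl
          exact ((Subalgebra.mem_centralizer_iff (R := F)).1 (h1 hy) a ha).symm
      exact ((Subalgebra.mem_centralizer_iff (R := F)).1 (h2 hx) y rfl).symm
    have hstar : StarClosed σ (1 : Matrix (Fin n) (Fin n) F) (Algebra.adjoin F S) := by
      intro X hX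
      induction hX using Algebra.adjoin_induction with
      | mem x hx =>
        obtain ⟨i, z, hz, rfl⟩ := hx
        refine Algebra.subset_adjoin ⟨i, adj σ 1 z, hcs z hz, ?_⟩
        rw [hP.adj_conjMat, hW.gram]
        congr 1
        have hone' : pureMat (fun _ : Fin t => (1 : Matrix (Fin 3) (Fin 3) F)) = 1 :=
          pureMat_one 3 t
        have hz1 : adj σ (1 : Matrix (Fin 3) (Fin 3) F) z = starMat σ z := by
          rw [← one_smul F (1 : Matrix (Fin 3) (Fin 3) F), adj_smul_one_eq σ one_ne_zero]
        rw [hone', adj_smul_one_eq σ hW.ne_zero, hz1, starMat_pureMat]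
        congr 1
        funext l
        by_cases hl : l = i
        · subst hl; simp
        · simp [Function.update_of_ne hl, starMat, Matrix.map_one]
      | algebraMap c =>
        rw [Algebra.algebraMap_eq_smul_one, adj_smul, hP.adj_one]
        exact Subalgebra.smul_mem _ (Subalgebra.one_mem _) _
      | add x y _ _ hx hy => rw [adj_add]; exact add_mem hx hy
      | mul x y _ _ hx hy => rw [hP.adj_mul]; exact mul_mem hy hx
    have hnA : Normalises H (Algebra.adjoin F S) := by
      intro g hg X hX
      obtain ⟨cs, π, hcsD, hd⟩ := hHle hg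
      have hle : Algebra.adjoin F S ≤ (Algebra.adjoin F S).comap (conjGL g).toAlgHom :=
        Algebra.adjoin_le (by
          rintro _ ⟨i, z, hz, rfl⟩
          show conjGL g _ ∈ Algebra.adjoin F S
          rw [wreath_conjGL_factor hd]
          exact Algebra.subset_adjoin ⟨π i, _, hnormC _ (hcsD _) z hz, rfl⟩)
      exact hle hX
    obtain ⟨z, hz, hzc⟩ := hCns
    have hns : ∃ z' ∈ Algebra.adjoin F S, ∀ c : F, z' ≠ c • (1 : Matrix (Fin n) (Fin n) F) := by
      refine ⟨_, Algebra.subset_adjoin ⟨0, z, hz, rfl⟩, fun c hc => hzc c ?_⟩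
      apply pureMat_update_injective (0 : Fin t)
      show pureMat (Function.update (1 : Fin t → Matrix (Fin 3) (Fin 3) F) 0 z)
        = pureMat (Function.update 1 0 (c • (1 : Matrix (Fin 3) (Fin 3) F)))
      rw [pureMat_update_smul]
      simp only [Function.update_eq_self_iff.2 (Pi.one_apply (0 : Fin t)).symm]
      rw [show pureMat (1 : Fin t → Matrix (Fin 3) (Fin 3) F) = 1 from pureMat_one 3 t]
      apply (conjMat L).injective
      rw [hc, map_smul, map_one]
    have hform := hermForm_eq_formOf (n := n) hF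
    rcases hP.comm_cases (fun h hh => isSim_of_mem_GU hF (hH hh)) hirr hnA hstar hcomm hns with
      ⟨t', k, E, hE, hle, -⟩ | ⟨A', e, he, h01⟩ | ⟨r, K, hr, hK, hKs, hle⟩
    · exact ⟨_, Or.inl <| Or.inr <| Or.inr <| Or.inl ⟨t', k, E, by rw [hform]; exact hE, rfl⟩,
        le_inf hle hH⟩
    · obtain ⟨k, hk, hle⟩ := he.decomposition
      exact ⟨_, Or.inl <| Or.inr <| Or.inr <| Or.inr <| Or.inl ⟨k, blockSpaces e,
        by simpa using card_eq_of_decomposition hk, hk,
        fun i => by rw [hform]; exact hP.singular_pair he h01 i, rfl⟩, le_inf hle hH⟩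
    · have hcard : n = 3 ^ t := by simpa using L.finrank_eq.symm
      refine ⟨_, Or.inr <| Or.inl ⟨r, K, hr, ?_, hK, fun k hk => ⟨_, hKs k hk, fun u v => ?_⟩,
        rfl⟩, le_inf hle hH⟩
      · exact odd_degree_of_unitary hF hr hK hKs
      · rw [hform, hP.formOf_adj]
  push Not at hCns
  have htopN : spanAlg N = ⊤ := by
    rcases normalised_subalgebra_cases hirrD (normalises_spanAlg hN.normal) with
      ⟨t', e, he⟩ | ⟨r, K, hr, hK, hKZ, -, -⟩ | ⟨a, φ, ha, hinj, hrange⟩
    · exfalso
      obtain ⟨c, hc⟩ := hCns _ (he.mem ⟨0, by have := he.two_le; omega⟩)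
      have hid := he.idem ⟨0, by have := he.two_le; omega⟩
      rw [hc, Matrix.smul_mul, one_mul, smul_smul] at hid
      have hcc : c * c = c := smul_one_injective (ι := Fin 3) hid
      rcases eq_or_ne c 0 with h | h
      · exact he.ne_zero _ (by rw [hc, h, zero_smul])
      · have h1 := he.orth ⟨0, by have := he.two_le; omega⟩ ⟨1, by have := he.two_le; omega⟩
          (by simp)
        rw [hc, (mul_eq_left₀ h).1 hcc, one_smul, one_mul] at h1
        exact he.ne_zero _ h1
    · exfalso
      have hle : K.toSubmodule ≤ Submodule.span F {(1 : Matrix (Fin 3) (Fin 3) F)} := fun x hx => by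
        obtain ⟨c, rfl⟩ := hCns x (hKZ hx)
        exact Submodule.smul_mem _ _ (Submodule.mem_span_singleton_self _)
      have h1 := Submodule.finrank_mono hle
      rw [finrank_span_singleton (one_ne_zero : (1 : Matrix (Fin 3) (Fin 3) F) ≠ 0)] at h1
      have h2 : Module.finrank F K.toSubmodule = r := hK.finrank_eq
      have := hr.two_le
      omega
    · obtain ⟨b, L', hb, hab, hL'⟩ := exists_coords ha φ
      rcases (Nat.dvd_prime Nat.prime_three).1 (Dvd.intro b (by simpa using hab.symm) : a ∣ 3)
        with rfl | rfl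
      · exfalso
        apply hN.not_le
        intro g hg
        obtain ⟨Y, hY⟩ : (g : Matrix (Fin 3) (Fin 3) F) ∈ φ.range :=
          hrange ▸ Algebra.subset_adjoin ⟨g, hg, rfl⟩
        have hY1 : Y = Y 0 0 • (1 : Matrix (Fin 1) (Fin 1) F) := by
          ext i j
          obtain rfl := Subsingleton.elim i 0
          obtain rfl := Subsingleton.elim j 0
          simp
        refine mem_scalars_of_commute_all fun X => ?_
        rw [← hY]
        show φ Y * X = X * φ Y
        rw [hY1, map_smul, map_one]
        simp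
      · rw [← hrange, eq_top_iff]
        intro X _
        obtain rfl : b = 1 := by simp at hab; omega
        let Y : Matrix (Fin 3) (Fin 3) F := fun i j => (conjMat L').symm X (i, 0) (j, 0)
        refine ⟨Y, ?_⟩
        show φ Y = X
        rw [hL' Y]
        conv_rhs => rw [← (conjMat L').apply_symm_apply X]
        congr 1
        ext ⟨i, u⟩ ⟨j, v⟩
        obtain rfl := Subsingleton.elim u 0
        obtain rfl := Subsingleton.elim v 0
        exact mul_one _
  -- the tensor power of `N`
  set G := wreathGroup L D with hG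
  set M : Subgroup (GL (Fin n) F) := ⨆ i : Fin t, N.map (factorHom L i) with hM
  have hMle : M ≤ G := iSup_le fun i => by
    rintro _ ⟨Y, hY, rfl⟩
    exact factorHom_mem (hN.le hY)
  have hscalM : scalars (Fin n) F ≤ M := by
    rintro _ ⟨c, rfl⟩
    refine Subgroup.mem_iSup_of_mem 0 ⟨_, hN.scalars_le ⟨c, rfl⟩, factorHom_scalar 0 c⟩
  have hMnorm : ∀ g ∈ G, ∀ x ∈ M, g * x * g⁻¹ ∈ M := by
    intro g hg
    obtain ⟨cs, π, hcsD, hd⟩ := hg
    have hle : M ≤ M.comap (MulAut.conj g).toMonoidHom := iSup_le fun i => by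
      rintro _ ⟨Y, hY, rfl⟩
      show g * factorHom L i Y * g⁻¹ ∈ M
      rw [wreath_conj_factor hd]
      exact Subgroup.mem_iSup_of_mem (π i) ⟨_, hN.normal _ (hcsD _) Y hY, rfl⟩
    exact fun x hx => hle hx
  have hMdec : ∀ x ∈ M, ∃ cs : Fin t → GL (Fin 3) F, (∀ i, cs i ∈ N) ∧
      (x : Matrix (Fin n) (Fin n) F) = conjMat L (pureMat fun i => (cs i : Matrix (Fin 3) (Fin 3) F)) := by
    let Mp : Subgroup (GL (Fin n) F) :=
      { carrier := {x | ∃ cs : Fin t → GL (Fin 3) F, (∀ i, cs i ∈ N) ∧
          (x : Matrix (Fin n) (Fin n) F)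
            = conjMat L (pureMat fun i => (cs i : Matrix (Fin 3) (Fin 3) F))}
        mul_mem' := by
          rintro x y ⟨cs, hcs, hx⟩ ⟨ds, hds, hy⟩
          exact ⟨fun i => cs i * ds i, fun i => N.mul_mem (hcs i) (hds i), by
            rw [Units.val_mul, hx, hy, ← map_mul, pureMat_mul]; rfl⟩
        one_mem' := ⟨fun _ => 1, fun _ => N.one_mem, by
          show _ = conjMat L (pureMat fun _ => (1 : Matrix (Fin 3) (Fin 3) F))
          rw [pureMat_one 3 t, map_one]; rfl⟩
        inv_mem' := by
          rintro x ⟨cs, hcs, hx⟩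
          refine ⟨fun i => (cs i)⁻¹, fun i => N.inv_mem (hcs i),
            Units.inv_eq_of_mul_eq_one_right ?_⟩
          rw [hx, ← map_mul, pureMat_mul]
          simp only [Units.mul_inv]
          rw [pureMat_one 3 t, map_one] }
    have hle : M ≤ Mp := iSup_le fun i => by
      rintro _ ⟨Y, hY, rfl⟩
      refine ⟨Function.update 1 i Y, fun j => ?_, rfl⟩
      by_cases hj : j = i
      · subst hj; simpa using hY
      · simp [Function.update_of_ne hj, N.one_mem]
    exact fun x hx => hle hx
  have hMmin : ∀ K : Subgroup (GL (Fin n) F), scalars (Fin n) F ≤ K → K ≤ M →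
      (∀ g ∈ G, ∀ x ∈ K, g * x * g⁻¹ ∈ K) → ¬ K ≤ scalars (Fin n) F → K = M := by
    intro K hKs hKM hKn hKnot
    refine le_antisymm hKM ?_
    obtain ⟨x, hx, hxs⟩ := SetLike.not_le_iff_exists.1 hKnot
    obtain ⟨cs, hcsN, hxv⟩ := hMdec x (hKM hx)
    -- some factor is not scalar
    obtain ⟨i, hi⟩ : ∃ i, cs i ∉ scalars (Fin 3) F := by
      by_contra hall
      push Not at hall
      choose c hc using fun i => (mem_scalars_iff _).1 (hall i)
      apply hxs
      refine scalar_mem_of_val (c := ∏ i, (c i : F))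
        (Finset.prod_ne_zero_iff.2 fun i _ => (c i).ne_zero) ?_
      rw [hxv, show (fun i => (cs i : Matrix (Fin 3) (Fin 3) F)) = fun i => (c i : F) • 1 from
        funext hc, pureMat_smul, pureMat_one 3 t, map_smul, map_one]
    -- with a conjugate that differs by a non-scalar
    obtain ⟨d, hd, hdns⟩ : ∃ d ∈ D, d * cs i * d⁻¹ * (cs i)⁻¹ ∉ scalars (Fin 3) F := by
      by_contra hcon
      push Not at hcon
      let T : Subgroup (GL (Fin 3) F) := Subgroup.zpowers (cs i) ⊔ scalars (Fin 3) F
      have hT : T = N := by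
        refine hN.minimal T le_sup_right (sup_le (Subgroup.zpowers_le.2 (hcsN i)) hN.scalars_le)
          (fun g hg y hy => ?_)
          fun h => hi (h (Subgroup.mem_sup_left (Subgroup.mem_zpowers _)))
        have hle : T ≤ T.comap (MulAut.conj g).toMonoidHom := by
          refine sup_le (Subgroup.zpowers_le.2 ?_) fun z hz => ?_
          · show g * cs i * g⁻¹ ∈ T
            rw [← inv_mul_cancel_right (g * cs i * g⁻¹) (cs i)]
            exact T.mul_mem (Subgroup.mem_sup_right (hcon g hg))
              (Subgroup.mem_sup_left (Subgroup.mem_zpowers _))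
          · show g * z * g⁻¹ ∈ T
            rw [← scalar_mul_comm hz g, mul_assoc, mul_inv_cancel, mul_one]
            exact Subgroup.mem_sup_right hz
        exact hle hy
      obtain ⟨a, ha, b, hb, hne⟩ := exists_noncomm_of_span hN htopN
      apply hne
      rw [← hT] at ha hb
      obtain ⟨z, hz, _, ⟨l, rfl⟩, rfl⟩ := mem_sup_scalars.1 ha
      obtain ⟨w, hw, _, ⟨l', rfl⟩, rfl⟩ := mem_sup_scalars.1 hb
      have e1 : (cs i ^ l) * w = w * cs i ^ l := (scalar_mul_comm hw _).symm
      have e2 : (cs i ^ l') * z = z * cs i ^ l' := (scalar_mul_comm hz _).symm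
      calc z * cs i ^ l * (w * cs i ^ l') = z * (cs i ^ l * w) * cs i ^ l' := by group
        _ = z * w * (cs i ^ l * cs i ^ l') := by rw [e1]; group
        _ = w * z * (cs i ^ l' * cs i ^ l) := by
          rw [scalar_mul_comm hz w, ← _root_.zpow_add, ← _root_.zpow_add, add_comm]
        _ = w * (z * cs i ^ l') * cs i ^ l := by group
        _ = w * cs i ^ l' * (z * cs i ^ l) := by rw [← e2]; group
    -- a single factor lies in `K`
    set Kc : Fin t → Subgroup (GL (Fin 3) F) := fun j => K.comap (factorHom L j) ⊓ N with hKc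
    have hsingle : d * cs i * d⁻¹ * (cs i)⁻¹ ∈ Kc i := by
      refine ⟨?_, N.mul_mem (hN.normal d hd _ (hcsN i)) (N.inv_mem (hcsN i))⟩
      have h1 : factorHom L i d * x * (factorHom L i d)⁻¹ * x⁻¹
          = factorHom L i (d * cs i * d⁻¹ * (cs i)⁻¹) := by
        rw [mul_inv_eq_iff_eq_mul, mul_inv_eq_iff_eq_mul]
        apply Units.ext
        rw [Units.val_mul, Units.val_mul, Units.val_mul, factorHom_val, factorHom_val, hxv,
          ← map_mul, ← map_mul, ← map_mul, pureMat_mul, pureMat_mul, pureMat_mul]
        congr 2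
        funext j
        by_cases hj : j = i
        · subst hj; simp [mul_assoc]
        · simp [Function.update_of_ne hj]
      show factorHom L i _ ∈ K
      rw [← h1]
      exact K.mul_mem (hKn _ (factorHom_mem hd) x hx) (K.inv_mem hx)
    have hKi : Kc i = N := by
      refine hN.minimal _ (fun z hz => ⟨?_, hN.scalars_le hz⟩) inf_le_right (fun g hg y hy =>
        ⟨?_, hN.normal g hg y hy.2⟩) fun h => hdns (h hsingle)
      · obtain ⟨c, rfl⟩ := hz
        show factorHom L i _ ∈ K
        rw [factorHom_scalar]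
        exact hKs ⟨c, rfl⟩
      · show factorHom L i _ ∈ K
        rw [map_mul, map_mul, map_inv]
        exact hKn _ (factorHom_mem hg) _ hy.1
    refine iSup_le fun j => ?_
    rintro _ ⟨Y, hY, rfl⟩
    set p : GL (Fin n) F := glConjMat L (glFactorPerm 3 (Equiv.swap i j)) with hp
    have hpval : (p : Matrix (Fin n) (Fin n) F) = conjMat L
        (pureMat (fun _ : Fin t => ((1 : GL (Fin 3) F) : Matrix (Fin 3) (Fin 3) F))
          * factorPerm 3 (Equiv.swap i j)) := by
      show conjMat L (factorPerm 3 _) = _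
      rw [Units.val_one, pureMat_one 3 t, one_mul]
    have hpG : p ∈ G := ⟨fun _ => 1, Equiv.swap i j, fun _ => D.one_mem, hpval⟩
    have hY' : factorHom L i Y ∈ K := by
      have : Y ∈ Kc i := hKi.symm ▸ hY
      exact this.1
    have h2 := hKn p hpG _ hY'
    rw [wreath_conj_factor hpval, Equiv.swap_apply_left] at h2
    simpa using h2
  have hMnot : ¬ M ≤ scalars (Fin n) F := fun h => hN.not_le fun Y hY => by
    obtain ⟨c, hc⟩ := (mem_scalars_iff _).1
      (h (Subgroup.mem_iSup_of_mem (0 : Fin t) ⟨Y, hY, rfl⟩))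
    rw [factorHom_val, ← map_one (conjMat L), ← map_smul] at hc
    refine scalar_mem_of_val (c := (c : F)) c.ne_zero ?_
    apply pureMat_update_injective (0 : Fin t)
    show pureMat (Function.update (1 : Fin t → Matrix (Fin 3) (Fin 3) F) 0
        (Y : Matrix (Fin 3) (Fin 3) F))
      = pureMat (Function.update 1 0 ((c : F) • (1 : Matrix (Fin 3) (Fin 3) F)))
    rw [(conjMat L).injective hc, pureMat_update_smul]
    simp only [Function.update_eq_self_iff.2 (Pi.one_apply (0 : Fin t)).symm]
    rw [show pureMat (1 : Fin t → Matrix (Fin 3) (Fin 3) F) = 1 from pureMat_one 3 t]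
  have hmodM : ModComm M := by
    intro x hx y hy
    obtain ⟨cs, hcsN, hxv⟩ := hMdec x hx
    obtain ⟨ds, hdsN, hyv⟩ := hMdec y hy
    choose c hc using fun i => (mem_scalars_iff _).1 (hmodN _ (hcsN i) _ (hdsN i))
    refine scalar_mem_of_val (c := ∏ i, (c i : F))
      (Finset.prod_ne_zero_iff.2 fun i _ => (c i).ne_zero) ?_
    have hval : x * y * x⁻¹ * y⁻¹
        = glConjMat L (glPure fun i => cs i * ds i * (cs i)⁻¹ * (ds i)⁻¹) := by
      rw [mul_inv_eq_iff_eq_mul, mul_inv_eq_iff_eq_mul]
      apply Units.ext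
      rw [Units.val_mul, Units.val_mul, Units.val_mul, hxv, hyv]
      show _ = conjMat L (pureMat _) * _ * _
      rw [← map_mul, ← map_mul, ← map_mul, pureMat_mul, pureMat_mul, pureMat_mul]
      congr 2
      funext i
      simp [mul_assoc]
    rw [hval]
    show conjMat L (pureMat _) = _
    rw [show (fun i => ((cs i * ds i * (cs i)⁻¹ * (ds i)⁻¹ : GL (Fin 3) F) :
      Matrix (Fin 3) (Fin 3) F)) = fun i => (c i : F) • 1 from funext hc, pureMat_smul,
      pureMat_one 3 t, map_smul, map_one]
  have htopM : spanAlg M = ⊤ := by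
    rw [eq_top_iff]
    intro X _
    have hfac : ∀ (i : Fin t) (Y : Matrix (Fin 3) (Fin 3) F),
        conjMat L (pureMat (Function.update 1 i Y)) ∈ spanAlg M := by
      intro i Y
      have hY : Y ∈ spanAlg N := htopN ▸ Algebra.mem_top
      induction hY using Algebra.adjoin_induction with
      | mem x hx =>
        obtain ⟨g, hg, rfl⟩ := hx
        exact Algebra.subset_adjoin
          ⟨_, Subgroup.mem_iSup_of_mem i ⟨g, hg, rfl⟩, factorHom_val L i g⟩
      | algebraMap c =>
        rw [Algebra.algebraMap_eq_smul_one, pureMat_update_smul]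
        simp only [Function.update_eq_self_iff.2 (Pi.one_apply i).symm]
        rw [show pureMat (1 : Fin t → Matrix (Fin 3) (Fin 3) F) = 1 from pureMat_one 3 t, map_smul,
          map_one]
        exact Subalgebra.smul_mem _ (Subalgebra.one_mem _) _
      | add x y _ _ hx hy =>
        have : pureMat (Function.update (1 : Fin t → Matrix (Fin 3) (Fin 3) F) i (x + y))
            = pureMat (Function.update 1 i x) + pureMat (Function.update 1 i y) := by
          ext u v
          simp only [pureMat, Matrix.add_apply]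
          rw [← Finset.mul_prod_erase Finset.univ _ (Finset.mem_univ i),
            ← Finset.mul_prod_erase (f := fun k => Function.update
              (1 : Fin t → Matrix (Fin 3) (Fin 3) F) i x k (u k) (v k)) Finset.univ
              (Finset.mem_univ i),
            ← Finset.mul_prod_erase (f := fun k => Function.update
              (1 : Fin t → Matrix (Fin 3) (Fin 3) F) i y k (u k) (v k)) Finset.univ
              (Finset.mem_univ i)]
          simp only [Function.update_self, Matrix.add_apply]
          rw [Finset.prod_congr (g := fun k => (1 : Matrix (Fin 3) (Fin 3) F) (u k) (v k)) rfl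
              fun j hj => by rw [Function.update_of_ne (Finset.ne_of_mem_erase hj)]; rfl,
            Finset.prod_congr (f := fun k => Function.update
              (1 : Fin t → Matrix (Fin 3) (Fin 3) F) i x k (u k) (v k))
              (g := fun k => (1 : Matrix (Fin 3) (Fin 3) F) (u k) (v k)) rfl
              fun j hj => by rw [Function.update_of_ne (Finset.ne_of_mem_erase hj)]; rfl,
            Finset.prod_congr (f := fun k => Function.update
              (1 : Fin t → Matrix (Fin 3) (Fin 3) F) i y k (u k) (v k))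
              (g := fun k => (1 : Matrix (Fin 3) (Fin 3) F) (u k) (v k)) rfl
              fun j hj => by rw [Function.update_of_ne (Finset.ne_of_mem_erase hj)]; rfl]
          ring
        rw [this, map_add]
        exact add_mem hx hy
      | mul x y _ _ hx hy =>
        have : pureMat (Function.update (1 : Fin t → Matrix (Fin 3) (Fin 3) F) i (x * y))
            = pureMat (Function.update 1 i x) * pureMat (Function.update 1 i y) := by
          rw [pureMat_mul]
          congr 1
          funext j
          by_cases hj : j = i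
          · subst hj; simp
          · simp [Function.update_of_ne hj]
        rw [this, map_mul]
        exact mul_mem hx hy
    -- matrix units are products of factors
    have hsingles : ∀ x y : Fin t → Fin 3, conjMat L (Matrix.single x y 1) ∈ spanAlg M := by
      intro x y
      have h1 : ∀ S : Finset (Fin t), conjMat L (pureMat fun i =>
          if i ∈ S then Matrix.single (x i) (y i) 1 else 1) ∈ spanAlg M := by
        intro S
        induction S using Finset.induction_on with
        | empty =>
          simp only [Finset.notMem_empty, if_false]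
          rw [pureMat_one 3 t, map_one]
          exact Subalgebra.one_mem _
        | insert j S hj ih =>
          have h2 : (pureMat fun i => if i ∈ insert j S then Matrix.single (x i) (y i) (1 : F) else 1)
              = pureMat (Function.update 1 j (Matrix.single (x j) (y j) 1))
                * pureMat fun i => if i ∈ S then Matrix.single (x i) (y i) (1 : F) else 1 := by
            rw [pureMat_mul]
            congr 1
            funext i
            by_cases hi : i = j
            · subst hi; simp [hj]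
            · simp [Function.update_of_ne hi, hi]
          rw [h2, map_mul]
          exact mul_mem (hfac j _) ih
      have h3 := h1 Finset.univ
      simp only [Finset.mem_univ, if_true] at h3
      convert h3 using 2
      ext u v
      simp only [pureMat, Matrix.single_apply]
      by_cases h : x = u ∧ y = v
      · obtain ⟨rfl, rfl⟩ := h
        simp
      · rw [if_neg h]
        symm
        rw [Finset.prod_eq_zero_iff]
        by_contra hc
        push Not at hc
        exact h ⟨funext fun i => (ite_ne_right_iff.1 (hc i (Finset.mem_univ i))).1.1,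
          funext fun i => (ite_ne_right_iff.1 (hc i (Finset.mem_univ i))).1.2⟩
    rw [← (conjMat L).apply_symm_apply X, Matrix.matrix_eq_sum_single ((conjMat L).symm X)]
    simp only [map_sum]
    refine sum_mem fun x _ => sum_mem fun y _ => ?_
    rw [show Matrix.single x y ((conjMat L).symm X x y)
      = ((conjMat L).symm X x y) • Matrix.single x y (1 : F) by rw [Matrix.smul_single]; simp,
      map_smul]
    exact Subalgebra.smul_mem _ (hsingles x y) _
  exact unit_class_of_abelian hn hF hH hHle hsimG
    ⟨hMle, hscalM, hMnot, hMnorm, hMmin⟩ hmodM htopM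

end Cfsg.Agent.GeoClasses
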