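import Mathlib
import Cfsg.Prelude.Def_GeometricClasses
import Cfsg.Agent.GeoClasses.Basic
import Cfsg.Agent.GeoClasses.MatrixUnits
import Cfsg.Agent.GeoClasses.Algebra
import Cfsg.Agent.GeoClasses.Tensor
import Cfsg.Agent.GeoClasses.Forms
import Cfsg.Agent.GeoClasses.FormsMore
import Cfsg.Agent.GeoClasses.Structure
import Cfsg.Agent.GeoClasses.Blocks
import Cfsg.Agent.GeoClasses.Polarized
import Cfsg.Agent.GeoClasses.Coords
import Cfsg.Agent.GeoClasses.FormDecomp
import Cfsg.Agent.GeoClasses.IsometryCases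
import Cfsg.Agent.GeoClasses.ClassTools
import Cfsg.Agent.GeoClasses.Symplectic
import Cfsg.Agent.GeoClasses.UnitBase
import Cfsg.Agent.GeoClasses.UnitRational
import Cfsg.Agent.GeoClasses.UnitWreathExc

/-!
The geometric-class dichotomy for subgroups of `GU_n(q)`.
-/

set_option autoImplicit false
set_option maxHeartbeats 400000

namespace Cfsg.Agent.GeoClasses

open Matrix Cfsg.Geo
open scoped MatrixGroups Matrix Kronecker
open Cfsg.Agent.Classical.U (SqField)

variable {F : Type*} [Field F] [Fintype F] {n q : ℕ}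

/-- A tensor power of the form in dimension two gives class 5. -/
lemma unit_class_of_wreath_two (hF : SqField F q) {H : Subgroup (GL (Fin n) F)}
    (hH : H ≤ Cfsg.GU n F q) {t : ℕ} {L : ((Fin t → Fin 2) → F) ≃ₗ[F] (Fin n → F)} {s : F}
    (hn : 2 ≤ n)
    (hW : IsWreathData (qConj hF) (1 : Matrix (Fin n) (Fin n) F) 1 H L
      (1 : Matrix (Fin 2) (Fin 2) F) s) :
    ∃ M, InUnitaryClass n F q M ∧ H ≤ M := by
  classical
  haveI : NeZero n := ⟨by omega⟩
  set σ := qConj hF with hσdef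
  have hσ : ∀ a, σ (σ a) = a := qConj_invol hF
  set F₀ := RingHom.eqLocusField σ.toRingHom (RingHom.id F) with hF₀
  have hcard : Fintype.card F = Nat.card F₀ ^ 2 := by
    rw [hF₀, hσdef, card_fixed_qConj hF, ← Nat.card_eq_fintype_card, hF.2]
  -- a purely imaginary scalar
  obtain ⟨z, hz0, hz⟩ : ∃ z : F, z ≠ 0 ∧ σ z = -z := by
    obtain ⟨d, hd⟩ := exists_qConj_moved hF
    exact ⟨d - σ d, sub_ne_zero.2 (Ne.symm hd), by rw [map_sub, hσ, neg_sub]⟩
  have hJ' : starMat σ (z • altTwo F) = z • altTwo F := by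
    have h1 : (altTwo F).map σ = altTwo F := by
      ext i j; fin_cases i <;> fin_cases j <;> simp [altTwo]
    rw [starMat_smul, hz, starMat, h1, altTwo_transpose, neg_smul_neg]
  have hJ'u : IsUnit (z • altTwo F) := by
    rw [Matrix.isUnit_iff_isUnit_det, Matrix.det_smul]
    exact (hz0.isUnit.pow _).mul ((Matrix.isUnit_iff_isUnit_det _).1 isUnit_altTwo)
  obtain ⟨E, hE⟩ := exists_congr_one hσ (qConj_ne hF) hJ'u hJ'
  have hEinv : adjForm σ (1 : Matrix (Fin 2) (Fin 2) F)
      ((E⁻¹ : GL (Fin 2) F) : Matrix (Fin 2) (Fin 2) F) = z • altTwo F := by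
    rw [← hE, ← adjForm_mul, Units.mul_inv, adjForm_one]
  set L' := coordMul L (glPure fun _ : Fin t => E⁻¹) with hL'
  set G₀ : Matrix (Fin t → Fin 2) (Fin t → Fin 2) F := pureMat fun _ : Fin t => altTwo F with hG₀
  set w := s * z ^ t with hw
  have hgram : coordGram σ (1 : Matrix (Fin n) (Fin n) F) L' = w • G₀ := by
    rw [hL', coordGram_coordMul, hW.gram, adjForm_smul_left,
      show ((glPure fun _ : Fin t => E⁻¹ : GL (Fin t → Fin 2) F) : Matrix _ _ F)
        = pureMat fun _ : Fin t => ((E⁻¹ : GL (Fin 2) F) : Matrix (Fin 2) (Fin 2) F) from rfl,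
      adjForm_pureMat, hEinv, pureMat_neg_smul, smul_smul]
  have hw0 : w ≠ 0 := mul_ne_zero hW.ne_zero (pow_ne_zero _ hz0)
  have hs : σ s = s := by
    obtain ⟨c, hc, hct⟩ := hW.star
    have hc1 : c = 1 := by
      rw [starMat, Matrix.map_one _ (map_zero σ) (map_one σ), Matrix.transpose_one] at hc
      exact (smul_one_injective (ι := Fin 2) ((one_smul F _).trans hc)).symm
    rw [hc1, one_pow, mul_one, one_mul] at hct
    exact hct
  have hent2 : ∀ i j : Fin 2, altTwo F i j ∈ F₀ := fun i j => by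
    fin_cases i <;> fin_cases j <;> simp [altTwo, zero_mem, one_mem, neg_mem_iff]
  have hG₀ent : ∀ x y, G₀ x y ∈ F₀ := fun x y => prod_mem fun i _ => hent2 _ _
  have hG₀t : G₀ᵀ = ((-1 : F) ^ t) • G₀ := by
    rw [hG₀, pureMat_transpose, altTwo_transpose, ← pureMat_neg_smul]
    simp
  have hG₀d : ∀ x, G₀ x x = 0 := fun x => by
    have : 0 < t := by have := hW.card_two_le; omega
    exact Finset.prod_eq_zero (Finset.mem_univ (⟨0, this⟩ : Fin t)) (altTwo_diag _)
  have hG₀u : IsUnit G₀ := isUnit_pureMat fun _ => isUnit_altTwo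
  -- coordinates on `Fin n`
  have hcardι : Fintype.card (Fin n) = Fintype.card (Fin t → Fin 2) := by
    simpa using L.finrank_eq.symm
  let e := Fintype.equivOfCardEq hcardι
  obtain ⟨P, hPv, hPX⟩ := exists_coordGL L' e
  set G := G₀.submatrix e e with hG
  have hP : adjForm σ (1 : Matrix (Fin n) (Fin n) F) (P : Matrix _ _ F) = w • G := by
    rw [adjForm_coordGL σ 1 hPv, hgram, hG]
    rfl
  have hent : ∀ i j, G i j ∈ F₀ := fun i j => hG₀ent _ _
  have hle : H ≤ subfieldSubgroup F₀ P := by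
    intro h hh
    obtain ⟨cs, π, hd, hsim⟩ := hW.mem h hh
    set ds : Fin t → GL (Fin 2) F := fun i => E * cs i * E⁻¹ with hds
    have hd' : (h : Matrix (Fin n) (Fin n) F) = conjMat L'
        (pureMat (fun i => (ds i : Matrix (Fin 2) (Fin 2) F)) * factorPerm 2 π) := by
      rw [hd, hL', conjMat_coordMul]
      congr 1
      show _ = pureMat (fun _ : Fin t => ((E⁻¹ : GL (Fin 2) F) : Matrix (Fin 2) (Fin 2) F)) * _
        * pureMat (fun _ : Fin t => ((E⁻¹⁻¹ : GL (Fin 2) F) : Matrix (Fin 2) (Fin 2) F))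
      rw [← mul_assoc, pureMat_mul, mul_assoc, ← pureMat_mul_factorPerm
        (fun _ : Fin t => ((E⁻¹⁻¹ : GL (Fin 2) F) : Matrix (Fin 2) (Fin 2) F)) π, ← mul_assoc,
        pureMat_mul]
      congr 2
      funext i
      simp [hds, mul_assoc]
    have hrat : ∀ i, ∃ (x : F) (R : Matrix (Fin 2) (Fin 2) F), (∀ k l, R k l ∈ F₀) ∧
        (ds i : Matrix (Fin 2) (Fin 2) F) = x • R := by
      intro i
      obtain ⟨μ, hμ⟩ := hsim i
      set c : Matrix (Fin 2) (Fin 2) F := (ds i : Matrix (Fin 2) (Fin 2) F) with hc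
      have h1 : adjForm σ (z • altTwo F) c = μ • (z • altTwo F) := by
        rw [hc, ← hEinv, ← adjForm_mul, ← Units.val_mul,
          show E⁻¹ * ds i = cs i * E⁻¹ by rw [hds]; group, Units.val_mul, adjForm_mul, hμ,
          adjForm_smul_left]
      rw [adjForm_smul_left, smul_comm μ z] at h1
      have h2 := smul_right_injective _ hz0 h1
      have hdet : c.det ≠ 0 := ((Matrix.isUnit_iff_isUnit_det _).1 (ds i).isUnit).ne_zero
      have h3 : c.map σ = (μ / c.det) • c := by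
        have hu : IsUnit (cᵀ * altTwo F) :=
          ((Matrix.isUnit_transpose _).2 (ds i).isUnit).mul isUnit_altTwo
        apply hu.mul_left_cancel
        rw [Matrix.mul_smul, altTwo_adj, smul_smul, div_mul_cancel₀ _ hdet]
        exact h2
      obtain ⟨k, l, hkl⟩ := exists_entry_ne_zero (ds i).isUnit.ne_zero
      refine ⟨c k l, (c k l)⁻¹ • c, fun k' l' => ?_, by rw [smul_smul, mul_inv_cancel₀ hkl, one_smul]⟩
      have h4 : ∀ k l, σ (c k l) = (μ / c.det) * c k l := fun k l =>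
        congrFun (congrFun h3 k) l
      show σ ((c k l)⁻¹ * c k' l') = (c k l)⁻¹ * c k' l'
      have hne : μ / c.det ≠ 0 := fun h0 => hkl (σ.map_eq_zero_iff.1 (by rw [h4, h0, zero_mul]))
      rw [map_mul, map_inv₀, h4, h4, mul_inv, mul_mul_mul_comm, inv_mul_cancel₀ hne, one_mul]
    choose x R hR hxR using hrat
    refine mem_subfieldSubgroup_of_coord hPX (c := ∏ i, x i)
      (X := pureMat R * factorPerm 2 π) (fun a b => ?_) ?_
    · rw [Matrix.mul_apply]
      refine sum_mem fun y _ => mul_mem (prod_mem fun i _ => hR _ _ _) ?_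
      simp only [factorPerm]
      split <;> [exact one_mem _; exact zero_mem _]
    · rw [hd', funext hxR, pureMat_smul, Matrix.smul_mul]
  have hσw : σ w = (-1) ^ t * w := by
    rw [hw, map_mul, map_pow, hs, hz, neg_pow]
    ring
  have hGt : Gᵀ = ((-1 : F) ^ t) • G := by
    rw [hG, Matrix.transpose_submatrix, hG₀t]
    rfl
  have hGu : IsUnit G := by
    rw [hG, Matrix.isUnit_iff_isUnit_det, Matrix.det_submatrix_equiv_self]
    exact (Matrix.isUnit_iff_isUnit_det _).1 hG₀u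
  by_cases hcase : Even t ∧ Odd q
  · exact unit_class_of_symmetric hF hH hcard hw0
      (by rw [← hσdef, hσw, hcase.1.neg_one_pow, one_mul]) hcase.2 hP hent hle
  have hm1 : ((-1 : F) ^ t) = -1 := by
    rcases Nat.even_or_odd t with ht | ht
    · have hq : Even q := Nat.not_odd_iff_even.1 fun h => hcase ⟨ht, h⟩
      have h2 : (2 : F) = 0 := by
        by_contra h2
        have h3 := two_ne_zero_iff_odd_card.1 h2
        rw [← Nat.card_eq_fintype_card, hF.2] at h3
        exact Nat.not_even_iff_odd.2 ((Nat.odd_pow_iff (by norm_num)).1 h3) hq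
      rw [ht.neg_one_pow]
      linear_combination h2
    · exact ht.neg_one_pow
  exact unit_class_of_alternating hF hH hcard hw0 (by rw [← hσdef, hσw, hm1, neg_one_mul]) hGu
    (by rw [hGt, hm1, neg_one_smul]) (fun i => hG₀d _) hP hent hle

/-- Class 7 and its degenerate cases, for the standard factor. -/
lemma unit_class_of_wreath_one (hn : 2 ≤ n) (hF : SqField F q) {H : Subgroup (GL (Fin n) F)}
    (hH : H ≤ Cfsg.GU n F q) (hirr : ActsIrreducibly (matrixSet H)) {a t : ℕ}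
    {L : ((Fin t → Fin a) → F) ≃ₗ[F] (Fin n → F)} {s : F}
    (hW : IsWreathData (qConj hF) (1 : Matrix (Fin n) (Fin n) F) 1 H L
      (1 : Matrix (Fin a) (Fin a) F) s) :
    ∃ M, InUnitaryClass n F q M ∧ H ≤ M := by
  rcases Nat.lt_or_ge a 3 with ha | ha
  · obtain rfl : a = 2 := by have := hW.two_le; omega
    exact unit_class_of_wreath_two hF hH hn hW
  by_cases hexc : q = 2 ∧ a = 3
  · obtain ⟨hq, rfl⟩ := hexc
    exact unit_class_of_wreath_exception hn hF hq hH hirr hW
  have hcardι : Fintype.card (Fin n) = Fintype.card (Fin t → Fin a) := by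
    simpa using L.finrank_eq.symm
  let e := Fintype.equivOfCardEq hcardι
  obtain ⟨P, hPv, hPX⟩ := exists_coordGL L e
  refine ⟨tensorWreathSubgroup a t e P ⊓ Cfsg.GU n F q, Or.inr <| Or.inr <| Or.inr
    ⟨a, t, e, P, formOf (qConj hF) 1, ha, hW.card_two_le, hexc,
      isUnitaryFormPow_formOf hF isUnit_one (by simp [starMat, Matrix.map_one]), ?_, rfl⟩,
    le_inf (fun h hh => ?_) hH⟩
  · rw [hermForm_eq_formOf hF]
    exact tensorPowerFormStructure (σ := qConj hF) hPv hW.ne_zero hW.gram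
  · obtain ⟨cs, π, hd, -⟩ := hW.mem h hh
    exact mem_tensorWreathSubgroup hPX cs π hd

/-- Class 7, any factor. -/
lemma unit_class_of_wreath (hn : 2 ≤ n) (hF : SqField F q) {H : Subgroup (GL (Fin n) F)}
    (hH : H ≤ Cfsg.GU n F q) (hirr : ActsIrreducibly (matrixSet H)) {a t : ℕ}
    {L : ((Fin t → Fin a) → F) ≃ₗ[F] (Fin n → F)} {J : Matrix (Fin a) (Fin a) F} {s : F}
    (hW : IsWreathData (qConj hF) (1 : Matrix (Fin n) (Fin n) F) 1 H L J s) :
    ∃ M, InUnitaryClass n F q M ∧ H ≤ M := by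
  set σ := qConj hF with hσdef
  have hσ : ∀ a, σ (σ a) = a := qConj_invol hF
  haveI : NeZero a := ⟨by have := hW.two_le; omega⟩
  obtain ⟨c, hc, hct⟩ := hW.star
  rw [one_mul] at hct
  have hcc : σ c * c = 1 := by
    have h2 : starMat σ (starMat σ J) = J := by ext i j; simp [starMat, hσ]
    rw [hc, starMat_smul, hc, smul_smul] at h2
    exact smul_left_injective F hW.unit.ne_zero (h2.trans (one_smul F J).symm)
  obtain ⟨d, hd0, hd⟩ := exists_hermitian_scalar hσ (qConj_ne hF) hcc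
  have hJu : IsUnit (d • J) := by
    rw [Matrix.isUnit_iff_isUnit_det, Matrix.det_smul]
    exact (hd0.isUnit.pow _).mul ((Matrix.isUnit_iff_isUnit_det _).1 hW.unit)
  obtain ⟨D, hD⟩ := exists_congr_one hσ (qConj_ne hF) hJu (hermitian_smul hc hd)
  set L' := coordMul L (glPure fun _ : Fin t => D) with hL'
  have hJD : adjForm σ J (D : Matrix (Fin a) (Fin a) F) = d⁻¹ • 1 := by
    rw [← hD, adjForm_smul_left, smul_smul, inv_mul_cancel₀ hd0, one_smul]
  refine unit_class_of_wreath_one hn hF hH hirr (L := L') (s := s * d⁻¹ ^ t)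
    ⟨hW.two_le, hW.card_two_le, mul_ne_zero hW.ne_zero (pow_ne_zero _ (inv_ne_zero hd0)), ?_,
      isUnit_one, ⟨1, by simp [starMat, Matrix.map_one], ?_⟩, fun h hh => ?_⟩
  · rw [hL', coordGram_coordMul, hW.gram, adjForm_smul_left,
      show ((glPure fun _ : Fin t => D : GL (Fin t → Fin a) F) : Matrix _ _ F)
        = pureMat fun _ : Fin t => (D : Matrix (Fin a) (Fin a) F) from rfl,
      adjForm_pureMat, hJD, pureMat_neg_smul, smul_smul]
  · rw [one_pow, mul_one, one_mul, map_mul, map_pow, map_inv₀]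
    have hc0 : c ≠ 0 := fun h => zero_ne_one (α := F) (by rw [← hcc, h, mul_zero])
    rw [← eq_div_iff hc0] at hd
    apply mul_right_cancel₀ (pow_ne_zero t hc0)
    rw [mul_right_comm, hct, hd, inv_div, mul_assoc, ← mul_pow, div_eq_inv_mul]
  · obtain ⟨cs, π, hcs, hsim⟩ := hW.mem h hh
    refine ⟨fun i => D⁻¹ * cs i * D, π, ?_, fun i => ?_⟩
    · rw [hcs, hL', conjMat_coordMul]
      congr 1
      show _ = pureMat (fun _ : Fin t => (D : Matrix (Fin a) (Fin a) F)) * _
        * pureMat (fun _ : Fin t => ((D⁻¹ : GL (Fin a) F) : Matrix (Fin a) (Fin a) F))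
      rw [← mul_assoc, pureMat_mul, mul_assoc, ← pureMat_mul_factorPerm
        (fun _ : Fin t => ((D⁻¹ : GL (Fin a) F) : Matrix (Fin a) (Fin a) F)) π, ← mul_assoc,
        pureMat_mul]
      congr 2
      funext i
      simp [mul_assoc]
    · obtain ⟨μ, hμ⟩ := hsim i
      refine ⟨μ, ?_⟩
      rw [IsSim, ← hD, ← adjForm_mul, ← Units.val_mul,
        show D * (D⁻¹ * cs i * D) = cs i * D by group, Units.val_mul, adjForm_mul,
        adjForm_smul_left σ d J, hμ, smul_comm, adjForm_smul_left]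

/-- Classes 4, 7 and their degenerate cases. -/
lemma unit_class_of_tensor (hn : 2 ≤ n) (hF : SqField F q) {H : Subgroup (GL (Fin n) F)}
    (hH : H ≤ Cfsg.GU n F q) (hirr : ActsIrreducibly (matrixSet H)) {a b : ℕ}
    {L : (Fin a × Fin b → F) ≃ₗ[F] (Fin n → F)} {J₁ : Matrix (Fin a) (Fin a) F}
    {J₂ : Matrix (Fin b) (Fin b) F}
    (hT : IsTensorData (qConj hF) (1 : Matrix (Fin n) (Fin n) F) 1 H L J₁ J₂) :
    ∃ M, InUnitaryClass n F q M ∧ H ≤ M := by
  set σ := qConj hF with hσdef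
  have hσ : ∀ a, σ (σ a) = a := qConj_invol hF
  have hunit : ∀ {a : ℕ} {J : Matrix (Fin a) (Fin a) F} {d : F}, d ≠ 0 → IsUnit J →
      IsUnit (d • J) := fun hd hJ => by
    rw [Matrix.isUnit_iff_isUnit_det, Matrix.det_smul]
    exact (hd.isUnit.pow _).mul ((Matrix.isUnit_iff_isUnit_det _).1 hJ)
  have key : ∀ {a b : ℕ} {L : (Fin a × Fin b → F) ≃ₗ[F] (Fin n → F)}
      {J₁ : Matrix (Fin a) (Fin a) F} {J₂ : Matrix (Fin b) (Fin b) F},
      IsTensorData σ (1 : Matrix (Fin n) (Fin n) F) 1 H L J₁ J₂ → a ≤ b →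
      ∃ M, InUnitaryClass n F q M ∧ H ≤ M := by
    intro a b L J₁ J₂ hT hab
    haveI : NeZero a := ⟨by have := hT.left_two_le; omega⟩
    obtain ⟨c₁, c₂, hcc, h1, h2⟩ := hT.star
    have hc1 : σ c₁ * c₁ = 1 := by
      have h3 : starMat σ (starMat σ J₁) = J₁ := by ext i j; simp [starMat, hσ]
      rw [h1, starMat_smul, h1, smul_smul] at h3
      exact smul_left_injective F hT.unit₁.ne_zero (h3.trans (one_smul F J₁).symm)
    obtain ⟨d, hd0, hd⟩ := exists_hermitian_scalar hσ (qConj_ne hF) hc1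
    have hd' : σ d⁻¹ * c₂ = d⁻¹ := by
      have hσd : σ d ≠ 0 := fun h => hd0 (σ.map_eq_zero_iff.1 h)
      rw [map_inv₀]
      field_simp
      linear_combination σ d * hcc - c₂ * hd
    have hJ₁ : IsUnit (d • J₁) := hunit hd0 hT.unit₁
    have hJ₂ : IsUnit (d⁻¹ • J₂) := hunit (inv_ne_zero hd0) hT.unit₂
    have hgram : coordGram σ (1 : Matrix (Fin n) (Fin n) F) L = (d • J₁) ⊗ₖ (d⁻¹ • J₂) := by
      rw [hT.gram, Matrix.smul_kronecker, Matrix.kronecker_smul, smul_smul, mul_inv_cancel₀ hd0,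
        one_smul]
    rcases Nat.lt_or_eq_of_le hab with hlt | heq
    · have hcardι : Fintype.card (Fin n) = Fintype.card (Fin a × Fin b) := by
        simpa using L.finrank_eq.symm
      let e := Fintype.equivOfCardEq hcardι
      obtain ⟨P, hPv, hPX⟩ := exists_coordGL L e
      refine ⟨tensorProductSubgroup a b e P ⊓ Cfsg.GU n F q, Or.inr <| Or.inr <| Or.inl
        ⟨a, b, e, P, formOf σ (d • J₁), formOf σ (d⁻¹ • J₂), hT.left_two_le, hlt,
          isUnitaryFormPow_formOf hF hJ₁ (hermitian_smul h1 hd),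
          isUnitaryFormPow_formOf hF hJ₂ (hermitian_smul h2 hd'), ?_, rfl⟩,
        le_inf (fun h hh => ?_) hH⟩
      · rw [hermForm_eq_formOf hF]
        exact tensorFormStructure (σ := σ) hPv one_ne_zero (by rw [one_smul, hgram])
      · obtain ⟨c, d', μ, ν, hcd, -, -⟩ := hT.mem h hh
        exact mem_tensorProductSubgroup hPX c d' hcd
    subst heq
    obtain ⟨D₁, hD₁⟩ := exists_congr_one hσ (qConj_ne hF) hJ₁ (hermitian_smul h1 hd)
    obtain ⟨D₂, hD₂⟩ := exists_congr_one hσ (qConj_ne hF) hJ₂ (hermitian_smul h2 hd')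
    set L₁ := coordMul L (glKron D₁ D₂) with hL₁
    set L₂ := coordPerm L₁ (piFinTwoEquiv fun _ => Fin a) with hL₂
    refine unit_class_of_wreath_one hn hF hH hirr (a := a) (t := 2) (L := L₂) (s := 1)
      ⟨hT.left_two_le, le_refl 2, one_ne_zero, ?_, isUnit_one,
        ⟨1, by simp [starMat, Matrix.map_one], by simp⟩, fun h hh => ?_⟩
    · rw [one_smul, hL₂, coordGram_coordPerm, hL₁, coordGram_coordMul, hgram,
        show ((glKron D₁ D₂ : GL (Fin a × Fin a) F) : Matrix _ _ F)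
          = (D₁ : Matrix (Fin a) (Fin a) F) ⊗ₖ (D₂ : Matrix (Fin a) (Fin a) F) from rfl,
        adjForm_kronecker, hD₁, hD₂, kronecker_submatrix_pair]
      congr 1
      funext i
      fin_cases i <;> rfl
    · obtain ⟨c, d', μ, ν, hcd, hμ, hν⟩ := hT.mem h hh
      refine ⟨![D₁⁻¹ * c * D₁, D₂⁻¹ * d' * D₂], 1, ?_, ?_⟩
      · rw [factorPerm_one, mul_one,
          show (fun i => ((![D₁⁻¹ * c * D₁, D₂⁻¹ * d' * D₂] i : GL (Fin a) F) :
              Matrix (Fin a) (Fin a) F))
            = ![((D₁⁻¹ * c * D₁ : GL (Fin a) F) : Matrix (Fin a) (Fin a) F),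
              ((D₂⁻¹ * d' * D₂ : GL (Fin a) F) : Matrix (Fin a) (Fin a) F)] by
            funext i; fin_cases i <;> rfl,
          ← kronecker_submatrix_pair, hL₂, conjMat_coordPerm, hL₁, conjMat_coordMul, hcd]
        congr 1
        show _ = ((D₁ : Matrix (Fin a) (Fin a) F) ⊗ₖ (D₂ : Matrix (Fin a) (Fin a) F)) * _
          * (((D₁⁻¹ : GL (Fin a) F) : Matrix (Fin a) (Fin a) F)
            ⊗ₖ ((D₂⁻¹ : GL (Fin a) F) : Matrix (Fin a) (Fin a) F))
        rw [← Matrix.mul_kronecker_mul, ← Matrix.mul_kronecker_mul]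
        simp [mul_assoc]
      · have key2 : ∀ {J : Matrix (Fin a) (Fin a) F} {e μ : F} {g D : GL (Fin a) F},
            adjForm σ (e • J) (D : Matrix (Fin a) (Fin a) F) = 1 → IsSim σ J g μ →
            IsSim σ (1 : Matrix (Fin a) (Fin a) F) (D⁻¹ * g * D) μ := by
          intro J e μ g D hD hg
          rw [IsSim, ← hD, ← adjForm_mul, ← Units.val_mul,
            show D * (D⁻¹ * g * D) = g * D by group, Units.val_mul, adjForm_mul,
            adjForm_smul_left σ e J, hg, smul_comm, adjForm_smul_left]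
        intro i
        fin_cases i
        · exact ⟨μ, key2 hD₁ hμ⟩
        · exact ⟨ν, key2 hD₂ hν⟩
  rcases le_total a b with h | h
  · exact key hT h
  · exact key hT.swap h

/-- The almost simple case. -/
lemma unit_class_or_residual (hn : 2 ≤ n) (hF : SqField F q) {H P : Subgroup (GL (Fin n) F)}
    (hH : H ≤ Cfsg.GU n F q)
    (hP : IsSimpleData (qConj hF) (1 : Matrix (Fin n) (Fin n) F) H P) :
    (∃ M, InUnitaryClass n F q M ∧ H ≤ M) ∨ InUnitaryResidualClass H := by
  haveI : Nonempty (Fin n) := ⟨⟨0, by omega⟩⟩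
  by_cases hreal : ∃ F₀ : Subfield F, F₀ ≠ ⊤ ∧ RealisableOver F₀ (matrixSet P)
  · obtain ⟨F₀, hF₀, hr⟩ := hreal
    exact Or.inl (unit_class_of_realisable hn hF hH hP.span hF₀
      (fun x hx => ⟨1, one_mem _, hP.isometry x hx⟩) hP.normal hr)
  refine Or.inr ⟨P, hP.core fun F₀ h0 hr => hreal ⟨F₀, h0, hr⟩, ?_, ?_⟩
  all_goals
    set F₀ : Subfield F := RingHom.eqLocusField (qConj hF).toRingHom (RingHom.id F) with hF₀
    have hne : F₀ ≠ ⊤ := fun htop => by
      obtain ⟨a, ha⟩ := exists_qConj_moved hF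
      have h : a ∈ F₀ := htop ▸ Subfield.mem_top a
      exact ha h
  · rintro ⟨Q, hQ, hfix⟩
    have hf := bilinearForm_eq_formOf hQ.polar_bilinear
    have hBu := isUnit_of_isNondegenerateForm (σ := RingEquiv.refl F) (hf ▸ hQ.nondegenerate)
    obtain ⟨B₀, hB₀⟩ := realisable_of_two_forms (F₀ := F₀) (σ := qConj hF) (fun a => Iff.rfl)
      (B := (1 : Matrix (Fin n) (Fin n) F)) isUnit_one hBu hP.span hP.isometry fun g hg =>
        isSim_of_formOf fun u v => by
          rw [← hf, one_mul]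
          simp only [QuadraticMap.polar, ← Matrix.mulVec_add, hfix _ ⟨g, hg, rfl⟩]
    exact hreal ⟨F₀, hne, realisableOver_of_conjGL hB₀⟩
  · rintro ⟨f, hf, hfix⟩
    have hform := bilinearForm_eq_formOf hf.bilinear
    obtain ⟨hBu, -, -⟩ := symplecticForm_gram hf
    obtain ⟨B₀, hB₀⟩ := realisable_of_two_forms (F₀ := F₀) (σ := qConj hF) (fun a => Iff.rfl)
      (B := (1 : Matrix (Fin n) (Fin n) F)) isUnit_one hBu hP.span hP.isometry fun g hg =>
        isSim_of_formOf fun u v => by rw [← hform, one_mul]; exact hfix _ ⟨g, hg, rfl⟩ u v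
    exact hreal ⟨F₀, hne, realisableOver_of_conjGL hB₀⟩

/-- Aschbacher's dichotomy for `GU_n(q)`. -/
theorem unitary_dichotomy (hn : 2 ≤ n) (hF : SqField F q) {H : Subgroup (GL (Fin n) F)}
    (hH : H ≤ Cfsg.GU n F q) :
    (∃ M, InUnitaryClass n F q M ∧ H ≤ M) ∨ InUnitaryResidualClass H := by
  classical
  haveI : NeZero n := ⟨by omega⟩
  have hP : IsPolar (qConj hF) (1 : Matrix (Fin n) (Fin n) F) 1 := isPolar_one (qConj_invol hF)
  have hH' : ∀ h ∈ H, IsSim (qConj hF) (1 : Matrix (Fin n) (Fin n) F) h 1 := fun h hh =>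
    isSim_of_mem_GU hF (hH hh)
  have hform := hermForm_eq_formOf (n := n) hF
  by_cases hirr : ActsIrreducibly (matrixSet H)
  swap
  · left
    rcases hP.reducible_cases hH' hirr with
      ⟨W, hW, hs, hle⟩ | ⟨W, hW, -, hnd, hlt, hle⟩ | ⟨k, D, hk, hD, hle⟩
    · exact ⟨_, Or.inl <| Or.inl ⟨W, hW, by rw [hform]; exact hs, rfl⟩, le_inf hle hH⟩
    · exact ⟨_, Or.inl <| Or.inr <| Or.inl ⟨W, hW, by rw [hform]; exact hnd, by simpa using hlt,
        rfl⟩, le_inf hle hH⟩
    · exact ⟨_, Or.inl <| Or.inr <| Or.inr <| Or.inl ⟨2, k, D, by rw [hform]; exact hD, rfl⟩,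
        le_inf hle hH⟩
  rcases hP.isometry_cases hH' hirr (by simpa using hn) with
    ⟨t, k, D, hD, hle, -⟩ | ⟨A, e, he, h01⟩ | ⟨r, K, hr, hK, hKs, hle⟩ | ⟨a, b, L, J₁, J₂, hT⟩ |
    ⟨a, t, L, J, s, hW, -⟩ | ⟨-, N, hN, hmod, htop⟩ | ⟨-, P, hPd⟩
  · exact Or.inl ⟨_, Or.inl <| Or.inr <| Or.inr <| Or.inl ⟨t, k, D, by rw [hform]; exact hD, rfl⟩,
      le_inf hle hH⟩
  · obtain ⟨k, hk, hle⟩ := he.decomposition
    exact Or.inl ⟨_, Or.inl <| Or.inr <| Or.inr <| Or.inr <| Or.inl ⟨k, blockSpaces e,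
      by simpa using card_eq_of_decomposition hk, hk,
      fun i => by rw [hform]; exact hP.singular_pair he h01 i, rfl⟩, le_inf hle hH⟩
  · refine Or.inl ⟨_, Or.inr <| Or.inl ⟨r, K, hr, odd_degree_of_unitary hF hr hK hKs, hK,
      fun k hk => ⟨_, hKs k hk, fun u v => ?_⟩, rfl⟩, le_inf hle hH⟩
    rw [hform, hP.formOf_adj]
  · exact Or.inl (unit_class_of_tensor hn hF hH hirr hT)
  · exact Or.inl (unit_class_of_wreath hn hF hH hirr hW)
  · exact Or.inl (unit_class_of_abelian hn hF hH le_sup_left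
      (fun g hg => hP.exists_isSim_of_mem_sup_scalars hH' hg) hN hmod htop)
  · exact unit_class_or_residual hn hF hH hPd

end Cfsg.Agent.GeoClasses
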